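import Cfsg.Statements.S0668
import Mathlib

set_option autoImplicit false
open Cfsg

namespace Cfsg.Agent.S0668

open MulAction

theorem mem_inv_iff {G : Type*} [Group G] {K : Type*} [Field K] {Ω₁ Ω₂ : Type*} [Fintype Ω₁]
    [DecidableEq Ω₁] [MulAction G Ω₁] [MulAction G Ω₂] (f : (Ω₁ → K) →ₗ[K] (Ω₂ → K)) :
    f ∈ ((Cfsg.permRep K G Ω₁).linHom (Cfsg.permRep K G Ω₂)).invariants ↔
      ∀ (g : G) (x : Ω₁) (y : Ω₂), f (Pi.single (g • x) 1) (g • y) = f (Pi.single x 1) y := by
  have key : ∀ (g : G) (x : Ω₁), Cfsg.permRep K G Ω₁ g⁻¹ (Pi.single x 1) = Pi.single (g⁻¹ • x) 1 := by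
    intro g x
    ext z
    change (Pi.single x (1:K) : Ω₁ → K) (g⁻¹⁻¹ • z) = _
    simp only [inv_inv, Pi.single_apply, eq_inv_smul_iff]
  rw [Representation.mem_invariants]
  constructor
  · intro h g x y
    have h1 := congrArg (fun F => F (Pi.single x 1) y) (h g⁻¹)
    simp only [Representation.linHom_apply, LinearMap.comp_apply] at h1
    rw [← h1, key]
    change _ = f (Pi.single (g⁻¹⁻¹ • x) 1) (g⁻¹⁻¹ • y)
    simp
  · intro h g
    apply LinearMap.pi_ext'
    intro x
    apply LinearMap.ext_ring
    ext y
    simp only [Representation.linHom_apply, LinearMap.comp_apply, LinearMap.coe_single]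
    rw [key]
    exact h g⁻¹ x y


/-- The equivariant linear maps between the permutation modules of two finite `G`-sets form a space whose dimension is the number of `G`-orbits on the product of the two sets. -/
theorem result {G : Type*} [Group G] {K : Type*} [Field K] {Ω₁ Ω₂ : Type*} [Fintype Ω₁] [Fintype Ω₂] [MulAction G Ω₁] [MulAction G Ω₂] : Module.finrank K ((Cfsg.permRep K G Ω₁).linHom (Cfsg.permRep K G Ω₂)).invariants = Nat.card (MulAction.orbitRel.Quotient G (Ω₁ × Ω₂)) := by
  classical
  have : Fintype (MulAction.orbitRel.Quotient G (Ω₁ × Ω₂)) := Fintype.ofFinite _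
  let Φ : (MulAction.orbitRel.Quotient G (Ω₁ × Ω₂) → K) →ₗ[K]
      ((Cfsg.permRep K G Ω₁).linHom (Cfsg.permRep K G Ω₂)).invariants :=
    { toFun := fun c => ⟨Matrix.toLin' (Matrix.of fun y x => c (Quotient.mk'' (x, y))), by
        rw [mem_inv_iff]
        intro g x y
        simp only [Matrix.toLin'_apply, Matrix.mulVec_single_one, Matrix.col_apply, Matrix.of_apply]
        congr 1
        exact Quotient.sound' (MulAction.orbitRel_apply.2 ⟨g, rfl⟩)⟩
      map_add' := by
        intro c d
        apply Subtype.ext
        simp only [Submodule.coe_add, ← map_add]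
        congr 1
      map_smul' := by
        intro r c
        apply Subtype.ext
        simp only [Submodule.coe_smul, ← map_smul, RingHom.id_apply]
        congr 1 }
  have hΦ : Function.Bijective Φ := by
    constructor
    · intro c d h
      have h1 := congrArg Subtype.val h
      have h2 := Matrix.toLin'.injective h1
      funext q
      refine Quotient.inductionOn' q ?_
      rintro ⟨x, y⟩
      exact congrFun (congrFun h2 y) x
    · rintro ⟨f, hf⟩
      rw [mem_inv_iff] at hf
      refine ⟨fun q => Quotient.liftOn' q (fun z => f (Pi.single z.1 1) z.2) ?_, ?_⟩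
      · intro z w h
        obtain ⟨g, hg⟩ := MulAction.orbitRel_apply.1 h
        rw [← hg]
        exact hf g w.1 w.2
      · apply Subtype.ext
        apply LinearMap.pi_ext'
        intro x
        apply LinearMap.ext_ring
        ext y
        simp [Φ]
  rw [← (LinearEquiv.ofBijective Φ hΦ).finrank_eq]
  simp

end Cfsg.Agent.S0668
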