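import Cfsg.Statements.S0674
import Cfsg.Agent.H1.PrimeDeg

set_option autoImplicit false
open Cfsg

namespace Cfsg.Agent.S0674

open Cfsg.Agent.H1.PrimeDeg


/-- Let `G` be a non-solvable transitive permutation group of prime degree `p` and `K` a field of characteristic `p`. Then the heart of the permutation module is irreducible: an invariant subspace containing the constants and contained in the sum-zero functions is one or the other. -/
theorem result {α : Type*} [Fintype α] [DecidableEq α] {p : ℕ} [Fact p.Prime] (hα : Fintype.card α = p) (G : Subgroup (Equiv.Perm α)) [MulAction.IsPretransitive G α] (hG : ¬ Group.IsSolvable G) {K : Type*} [Field K] [CharP K p] (W : Subrepresentation (Cfsg.permRep K G α)) (h₁ : (Cfsg.permConstants K G α).toSubmodule ≤ W.toSubmodule) (h₂ : W.toSubmodule ≤ (Cfsg.permSumZero K G α).toSubmodule) : W = Cfsg.permConstants K G α ∨ W = Cfsg.permSumZero K G α := by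
  obtain ⟨c, e, -, he⟩ := exists_coord' (G := G) hα
  exact (heart_or_affine e he W h₁ h₂).resolve_right fun h => hG (solvable_of_affine e h)

end Cfsg.Agent.S0674
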