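import Cfsg.Statements.S0677
import Cfsg.Agent.H1.PrimeDeg2

set_option autoImplicit false
open Cfsg

namespace Cfsg.Agent.S0677

open MulAction Cfsg.Agent.H1.PermMod Cfsg.Agent.H1.PrimeDeg Cfsg.Agent.H1.PrimeDeg2
open scoped Pointwise

theorem parity {p : ℕ} [Fact p.Prime] (hp2 : p ≠ 2) (S : Finset (ZMod p))
    (hS : ∀ i ∈ S, -i ∈ S) : Even S.card ↔ (0 : ZMod p) ∉ S := by
  classical
  have key : ∀ T : Finset (ZMod p), (∀ i ∈ T, -i ∈ T) → (0 : ZMod p) ∉ T → Even T.card := by
    intro T hT h0
    have h1 : ∑ _i ∈ T, (1 : ZMod 2) = 0 := by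
      apply Finset.sum_involution (fun i _ => -i)
      · intro a _; decide
      · intro a ha _ h
        have : 2 * a = 0 := by linear_combination -h
        rw [(mul_eq_zero.1 this).resolve_left (two_ne_zero' hp2)] at ha
        exact h0 ha
      · intro a _; simp
      · exact hT
    rw [Finset.sum_const, nsmul_eq_mul, mul_one, ZMod.natCast_eq_zero_iff] at h1
    exact even_iff_two_dvd.2 h1
  refine ⟨fun h h0 => ?_, key S hS⟩
  have h1 := key (S.erase 0) (by
    intro i hi
    rw [Finset.mem_erase] at hi ⊢
    exact ⟨neg_ne_zero.2 hi.1, hS i hi.2⟩) (by simp)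
  rw [← Finset.card_erase_add_one h0, Nat.even_add_one] at h
  exact h h1

theorem main {α β : Type*} [Fintype α] [Fintype β] {p : ℕ} [Fact p.Prime] (hα : Fintype.card α = p)
    (hβ : Fintype.card β = p) (hp2 : p ≠ 2)
    {G : Type*} [Group G] [Finite G] [MulAction G α] [FaithfulSMul G α] [IsPretransitive G α]
    [MulAction G β] [IsPretransitive G β]
    (P : Sylow p G) (heven : Even (Nat.card (Subgroup.normalizer ((P : Subgroup G) : Set G)))) :
    ∃ (a : α) (b : β), stabilizer G b ≤ stabilizer G a := by
  classical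
  have hp : p.Prime := Fact.out
  obtain ⟨c, t, e, hc, htt, htc, he, ht⟩ := exists_inverting (G := G) hα hp2 P heven
  have h2 := two_ne_zero' hp2
  obtain ⟨b, hb⟩ := exists_fixed_of_odd (Ω := β)
    (by rw [Nat.card_eq_fintype_card, hβ]; exact hp.odd_of_ne_two hp2) htt
  have hnd : ¬ p ∣ Nat.card (stabilizer G b) := by
    intro h
    apply not_sq_dvd (G := G) hα
    rw [← (stabilizer G b).card_mul_index, index_stabilizer_of_transitive,
      Nat.card_eq_fintype_card (α := β), hβ, pow_two]
    exact Nat.mul_dvd_mul_right h p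
  have hcb : c • b ≠ b := by
    intro h
    apply hnd
    rw [← hc, ← Subgroup.orderOf_mk (H := stabilizer G b) c h]
    exact orderOf_dvd_natCard _
  obtain ⟨e', he0, he'⟩ := exists_coord hβ hc hcb
  have ht' : ∀ j, t • e' j = e' (-j) := by
    intro j
    rw [conj_smul_coord e' he' (by rw [he0, hb]) htc, Nat.cast_sub hp.one_lt.le]
    simp
  refine ⟨e 0, b, ?_⟩
  rcases two_trans_or_affine e he with h2t | haff
  · rw [is_two_pretransitive_iff] at h2t
    let R : β → α → Prop := fun x y => (x, y) ∈ orbit G (b, e 0)
    have hR : ∀ (g : G) x y, R (g • x) (g • y) ↔ R x y := orbit_rel_smul _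
    let lam : α → α → ℕ := fun x y => (Finset.univ.filter fun w => R w x ∧ R w y).card
    have hlam : ∀ (g : G) x y, lam (g • x) (g • y) = lam x y := by
      intro g x y
      symm
      apply Finset.card_bij (fun w _ => g • w)
      · intro w hw; simpa [hR] using hw
      · intro w _ w' _ h; exact smul_left_cancel g h
      · intro w hw
        refine ⟨g⁻¹ • w, ?_, by simp⟩
        simp only [Finset.mem_filter, Finset.mem_univ, true_and] at hw ⊢
        rwa [← hR g, ← hR g _ y, smul_inv_smul]
    have hpar : ∀ d : ZMod p, Even (lam (e d) (e (-d))) ↔ ¬ R b (e d) := by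
      intro d
      have h3 : lam (e d) (e (-d)) =
          (Finset.univ.filter fun i => R (e' i) (e d) ∧ R (e' i) (e (-d))).card := by
        symm
        apply Finset.card_bij (fun w _ => e' w)
        · intro w hw; simpa using hw
        · intro w _ w' _ h; exact e'.injective h
        · intro w hw
          exact ⟨e'.symm w, by simpa using hw, by simp⟩
      rw [h3, parity hp2]
      · simp only [Finset.mem_filter, Finset.mem_univ, true_and, he0]
        have : R b (e (-d)) ↔ R b (e d) := by rw [← hR t b (e d), hb, ht]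
        tauto
      · intro i hi
        simp only [Finset.mem_filter, Finset.mem_univ, true_and] at hi ⊢
        rw [← hR t, ← hR t _ (e (-d)), ht', ht, ht, neg_neg, neg_neg]
        exact hi.symm
    have hne : ∀ d : ZMod p, d ≠ 0 → e d ≠ e (-d) := by
      intro d hd h
      have := e.injective h
      have h4 : 2 * d = 0 := by linear_combination this
      exact hd ((mul_eq_zero.1 h4).resolve_left h2)
    have hall : ∀ d d' : ZMod p, d ≠ 0 → d' ≠ 0 → R b (e d) → R b (e d') := by
      intro d d' hd hd' h
      obtain ⟨g, hg1, hg2⟩ := h2t (hne d hd) (hne d' hd')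
      have h3 := hlam g (e d) (e (-d))
      rw [hg1, hg2] at h3
      have h4 := hpar d
      have h5 := hpar d'
      rw [h3] at h5
      tauto
    intro g hg
    by_contra hg0
    exfalso
    apply hnd
    obtain ⟨d, hd⟩ := e.surjective (g • e 0)
    have hd0 : d ≠ 0 := by rintro rfl; exact hg0 hd.symm
    have hRd : R b (e d) := ⟨g, Prod.ext hg hd.symm⟩
    have htr : IsPretransitive (stabilizer G b) α := by
      rw [isPretransitive_iff_base (e 0)]
      intro x
      obtain ⟨d', rfl⟩ := e.surjective x
      by_cases hd' : d' = 0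
      · exact ⟨1, by simp [hd']⟩
      obtain ⟨g', hg'⟩ := hall d d' hd0 hd' hRd
      exact ⟨⟨g', congrArg Prod.fst hg'⟩, congrArg Prod.snd hg'⟩
    have := index_stabilizer_of_transitive (stabilizer G b) (e 0)
    rw [Nat.card_eq_fintype_card, hα] at this
    rw [← this]
    exact Subgroup.index_dvd_card _
  · intro g hg
    obtain ⟨a, s, hg'⟩ := haff g
    by_contra hg0
    have hs : 2 * s ≠ 0 := by
      apply mul_ne_zero h2
      rintro rfl
      apply hg0
      simp [mem_stabilizer_iff, hg']
    have h3 : g * t * g⁻¹ * t = c ^ (2 * s).val := by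
      apply FaithfulSMul.eq_of_smul_eq_smul (α := α)
      intro x
      obtain ⟨y, rfl⟩ : ∃ y, x = t • g • y := ⟨g⁻¹ • t⁻¹ • x, by simp⟩
      obtain ⟨j, rfl⟩ := e.surjective y
      rw [mul_smul, smul_smul t t, htt, one_smul, mul_smul, inv_smul_smul, mul_smul, ht, hg', hg',
        ht, pow_smul_coord e he]
      congr 1; simp; ring
    have h4 : g * t * g⁻¹ * t ∈ stabilizer G b :=
      mul_mem (mul_mem (mul_mem hg hb) (inv_mem hg)) hb
    rw [h3] at h4
    apply hcb
    apply smul_eq_of_pow_smul_eq hc _ h4
    rw [← ZMod.natCast_eq_zero_iff]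
    simpa using hs


/-- In a transitive permutation group of prime degree `p` whose Sylow `p`-normaliser has even order, the point stabilisers are the only subgroups of index `p`. -/
theorem result {α : Type*} [Fintype α] [DecidableEq α] {p : ℕ} [Fact p.Prime] (hα : Fintype.card α = p) (G : Subgroup (Equiv.Perm α)) [MulAction.IsPretransitive G α] (P : Sylow p G) (heven : Even (Nat.card (Subgroup.normalizer ((P : Subgroup G) : Set G)))) (H : Subgroup G) (hH : H.index = p) : ∃ a : α, H = MulAction.stabilizer G a := by
  classical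
  have hp : p.Prime := Fact.out
  have hst : ∀ a : α, (stabilizer G a).index = p := fun a => by
    rw [index_stabilizer_of_transitive, Nat.card_eq_fintype_card, hα]
  by_cases hp2 : p = 2
  · subst hp2
    have hne : Nonempty α := Fintype.card_pos_iff.1 (by omega)
    have h1 := card_dvd_factorial (G := G) (Ω := α)
    rw [hα] at h1
    have h2 : Nat.card G ≤ 2 := Nat.le_of_dvd (by norm_num) h1
    have key : ∀ L : Subgroup G, L.index = 2 → L = ⊥ := by
      intro L hL
      have h3 := L.card_mul_index
      rw [hL] at h3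
      have h4 : 0 < Nat.card L := Nat.card_pos
      rw [← Subgroup.card_eq_one]
      omega
    exact ⟨hne.some, by rw [key H hH, key _ (hst _)]⟩
  · have : Fintype (G ⧸ H) := Fintype.ofFinite _
    obtain ⟨a, b, hab⟩ := main (β := G ⧸ H) hα
      (by rw [← Nat.card_eq_fintype_card]; exact hH) hp2 P heven
    obtain ⟨g, rfl⟩ := exists_smul_eq G ((1 : G) : G ⧸ H) b
    refine ⟨g⁻¹ • a, ?_⟩
    have h1 : H ≤ stabilizer G (g⁻¹ • a) := by
      intro h hh
      have h2 : g * h * g⁻¹ ∈ stabilizer G (g • ((1 : G) : G ⧸ H)) := by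
        rw [mem_stabilizer_iff, mul_smul, inv_smul_smul, mul_smul]
        congr 1
        rw [← mem_stabilizer_iff, stabilizer_quotient]
        exact hh
      have h3 := hab h2
      rw [mem_stabilizer_iff, mul_smul, mul_smul, ← eq_inv_smul_iff] at h3
      exact h3
    apply Subgroup.eq_of_le_of_card_ge h1
    have h2 := H.card_mul_index
    have h3 := (stabilizer G (g⁻¹ • a)).card_mul_index
    rw [hH] at h2
    rw [hst, ← h2] at h3
    exact (Nat.eq_of_mul_eq_mul_right hp.pos h3).le

end Cfsg.Agent.S0677
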