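import Cfsg.Statements.S0678
import Cfsg.Agent.H3.PDeg

set_option autoImplicit false
open Cfsg

namespace Cfsg.Agent.S0678

open Cfsg.Agent.H3 Cfsg.Agent.H3.PDeg MulAction Equiv

theorem bounds {α : Type*} [Fintype α] [DecidableEq α] (hα : Fintype.card α = 7)
    (G : Subgroup (Equiv.Perm α)) [MulAction.IsPretransitive G α] (hG : ¬ Group.IsSolvable G)
    (hA : ¬ alternatingGroup α ≤ G) : 42 ∣ Nat.card G ∧ Nat.card G ≤ 210 := by
  have : Fact (Nat.Prime 7) := ⟨by norm_num⟩
  have h2 := (Cfsg.Agent.S0675.result (by rw [hα]; norm_num) G).resolve_left hG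
  obtain ⟨a, b, hab⟩ := Fintype.exists_pair_of_one_lt_card (α := α) (by omega)
  refine ⟨?_, ?_⟩
  · rw [card_two G h2 hab, hα]; exact Dvd.intro _ rfl
  · have := card_le_bochert G (prim hα) hA
    rw [hα] at this
    simp only [Nat.reduceAdd, Nat.reduceDiv, Nat.factorial] at this
    omega

theorem card_eq168 {α : Type*} [Fintype α] [DecidableEq α] (hα : Fintype.card α = 7)
    (G : Subgroup (Equiv.Perm α)) [MulAction.IsPretransitive G α] (hG : ¬ Group.IsSolvable G)
    (hA : ¬ alternatingGroup α ≤ G) : Nat.card G = 168 := by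
  have : Fact (Nat.Prime 7) := ⟨by norm_num⟩
  obtain ⟨h1, h2⟩ := bounds hα G hG hA
  by_cases hal : G ≤ alternatingGroup α
  · obtain ⟨P⟩ : Nonempty (Sylow 7 G) := inferInstance
    obtain ⟨d, n, d1, d2, n1, n2, e1, -, e2⟩ := data hα hG P
    have h3 := odd_of_le_alt hα (by norm_num) G hal P
    rw [e1, Nat.even_iff] at h3
    have : d ≤ 6 := Nat.le_of_dvd (by norm_num) d1
    obtain ⟨k, hk⟩ := h1
    interval_cases d <;> omega
  · exfalso
    obtain ⟨t1, t2, t3⟩ := even_part G (prim hα) hG hal
    obtain ⟨h3, -⟩ := bounds hα (G ⊓ alternatingGroup α) t2 fun h => hA (h.trans inf_le_left)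
    obtain ⟨P⟩ : Nonempty (Sylow 7 ↥(G ⊓ alternatingGroup α)) := inferInstance
    obtain ⟨d, n, d1, d2, n1, n2, e1, -, e2⟩ := data hα t2 P
    have : d ≤ 6 := Nat.le_of_dvd (by norm_num) d1
    obtain ⟨k, hk⟩ := h3
    interval_cases d <;> omega


/-- A non-solvable transitive permutation group on 7 points that does not contain the alternating group is a simple group of order 168. -/
theorem result {α : Type*} [Fintype α] [DecidableEq α] (hα : Fintype.card α = 7) (G : Subgroup (Equiv.Perm α)) [MulAction.IsPretransitive G α] (hG : ¬ Group.IsSolvable G) (hA : ¬ alternatingGroup α ≤ G) : Nat.card G = 168 ∧ IsSimpleGroup G := by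
  have : Fact (Nat.Prime 7) := ⟨by norm_num⟩
  have hc := card_eq168 hα G hG hA
  refine ⟨hc, ?_⟩
  have : Nontrivial G := Finite.one_lt_card_iff_nontrivial.mp (by omega)
  refine ⟨fun N hN => ?_⟩
  by_contra hcon
  push Not at hcon
  have hpr := prim (G := G) hα
  have ht := NormalMT.isPretransitive_of_normal (X := α) N hcon.1
  have hle : N.map G.subtype ≤ G := Subgroup.map_subtype_le N
  have ht' : IsPretransitive (N.map G.subtype) α := ⟨fun x y => by
    obtain ⟨g, hg⟩ := exists_smul_eq N x y
    exact ⟨⟨g.1.1, g.1, g.2, rfl⟩, hg⟩⟩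
  have hcard : Nat.card (N.map G.subtype) = Nat.card N :=
    Subgroup.card_map_of_injective G.subtype_injective
  have hsol : Group.IsSolvable N := by
    by_contra hs
    have h1 := card_eq168 hα (N.map G.subtype) (fun h => hs (Group.isSolvable_of_isSolvable_injective
      (f := (N.equivMapOfInjective G.subtype G.subtype_injective).toMonoidHom)
      (N.equivMapOfInjective G.subtype G.subtype_injective).injective))
      fun h => hA (h.trans hle)
    exact hcon.2 (Subgroup.eq_top_of_card_eq N (by rw [← hcard, h1, hc]))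
  obtain ⟨Q⟩ : Nonempty (Sylow 7 N) := inferInstance
  have hQ := card_P (G := N) hα Q
  obtain ⟨P, hP⟩ := (Q.isPGroup'.map N.subtype).exists_le_sylow
  have hPQ : (Q : Subgroup N).map N.subtype = P := Subgroup.eq_of_le_of_card_ge hP (by
    rw [card_P hα P, Subgroup.card_map_of_injective N.subtype_injective, hQ])
  have hn : Nat.card (Sylow 7 N) ≠ 1 := by
    intro e
    have : Subsingleton (Sylow 7 N) := (Nat.card_eq_one_iff_unique.mp e).1
    have h1 : (Q : Subgroup N).Characteristic := Sylow.characteristic_of_subsingleton Q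
    have h2 : (P : Subgroup G).Normal := hPQ ▸ inferInstance
    obtain ⟨d, n, -, -, -, n2, -, e1, -⟩ := data hα hG P
    apply n2
    rw [← e1, P.card_eq_index_normalizer, Subgroup.index_eq_one]
    exact Subgroup.normalizer_eq_top_iff.mpr h2
  have h1 := card_sylow_modEq_one 7 N
  have h2 := Q.card_dvd_index
  have h3 := (Q : Subgroup N).index_mul_card
  have h4 := N.index_mul_card
  rw [hQ] at h3
  rw [hc, ← h3] at h4
  obtain ⟨k, hk⟩ := h2
  have h5 : N.index * k * Nat.card (Sylow 7 N) = 24 := by
    rw [hk] at h4; nlinarith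
  have h6 : Nat.card (Sylow 7 N) = 8 := by
    have : Nat.card (Sylow 7 N) ∣ 24 := Dvd.intro_left _ h5
    have h7 := Nat.le_of_dvd (by norm_num) this
    rw [Nat.ModEq] at h1
    generalize Nat.card (Sylow 7 N) = m at *
    interval_cases m <;> omega
  rw [h6] at h5
  have h7 : N.index ∣ 3 := ⟨k, by omega⟩
  have h8 : IsCyclic (G ⧸ N) := by
    have : Fact (Nat.Prime 3) := ⟨by norm_num⟩
    exact isCyclic_of_card_dvd_prime h7
  apply hG
  have : Group.IsSolvable (G ⧸ N) := Group.isSolvable_of_comm IsCyclic.commGroup.mul_comm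
  exact Group.isSolvable_of_ker_le_range N.subtype (QuotientGroup.mk' N) (by simp)

end Cfsg.Agent.S0678
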