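import Cfsg.Statements.S0732
import Cfsg.Agent.H4.ZPrime

set_option autoImplicit false
open Cfsg

namespace Cfsg.Agent.S0732

/-- A transitive permutation group on `p + 1` points (`p` prime) of order `(p+1) p d` with `d < p` is isomorphic to `PGL(2,p)` with `d = p - 1`, or to `PSL(2,p)` with `2d = p - 1`, or else `p + 1 = 2^q` for a prime `q`, `d = 1` or `d = q`, and the group is permutation-isomorphic to a group of semi-affine maps `x ↦ a φ(x) + b` of the field with `2^q` elements. -/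
theorem result {α : Type*} [Fintype α] [DecidableEq α] {p d : ℕ} (hp : p.Prime) (hα : Fintype.card α = p + 1) (G : Subgroup (Equiv.Perm α)) [MulAction.IsPretransitive G α] (hG : Nat.card G = (p + 1) * p * d) (hd : d < p) : (d = p - 1 ∧ Nonempty (G ≃* Matrix.ProjGenLinGroup (Fin 2) (ZMod p))) ∨ (2 * d = p - 1 ∧ Nonempty (G ≃* Matrix.ProjectiveSpecialLinearGroup (Fin 2) (ZMod p))) ∨ (∃ q : ℕ, q.Prime ∧ p + 1 = 2 ^ q ∧ (d = 1 ∨ d = q) ∧ ∃ e : α ≃ GaloisField 2 q, ∀ g : G, (e.symm.trans (((g : Equiv.Perm α)).trans e)) ∈ Cfsg.semiaffineGroup (GaloisField 2 q)) := by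
  have := Fact.mk hp
  obtain ⟨Z, hF, hH⟩ := H4.ZPrime.exists_ZK_prime (G := G) (Ω := α)
    (fun g hg => Subtype.ext (Equiv.ext hg)) hp (by rw [Nat.card_eq_fintype_card, hα]) hG hd
  have hc : IsCyclic Z.F := isCyclic_of_prime_card hF
  have hK : Nat.card (ZMod p) = Nat.card Z.F := by rw [Nat.card_zmod, hF]
  by_cases h1 : d = p - 1
  · exact Or.inl ⟨h1, H4.ZSharp.pgl_of_comm Z (by omega)
      (H4.ZPrime.comm_H_of_cyclic Z (hF ▸ hp.one_lt)) (ZMod p) hK⟩
  right
  have : IsMulCommutative Z.F := ⟨⟨fun x y => mul_comm' x y⟩⟩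
  rcases H4.ZPrime.exists_regular_or Z with ⟨R, hRn, hRt, hRs⟩ | h | ⟨h2, h3⟩
  · right
    have hpos : 0 < Nat.card Z.H := Nat.card_pos
    have hp2 : p ≠ 2 := by omega
    obtain ⟨q, hq0, hq, hdq, e, he⟩ := H4.ZPrime.semiaffine_of_regular Z
      (hF ▸ hp.odd_of_ne_two hp2) R hRn hRt hRs
    rw [hF] at hq
    have hqp : q.Prime := (Nat.prime_of_pow_sub_one_prime (a := 2) (by
      rintro rfl
      have := hp.two_le
      omega) (by rwa [← hq, Nat.add_sub_cancel])).2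
    exact ⟨q, hqp, hq, (Nat.dvd_prime hqp).1 (hH ▸ hdq), e, he⟩
  · omega
  · exact Or.inl ⟨by omega, h3 (ZMod p) hK⟩

end Cfsg.Agent.S0732
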