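import Cfsg.Statements.S0679
import Cfsg.Agent.H3.PDeg
import Cfsg.Agent.S0732
import Cfsg.Agent.S0711

set_option autoImplicit false
open Cfsg

namespace Cfsg.Agent.S0679

open Cfsg.Agent.H3 Cfsg.Agent.H3.PDeg MulAction Equiv Equiv.Perm

theorem arith0 : ∀ k < 46, 362880 % (11 * k + 6) ≠ 0 ∨ (11 * k + 6) % 5 = 0 ∨
    (11 * k + 6) % 7 = 0 ∨ k = 0 ∨ k = 6 := by
  decide +kernel

theorem arith (m : ℕ) (h0 : m < 505) (h1 : m ∣ 362880) (h2 : ¬ 5 ∣ m) (h3 : ¬ 7 ∣ m)
    (h4 : m % 11 = 6) : m = 6 ∨ m = 72 := by
  have := arith0 (m / 11) (by omega)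
  rw [show 11 * (m / 11) + 6 = m by omega] at this
  rcases this with h | h
  · exact absurd (Nat.mod_eq_zero_of_dvd h1) h
  · omega

theorem card_of_trans {G X : Type*} [Group G] [MulAction G X] (x : X) (h : IsPretransitive G X) :
    Nat.card X * Nat.card (stabilizer G x) = Nat.card G := by
  have := (stabilizer G x).index_mul_card
  rwa [index_stabilizer, orbit_eq_univ, Set.ncard_univ] at this

theorem trans_of_bot {G X : Type*} [Group G] [MulAction G X] [Finite X] (x : X)
    (h : stabilizer G x = ⊥) (hc : Nat.card G = Nat.card X) : IsPretransitive G X := by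
  rw [isPretransitive_iff_orbit_eq_univ x, Set.eq_univ_iff_ncard, ← index_stabilizer, h,
    Subgroup.index_bot, hc]

theorem inj4 {X : Type*} {a b c d : X} (h1 : a ≠ b) (h2 : a ≠ c) (h3 : a ≠ d) (h4 : b ≠ c)
    (h5 : b ≠ d) (h6 : c ≠ d) : Function.Injective ![a, b, c, d] := by
  intro i j hij
  fin_cases i <;> fin_cases j <;> simp_all [eq_comm]

variable {α : Type*} [Fintype α] [DecidableEq α]

theorem two_trans (hα : Fintype.card α = 11) (G : Subgroup (Equiv.Perm α))
    [MulAction.IsPretransitive G α] (hG : ¬ Group.IsSolvable G) : IsMultiplyPretransitive G α 2 :=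
  (Cfsg.Agent.S0675.result (by rw [hα]; norm_num) G).resolve_left hG

theorem even_card (hα : Fintype.card α = 11) (G : Subgroup (Equiv.Perm α))
    [MulAction.IsPretransitive G α] (hG : ¬ Group.IsSolvable G) (hA : ¬ alternatingGroup α ≤ G)
    (hal : G ≤ alternatingGroup α) : Nat.card G = 660 ∨ Nat.card G = 7920 := by
  have : Fact (Nat.Prime 11) := ⟨by norm_num⟩
  have h2 := two_trans hα G hG
  have hpr := prim (G := G) hα
  obtain ⟨a, b, hab⟩ := Fintype.exists_pair_of_one_lt_card (α := α) (by omega)
  have h1 := card_two G h2 hab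
  set H := G ⊓ stabilizer (Perm α) a ⊓ stabilizer (Perm α) b with hH
  rw [hα] at h1
  have h3 := card_le_bochert G hpr hA
  rw [hα] at h3
  simp only [Nat.reduceAdd, Nat.reduceDiv, Nat.factorial] at h3
  have h4 : Nat.card G ∣ 39916800 := by
    have := H1.PrimeDeg2.card_dvd_factorial (G := G) (Ω := α)
    rwa [hα] at this
  have h5 : ∀ q : ℕ, q.Prime → 5 ≤ q → q ≤ 8 → ¬ q ∣ Nat.card H := by
    intro q hq q1 q2 hd
    obtain ⟨x, hx, ho⟩ := exists_orderOf H hq hd
    have e1 := two_mul_le_support G hpr hA hx.1.1 hq ho (by omega)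
    have e2 := card_support_le (x := x) {a, b} (by
      simp only [Finset.mem_insert, Finset.mem_singleton]
      rintro _ (rfl | rfl)
      · exact hx.1.2
      · exact hx.2)
    rw [Finset.card_pair hab] at e2
    omega
  obtain ⟨P⟩ : Nonempty (Sylow 11 G) := inferInstance
  obtain ⟨d, n, d1, d2, n1, n2, e1, -, e2⟩ := data hα hG P
  have h6 := odd_of_le_alt hα (by norm_num) G hal P
  rw [e1, Nat.even_iff] at h6
  have : d ≤ 10 := Nat.le_of_dvd (by norm_num) d1
  have hd : d = 5 := by interval_cases d <;> omega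
  subst hd
  have := arith (Nat.card H) (by omega) (by
    rw [h1] at h4
    exact Nat.dvd_of_mul_dvd_mul_left (by norm_num : 0 < 110) h4)
    (h5 5 (by norm_num) (by norm_num) (by norm_num))
    (h5 7 (by norm_num) (by norm_num) (by norm_num)) (by omega)
  omega

theorem five_le_support (hα : Fintype.card α = 11) (G : Subgroup (Equiv.Perm α))
    [MulAction.IsPretransitive G α] (hG : ¬ Group.IsSolvable G) (hA : ¬ alternatingGroup α ≤ G)
    {x : Perm α} (hx : x ∈ G) (h1 : x ≠ 1) : 5 ≤ x.support.card := by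
  have : Fact (Nat.Prime 11) := ⟨by norm_num⟩
  by_contra hc
  have h2 := two_trans hα G hG
  obtain ⟨c, c1, c2⟩ := MinDeg.threeCycle_of_small G (fun a u v hu hv => by
    obtain ⟨g, g1, g2⟩ := is_two_pretransitive_iff.mp h2 (Ne.symm hu) (Ne.symm hv)
    exact ⟨g, g.2, g1, g2⟩) hx h1 (by
      rw [hα]
      have : x.support.card - 1 ≤ 3 := by omega
      exact (Nat.pow_le_pow_left this 2).trans_lt (by norm_num))
  exact hA (alternatingGroup_le_of_isPreprimitive_of_isThreeCycle_mem (prim hα) c2 c1)

/-- pointwise stabilisers of four points have order at most three -/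
theorem four_stab (hα : Fintype.card α = 11) (G : Subgroup (Equiv.Perm α))
    [MulAction.IsPretransitive G α] (hG : ¬ Group.IsSolvable G) (hA : ¬ alternatingGroup α ≤ G)
    (hal : G ≤ alternatingGroup α) (K : Subgroup (Perm α)) (hK : K ≤ G) (h72 : Nat.card K ∣ 72)
    (s : Finset α) (hs : s.card = 4) (hfix : ∀ k ∈ K, ∀ a ∈ s, k a = a) : Nat.card K ∣ 3 := by
  have : Fact (Nat.Prime 11) := ⟨by norm_num⟩
  have h2 : ¬ 2 ∣ Nat.card K := by
    intro hd
    obtain ⟨x, hx, ho⟩ := exists_orderOf K Nat.prime_two hd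
    have e1 := card_support_le s (hfix x hx)
    have e2 := five_le_support hα G hG hA (hK hx) (by rintro rfl; simp at ho)
    have e3 : x ^ 2 = 1 := ho ▸ pow_orderOf_eq_one x
    have e4 := two_dvd_card_support e3
    have e5 := sign_of_pow_two_eq_one e3
    have e6 : Fintype.card (Function.fixedPoints x) = 5 := by
      have : Fintype.card (Function.fixedPoints x) = (x.supportᶜ).card := by
        rw [Fintype.card_subtype]
        congr 1
        ext y
        simp [Function.IsFixedPt]
      rw [this, Finset.card_compl]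
      omega
    rw [e6, hα, mem_alternatingGroup.mp (hal (hK hx))] at e5
    exact absurd e5 (by decide)
  have h9 : Nat.card K ≠ 9 := by
    intro h9
    have : Fact (Nat.Prime 3) := ⟨by norm_num⟩
    have hp : IsPGroup 3 K := IsPGroup.of_card (n := 2) h9
    have h3 := hp.card_modEq_card_fixedPoints α
    have h4 : ¬ fixedPoints K α ⊆ (s : Set α) := by
      intro h
      have : fixedPoints K α = s := Set.Subset.antisymm h fun a ha k => hfix k k.2 a ha
      rw [this, Nat.card_eq_fintype_card, hα] at h3
      simp [hs, Nat.ModEq] at h3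
    obtain ⟨e, he, hes⟩ := Set.not_subset.mp h4
    have h5 : (insert e s).card = 5 := by rw [Finset.card_insert_of_notMem hes, hs]
    obtain ⟨f, -, hf⟩ := Finset.exists_mem_notMem_of_card_lt_card
      (show (insert e s).card < (Finset.univ : Finset α).card by rw [h5, Finset.card_univ]; omega)
    have h6 := card_eq K f
    have h7 : (orbit K f).ncard ≤ 6 := by
      have : orbit K f ⊆ ((insert e s)ᶜ : Finset α) := by
        intro y hy
        obtain ⟨k, hk, rfl⟩ := mem_orbit'.mp hy
        simp only [Finset.coe_compl, Set.mem_compl_iff, Finset.mem_coe]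
        intro h
        apply hf
        have : k (k f) = k f := by
          rcases Finset.mem_insert.mp h with h | h
          · rw [h]; exact he ⟨k, hk⟩
          · exact hfix k hk _ h
        rwa [k.injective this] at h
      have := Set.ncard_le_ncard this
      rw [Set.ncard_coe_finset, Finset.card_compl] at this
      omega
    have h8 : 3 ∣ Nat.card ↥(K ⊓ stabilizer (Perm α) f) := by
      rw [h9] at h6
      have : Nat.card ↥(K ⊓ stabilizer (Perm α) f) ≤ 9 :=
        Nat.le_of_dvd (by norm_num) (Dvd.intro_left _ h6.symm)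
      generalize Nat.card ↥(K ⊓ stabilizer (Perm α) f) = m at *
      interval_cases m <;> omega
    obtain ⟨x, hx, ho⟩ := exists_orderOf _ Nat.prime_three h8
    have e1 := two_mul_le_support G (prim hα) hA (hK hx.1) Nat.prime_three ho (by omega)
    have e2 := card_support_le (x := x) (insert f (insert e s)) (by
      intro a ha
      rcases Finset.mem_insert.mp ha with rfl | ha
      · exact hx.2
      rcases Finset.mem_insert.mp ha with rfl | ha
      · exact he ⟨x, hx.1⟩
      · exact hfix x hx.1 a ha)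
    rw [Finset.card_insert_of_notMem hf, h5] at e2
    omega
  have := Nat.le_of_dvd (by norm_num) h72
  generalize Nat.card K = m at *
  interval_cases m <;> omega

theorem sharp_of (hα : Fintype.card α = 11) (G : Subgroup (Equiv.Perm α))
    (hc : Nat.card G = 7920) (x : Fin 4 ↪ α) (hx : stabilizer G x = ⊥) :
    IsMultiplyPretransitive G α 4 ∧ ∀ x : Fin 4 ↪ α, stabilizer G x = ⊥ := by
  have h1 : Nat.card (Fin 4 ↪ α) = 7920 := by
    rw [Nat.card_eq_fintype_card, Fintype.card_embedding_eq, hα]; rfl
  have h3 := trans_of_bot x hx (hc.trans h1.symm)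
  refine ⟨h3, fun y => ?_⟩
  have := card_of_trans y h3
  rw [h1, hc] at this
  exact Subgroup.eq_bot_of_card_eq _ (by omega)

theorem sharp_four (hα : Fintype.card α = 11) (G : Subgroup (Equiv.Perm α))
    [MulAction.IsPretransitive G α] (hG : ¬ Group.IsSolvable G) (hA : ¬ alternatingGroup α ≤ G)
    (hal : G ≤ alternatingGroup α) (hc : Nat.card G = 7920) :
    IsMultiplyPretransitive G α 4 ∧ ∀ x : Fin 4 ↪ α, stabilizer G x = ⊥ := by
  obtain ⟨a, b, hab⟩ := Fintype.exists_pair_of_one_lt_card (α := α) (by omega)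
  have h1 := card_two G (two_trans hα G hG) hab
  set H := G ⊓ stabilizer (Perm α) a ⊓ stabilizer (Perm α) b with hH
  rw [hα, hc] at h1
  have hH72 : Nat.card H = 72 := by omega
  have hst : ∀ c d, c ∉ ({a, b} : Finset α) → d ∉ ({a, b} : Finset α) → d ≠ c →
      Nat.card ↥(H ⊓ stabilizer (Perm α) c ⊓ stabilizer (Perm α) d) ∣ 3 := by
    intro c d hc' hd hdc
    refine four_stab hα G hG hA hal _ (fun x hx => hx.1.1.1.1)
      (hH72 ▸ Subgroup.card_dvd_of_le fun x hx => hx.1.1) (insert d (insert c {a, b})) ?_ ?_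
    · rw [Finset.card_insert_of_notMem (by simp only [Finset.mem_insert (a := d) (b := c)]; tauto),
        Finset.card_insert_of_notMem hc', Finset.card_pair hab]
    · intro k hk y hy
      simp only [Finset.mem_insert, Finset.mem_singleton] at hy
      rcases hy with rfl | rfl | rfl | rfl
      exacts [hk.2, hk.1.2, hk.1.1.1.2, hk.1.1.2]
  have horb : ∀ c ∉ ({a, b} : Finset α), orbit H c ⊆ (({a, b} : Finset α)ᶜ : Finset α) := by
    intro c hc' y hy
    obtain ⟨k, hk, rfl⟩ := mem_orbit'.mp hy
    simp only [Finset.coe_compl, Set.mem_compl_iff, Finset.mem_coe]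
    intro h
    apply hc'
    have : k (k c) = k c := by
      rcases Finset.mem_insert.mp h with h | h
      · rw [h]; exact hk.1.2
      · rw [Finset.mem_singleton.mp h]; exact hk.2
    rwa [k.injective this] at h
  have h9 : (({a, b} : Finset α)ᶜ).card = 9 := by rw [Finset.card_compl, Finset.card_pair hab, hα]
  have hbig : ∀ c ∉ ({a, b} : Finset α), 5 ≤ (orbit H c).ncard := by
    intro c hc'
    by_contra hlt
    have e1 := card_eq H c
    have key : ∀ d, d ∉ ({a, b} : Finset α) → d ≠ c → ∀ S : Set α, c ∈ S →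
        orbit ↥(H ⊓ stabilizer (Perm α) c) d ⊆ S →
        Nat.card ↥(H ⊓ stabilizer (Perm α) c) ≤ (S.ncard - 1) * 3 := by
      intro d hd hdc S hcS hS
      rw [card_eq (H ⊓ stabilizer (Perm α) c) d]
      refine Nat.mul_le_mul ?_ (Nat.le_of_dvd (by norm_num) (hst c d hc' hd hdc))
      rw [← Set.ncard_sdiff_singleton_of_mem hcS]
      refine Set.ncard_le_ncard fun y hy => ⟨hS hy, fun e => ?_⟩
      obtain ⟨k, hk, rfl⟩ := mem_orbit'.mp hy
      exact hdc (k.injective ((Set.mem_singleton_iff.mp e).trans hk.2.symm))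
    by_cases hs : ∃ d ∈ orbit H c, d ≠ c
    · obtain ⟨d, hd, hdc⟩ := hs
      have := key d (Finset.mem_compl.mp (horb c hc' hd)) hdc (orbit H c) (mem_orbit_self c) (by
        intro y hy
        obtain ⟨k, hk, rfl⟩ := mem_orbit'.mp hy
        obtain ⟨l, hl, rfl⟩ := mem_orbit'.mp hd
        exact mem_orbit'.mpr ⟨k * l, H.mul_mem hk.1 hl, rfl⟩)
      have h3 : Nat.card ↥(H ⊓ stabilizer (Perm α) c) ≤ 9 := by omega
      have := Nat.mul_le_mul (show (orbit H c).ncard ≤ 4 by omega) h3
      omega
    · push Not at hs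
      have h3 : (orbit H c).ncard ≤ 1 := by
        rw [← Set.ncard_singleton c]
        exact Set.ncard_le_ncard fun y hy => hs y hy
      obtain ⟨d, hd, hdc⟩ := Finset.exists_mem_ne (s := ({a, b} : Finset α)ᶜ) (by omega) c
      have := key d (Finset.mem_compl.mp hd) hdc (({a, b} : Finset α)ᶜ : Finset α)
        (Finset.mem_compl.mpr hc') (by
          intro y hy
          obtain ⟨k, hk, rfl⟩ := mem_orbit'.mp hy
          exact horb d (Finset.mem_compl.mp hd) (mem_orbit'.mpr ⟨k, hk.1, rfl⟩))
      rw [Set.ncard_coe_finset, h9] at this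
      have := Nat.mul_le_mul h3 this
      omega
  obtain ⟨c, hc'⟩ : (({a, b} : Finset α)ᶜ).Nonempty := Finset.card_pos.mp (by omega)
  rw [Finset.mem_compl] at hc'
  have hfull : (orbit H c).ncard = 9 := by
    rw [← h9, ← Set.ncard_coe_finset]
    congr 1
    refine Set.Subset.antisymm (horb c hc') fun d hd => ?_
    by_contra hn
    have hd' : d ∉ ({a, b} : Finset α) := Finset.mem_compl.mp hd
    have hdis : Disjoint (orbit H c) (orbit H d) := by
      rw [Set.disjoint_left]
      intro y h1 h2
      obtain ⟨k, hk, rfl⟩ := mem_orbit'.mp h1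
      obtain ⟨l, hl, e⟩ := mem_orbit'.mp h2
      exact hn (mem_orbit'.mpr ⟨l⁻¹ * k, H.mul_mem (H.inv_mem hl) hk, by simp [← e]⟩)
    have := Set.ncard_le_ncard (Set.union_subset (horb c hc') (horb d hd'))
    rw [Set.ncard_union_eq hdis, Set.ncard_coe_finset, h9] at this
    have := hbig c hc'
    have := hbig d hd'
    omega
  have e1 := card_eq H c
  rw [hfull, hH72] at e1
  obtain ⟨d, hd, hdc⟩ := Finset.exists_mem_ne (s := ({a, b} : Finset α)ᶜ) (by omega) c
  rw [Finset.mem_compl] at hd
  have e2 := hst c d hc' hd hdc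
  have e3 : Nat.card ↥(H ⊓ stabilizer (Perm α) c ⊓ stabilizer (Perm α) d) ∣ 8 := by
    have := Subgroup.card_dvd_of_le (inf_le_left :
      H ⊓ stabilizer (Perm α) c ⊓ stabilizer (Perm α) d ≤ _)
    rwa [show Nat.card ↥(H ⊓ stabilizer (Perm α) c) = 8 by omega] at this
  have e4 : H ⊓ stabilizer (Perm α) c ⊓ stabilizer (Perm α) d = ⊥ :=
    Subgroup.eq_bot_of_card_eq _ (Nat.eq_one_of_dvd_coprimes (by norm_num) e2 e3)
  simp only [Finset.mem_insert, Finset.mem_singleton, not_or] at hc' hd
  refine sharp_of hα G hc ⟨![a, b, c, d], ?_⟩ ?_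
  · intro i j hij
    obtain ⟨c1, c2⟩ := hc'
    obtain ⟨d1, d2⟩ := hd
    clear e1 e2 e3 e4 hfull hbig h9 horb hst hH72 h1 hH
    fin_cases i <;> fin_cases j <;> simp_all [eq_comm]
  · rw [eq_bot_iff]
    intro g hg
    have h := fun i => congrArg (fun y : Fin 4 ↪ α => y i) (mem_stabilizer_iff.mp hg)
    have : (g : Perm α) ∈ H ⊓ stabilizer (Perm α) c ⊓ stabilizer (Perm α) d :=
      ⟨⟨⟨⟨g.2, h 0⟩, h 1⟩, h 2⟩, h 3⟩
    rw [e4] at this
    exact Subtype.ext this

theorem psl (hα : Fintype.card α = 11) (G : Subgroup (Equiv.Perm α))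
    [MulAction.IsPretransitive G α] (hG : ¬ Group.IsSolvable G) (hc : Nat.card G = 660) :
    Nonempty (G ≃* Matrix.ProjectiveSpecialLinearGroup (Fin 2) (ZMod 11)) := by
  classical
  have : Fact (Nat.Prime 11) := ⟨by norm_num⟩
  obtain ⟨P⟩ : Nonempty (Sylow 11 G) := inferInstance
  obtain ⟨d, n, d1, d2, n1, n2, -, e1, e2⟩ := data hα hG P
  have : d ≤ 10 := Nat.le_of_dvd (by norm_num) d1
  have hn : n = 12 := by interval_cases d <;> omega
  let φ := MulAction.toPermHom G (Sylow 11 G)
  have hinj : Function.Injective φ := by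
    rw [← MonoidHom.ker_eq_bot_iff]
    by_contra hne
    have hpr := prim (G := G) hα
    have := NormalMT.isPretransitive_of_normal (X := α) _ hne
    obtain ⟨c, hco⟩ := exists_prime_orderOf_dvd_card' 11 (dvd_card (G := φ.ker) hα)
    have hco' : orderOf (c : G) = 11 := by rw [Subgroup.orderOf_coe, hco]
    have key : ∀ Q : Sylow 11 G, Subgroup.zpowers (c : G) = Q := by
      intro Q
      have h1 : (c : G) • Q = Q := congrArg (fun σ : Perm (Sylow 11 G) => σ Q) c.2
      have h2 : IsPGroup 11 (Subgroup.zpowers (c : G)) :=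
        IsPGroup.of_card (n := 1) (by rw [Nat.card_zpowers, hco', pow_one])
      refine Subgroup.eq_of_le_of_card_ge ?_ (by rw [card_P hα Q, Nat.card_zpowers, hco'])
      rw [← inf_eq_left, ← h2.inf_normalizer_sylow Q, inf_eq_left, Subgroup.zpowers_le]
      exact Sylow.smul_eq_iff_mem_normalizer.mp h1
    have : Subsingleton (Sylow 11 G) := ⟨fun Q R => Sylow.ext ((key Q).symm.trans (key R))⟩
    exact n2 (e1 ▸ Nat.card_unique)
  have := Fintype.ofFinite (Sylow 11 G)
  have ht : IsPretransitive φ.range (Sylow 11 G) := ⟨fun Q R => by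
    obtain ⟨g, hg⟩ := exists_smul_eq G Q R
    exact ⟨⟨φ g, g, rfl⟩, hg⟩⟩
  have hiso := MonoidHom.ofInjective hinj
  rcases Cfsg.Agent.S0732.result (p := 11) (d := 5) (by norm_num)
    (by rw [← Nat.card_eq_fintype_card, e1, hn]) φ.range
    (by rw [← Nat.card_congr hiso.toEquiv, hc]) (by norm_num) with h | ⟨-, ⟨e⟩⟩ | ⟨q, -, h, h', -⟩
  · omega
  · exact ⟨hiso.trans e⟩
  · rcases h' with h' | h'
    · omega
    · subst h'; omega


/-- A non-solvable transitive permutation group on 11 points that does not contain the alternating group is either sharply 4-transitive (of order 7920) or isomorphic to the projective special linear group of degree 2 over the field with 11 elements. -/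
theorem result {α : Type*} [Fintype α] [DecidableEq α] (hα : Fintype.card α = 11) (G : Subgroup (Equiv.Perm α)) [MulAction.IsPretransitive G α] (hG : ¬ Group.IsSolvable G) (hA : ¬ alternatingGroup α ≤ G) : (MulAction.IsMultiplyPretransitive G α 4 ∧ ∀ x : Fin 4 ↪ α, MulAction.stabilizer G x = ⊥) ∨ Nonempty (G ≃* Matrix.ProjectiveSpecialLinearGroup (Fin 2) (ZMod 11)) := by
  have : Fact (Nat.Prime 11) := ⟨by norm_num⟩
  by_cases hal : G ≤ alternatingGroup α
  · rcases even_card hα G hG hA hal with h | h
    · exact Or.inr (psl hα G hG h)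
    · exact Or.inl (sharp_four hα G hG hA hal h)
  exfalso
  obtain ⟨t1, t2, t3⟩ := even_part G (prim hα) hG hal
  set L := G ⊓ alternatingGroup α with hL
  have t4 : ¬ alternatingGroup α ≤ L := fun h => hA (h.trans inf_le_left)
  rcases even_card hα L t2 t4 inf_le_right with h | h
  · obtain ⟨P⟩ : Nonempty (Sylow 11 G) := inferInstance
    obtain ⟨d, n, d1, d2, n1, n2, e1, -, e2⟩ := data hα hG P
    have : d ≤ 10 := Nat.le_of_dvd (by norm_num) d1
    have hd : d = 10 := by interval_cases d <;> omega
    have h3 := Cfsg.Agent.S0676.result hα G hG P (by rw [e1, hd]; decide)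
    have : Nonempty (Fin 3 ↪ α) := by
      rw [← Fintype.card_pos_iff, Fintype.card_embedding_eq, hα]; decide
    obtain ⟨x⟩ := this
    have h4 := card_of_trans (G := G) x h3
    rw [Nat.card_eq_fintype_card, Fintype.card_embedding_eq, hα, t3, h] at h4
    simp only [Fintype.card_fin, Nat.descFactorial] at h4
    omega
  · obtain ⟨m4, sh⟩ := sharp_four hα L t2 t4 inf_le_right h
    have sh' : ∀ y ∈ L, y.support.card ≤ 7 → y = 1 := by
      intro y hy hs
      obtain ⟨x, hx⟩ := Function.Embedding.exists_of_card_le_finset (α := Fin 4)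
        (s := y.supportᶜ) (by rw [Finset.card_compl, hα, Fintype.card_fin]; omega)
      have : (⟨y, hy⟩ : L) ∈ stabilizer L x := by
        rw [mem_stabilizer_iff]
        ext i
        have := hx ⟨i, rfl⟩
        simpa using this
      rw [sh x] at this
      exact congrArg Subtype.val (Subgroup.mem_bot.mp this)
    have m4' : IsMultiplyPretransitive G α 4 := ⟨fun x y => by
      obtain ⟨g, hg⟩ := exists_smul_eq L x y
      exact ⟨⟨g.1, g.2.1⟩, hg⟩⟩
    have : Nonempty (Fin 4 ↪ α) := by
      rw [← Fintype.card_pos_iff, Fintype.card_embedding_eq, hα]; decide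
    obtain ⟨x⟩ := this
    have h4 := card_of_trans (G := G) x m4'
    rw [Nat.card_eq_fintype_card, Fintype.card_embedding_eq, hα, t3, h] at h4
    simp only [Fintype.card_fin, Nat.descFactorial] at h4
    obtain ⟨s, hso⟩ := exists_prime_orderOf_dvd_card' (G := stabilizer G x) 2 (by omega)
    set t : Perm α := s.1.1 with ht
    have hto : orderOf t = 2 := by rw [ht, Subgroup.orderOf_coe, Subgroup.orderOf_coe, hso]
    have htG : t ∈ G := s.1.2
    have ht1 : t ≠ 1 := by intro e; rw [e] at hto; simp at hto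
    have ht2 : t ^ 2 = 1 := hto ▸ pow_orderOf_eq_one t
    have htt : ∀ y, t (t y) = y := fun y => by rw [← Perm.mul_apply, ← sq, ht2]; rfl
    have e1 := card_support_le (x := t) (Finset.univ.map x) (by
      intro a ha
      obtain ⟨i, -, rfl⟩ := Finset.mem_map.mp ha
      exact congrArg (fun y : Fin 4 ↪ α => y i) (mem_stabilizer_iff.mp s.2))
    rw [Finset.card_map, Finset.card_univ, Fintype.card_fin, hα] at e1
    have e2 := two_dvd_card_support ht2
    have e3 := five_le_support hα G hG hA htG ht1
    have e4 : t.support.card = 6 := by omega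
    obtain ⟨u, hu⟩ : t.support.Nonempty := Finset.card_pos.mp (by omega)
    have hu' : t u ≠ u := mem_support.mp hu
    obtain ⟨v, hv, hv'⟩ := Finset.exists_mem_notMem_of_card_lt_card
      (show ({u, t u} : Finset α).card < t.support.card from
        (Finset.card_le_two).trans_lt (by omega))
    obtain ⟨e, -, he⟩ := Finset.exists_mem_notMem_of_card_lt_card
      (show t.support.card < (Finset.univ : Finset α).card by rw [Finset.card_univ]; omega)
    simp only [Finset.mem_insert, Finset.mem_singleton, not_or] at hv'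
    have hv2 : t v ≠ v := mem_support.mp hv
    have he' : t e = e := by simpa using he
    have n1 : t v ≠ u := fun h => hv'.2 (by rw [← h, htt])
    have n2 : t v ≠ t u := fun h => hv'.1 (t.injective h)
    have n3 : e ≠ u := fun h => hu' (h ▸ he')
    have n4 : e ≠ t u := fun h => n3 (t.injective (he'.trans h))
    have n5 : e ≠ v := fun h => hv2 (h ▸ he')
    have n6 : e ≠ t v := fun h => n5 (t.injective (he'.trans h))
    obtain ⟨g, hg⟩ := MultiTrans.mt_iff_fun.mp m4' ![u, t u, v, t v] ![u, t u, v, e]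
      (inj4 hu'.symm (Ne.symm hv'.1) n1.symm (Ne.symm hv'.2) n2.symm hv2.symm)
      (inj4 hu'.symm (Ne.symm hv'.1) n3.symm (Ne.symm hv'.2) n4.symm n5.symm)
    have g0 : (g : Perm α) u = u := hg 0
    have g1 : (g : Perm α) (t u) = t u := hg 1
    have g2 : (g : Perm α) v = v := hg 2
    have g3 : (g : Perm α) (t v) = e := hg 3
    have i0 : (g : Perm α)⁻¹ u = u := Perm.inv_eq_iff_eq.mpr g0.symm
    have i1 : (g : Perm α)⁻¹ (t u) = t u := Perm.inv_eq_iff_eq.mpr g1.symm
    have i2 : (g : Perm α)⁻¹ v = v := Perm.inv_eq_iff_eq.mpr g2.symm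
    have k := SmallSupport.card_support_commutator_le t g {u, t u, v} {u, t u}
      (by
        intro y hy
        simp only [Finset.mem_insert, Finset.mem_singleton] at hy
        rcases hy with rfl | rfl | rfl
        · exact hu
        · rw [mem_support, htt]; exact hu'.symm
        · exact hv)
      (by
        intro y hy
        simp only [Finset.mem_insert, Finset.mem_singleton] at hy
        rw [mem_support]
        rcases hy with rfl | rfl | rfl
        · simp only [Perm.mul_apply, i0, g1]; exact hu'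
        · simp only [Perm.mul_apply, i1, htt, g0]; exact hu'.symm
        · simp only [Perm.mul_apply, i2, g3]; exact n5)
      (by intro y hy; simp only [Finset.mem_insert, Finset.mem_singleton] at hy ⊢; tauto)
      (by
        intro y hy
        simp only [Finset.mem_insert, Finset.mem_singleton] at hy
        rcases hy with rfl | rfl
        · simp only [Perm.mul_apply, i0, g1]
        · simp only [Perm.mul_apply, i1, htt, g0])
    rw [Finset.card_pair hu'.symm, Finset.card_insert_of_notMem (by
      simp only [Finset.mem_insert, Finset.mem_singleton, not_or]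
      exact ⟨hu'.symm, Ne.symm hv'.1⟩), Finset.card_pair (Ne.symm hv'.2), e4] at k
    have := sh' _ ⟨G.mul_mem (G.inv_mem htG) (G.mul_mem (G.mul_mem g.2 htG) (G.inv_mem g.2)),
      by simp [mem_alternatingGroup, mul_comm, mul_left_comm]⟩ (by omega)
    have h5 := congrArg (fun σ : Perm α => σ v) this
    simp only [Perm.mul_apply, i2, g3, Perm.one_apply, Perm.inv_eq_iff_eq] at h5
    exact n6 h5

end Cfsg.Agent.S0679
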