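import Cfsg.Statements.S0681
import Cfsg.Agent.H2.NearField

set_option autoImplicit false
open Cfsg

namespace Cfsg.Agent.S0681

open Cfsg.Agent.H2.NearField

/-- The affine maps `x ↦ x * a + b`, `a ≠ 0`, of a near-field form a sharply doubly transitive permutation group. -/
theorem result {F : Type*} [Cfsg.NearField F] : ∃ H : Subgroup (Equiv.Perm F), (∀ σ : Equiv.Perm F, σ ∈ H ↔ ∃ a b : F, a ≠ 0 ∧ ∀ x : F, σ x = x * a + b) ∧ MulAction.IsMultiplyPretransitive H F 2 ∧ ∀ x : Fin 2 ↪ F, MulAction.stabilizer H x = ⊥ := by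
  let H : Subgroup (Equiv.Perm F) :=
    { carrier := {σ | ∃ a b : F, a ≠ 0 ∧ ∀ x : F, σ x = x * a + b}
      one_mem' := ⟨1, 0, (Cfsg.NearField.zero_ne_one).symm, fun x => by simp⟩
      mul_mem' := by
        rintro σ τ ⟨a, b, ha, hσ⟩ ⟨c, d, hc, hτ⟩
        refine ⟨c * a, d * a + b, mul_ne_zero' hc ha, fun x => ?_⟩
        rw [Equiv.Perm.mul_apply, hτ, hσ, Cfsg.NearField.right_distrib, mul_assoc, add_assoc]
      inv_mem' := by
        rintro σ ⟨a, b, ha, hσ⟩
        obtain ⟨c, hc1, hc2⟩ := Cfsg.NearField.exists_inv a ha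
        refine ⟨c, (-b) * c, ?_, fun x => ?_⟩
        · rintro rfl
          rw [Cfsg.NearField.mul_zero] at hc1
          exact Cfsg.NearField.zero_ne_one hc1
        · apply σ.injective
          rw [Equiv.Perm.inv_def, Equiv.apply_symm_apply, hσ, ← Cfsg.NearField.right_distrib,
            mul_assoc, hc2, mul_one, add_assoc, neg_add_cancel, add_zero] }
  refine ⟨H, fun σ => Iff.rfl, ?_, ?_⟩
  · rw [MulAction.is_two_pretransitive_iff]
    intro x y z w hxy hzw
    have hd : x - y ≠ 0 := sub_ne_zero.mpr hxy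
    have hd' : z - w ≠ 0 := sub_ne_zero.mpr hzw
    obtain ⟨c, hc1, hc2⟩ := Cfsg.NearField.exists_inv _ hd
    have hc : c ≠ 0 := by
      rintro rfl
      rw [Cfsg.NearField.mul_zero] at hc1
      exact Cfsg.NearField.zero_ne_one hc1
    have ha : c * (z - w) ≠ 0 := mul_ne_zero' hc hd'
    obtain ⟨e, he1, he2⟩ := Cfsg.NearField.exists_inv _ ha
    refine ⟨⟨aff (c * (z - w)) e (-(y * (c * (z - w))) + w) he1 he2, _, _, ha, fun _ => rfl⟩, ?_, ?_⟩
    · change x * (c * (z - w)) + (-(y * (c * (z - w))) + w) = z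
      rw [← add_assoc, ← neg_mul', ← Cfsg.NearField.right_distrib, ← sub_eq_add_neg, ← mul_assoc,
        hc1, one_mul, sub_add_cancel]
    · change y * (c * (z - w)) + (-(y * (c * (z - w))) + w) = w
      rw [add_neg_cancel_left]
  · intro x
    rw [eq_bot_iff]
    rintro ⟨σ, a, b, ha, hσ⟩ hs
    rw [MulAction.mem_stabilizer_iff] at hs
    have h0 := congrArg (fun e : Fin 2 ↪ F => e 0) hs
    have h1 := congrArg (fun e : Fin 2 ↪ F => e 1) hs
    change σ (x 0) = x 0 at h0
    change σ (x 1) = x 1 at h1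
    rw [hσ] at h0 h1
    have hne : x 0 - x 1 ≠ 0 := by
      rw [sub_ne_zero]; intro h; exact absurd (x.injective h) (by decide)
    have h2 : (x 0 - x 1) * a = x 0 - x 1 := by
      rw [sub_eq_add_neg, Cfsg.NearField.right_distrib, neg_mul']
      have e : x 0 + -x 1 = (x 0 * a + b) + -(x 1 * a + b) := by rw [h0, h1]
      rw [e]
      simp only [neg_add_rev, add_assoc, add_neg_cancel_left]
    obtain ⟨c, hc1, hc2⟩ := Cfsg.NearField.exists_inv _ hne
    have ha1 : a = 1 := by
      have : c * ((x 0 - x 1) * a) = a := by rw [← mul_assoc, hc2, one_mul]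
      rw [← this, h2, hc2]
    subst ha1
    have hb : b = 0 := by
      rw [mul_one] at h0
      exact add_eq_left.mp h0
    subst hb
    rw [Subgroup.mem_bot]
    apply Subtype.ext
    ext y
    simp [hσ]

end Cfsg.Agent.S0681
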