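import Cfsg.Statements.S0682
import Cfsg.Agent.H2.NearField

set_option autoImplicit false
open Cfsg

namespace Cfsg.Agent.S0682

open Cfsg.Agent.H2.NearField

/-- A finite near-field has prime-power order; its additive group is commutative of prime exponent. -/
theorem result {F : Type*} [Cfsg.NearField F] [Finite F] : ∃ p j : ℕ, p.Prime ∧ 1 ≤ j ∧ Nat.card F = p ^ j ∧ (∀ x y : F, x + y = y + x) ∧ ∀ x : F, p • x = 0 := by
  haveI : Nontrivial F := ⟨⟨0, 1, Cfsg.NearField.zero_ne_one⟩⟩
  have h1 : Nat.card F ≠ 1 := (Finite.one_lt_card (α := F)).ne'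
  obtain ⟨p, hp, hpd⟩ := Nat.exists_prime_and_dvd h1
  haveI := Fact.mk hp
  obtain ⟨y, hy⟩ := exists_prime_addOrderOf_dvd_card' p hpd
  have hy0 : y ≠ 0 := by
    rintro rfl
    rw [addOrderOf_zero] at hy
    exact hp.one_lt.ne hy
  obtain ⟨c, hc1, hc2⟩ := Cfsg.NearField.exists_inv y hy0
  have hall : ∀ x : F, p • x = 0 := by
    intro x
    have : x = mulRightHom (c * x) y := by
      change x = y * (c * x)
      rw [← mul_assoc, hc1, one_mul]
    rw [this, ← map_nsmul, ← hy, addOrderOf_nsmul_eq_zero, map_zero]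
  have hP : IsPGroup p (Multiplicative F) := by
    intro x
    refine ⟨1, ?_⟩
    rw [pow_one]
    exact hall x.toAdd
  obtain ⟨j, hj⟩ := hP.exists_card_eq
  have hj' : Nat.card F = p ^ j := hj
  refine ⟨p, j, hp, ?_, hj', ?_, hall⟩
  · rcases Nat.eq_zero_or_pos j with h | h
    · rw [h, pow_zero] at hj'; exact absurd hj' h1
    · exact h
  · haveI : Nontrivial (Subgroup.center (Multiplicative F)) := hP.center_nontrivial
    obtain ⟨⟨z, hz⟩, hz1⟩ := exists_ne (1 : Subgroup.center (Multiplicative F))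
    have hz0 : z.toAdd ≠ 0 := by
      intro h; apply hz1; apply Subtype.ext; exact h
    obtain ⟨d, hd1, hd2⟩ := Cfsg.NearField.exists_inv _ hz0
    intro x w
    by_cases hx : x = 0
    · simp [hx]
    obtain ⟨e, he1, he2⟩ := Cfsg.NearField.exists_inv _ hx
    have hx' : x = z.toAdd * (d * x) := by rw [← mul_assoc, hd1, one_mul]
    have hw' : w = (w * (e * z.toAdd)) * (d * x) := by
      rw [mul_assoc, mul_assoc, ← mul_assoc _ d x, hd1, one_mul, he2, mul_one]
    have hcomm : z.toAdd + w * (e * z.toAdd) = w * (e * z.toAdd) + z.toAdd :=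
      ((Subgroup.mem_center_iff.mp hz) (Multiplicative.ofAdd (w * (e * z.toAdd)))).symm
    calc x + w = z.toAdd * (d * x) + (w * (e * z.toAdd)) * (d * x) := by rw [← hx', ← hw']
      _ = (w * (e * z.toAdd)) * (d * x) + z.toAdd * (d * x) := by
          rw [← Cfsg.NearField.right_distrib, hcomm, Cfsg.NearField.right_distrib]
      _ = w + x := by rw [← hx', ← hw']

end Cfsg.Agent.S0682
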