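import Cfsg.Statements.S0683
import Cfsg.Agent.H2.Sharp2

set_option autoImplicit false
open Cfsg

namespace Cfsg.Agent.S0683

/-- A finite sharply doubly transitive permutation group is the affine group of a near-field: the permuted set carries a near-field structure for which the group consists exactly of the maps `x ↦ x * a + b` with `a ≠ 0`. -/
theorem result {α : Type*} [Fintype α] [DecidableEq α] (H : Subgroup (Equiv.Perm α)) [MulAction.IsMultiplyPretransitive H α 2] (hsharp : ∀ x : Fin 2 ↪ α, MulAction.stabilizer H x = ⊥) (h2 : 2 ≤ Fintype.card α) : ∃ _ : Cfsg.NearField α, ∀ σ : Equiv.Perm α, σ ∈ H ↔ ∃ a b : α, a ≠ 0 ∧ ∀ x : α, σ x = x * a + b := by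
  classical
  have : Nontrivial α := Fintype.one_lt_card_iff_nontrivial.mp h2
  have hS := Cfsg.Agent.H2.Sharp2.IsSharp2.of_perm H hsharp
  obtain ⟨p, j, hp, -, -, h⟩ := hS.main
  have hpf := Fact.mk hp
  obtain ⟨P⟩ : Nonempty (Sylow p H) := inferInstance
  obtain ⟨hN, -, -, hT, hst, -⟩ := h hpf P
  obtain ⟨o, e, hoe⟩ := exists_pair_ne α
  -- translations
  have ht : ∀ y : α, ∃ t : H, t ∈ (P : Subgroup H) ∧ t • o = y := by
    intro y
    obtain ⟨g, hg⟩ := hT.exists_smul_eq o y
    exact ⟨g, g.2, hg⟩
  choose t htP hto using ht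
  have htu : ∀ (s : H) (y : α), s ∈ (P : Subgroup H) → s • o = y → s = t y := by
    intro s y hs hso
    have : (⟨(t y)⁻¹ * s, mul_mem (inv_mem (htP y)) hs⟩ : (P : Subgroup H)) ∈
        MulAction.stabilizer (P : Subgroup H) o := by
      rw [MulAction.mem_stabilizer_iff]
      change ((t y)⁻¹ * s) • o = o
      rw [mul_smul, hso, inv_smul_eq_iff, hto]
    rw [hst o, Subgroup.mem_bot] at this
    exact (inv_mul_eq_one.mp (congrArg Subtype.val this)).symm
  -- multiplications
  have hm : ∀ a : α, a ≠ o → ∃ s : H, s • o = o ∧ s • e = a := fun a ha => hS.trans hoe ha.symm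
  choose! s hso hse using hm
  have hsu : ∀ (g : H) (a : α), g • o = o → g • e = a → g = s a := by
    intro g a h1 h2
    have ha : a ≠ o := by
      rintro rfl
      exact hoe (smul_left_cancel g (h1.trans h2.symm))
    exact hS.eq_of hoe (by rw [h1, hso a ha]) (by rw [h2, hse a ha])
  have hne : ∀ (a x : α), a ≠ o → x ≠ o → s a • x ≠ o := by
    intro a x ha hx h
    exact hx (smul_left_cancel (s a) (h.trans (hso a ha).symm))
  letI : Add α := ⟨fun x y => t y • x⟩
  letI : Zero α := ⟨o⟩
  letI : Neg α := ⟨fun x => (t x)⁻¹ • o⟩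
  have hadd : ∀ x y : α, x + y = t y • x := fun _ _ => rfl
  letI AG : AddGroup α := AddGroup.ofLeftAxioms
    (fun x y z => by
      simp only [hadd]
      rw [← htu (t z * t y) (t z • y) (mul_mem (htP z) (htP y)) (by rw [mul_smul, hto]), mul_smul])
    (fun x => hto x)
    (fun x => smul_inv_smul (t x) o)
  letI : Mul α := ⟨fun x a => if a = o then o else s a • x⟩
  letI : One α := ⟨e⟩
  have hmul : ∀ x a : α, a ≠ o → x * a = s a • x := fun x a ha => if_neg ha
  have hmul0 : ∀ x : α, x * o = o := fun x => if_pos rfl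
  have h0mul : ∀ a : α, o * a = o := fun a => by
    by_cases ha : a = o
    · rw [ha, hmul0]
    · rw [hmul _ _ ha, hso a ha]
  letI MO : Monoid α :=
    { mul_assoc := fun x a b => by
        by_cases hb : b = o
        · rw [hb, hmul0, hmul0, hmul0]
        by_cases ha : a = o
        · rw [ha, hmul0, h0mul, hmul0]
        rw [hmul _ _ hb, hmul _ _ ha, hmul _ _ hb, hmul _ _ (hne b a hb ha),
          ← hsu (s b * s a) (s b • a) (by rw [mul_smul, hso a ha, hso b hb])
            (by rw [mul_smul, hse a ha]), mul_smul]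
      one_mul := fun a => by
        by_cases ha : a = o
        · rw [ha, hmul0]
        · rw [hmul _ _ ha]; exact hse a ha
      mul_one := fun a => by
        change a * e = a
        rw [hmul _ _ hoe.symm, ← hsu 1 e (one_smul _ _) (one_smul _ _), one_smul] }
  let NF : Cfsg.NearField α :=
    { AG, MO with
      right_distrib := fun x y c => by
        change (t y • x) * c = t (y * c) • (x * c)
        by_cases hc : c = o
        · rw [hc, hmul0, hmul0, hmul0, hto]
        rw [hmul _ _ hc, hmul _ _ hc, hmul _ _ hc,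
          ← htu (s c * t y * (s c)⁻¹) (s c • y) (hN.conj_mem _ (htP y) _)
            (by rw [mul_smul, mul_smul, inv_smul_eq_iff.mpr (hso c hc).symm, hto]),
          mul_smul, mul_smul, inv_smul_smul]
      mul_zero := hmul0
      zero_ne_one := hoe
      exists_inv := fun a ha => by
        have hb : (s a)⁻¹ • e ≠ o := by
          intro h
          rw [inv_smul_eq_iff, hso a ha] at h
          exact hoe h.symm
        refine ⟨(s a)⁻¹ • e, ?_, ?_⟩
        · change a * ((s a)⁻¹ • e) = e
          rw [hmul _ _ hb, ← hsu (s a)⁻¹ _ (inv_smul_eq_iff.mpr (hso a ha).symm) rfl,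
            inv_smul_eq_iff, hse a ha]
        · change ((s a)⁻¹ • e) * a = e
          rw [hmul _ _ ha, smul_inv_smul] }
  refine ⟨NF, fun σ => ⟨fun hσ => ?_, ?_⟩⟩
  · let g : H := ⟨σ, hσ⟩
    have h1 : ((t (g • o))⁻¹ * g) • o = o := by rw [mul_smul, inv_smul_eq_iff, hto]
    have ha : ((t (g • o))⁻¹ * g) • e ≠ o := fun h => hoe (smul_left_cancel _ (h1.trans h.symm))
    refine ⟨((t (g • o))⁻¹ * g) • e, g • o, ha, fun x => ?_⟩
    change g • x = t (g • o) • (x * _)
    rw [hmul _ _ ha, ← hsu _ _ h1 rfl, mul_smul, smul_inv_smul]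
  · rintro ⟨a, b, ha, hσ⟩
    have : σ = (t b * s a : H) := by
      ext x
      rw [hσ]
      change t b • (x * a) = (t b * s a) • x
      rw [hmul _ _ ha, mul_smul]
    rw [this]
    exact (t b * s a).2

end Cfsg.Agent.S0683
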