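import Cfsg.Statements.S0685
import Cfsg.Agent.H2.Regular

set_option autoImplicit false
open Cfsg

namespace Cfsg.Agent.S0685

/-- In a linear group over the prime field that is regular on non-zero vectors and has no irreducible cyclic normal subgroup, a maximal normal abelian subgroup is properly contained in its centraliser, which is non-abelian. -/
theorem result {p : ℕ} [Fact p.Prime] {V : Type*} [AddCommGroup V] [Module (ZMod p) V] [Finite V] (H : Subgroup (V ≃ₗ[ZMod p] V)) (hreg : ∀ v w : V, v ≠ 0 → w ≠ 0 → ∃! h : H, (h : V ≃ₗ[ZMod p] V) v = w) (hI : ∀ A : Subgroup H, A.Normal → IsCyclic A → ∃ W : Submodule (ZMod p) V, W ≠ ⊥ ∧ W ≠ ⊤ ∧ ∀ a ∈ A, ∀ v ∈ W, ((a : H) : V ≃ₗ[ZMod p] V) v ∈ W) (A : Subgroup H) (hAn : A.Normal) (hAc : IsMulCommutative A) (hAmax : ∀ B : Subgroup H, B.Normal → IsMulCommutative B → A ≤ B → B = A) : A < Subgroup.centralizer (A : Set H) ∧ ¬ IsMulCommutative (Subgroup.centralizer (A : Set H)) := by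
  open Cfsg.Agent.H2.Regular in
  have h : IsReg (rho H) := hreg
  obtain ⟨W₀, hW₀, -⟩ := hI ⊥ inferInstance inferInstance
  obtain ⟨w, -, hw⟩ := (Submodule.ne_bot_iff W₀).mp hW₀
  have : Nontrivial V := ⟨⟨w, 0, hw⟩⟩
  have := h.finite
  have hcyc : IsCyclic A := h.isSR.isCyclic_of_comm hAc
  obtain ⟨W₁, h0, h1, h2⟩ := hI A hAn hcyc
  have hne := h.centralizer_ne hAn hAc h0 h1 h2
  refine ⟨lt_of_le_of_ne (Subgroup.le_centralizer A) (fun h => hne h.ge), fun hc => hne ?_⟩
  exact (hAmax _ inferInstance hc (Subgroup.le_centralizer A)).le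

end Cfsg.Agent.S0685
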