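import Cfsg.Statements.S0687
import Cfsg.Agent.H2.RegClass

set_option autoImplicit false
open Cfsg

namespace Cfsg.Agent.S0687

open Cfsg.Agent.H2 Cfsg.Agent.H2.Regular Cfsg.Agent.H2.RegClass Cfsg.Agent.H2.QuatAut

/-- In a linear group over the prime field that is regular on non-zero vectors and has no irreducible cyclic normal subgroup, a normal subgroup `N` minimal among the non-abelian normal subgroups centralising a maximal normal abelian subgroup `A` is irreducible on `V`, and its centraliser is `A`. -/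
theorem result {p : ℕ} [Fact p.Prime] {V : Type*} [AddCommGroup V] [Module (ZMod p) V] [Finite V] (H : Subgroup (V ≃ₗ[ZMod p] V)) (hreg : ∀ v w : V, v ≠ 0 → w ≠ 0 → ∃! h : H, (h : V ≃ₗ[ZMod p] V) v = w) (hI : ∀ A : Subgroup H, A.Normal → IsCyclic A → ∃ W : Submodule (ZMod p) V, W ≠ ⊥ ∧ W ≠ ⊤ ∧ ∀ a ∈ A, ∀ v ∈ W, ((a : H) : V ≃ₗ[ZMod p] V) v ∈ W) (A : Subgroup H) (hAn : A.Normal) (hAc : IsMulCommutative A) (hAmax : ∀ B : Subgroup H, B.Normal → IsMulCommutative B → A ≤ B → B = A) (N : Subgroup H) (hNn : N.Normal) (hNle : N ≤ Subgroup.centralizer (A : Set H)) (hNna : ¬ IsMulCommutative N) (hNmin : ∀ M : Subgroup H, M.Normal → M ≤ N → ¬ IsMulCommutative M → M = N) : (∀ W : Submodule (ZMod p) V, (∀ n ∈ N, ∀ v ∈ W, ((n : H) : V ≃ₗ[ZMod p] V) v ∈ W) → W = ⊥ ∨ W = ⊤) ∧ Subgroup.centralizer (N : Set H) = A := by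
  have h : IsReg (rho H) := hreg
  have := nontrivial_of_not_comm hNna
  have := h.finite
  obtain ⟨L, I, J, q, h2⟩ : ∃ L I J, QuatStruct.QS (rho H) N L I J ∧ (2 : ZMod p) ≠ 0 := by
    rcases dichotomy h.isSR hAn hAc hAmax hNn hNle hNna hNmin with ⟨⟨e⟩⟩ | hN
    · exact ⟨_, _, _, qs_q8 h.isSR e⟩
    · have := nontrivial_of_not_comm' hNna
      exact qs_perfect h hNn
  exact ⟨(q.main h2 hNn h.trans).2.1, hAmax _ inferInstance (centralizer_facts h hNn q h2).1
    (Subgroup.le_centralizer_iff.mp hNle)⟩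

end Cfsg.Agent.S0687
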