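import Cfsg.Statements.S0688
import Cfsg.Agent.H2.RegClass

set_option autoImplicit false
open Cfsg

namespace Cfsg.Agent.S0688

open Cfsg.Agent.H2 Cfsg.Agent.H2.Regular Cfsg.Agent.H2.RegClass Cfsg.Agent.H2.QuatAut

/-- Degrees of the soluble exceptional sharply doubly transitive groups: if a solvable linear group over the prime field is regular on the non-zero vectors of `V` and has no irreducible cyclic normal subgroup, then `V` has 25, 49, 121 or 529 elements. -/
theorem result {p : ℕ} [Fact p.Prime] {V : Type*} [AddCommGroup V] [Module (ZMod p) V] [Finite V] (H : Subgroup (V ≃ₗ[ZMod p] V)) (hreg : ∀ v w : V, v ≠ 0 → w ≠ 0 → ∃! h : H, (h : V ≃ₗ[ZMod p] V) v = w) (hI : ∀ A : Subgroup H, A.Normal → IsCyclic A → ∃ W : Submodule (ZMod p) V, W ≠ ⊥ ∧ W ≠ ⊤ ∧ ∀ a ∈ A, ∀ v ∈ W, ((a : H) : V ≃ₗ[ZMod p] V) v ∈ W) (hsolv : Group.IsSolvable H) : Nat.card V = 25 ∨ Nat.card V = 49 ∨ Nat.card V = 121 ∨ Nat.card V = 529 := by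
  have h : IsReg (rho H) := hreg
  obtain ⟨W₀, hW₀, -⟩ := hI ⊥ inferInstance inferInstance
  have : Nontrivial V := by
    obtain ⟨w, -, hw⟩ := (Submodule.ne_bot_iff W₀).mp hW₀
    exact ⟨⟨w, 0, hw⟩⟩
  have := h.finite
  obtain ⟨A, hAn, hAc, hAmax⟩ := SolvClass2.exists_max_normal_comm (G := H)
  obtain ⟨W, hW0, hW1, hW⟩ := hI A hAn (h.isSR.isCyclic_of_comm hAc)
  have hC := h.centralizer_ne hAn hAc hW0 hW1 hW
  obtain ⟨N, ⟨hNn, hNle, hNna⟩, hmin⟩ := Set.Finite.exists_minimal
    (s := {N : Subgroup H | N.Normal ∧ N ≤ Subgroup.centralizer (A : Set H) ∧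
      ¬ IsMulCommutative N}) (Set.toFinite _) ⟨Subgroup.centralizer (A : Set H), inferInstance,
        le_rfl, fun hc => hC (hAmax _ inferInstance hc A.le_centralizer).le⟩
  rcases dichotomy h.isSR hAn hAc hAmax hNn hNle hNna (fun M hM hMN hMc =>
    le_antisymm hMN (hmin ⟨hM, hMN.trans hNle, hMc⟩ hMN)) with ⟨⟨e⟩⟩ | hN
  swap
  · have := nontrivial_of_not_comm' hNna
    exact (Group.IsPerfect.not_isSolvable N inferInstance).elim
  obtain ⟨q, h2⟩ := qs_q8 h.isSR e
  have h1 := (q.main h2 hNn h.trans).1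
  obtain ⟨m, hm⟩ := (centralizer_facts h hNn q h2).2
  rw [Nat.card_congr (Algebra.botEquiv (ZMod p) (Module.End (ZMod p) V)).toEquiv, Nat.card_zmod]
    at h1 hm
  have h3 := (index_centralizer_dvd N e.symm).trans card_mulAut_q8
  have h4 := (Subgroup.centralizer (N : Set H)).index_mul_card
  rw [h.card, h1] at h4
  have hp := (Fact.out : p.Prime)
  have h5 : p + 1 ∣ 24 := by
    refine Dvd.dvd.trans ⟨m, ?_⟩ h3
    have h6 : 0 < Nat.card (Subgroup.centralizer (N : Set H)) := Nat.card_pos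
    apply Nat.eq_of_mul_eq_mul_right h6
    rw [h4, mul_assoc, mul_comm m, ← hm]
    exact Nat.sq_sub_sq p 1
  have h6 : p ≠ 2 := by
    rintro rfl
    exact h2 rfl
  have h7 : p ≠ 3 := by
    rintro rfl
    have h8 : Nat.card N = 8 := by
      rw [← Nat.card_congr e.toEquiv, Nat.card_eq_fintype_card, QuaternionGroup.card]
    have h9 : N = ⊤ := Subgroup.eq_top_of_card_eq _ (by rw [h8, h.card, h1]; rfl)
    let x : H := e (QuaternionGroup.a 1)
    have hx : orderOf x = 4 := by
      rw [Subgroup.orderOf_coe, MulEquiv.orderOf_eq, QuaternionGroup.orderOf_a_one]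
    have hxn : (Subgroup.zpowers x).Normal := Subgroup.normal_of_index_eq_two (by
      have := (Subgroup.zpowers x).index_mul_card
      rw [Nat.card_zpowers, hx, h.card, h1] at this
      omega)
    obtain ⟨U, hU0, hU1, hU⟩ := hI _ hxn inferInstance
    have h10 := card_dvd_card_sub_one (h.isSR.subgroup (Subgroup.zpowers x)) U
      fun g => hU g g.2
    rw [Nat.card_zpowers, hx] at h10
    have h11 : Nat.card U ∣ 3 ^ 2 := h1 ▸ AddSubgroup.card_addSubgroup_dvd_card U.toAddSubgroup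
    have h12 : Nat.card U ≠ 1 := by
      have := Submodule.nontrivial_iff_ne_bot.mpr hU0
      exact Finite.one_lt_card.ne'
    have h13 : Nat.card U ≠ 3 ^ 2 := fun h14 => hU1 (by
      rw [← Submodule.toAddSubgroup_inj]
      exact AddSubgroup.eq_top_of_card_eq _ (h14.trans h1.symm))
    have h14 := Nat.le_of_dvd (by norm_num) h11
    generalize Nat.card U = u at *
    interval_cases u <;> omega
  rw [h1]
  have h8 := Nat.le_of_dvd (by norm_num) h5
  have h9 := hp.two_le
  clear hm h4 h1 h2 q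
  have : p ≤ 23 := by omega
  interval_cases p <;> first | omega | (exact absurd hp (by norm_num))

end Cfsg.Agent.S0688
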