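import Cfsg.Statements.S0689
import Cfsg.Agent.H2.RegClass

set_option autoImplicit false
open Cfsg

namespace Cfsg.Agent.S0689

open Cfsg.Agent.H2 Cfsg.Agent.H2.Regular Cfsg.Agent.H2.RegClass Cfsg.Agent.H2.QuatAut

theorem arith (l d m : ℕ) (h : (l + 1) * d = 60 ∨ (l + 1) * d = 120) (hd : l - 1 = 2 * m * d)
    (h3 : ¬ 3 ∣ 2 * m) (h4 : ¬ 4 ∣ 2 * m) (h5 : ¬ 5 ∣ 2 * m) (h10 : l ≠ 119) :
    (l = 11 ∧ m = 1) ∨ (l = 29 ∧ m = 7) ∨ (l = 59 ∧ m = 29) := by
  have h1 : d ∈ Nat.divisors 120 := by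
    rw [Nat.mem_divisors]
    rcases h with h | h <;> exact ⟨(Dvd.intro_left _ h).trans (by norm_num), by norm_num⟩
  rw [show Nat.divisors 120 = {1, 2, 3, 4, 5, 6, 8, 10, 12, 15, 20, 24, 30, 40, 60, 120} by
    decide +kernel] at h1
  simp only [Finset.mem_insert, Finset.mem_singleton] at h1
  rcases h1 with rfl | rfl | rfl | rfl | rfl | rfl | rfl | rfl | rfl | rfl | rfl | rfl | rfl | rfl |
    rfl | rfl <;> omega

/-- The insoluble sharply doubly transitive groups: a non-solvable linear group over the prime field that is regular on the non-zero vectors of `V` occurs only for `|V| = 11², 29², 59²`, and is `SL(2,5) × C_m` with `m = 1, 7, 29` respectively. -/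
theorem result {p : ℕ} [Fact p.Prime] {V : Type*} [AddCommGroup V] [Module (ZMod p) V] [Finite V] (H : Subgroup (V ≃ₗ[ZMod p] V)) (hreg : ∀ v w : V, v ≠ 0 → w ≠ 0 → ∃! h : H, (h : V ≃ₗ[ZMod p] V) v = w) (hsolv : ¬ Group.IsSolvable H) : (Nat.card V = 121 ∧ Nonempty (H ≃* Matrix.SpecialLinearGroup (Fin 2) (ZMod 5))) ∨ (Nat.card V = 841 ∧ Nonempty (H ≃* Matrix.SpecialLinearGroup (Fin 2) (ZMod 5) × Multiplicative (ZMod 7))) ∨ (Nat.card V = 3481 ∧ Nonempty (H ≃* Matrix.SpecialLinearGroup (Fin 2) (ZMod 5) × Multiplicative (ZMod 29))) := by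
  have h : IsReg (rho H) := hreg
  have : Nontrivial V := nontrivial_of_not_comm (N := (⊤ : Subgroup H)) fun hc => hsolv
    (isSolvable_of_comm fun a b => SolvClass2.comm_iff.mp hc a trivial b trivial)
  have := h.finite
  have hι := h.isSR
  obtain ⟨n, h0, h1⟩ := Dihed3.exists_perfect hsolv
  set N := derivedSeries H n
  have hNn : N.Normal := inferInstance
  have : Group.IsPerfect N := Subgroup.isPerfect_iff.mpr h1
  have : Nontrivial N := (Subgroup.nontrivial_iff_ne_bot N).mpr h0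
  obtain ⟨e⟩ := Zassenhaus.zassenhaus (hι.subgroup N)
  obtain ⟨L, I, J, q, h2⟩ := qs_perfect h hNn
  have hV := (q.main h2 hNn h.trans).1
  obtain ⟨hAc, d, hd⟩ := centralizer_facts h hNn q h2
  set A := Subgroup.centralizer (N : Set H) with hA
  have hAcyc := hι.isCyclic_of_comm hAc
  have hel : ∀ k, k ∣ Nat.card A → ∃ c ∈ A, orderOf c = k := by
    intro k hk
    obtain ⟨c, hc⟩ := hAcyc.exists_ofOrder_eq_natCard
    exact ⟨(c ^ (orderOf c / k) : A), Subtype.prop _, by
      rw [Subgroup.orderOf_coe]; exact orderOf_pow_orderOf_div (orderOf_pos c).ne' (hc ▸ hk)⟩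
  let θ : Matrix.SpecialLinearGroup (Fin 2) (ZMod 5) →* H := N.subtype.comp e.symm.toMonoidHom
  have hθ : Function.Injective θ := N.subtype_injective.comp e.symm.injective
  have hθN : ∀ s, θ s ∈ N := fun s => (e.symm s).2
  have hnc : ∀ s t, θ s ∈ A → s * t = t * s := fun s t hs =>
    hθ (by rw [map_mul, map_mul, hs _ (hθN t)])
  have hodd : ∀ r : ℕ, r.Prime → ∀ s t : Matrix.SpecialLinearGroup (Fin 2) (ZMod 5),
      s ^ r = 1 → s * t ≠ t * s → ¬ r ∣ Nat.card A := by
    intro r hr s t hs hst hd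
    obtain ⟨c, hc, hc2⟩ := hel r hd
    exact hst (hnc s t (Subgroup.zpowers_le.mpr hc (hι.mem_zpowers hr c (θ s)
      (by rw [← hc2, pow_orderOf_eq_one]) (by rw [← map_pow, hs, map_one]) (hc _ (hθN s)).symm
      (fun h => hr.ne_one (by rw [← hc2, h, orderOf_one])))))
  have h3 := hodd 3 Nat.prime_three _ _ gA_pow gAT_ne
  have h5 := hodd 5 Nat.prime_five _ _ gT_pow gAT_ne.symm
  have hy2 : (Icosian.gA * gT) ^ 2 ≠ 1 := fun h => by
    have := congrArg Icosian.toT h
    rw [Icosian.toT_pow, Icosian.toT_mul, Icosian.toT_gA, toT_gT, Icosian.toT_one] at this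
    exact absurd this (by decide)
  have hz2 : θ ((Icosian.gA * gT) ^ 2) ^ 2 = 1 := by rw [← map_pow, ← pow_mul, gAT_pow, map_one]
  have hz1 : θ ((Icosian.gA * gT) ^ 2) ≠ 1 := fun h => hy2 (hθ (h.trans (map_one θ).symm))
  have hinv : ∀ z : H, z ^ 2 = 1 → z ∈ A := fun z hz g _ => hι.involution_central hz g
  have h2A : 2 ∣ Nat.card A := by
    rw [← orderOf_eq_prime hz2 hz1]
    exact Subgroup.orderOf_dvd_natCard A (hinv _ hz2)
  have h4 : ¬ 4 ∣ Nat.card A := by
    intro hd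
    obtain ⟨c, hc, hc2⟩ := hel 4 hd
    have e1 : c ^ 2 = θ ((Icosian.gA * gT) ^ 2) := hι.involution_unique _ _
      (by rw [← pow_mul, show 2 * 2 = orderOf c from hc2.symm, pow_orderOf_eq_one]) hz2
      (pow_ne_one_of_lt_orderOf two_ne_zero (by rw [hc2]; norm_num)) hz1
    have e2 : (c * θ (Icosian.gA * gT)) ^ 2 = 1 := by
      rw [Commute.mul_pow (hc _ (hθN _)).symm, e1, ← map_pow, ← pow_two, hz2]
    have e3 := hnc _ Icosian.gA ((mul_mem_cancel_left hc).mp (hinv _ e2))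
    rw [mul_assoc] at e3
    exact gAT_ne (mul_left_cancel e3).symm
  have hN : Nat.card N = 120 := by rw [Nat.card_congr e.toEquiv, card_sl]
  have hi : A.index ≤ 120 := (Nat.le_of_dvd Nat.card_pos (index_centralizer_dvd N e)).trans card_mulAut_sl
  have h6 := A.index_mul_card
  have h7 : 120 ∣ A.index * Nat.card A := h6 ▸ hN ▸ Subgroup.card_subgroup_dvd_card N
  obtain ⟨m, hm⟩ := h2A
  have hH := h.card
  rw [hH, hV] at h6
  rw [hV] at hH ⊢
  rw [hm] at h3 h4 h5 h6 h7 hd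
  have hm30 : Nat.Coprime 60 m := by
    have c2 : Nat.Coprime 2 m := (Nat.Prime.coprime_iff_not_dvd Nat.prime_two).mpr (by omega)
    have c3 : Nat.Coprime 3 m := (Nat.Prime.coprime_iff_not_dvd Nat.prime_three).mpr (by omega)
    have c5 : Nat.Coprime 5 m := (Nat.Prime.coprime_iff_not_dvd Nat.prime_five).mpr (by omega)
    exact ((c2.mul_left c2).mul_left c3).mul_left c5
  have h8 : 60 ∣ A.index := hm30.dvd_of_dvd_mul_right (Nat.dvd_of_mul_dvd_mul_left two_pos (by
    rw [mul_left_comm]; exact h7))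
  have : Finite (Module.End (ZMod p) V) := DFunLike.finite _
  have : Module.Finite (ZMod p) L := Module.Finite.of_finite
  have h9 : Nat.card L = p ^ Module.finrank (ZMod p) L := by
    rw [Module.natCard_eq_pow_finrank (K := ZMod p), Nat.card_zmod]
  have h10 : Nat.card L ≠ 119 := by
    intro h11
    rw [h11] at h9
    have hp := (Fact.out : p.Prime)
    have a1 := (Nat.prime_dvd_prime_iff_eq (by norm_num) hp).mp
      ((by norm_num : Nat.Prime 7).dvd_of_dvd_pow (h9 ▸ (by norm_num : 7 ∣ 119)))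
    have a2 := (Nat.prime_dvd_prime_iff_eq (by norm_num) hp).mp
      ((by norm_num : Nat.Prime 17).dvd_of_dvd_pow (h9 ▸ (by norm_num : 17 ∣ 119)))
    omega
  have hm0 : 0 < m := by omega
  have h11 : A.index = (Nat.card L + 1) * d := by
    apply Nat.eq_of_mul_eq_mul_right (show 0 < 2 * m by omega)
    rw [h6, mul_assoc, mul_comm d, ← hd]
    exact Nat.sq_sub_sq _ 1
  have h12 : A.index ≠ 0 := Subgroup.index_ne_zero_of_finite
  have key : (Nat.card L = 11 ∧ m = 1) ∨ (Nat.card L = 29 ∧ m = 7) ∨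
      (Nat.card L = 59 ∧ m = 29) := by
    exact arith _ d m (by omega) hd h3 h4 h5 h10
  have fin : ∀ r : ℕ, r.Prime → r ∣ Nat.card A → Nat.Coprime 120 r → Nat.card H = 120 * r →
      Nonempty (H ≃* Matrix.SpecialLinearGroup (Fin 2) (ZMod 5) × Multiplicative (ZMod r)) := by
    intro r hr hrA hc hHr
    have := Fact.mk hr
    obtain ⟨c, hc1, hc2⟩ := hel r hrA
    let ψ : Multiplicative (ZMod r) ≃* Subgroup.zpowers c :=
      mulEquivOfPrimeCardEq (p := r) (by simp) (by rw [Nat.card_zpowers, hc2])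
    let ψ' := (Subgroup.zpowers c).subtype.comp ψ.toMonoidHom
    have hψ : Function.Injective ψ' := (Subgroup.zpowers c).subtype_injective.comp ψ.injective
    refine ⟨(MulEquiv.ofBijective (θ.noncommCoprod ψ' fun s t =>
      Subgroup.zpowers_le.mpr hc1 (ψ t).2 _ (hθN s)) ((Nat.bijective_iff_injective_and_card _).mpr
        ⟨(MonoidHom.noncommCoprod_injective _ _ _).mpr ⟨hθ, hψ, ?_⟩, ?_⟩)).symm⟩
    · apply Subgroup.disjoint_of_coprime_natCard
      rw [← Nat.card_congr (MonoidHom.ofInjective hθ).toEquiv,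
        ← Nat.card_congr (MonoidHom.ofInjective hψ).toEquiv, card_sl]
      simpa using hc
    · rw [hHr, Nat.card_prod, card_sl]; simp
  rcases key with ⟨h13, rfl⟩ | ⟨h13, rfl⟩ | ⟨h13, rfl⟩ <;> rw [h13] at hH ⊢
  · refine Or.inl ⟨rfl, ⟨Subgroup.topEquiv.symm.trans ((MulEquiv.subgroupCongr ?_).trans e)⟩⟩
    exact (Subgroup.eq_top_of_card_eq _ (by rw [hN, hH]; rfl)).symm
  · exact Or.inr (Or.inl ⟨rfl, fin 7 (by norm_num) (by rw [hm]; norm_num) (by norm_num) hH⟩)
  · exact Or.inr (Or.inr ⟨rfl, fin 29 (by norm_num) (by rw [hm]; norm_num) (by norm_num) hH⟩)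

end Cfsg.Agent.S0689
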