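import Cfsg.Statements.S0690
import Cfsg.Agent.H2.FpfRep
import Cfsg.Agent.H2.Zassenhaus

set_option autoImplicit false
open Cfsg

namespace Cfsg.Agent.S0690

/-- Zassenhaus: a perfect non-trivial group of fixed-point-free automorphisms of a finite group is isomorphic to `SL(2,5)`. -/
theorem result {K : Type*} [Group K] [Finite K] (G : Subgroup (MulAut K)) (hfpf : ∀ φ ∈ G, φ ≠ 1 → ∀ k : K, φ k = k → k = 1) (hperf : commutator G = ⊤) (hne : G ≠ ⊥) : Nonempty (G ≃* Matrix.SpecialLinearGroup (Fin 2) (ZMod 5)) := by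
  have : Group.IsPerfect G := ⟨hperf⟩
  have : Nontrivial G := (Subgroup.nontrivial_iff_ne_bot G).mpr hne
  have hα : ∀ g : G, g ≠ 1 → ∀ x, G.subtype g x = x → x = 1 := fun g hg =>
    hfpf g g.2 (fun h => hg (Subtype.ext h))
  have : Nontrivial K := by
    rcases subsingleton_or_nontrivial K with h | h
    · obtain ⟨g, hg⟩ := exists_ne (1 : G)
      exact absurd (Subtype.ext (MulEquiv.ext fun x => h.elim _ _)) hg
    · exact h
  by_cases h2 : 2 ∣ Nat.card G
  · obtain ⟨t, ht⟩ := exists_prime_orderOf_dvd_card' 2 h2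
    obtain ⟨p, _, V, _, _, _, _, ρ, hρ⟩ := H2.FpfRep.exists_rep_of_involution G.subtype hα (t := t)
      (by rw [← ht, pow_orderOf_eq_one]) (fun h => by simp [h] at ht)
    exact H2.Zassenhaus.zassenhaus hρ
  · have : IsZGroup G := ⟨fun r hr P => by
      have := Fact.mk hr
      by_cases hr2 : r = 2
      · subst hr2
        rcases subsingleton_or_nontrivial P with h | h
        · infer_instance
        · obtain ⟨n, hn, hn2⟩ := P.2.nontrivial_iff_card.mp h
          exact absurd ((hn2 ▸ dvd_pow_self 2 hn.ne').trans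
            (Subgroup.card_subgroup_dvd_card (P : Subgroup G))) h2
      · exact H2.FpfRep.isCyclic_odd G.subtype hα hr2 P.2⟩
    exact (Group.IsPerfect.not_isSolvable G inferInstance).elim

end Cfsg.Agent.S0690
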