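import Cfsg.Statements.S0691
import Cfsg.Agent.H2.RegTable

set_option autoImplicit false
open Cfsg

namespace Cfsg.Agent.S0691

def tF1 : ℕ := 0x3040102000304010200030401020003040102000103020400
def tF2 : ℕ := 0x2020202040101010102040404040303030303010000000000
def tD : ℕ := 0x3040402020203030303040202040103030301000302020100
def tP1 : ℕ := 0x4010301020104020204030002040100020401000400020100
def tP2 : ℕ := 0x40301000101020300020100040003020100000001000000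
def fF1 (x y : ZMod 5) : ZMod 5 := (Cfsg.Agent.H2.RegTable.look 5 tF1 8 x y : ℕ)
def fF2 (x y : ZMod 5) : ZMod 5 := (Cfsg.Agent.H2.RegTable.look 5 tF2 8 x y : ℕ)
def fP1 (x y : ZMod 5) : ZMod 5 := (Cfsg.Agent.H2.RegTable.look 5 tP1 8 x y : ℕ)
def fP2 (x y : ZMod 5) : ZMod 5 := (Cfsg.Agent.H2.RegTable.look 5 tP2 8 x y : ℕ)
def fD (x y : ZMod 5) : ℕ := Cfsg.Agent.H2.RegTable.look 5 tD 8 x y
theorem chkA : ∀ x y : ZMod 5, (x ≠ 0 ∨ y ≠ 0) →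
    2 * fF1 x y + 0 * fF2 x y = fF1 (2 * x + 0 * y) (0 * x + 3 * y) ∧
    0 * fF1 x y + 3 * fF2 x y = fF2 (2 * x + 0 * y) (0 * x + 3 * y) := by
  decide +kernel
theorem chkB : ∀ x y : ZMod 5, (x ≠ 0 ∨ y ≠ 0) →
    0 * fF1 x y + 4 * fF2 x y = fF1 (0 * x + 4 * y) (1 * x + 0 * y) ∧
    1 * fF1 x y + 0 * fF2 x y = fF2 (0 * x + 4 * y) (1 * x + 0 * y) := by
  decide +kernel
theorem chkC : ∀ x y : ZMod 5, (x ≠ 0 ∨ y ≠ 0) →
    1 * fF1 x y + 2 * fF2 x y = fF1 (1 * x + 2 * y) (1 * x + 3 * y) ∧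
    1 * fF1 x y + 3 * fF2 x y = fF2 (1 * x + 2 * y) (1 * x + 3 * y) := by
  decide +kernel
theorem chkD : ∀ x y : ZMod 5, (x ≠ 0 ∨ y ≠ 0) → (x = 1 ∧ y = 0) ∨
    (fD (fP1 x y) (fP2 x y) < fD x y ∧ ((2 * fP1 x y + 0 * fP2 x y = x ∧ 0 * fP1 x y + 3 * fP2 x y = y) ∨ (0 * fP1 x y + 4 * fP2 x y = x ∧ 1 * fP1 x y + 0 * fP2 x y = y) ∨ (1 * fP1 x y + 2 * fP2 x y = x ∧ 1 * fP1 x y + 3 * fP2 x y = y))) := by
  decide +kernel

local instance factP : Fact (Nat.Prime 5) := ⟨by norm_num⟩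

/-- An exceptional sharply doubly transitive group of degree 5^2: the listed matrices generate a subgroup of GL(2,5) of order 24 acting regularly on the non-zero vectors. -/
theorem result (A : Matrix.GeneralLinearGroup (Fin 2) (ZMod 5)) (B : Matrix.GeneralLinearGroup (Fin 2) (ZMod 5)) (C : Matrix.GeneralLinearGroup (Fin 2) (ZMod 5)) (hA : (A : Matrix (Fin 2) (Fin 2) (ZMod 5)) = !![2, 0; 0, -2]) (hB : (B : Matrix (Fin 2) (Fin 2) (ZMod 5)) = !![0, -1; 1, 0]) (hC : (C : Matrix (Fin 2) (Fin 2) (ZMod 5)) = !![1, 2; 1, -2]) : Nat.card (Subgroup.closure ({A, B, C} : Set (Matrix.GeneralLinearGroup (Fin 2) (ZMod 5)))) = 24 ∧ ∀ v w : Fin 2 → ZMod 5, v ≠ 0 → w ≠ 0 → ∃! h : Subgroup.closure ({A, B, C} : Set (Matrix.GeneralLinearGroup (Fin 2) (ZMod 5))), Matrix.mulVec ((h : Matrix.GeneralLinearGroup (Fin 2) (ZMod 5)) : Matrix (Fin 2) (Fin 2) (ZMod 5)) v = w := by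
  have eA : A 0 0 = 2 ∧ A 0 1 = 0 ∧ A 1 0 = 0 ∧ A 1 1 = 3 := by
    simp only [hA]; decide +kernel
  have eB : B 0 0 = 0 ∧ B 0 1 = 4 ∧ B 1 0 = 1 ∧ B 1 1 = 0 := by
    simp only [hB]; decide +kernel
  have eC : C 0 0 = 1 ∧ C 0 1 = 2 ∧ C 1 0 = 1 ∧ C 1 1 = 3 := by
    simp only [hC]; decide +kernel
  refine Cfsg.Agent.H2.RegTable.regular_of_table (p := 5) ({A, B, C} : Set (Matrix.GeneralLinearGroup (Fin 2) (ZMod 5))) fF1 fF2 (by decide +kernel) (by decide +kernel) ?_ fD fP1 fP2 ?_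
  · rintro s (rfl | rfl | rfl)
    · rw [eA.1, eA.2.1, eA.2.2.1, eA.2.2.2]; exact chkA
    · rw [eB.1, eB.2.1, eB.2.2.1, eB.2.2.2]; exact chkB
    · rw [eC.1, eC.2.1, eC.2.2.1, eC.2.2.2]; exact chkC
  · intro x y hxy
    rcases chkD x y hxy with h | ⟨h1, h | h | h⟩
    · exact Or.inl h
    · exact Or.inr ⟨h1, A, by simp, by rw [eA.1, eA.2.1, eA.2.2.1, eA.2.2.2]; exact h⟩
    · exact Or.inr ⟨h1, B, by simp, by rw [eB.1, eB.2.1, eB.2.2.1, eB.2.2.2]; exact h⟩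
    · exact Or.inr ⟨h1, C, by simp, by rw [eC.1, eC.2.1, eC.2.2.1, eC.2.2.2]; exact h⟩

end Cfsg.Agent.S0691
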