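import Cfsg.Statements.S0692
import Cfsg.Agent.H2.RegTable

set_option autoImplicit false
open Cfsg

namespace Cfsg.Agent.S0692

def tF1 : ℕ := 0xa010407050608020309000709080a050600020301040709080a02050304060001000608070901040203050a090a050706080003010204090a080003050406010207060809070a020403050001000507080609010302040a0a0809000506010302040702080903050604070a01000106040309020807050a00
def tF2 : ℕ := 0x90100050202000404010a0303060301010502020a050202040203060303030707080003040004040101040806060501080502090606020505020906030a06050509070a0a07070007080003030408080805080907090904010909060a0a08050808060a070700090906000a02010004010a0407010a070000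
def tD : ℕ := 0x708090c07060805020602030a0c040809050b09070502080a050c050b090b080909060c0b04090c04030b080706060a0504030b070a0708090a0506070b080809050c05020c0b060c0a08070a06090b09070b03080a040a050b0907070a060a0c01070404030a08090a0706050003060a0908060708040100
def tP1 : ℕ := 0xa09080801050403020a000a0908070608010309020002060a070600040801050005090206060307000401000a01080706060a0307000400040801050502030a01070307000708050509020600060a0307000504010509020902080a0305040302010001090807060a03030201000a0801050902060a030100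
def tP2 : ℕ := 0x1010104020001010103010002020202010a02060402010a080303020009070503020009070403010a080404050105050504020009070504020009070603060a060605030107080704020009070604020009080803010a08070509010a090909090009080a0a0a0009070a0a0a0000070503010a0806040000
def fF1 (x y : ZMod 11) : ZMod 11 := (Cfsg.Agent.H2.RegTable.look 11 tF1 8 x y : ℕ)
def fF2 (x y : ZMod 11) : ZMod 11 := (Cfsg.Agent.H2.RegTable.look 11 tF2 8 x y : ℕ)
def fP1 (x y : ZMod 11) : ZMod 11 := (Cfsg.Agent.H2.RegTable.look 11 tP1 8 x y : ℕ)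
def fP2 (x y : ZMod 11) : ZMod 11 := (Cfsg.Agent.H2.RegTable.look 11 tP2 8 x y : ℕ)
def fD (x y : ZMod 11) : ℕ := Cfsg.Agent.H2.RegTable.look 11 tD 8 x y
theorem chkA : ∀ x y : ZMod 11, (x ≠ 0 ∨ y ≠ 0) →
    0 * fF1 x y + 10 * fF2 x y = fF1 (0 * x + 10 * y) (1 * x + 0 * y) ∧
    1 * fF1 x y + 0 * fF2 x y = fF2 (0 * x + 10 * y) (1 * x + 0 * y) := by
  decide +kernel
theorem chkB : ∀ x y : ZMod 11, (x ≠ 0 ∨ y ≠ 0) →
    2 * fF1 x y + 4 * fF2 x y = fF1 (2 * x + 4 * y) (1 * x + 8 * y) ∧
    1 * fF1 x y + 8 * fF2 x y = fF2 (2 * x + 4 * y) (1 * x + 8 * y) := by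
  decide +kernel
theorem chkD : ∀ x y : ZMod 11, (x ≠ 0 ∨ y ≠ 0) → (x = 1 ∧ y = 0) ∨
    (fD (fP1 x y) (fP2 x y) < fD x y ∧ ((0 * fP1 x y + 10 * fP2 x y = x ∧ 1 * fP1 x y + 0 * fP2 x y = y) ∨ (2 * fP1 x y + 4 * fP2 x y = x ∧ 1 * fP1 x y + 8 * fP2 x y = y))) := by
  decide +kernel

local instance factP : Fact (Nat.Prime 11) := ⟨by norm_num⟩

/-- An exceptional sharply doubly transitive group of degree 11^2: the listed matrices generate a subgroup of GL(2,11) of order 120 acting regularly on the non-zero vectors. -/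
theorem result (A : Matrix.GeneralLinearGroup (Fin 2) (ZMod 11)) (B : Matrix.GeneralLinearGroup (Fin 2) (ZMod 11)) (hA : (A : Matrix (Fin 2) (Fin 2) (ZMod 11)) = !![0, -1; 1, 0]) (hB : (B : Matrix (Fin 2) (Fin 2) (ZMod 11)) = !![2, 4; 1, -3]) : Nat.card (Subgroup.closure ({A, B} : Set (Matrix.GeneralLinearGroup (Fin 2) (ZMod 11)))) = 120 ∧ ∀ v w : Fin 2 → ZMod 11, v ≠ 0 → w ≠ 0 → ∃! h : Subgroup.closure ({A, B} : Set (Matrix.GeneralLinearGroup (Fin 2) (ZMod 11))), Matrix.mulVec ((h : Matrix.GeneralLinearGroup (Fin 2) (ZMod 11)) : Matrix (Fin 2) (Fin 2) (ZMod 11)) v = w := by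
  have eA : A 0 0 = 0 ∧ A 0 1 = 10 ∧ A 1 0 = 1 ∧ A 1 1 = 0 := by
    simp only [hA]; decide +kernel
  have eB : B 0 0 = 2 ∧ B 0 1 = 4 ∧ B 1 0 = 1 ∧ B 1 1 = 8 := by
    simp only [hB]; decide +kernel
  refine Cfsg.Agent.H2.RegTable.regular_of_table (p := 11) ({A, B} : Set (Matrix.GeneralLinearGroup (Fin 2) (ZMod 11))) fF1 fF2 (by decide +kernel) (by decide +kernel) ?_ fD fP1 fP2 ?_
  · rintro s (rfl | rfl)
    · rw [eA.1, eA.2.1, eA.2.2.1, eA.2.2.2]; exact chkA
    · rw [eB.1, eB.2.1, eB.2.2.1, eB.2.2.2]; exact chkB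
  · intro x y hxy
    rcases chkD x y hxy with h | ⟨h1, h | h⟩
    · exact Or.inl h
    · exact Or.inr ⟨h1, A, by simp, by rw [eA.1, eA.2.1, eA.2.2.1, eA.2.2.2]; exact h⟩
    · exact Or.inr ⟨h1, B, by simp, by rw [eB.1, eB.2.1, eB.2.2.1, eB.2.2.2]; exact h⟩

end Cfsg.Agent.S0692
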