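import Cfsg.Statements.S0694
import Mathlib

set_option autoImplicit false
open Cfsg

namespace Cfsg.Agent.S0694

/-- geometric sums -/
def S (m : ℕ) (i : ℕ) : ℕ := ∑ j ∈ Finset.range i, (m + 1) ^ j

theorem pow_eq (m i : ℕ) : (m + 1) ^ i = 1 + m * S m i := by
  induction i with
  | zero => simp [S]
  | succ i ih =>
    have : S m (i + 1) = S m i + (m + 1) ^ i := Finset.sum_range_succ _ _
    rw [this, pow_succ, ih]; ring

theorem modEq_iff {m : ℕ} (hm : 0 < m) (n i : ℕ) :
    (m + 1) ^ i ≡ 1 [MOD n * m] ↔ n ∣ S m i := by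
  rw [pow_eq, Nat.ModEq.comm, Nat.modEq_iff_dvd' (by omega), Nat.add_sub_cancel_left, mul_comm m,
    Nat.mul_dvd_mul_iff_right hm]

theorem S_pos (m : ℕ) {i : ℕ} (hi : 0 < i) : 0 < S m i :=
  Finset.sum_pos (fun _ _ => by positivity) (by simpa using hi.ne')

theorem S_modEq {m r : ℕ} (h : r ∣ m) (i : ℕ) : S m i ≡ i [MOD r] := by
  induction i with
  | zero => rfl
  | succ i ih =>
    have : S m (i + 1) = S m i + (m + 1) ^ i := Finset.sum_range_succ _ _
    rw [this]
    apply ih.add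
    have : m + 1 ≡ 1 [MOD r] := by
      have := ((Nat.modEq_zero_iff_dvd).mpr h).add_right 1
      simpa using this
    simpa using this.pow i

theorem val_S {m r i : ℕ} (hm : 0 < m) (hr : r.Prime) (h : r ∣ m) (h4 : r = 2 → 4 ∣ m)
    (hi : 0 < i) : padicValNat r (S m i) = padicValNat r i := by
  have := Fact.mk hr
  have hq : ¬ r ∣ m + 1 := fun h' => hr.one_lt.ne' (Nat.dvd_one.mp ((Nat.dvd_add_right h).mp h'))
  have hmul : padicValNat r ((m + 1) ^ i - 1) = padicValNat r m + padicValNat r (S m i) := by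
    rw [pow_eq, Nat.add_sub_cancel_left, padicValNat.mul hm.ne' (S_pos m hi).ne']
  rcases hr.eq_two_or_odd' with rfl | hodd
  · rcases Nat.even_or_odd i with he | ho
    · have h1 := padicValNat.pow_two_sub_one (x := m + 1) (by omega) hq hi.ne' he
      have h2 : padicValNat 2 (m + 1 + 1) = 1 := by
        obtain ⟨k, rfl⟩ := h4 rfl
        rw [show 4 * k + 1 + 1 = 2 * (2 * k + 1) by ring, padicValNat.mul (by omega) (by omega),
          padicValNat.eq_zero_of_not_dvd (n := 2 * k + 1) (by omega)]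
        simp
      rw [hmul, h2, Nat.add_sub_cancel] at h1
      omega
    · have h1 : ¬ 2 ∣ i := by rcases ho with ⟨k, rfl⟩; omega
      have h2 : ¬ 2 ∣ S m i := fun h' => h1 (((S_modEq h i).dvd_iff dvd_rfl).mp h')
      rw [padicValNat.eq_zero_of_not_dvd h1, padicValNat.eq_zero_of_not_dvd h2]
  · have h1 := padicValNat.pow_sub_pow (p := r) hodd (x := m + 1) (y := 1) (by omega)
      (by simpa using h) hq hi.ne'
    rw [one_pow, hmul, Nat.add_sub_cancel] at h1
    omega

theorem dvd_S_iff {m n i : ℕ} (hm : 0 < m) (hn : 0 < n) (h1 : ∀ r : ℕ, r.Prime → r ∣ n → r ∣ m)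
    (h4 : 4 ∣ n → 4 ∣ m) (hi : 0 < i) : n ∣ S m i ↔ n ∣ i := by
  rw [← Nat.factorization_prime_le_iff_dvd hn.ne' (S_pos m hi).ne',
    ← Nat.factorization_prime_le_iff_dvd hn.ne' hi.ne']
  refine forall₂_congr fun r hr => ?_
  by_cases hrn : r ∣ n
  swap
  · simp [Nat.factorization_eq_zero_of_not_dvd hrn]
  by_cases hr2 : r = 2 → 4 ∣ m
  · rw [Nat.factorization_def _ hr, Nat.factorization_def _ hr, Nat.factorization_def _ hr,
      val_S hm hr (h1 r hr hrn) hr2 hi]
  · push Not at hr2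
    obtain ⟨rfl, h4m⟩ := hr2
    have hf : n.factorization 2 = 1 := by
      apply le_antisymm
      · by_contra hh
        exact h4m (h4 ((Nat.prime_two.pow_dvd_iff_le_factorization (k := 2) hn.ne').mpr (by omega)))
      · exact (Nat.prime_two.dvd_iff_one_le_factorization hn.ne').mp hrn
    rw [hf, ← Nat.prime_two.dvd_iff_one_le_factorization (S_pos m hi).ne',
      ← Nat.prime_two.dvd_iff_one_le_factorization hi.ne']
    exact (S_modEq (h1 2 hr hrn) i).dvd_iff dvd_rfl

theorem S_surj {m n : ℕ} (hm : 0 < m) (hn : 0 < n) (h1 : (m + 1) ^ n ≡ 1 [MOD n * m])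
    (h2 : ∀ i : ℕ, 0 < i → i < n → ¬ (m + 1) ^ i ≡ 1 [MOD n * m]) (s : ℕ) :
    ∃ i, S m i ≡ s [MOD n] := by
  have : NeZero n := ⟨hn.ne'⟩
  have hcop : Nat.Coprime (m + 1) (n * m) :=
    Nat.Coprime.coprime_dvd_left (dvd_pow_self _ hn.ne') (by
      rw [Nat.Coprime, Nat.gcd_comm, Nat.gcd_rec, h1, ← Nat.gcd_rec]; simp)
  have key : ∀ i j : ℕ, i < j → j < n → ¬ S m i ≡ S m j [MOD n] := by
    intro i j hij hj h
    apply h2 (j - i) (by omega) (by omega)
    have h3 : (m + 1) ^ i * (m + 1) ^ (j - i) ≡ (m + 1) ^ i * 1 [MOD n * m] := by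
      rw [← pow_add, Nat.add_sub_cancel' hij.le, mul_one, pow_eq, pow_eq, mul_comm n m]
      exact (h.symm.mul_left' m).add_left 1
    exact Nat.ModEq.cancel_left_of_coprime (hcop.pow_left i).symm h3
  let f : Fin n → ZMod n := fun i => (S m i : ZMod n)
  have hf : Function.Injective f := by
    intro i j hij
    have := (ZMod.natCast_eq_natCast_iff _ _ _).mp hij
    rcases lt_trichotomy (i : ℕ) j with h | h | h
    · exact absurd this (key i j h j.2)
    · exact Fin.ext h
    · exact absurd this.symm (key j i h i.2)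
  obtain ⟨i, hi⟩ := ((Fintype.bijective_iff_injective_and_card f).mpr ⟨hf, by simp⟩).2 (s : ZMod n)
  exact ⟨i, (ZMod.natCast_eq_natCast_iff _ _ _).mp hi⟩

/-- The Dickson pair condition: for a prime power `q` and `n > 1`, (every prime factor of `n` divides `q - 1`, and `4 ∣ n → 4 ∣ q - 1`) holds exactly when `q ^ n ≡ 1` modulo `n * (q - 1)` but `q ^ i` is not, for `0 < i < n`. -/
theorem result (q n : ℕ) (hq : IsPrimePow q) (hn : 1 < n) : ((∀ r : ℕ, r.Prime → r ∣ n → r ∣ q - 1) ∧ (4 ∣ n → 4 ∣ q - 1)) ↔ (q ^ n ≡ 1 [MOD n * (q - 1)] ∧ ∀ i : ℕ, 0 < i → i < n → ¬ q ^ i ≡ 1 [MOD n * (q - 1)]) := by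
  obtain ⟨m, rfl⟩ : ∃ m, q = m + 1 := ⟨q - 1, by have := hq.two_le; omega⟩
  have hm : 0 < m := by have := hq.two_le; omega
  rw [Nat.add_sub_cancel]
  constructor
  · rintro ⟨h1, h4⟩
    refine ⟨?_, fun i hi hin => ?_⟩
    · rw [modEq_iff hm, dvd_S_iff hm (by omega) h1 h4 (by omega)]
    · rw [modEq_iff hm, dvd_S_iff hm (by omega) h1 h4 hi]
      exact fun h => absurd (Nat.le_of_dvd hi h) (by omega)
  · rintro ⟨h1, h2⟩
    have hs := S_surj hm (by omega) h1 h2
    have hall : ∀ r : ℕ, r.Prime → r ∣ n → r ∣ m := by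
      intro r hr hrn
      by_contra hrm
      have := Fact.mk hr
      have hm0 : (m : ZMod r) ≠ 0 := by rwa [Ne, ZMod.natCast_eq_zero_iff]
      obtain ⟨i, hi⟩ := hs (-(m : ZMod r)⁻¹).val
      have h3 : (S m i : ZMod r) = -(m : ZMod r)⁻¹ := by
        rw [(ZMod.natCast_eq_natCast_iff _ _ _).mpr (hi.of_dvd hrn), ZMod.natCast_zmod_val]
      have h4 : ((m : ZMod r) + 1) ^ i = 0 := by
        have := congrArg (Nat.cast : ℕ → ZMod r) (pow_eq m i)
        push_cast at this
        rw [this, h3, mul_neg, mul_inv_cancel₀ hm0, add_neg_cancel]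
      have h5 := (ZMod.natCast_eq_natCast_iff _ _ _).mpr (h1.of_dvd (hrn.mul_right m))
      push_cast at h5
      rw [pow_eq_zero_iff (by rintro rfl; simp at h4)] at h4
      rw [h4, zero_pow (by omega)] at h5
      exact zero_ne_one h5
    refine ⟨hall, fun h4 => ?_⟩
    by_contra h4m
    have h2m := hall 2 Nat.prime_two (Dvd.dvd.trans (by norm_num) h4)
    have hm4 : m % 4 = 2 := by omega
    have hS : ∀ i, (S m i % 4 = i % 2) ∧ (m + 1) ^ i % 4 = 1 + 2 * (i % 2) := by
      intro i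
      induction i with
      | zero => simp [S]
      | succ i ih =>
        have : S m (i + 1) = S m i + (m + 1) ^ i := Finset.sum_range_succ _ _
        rw [this, pow_succ, Nat.mul_mod, ih.2, Nat.add_mod m, hm4]
        rcases Nat.mod_two_eq_zero_or_one i with h | h <;> rw [h] at ih ⊢ <;> omega
    obtain ⟨i, hi⟩ := hs 2
    have := hi.of_dvd h4
    unfold Nat.ModEq at this
    have := (hS i).1
    omega

end Cfsg.Agent.S0694
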