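import Cfsg.Statements.S0700
import Cfsg.Agent.H3.Burnside2

set_option autoImplicit false
open Cfsg

namespace Cfsg.Agent.S0700


/-- Burnside's Theorem on doubly transitive groups: a minimal normal subgroup of a finite doubly transitive permutation group is elementary abelian and regular, or simple and primitive. -/
theorem result {α : Type*} [Fintype α] [DecidableEq α] (G : Subgroup (Equiv.Perm α)) (hG : MulAction.IsMultiplyPretransitive G α 2) (N : Subgroup G) [N.Normal] (hN : N ≠ ⊥) (hmin : ∀ M : Subgroup G, M.Normal → M ≤ N → M = ⊥ ∨ M = N) : (IsMulCommutative N ∧ (∃ p : ℕ, p.Prime ∧ ∀ n ∈ N, n ^ p = 1) ∧ ∀ a : α, MulAction.stabilizer N a = ⊥) ∨ (IsSimpleGroup N ∧ MulAction.IsPreprimitive N α) := by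
  have hX : 2 ≤ Nat.card α := by
    by_contra hcon
    have : Subsingleton α := Finite.card_le_one_iff_subsingleton.mp (by omega)
    apply hN
    rw [eq_bot_iff]
    intro x _
    rw [Subgroup.mem_bot]
    exact Subtype.ext (Subsingleton.elim _ _)
  by_cases hreg : ∀ a : α, MulAction.stabilizer N a = ⊥
  · left
    obtain ⟨a⟩ : Nonempty α := (Nat.card_pos_iff.mp (by omega)).1
    have hc := H3.Burnside2.isMulCommutative_of_regular hG N hN hmin a (hreg a)
    exact ⟨hc, H3.MinNormal.exists_prime_pow_eq_one N hN hmin hc, hreg⟩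
  · right
    push Not at hreg
    obtain ⟨a, ha⟩ := hreg
    exact ⟨H3.Burnside2.simple_of_not_regular hX hG N hN hmin a ha,
      H3.Burnside2.primitive_of_not_regular hX hG N hN hmin a ha⟩

end Cfsg.Agent.S0700
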