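import Cfsg.Statements.S0701
import Cfsg.Agent.H3.Centralizer

set_option autoImplicit false
open Cfsg

namespace Cfsg.Agent.S0701


/-- The centraliser in the full symmetric group of a transitive permutation group `G` is semiregular, and it is transitive if and only if `G` is regular. -/
theorem result {α : Type*} (G : Subgroup (Equiv.Perm α)) [MulAction.IsPretransitive G α] : (∀ c ∈ Subgroup.centralizer (G : Set (Equiv.Perm α)), ∀ a : α, c a = a → c = 1) ∧ (MulAction.IsPretransitive (Subgroup.centralizer (G : Set (Equiv.Perm α))) α ↔ ∀ a : α, MulAction.stabilizer G a = ⊥) := by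
  exact ⟨fun c hc a ha => H3.Centralizer.semiregular G c hc a ha,
    H3.Centralizer.centralizer_transitive_iff G⟩

end Cfsg.Agent.S0701
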