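import Cfsg.Statements.S0702
import Cfsg.Agent.H3.Centralizer

set_option autoImplicit false
open Cfsg

namespace Cfsg.Agent.S0702


/-- For a transitive permutation group `G` on a finite set, the centraliser of `G` in the symmetric group is isomorphic to `N_G(G_ω)/G_ω`, and its orbit of `ω` is the set of fixed points of `G_ω`. -/
theorem result {α : Type*} [Finite α] (G : Subgroup (Equiv.Perm α)) [MulAction.IsPretransitive G α] (a : α) : Nonempty (Subgroup.centralizer (G : Set (Equiv.Perm α)) ≃* Subgroup.normalizer ((MulAction.stabilizer G a : Subgroup G) : Set G) ⧸ (MulAction.stabilizer G a).subgroupOf (Subgroup.normalizer ((MulAction.stabilizer G a : Subgroup G) : Set G))) ∧ MulAction.orbit (Subgroup.centralizer (G : Set (Equiv.Perm α))) a = MulAction.fixedPoints (MulAction.stabilizer G a) α := by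
  classical
  have hs := fun c hc a ha => H3.Centralizer.semiregular G c hc a ha
  set C := Subgroup.centralizer (G : Set (Equiv.Perm α)) with hC
  have hcomm : ∀ c ∈ C, ∀ g ∈ G, ∀ x, g (c x) = c (g x) := fun c hc g hg x =>
    congrArg (fun f : Equiv.Perm α => f x) ((Subgroup.mem_centralizer_iff.mp hc) g hg)
  have huniq : ∀ c d : C, (c : Equiv.Perm α) a = (d : Equiv.Perm α) a → c = d := by
    intro c d e
    have : ((d⁻¹ * c : C) : Equiv.Perm α) = 1 := hs _ (d⁻¹ * c).2 a (by simp [e])
    have h2 : d⁻¹ * c = 1 := Subtype.ext this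
    exact (inv_mul_eq_one.mp h2).symm
  constructor
  · set S : Subgroup G := MulAction.stabilizer G a with hS
    set N := Subgroup.normalizer (S : Set G) with hN
    have hex : ∀ n : N, ∃ c : C, (c : Equiv.Perm α) a = (((n : G) : Equiv.Perm α))⁻¹ a := by
      intro n
      obtain ⟨c, hc, e⟩ := H3.Centralizer.exists_centralizer_map G a
        ((((n : G) : Equiv.Perm α))⁻¹ a) (by
          intro g hg
          have h1 := (Subgroup.mem_normalizer_iff.mp n.2) ⟨g, hg⟩
          have h2 : ((⟨g, hg⟩ : G) ∈ S) ↔ g a = a := Iff.rfl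
          have h3 : ((n : G) * ⟨g, hg⟩ * (n : G)⁻¹ ∈ S) ↔
              ((n : G) : Equiv.Perm α) (g ((((n : G) : Equiv.Perm α))⁻¹ a)) = a := Iff.rfl
          rw [← h2, h1, h3, Equiv.Perm.eq_inv_iff_eq])
      exact ⟨⟨c, hc⟩, e⟩
    choose φ hφ using hex
    let f : N →* C := MonoidHom.mk' φ (by
      intro n m
      apply huniq
      have h1 := hcomm _ (φ n).2 _ (G.inv_mem (m : G).2) a
      simp only [Subgroup.coe_mul, Equiv.Perm.mul_apply, hφ, mul_inv_rev]
      rw [← h1, hφ])
    have hker : f.ker = S.subgroupOf N := by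
      ext n
      rw [MonoidHom.mem_ker, Subgroup.mem_subgroupOf]
      change φ n = 1 ↔ ((n : G) : Equiv.Perm α) a = a
      constructor
      · intro h
        have := hφ n
        rw [h] at this
        simp only [OneMemClass.coe_one, Equiv.Perm.coe_one, id_eq] at this
        rw [Equiv.Perm.eq_inv_iff_eq] at this
        exact this
      · intro h
        apply huniq
        rw [hφ]
        simp only [OneMemClass.coe_one, Equiv.Perm.coe_one, id_eq]
        rw [Equiv.Perm.inv_eq_iff_eq]
        exact h.symm
    have hsurj : Function.Surjective f := by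
      intro c
      obtain ⟨g, hg, e⟩ := H3.Centralizer.trans_of_isPretransitive G ((c : Equiv.Perm α) a) a
      have e' : (c : Equiv.Perm α) a = g⁻¹ a := by rw [Equiv.Perm.eq_inv_iff_eq]; exact e
      have hn : (⟨g, hg⟩ : G) ∈ N := by
        rw [hN, Subgroup.mem_normalizer_iff]
        intro h
        change (h : Equiv.Perm α) a = a ↔ g ((h : Equiv.Perm α) (g⁻¹ a)) = a
        rw [← @Equiv.Perm.eq_inv_iff_eq _ g, ← e', hcomm _ c.2 _ h.2]
        simp
      refine ⟨⟨_, hn⟩, ?_⟩
      apply huniq
      change (φ _ : Equiv.Perm α) a = _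
      rw [hφ, e']
    exact ⟨((QuotientGroup.quotientMulEquivOfEq hker.symm).trans
      (QuotientGroup.quotientKerEquivOfSurjective f hsurj)).symm⟩
  · ext b
    constructor
    · rintro ⟨c, rfl⟩ h
      change ((h : G) : Equiv.Perm α) ((c : Equiv.Perm α) a) = (c : Equiv.Perm α) a
      rw [hcomm _ c.2 _ (h : G).2]
      congr 1
      exact h.2
    · intro hb
      have hle : MulAction.stabilizer G a ≤ MulAction.stabilizer G b := fun h hh => hb ⟨h, hh⟩
      have heq : MulAction.stabilizer G a = MulAction.stabilizer G b := by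
        apply Subgroup.eq_of_le_of_card_ge hle
        have h1 := (MulAction.stabilizer G a).index_mul_card
        have h2 := (MulAction.stabilizer G b).index_mul_card
        rw [MulAction.index_stabilizer_of_transitive] at h1 h2
        have : Nonempty α := ⟨a⟩
        exact (Nat.eq_of_mul_eq_mul_left Nat.card_pos (h2.trans h1.symm)).le
      obtain ⟨c, hc, e⟩ := H3.Centralizer.exists_centralizer_map G a b (by
        intro g hg
        change (⟨g, hg⟩ : G) ∈ MulAction.stabilizer G a ↔ (⟨g, hg⟩ : G) ∈ MulAction.stabilizer G b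
        rw [heq])
      exact ⟨⟨c, hc⟩, e⟩

end Cfsg.Agent.S0702
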