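import Cfsg.Statements.S0703
import Cfsg.Agent.H3.Centralizer
import Cfsg.Agent.H3.MinNormal

set_option autoImplicit false
open Cfsg

namespace Cfsg.Agent.S0703


/-- An abelian transitive minimal normal subgroup `M` of a permutation group on a finite set is self-centralising in the symmetric group, regular, elementary abelian, and is the unique minimal normal subgroup. -/
theorem result {α : Type*} [Finite α] (G : Subgroup (Equiv.Perm α)) (M : Subgroup G) [M.Normal] (hM : M ≠ ⊥) (hmin : ∀ L : Subgroup G, L.Normal → L ≤ M → L = ⊥ ∨ L = M) (hab : IsMulCommutative M) (htrans : MulAction.IsPretransitive M α) : Subgroup.centralizer ((M.map G.subtype : Subgroup (Equiv.Perm α)) : Set (Equiv.Perm α)) = M.map G.subtype ∧ (∀ a : α, MulAction.stabilizer M a = ⊥) ∧ (∃ p : ℕ, p.Prime ∧ ∀ m ∈ M, m ^ p = 1) ∧ ∀ L : Subgroup G, L.Normal → L ≠ ⊥ → (∀ L' : Subgroup G, L'.Normal → L' ≤ L → L' = ⊥ ∨ L' = L) → L = M := by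
  have ht := H3.Centralizer.map_subtype_isPretransitive G M htrans
  have hs := fun c hc a ha => H3.Centralizer.semiregular (M.map G.subtype) c hc a ha
  have hle : M.map G.subtype ≤
      Subgroup.centralizer ((M.map G.subtype : Subgroup (Equiv.Perm α)) : Set (Equiv.Perm α)) := by
    rintro _ ⟨x, hx, rfl⟩
    rw [Subgroup.mem_centralizer_iff]
    rintro _ ⟨y, hy, rfl⟩
    exact congrArg (fun z : M => ((z : G) : Equiv.Perm α)) (hab.is_comm.comm (⟨y, hy⟩ : M) ⟨x, hx⟩)
  have h1 := H3.Centralizer.eq_of_le_of_semiregular _ _ hle ht hs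
  refine ⟨h1.symm, ?_, H3.MinNormal.exists_prime_pow_eq_one M hM hmin hab, ?_⟩
  · intro a
    rw [eq_bot_iff]
    intro g hg
    rw [Subgroup.mem_bot]
    exact Subtype.ext (Subtype.ext (hs _ (hle ⟨g, g.2, rfl⟩) a hg))
  · intro L hL hLne hLmin
    by_contra hne
    have h2 := H3.MinNormal.inf_eq_bot_of_ne L M hLmin hmin hne
    apply hLne
    rw [← h2]
    refine le_antisymm (le_inf le_rfl fun x hx => ?_) inf_le_left
    have : (x : Equiv.Perm α) ∈ M.map G.subtype := by
      rw [h1, Subgroup.mem_centralizer_iff]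
      rintro _ ⟨y, hy, rfl⟩
      exact congrArg Subtype.val (H3.MinNormal.commute_of_inf_eq_bot L M h2 hx hy).symm
    obtain ⟨y, hy, e⟩ := this
    have : y = x := Subtype.ext e
    rwa [← this]

end Cfsg.Agent.S0703
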