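import Cfsg.Statements.S0704
import Cfsg.Agent.H3.TwoMin

set_option autoImplicit false
open Cfsg

namespace Cfsg.Agent.S0704


/-- Two distinct transitive minimal normal subgroups `M`, `N` of a permutation group are regular, non-abelian, isomorphic, each other's centraliser in the symmetric group, and the only minimal normal subgroups. -/
theorem result {α : Type*} (G : Subgroup (Equiv.Perm α)) (M N : Subgroup G) [M.Normal] [N.Normal] (hM : M ≠ ⊥) (hN : N ≠ ⊥) (hMmin : ∀ L : Subgroup G, L.Normal → L ≤ M → L = ⊥ ∨ L = M) (hNmin : ∀ L : Subgroup G, L.Normal → L ≤ N → L = ⊥ ∨ L = N) (hMN : M ≠ N) (hMt : MulAction.IsPretransitive M α) (hNt : MulAction.IsPretransitive N α) : (∀ a : α, MulAction.stabilizer M a = ⊥) ∧ (∀ a : α, MulAction.stabilizer N a = ⊥) ∧ ¬ IsMulCommutative M ∧ Nonempty (M ≃* N) ∧ Subgroup.centralizer ((M.map G.subtype : Subgroup (Equiv.Perm α)) : Set (Equiv.Perm α)) = N.map G.subtype ∧ Subgroup.centralizer ((N.map G.subtype : Subgroup (Equiv.Perm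 α)) : Set (Equiv.Perm α)) = M.map G.subtype ∧ ∀ L : Subgroup G, L.Normal → L ≠ ⊥ → (∀ L' : Subgroup G, L'.Normal → L' ≤ L → L' = ⊥ ∨ L' = L) → L = M ∨ L = N := by
  have hi := H3.MinNormal.inf_eq_bot_of_ne M N hMmin hNmin hMN
  have hc : ∀ x ∈ M, ∀ y ∈ N, x * y = y * x := fun x hx y hy =>
    H3.MinNormal.commute_of_inf_eq_bot M N hi hx hy
  have hc' : ∀ x ∈ N, ∀ y ∈ M, x * y = y * x := fun x hx y hy => (hc y hy x hx).symm
  have hne : Nonempty α := by
    by_contra h
    rw [not_nonempty_iff] at h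
    apply hM
    rw [eq_bot_iff]
    intro x _
    rw [Subgroup.mem_bot]
    exact Subtype.ext (Subsingleton.elim _ _)
  obtain ⟨a⟩ := hne
  refine ⟨H3.TwoMin.stabilizer_eq_bot G N M hc' hNt, H3.TwoMin.stabilizer_eq_bot G M N hc hMt,
    ?_, H3.TwoMin.nonempty_mulEquiv G M N hc hMt hNt a, H3.TwoMin.centralizer_eq G M N hc hMt hNt,
    H3.TwoMin.centralizer_eq G N M hc' hNt hMt, ?_⟩
  · intro hab
    have := H3.TwoMin.le_of_commute G M N M hc hMt hNt (fun x hx y hy =>
      congrArg Subtype.val (hab.is_comm.comm (⟨x, hx⟩ : M) ⟨y, hy⟩))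
    apply hM
    rw [← hi]
    exact (inf_eq_left.mpr this).symm
  · intro L hL hLne hLmin
    by_cases hLM : L = M
    · exact Or.inl hLM
    right
    have h2 := H3.MinNormal.inf_eq_bot_of_ne L M hLmin hMmin hLM
    have := H3.TwoMin.le_of_commute G M N L hc hMt hNt (fun x hx y hy =>
      (H3.MinNormal.commute_of_inf_eq_bot L M h2 hy hx).symm)
    exact (hNmin L hL this).resolve_left hLne

end Cfsg.Agent.S0704
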