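import Cfsg.Statements.S0707
import Mathlib

set_option autoImplicit false
open Cfsg

namespace Cfsg.Agent.S0707


/-- In a primitive permutation group, distinct points have distinct stabilisers unless the group is regular of prime degree. -/
theorem result {α : Type*} (G : Subgroup (Equiv.Perm α)) [MulAction.IsPreprimitive G α] (h : ¬ (Nat.card α).Prime ∨ ∃ a : α, MulAction.stabilizer G a ≠ ⊥) {a b : α} (hab : a ≠ b) : MulAction.stabilizer G a ≠ MulAction.stabilizer G b := by
  intro hst
  have : Nontrivial α := ⟨a, b, hab⟩
  have hco := MulAction.IsPreprimitive.isCoatom_stabilizer_of_isPreprimitive G a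
  -- the set of points with the same stabiliser as `a` is a block
  have hbot : MulAction.stabilizer G a = ⊥ := by
    obtain ⟨g, hg⟩ := MulAction.exists_smul_eq G a b
    have hgn : g ∈ Subgroup.normalizer ((MulAction.stabilizer G a : Subgroup G) : Set G) := by
      rw [Subgroup.mem_normalizer_iff]
      intro h
      conv_rhs => rw [hst, ← hg]
      simp [MulAction.mem_stabilizer_iff, mul_smul]
    have hlt : MulAction.stabilizer G a <
        Subgroup.normalizer ((MulAction.stabilizer G a : Subgroup G) : Set G) := by
      refine lt_of_le_of_ne Subgroup.le_normalizer fun e => hab ?_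
      rw [← e, MulAction.mem_stabilizer_iff] at hgn
      rw [← hg, hgn]
    have htop := hco.2 _ hlt
    have hN : (MulAction.stabilizer G a).Normal := Subgroup.normalizer_eq_top_iff.mp htop
    rw [eq_bot_iff]
    intro h hh
    rw [Subgroup.mem_bot]
    ext x
    obtain ⟨k, rfl⟩ := MulAction.exists_smul_eq G a x
    have := hN.conj_mem h hh k⁻¹
    rw [MulAction.mem_stabilizer_iff, inv_inv, mul_smul, mul_smul, inv_smul_eq_iff] at this
    exact this
  have hall : ∀ x : α, MulAction.stabilizer G x = ⊥ := by
    intro x
    obtain ⟨k, rfl⟩ := MulAction.exists_smul_eq G a x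
    rw [MulAction.stabilizer_smul_eq_stabilizer_map_conj, hbot, Subgroup.map_bot]
  rcases h with h | ⟨x, hx⟩
  swap
  · exact hx (hall x)
  apply h
  have hcard : Nat.card α = Nat.card G := by
    rw [← MulAction.index_stabilizer_of_transitive G a, hbot, Subgroup.index_bot]
  rw [hcard]
  rw [hbot] at hco
  have hsimple : ∀ H : Subgroup G, H = ⊥ ∨ H = ⊤ := fun H => by
    rcases eq_or_ne H ⊥ with h | h
    · exact Or.inl h
    · exact Or.inr (hco.2 H (bot_lt_iff_ne_bot.mpr h))
  have hnt : Nontrivial G := by
    rw [← Subgroup.nontrivial_iff]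
    exact ⟨⊥, ⊤, hco.1⟩
  have hcyc : IsCyclic G := by
    obtain ⟨g, hg⟩ := exists_ne (1 : G)
    refine ⟨g, fun x => ?_⟩
    have : Subgroup.zpowers g = ⊤ := (hsimple _).resolve_left (by simpa using hg)
    have hx : x ∈ Subgroup.zpowers g := by rw [this]; trivial
    exact hx
  letI := IsCyclic.commGroup (α := G)
  have : IsSimpleGroup G := ⟨fun H _ => hsimple H⟩
  exact IsSimpleGroup.prime_card

end Cfsg.Agent.S0707
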