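import Cfsg.Statements.S0709
import Mathlib

set_option autoImplicit false
open Cfsg

namespace Cfsg.Agent.S0709

theorem step {Γ : Type*} [Group Γ] (K L : Subgroup Γ) (x y : Γ) (hy : y ∈ K) (hLK : L ≤ K)
    (hK : ∀ k ∈ K, k ∈ L ∨ ∃ l ∈ L, ∃ l' ∈ L, k = l * y * l') (hx2 : x ^ 2 ∈ L)
    (hxy : (y * x) ^ 3 ∈ K) (hn : ∀ l ∈ L, x * l * x⁻¹ ∈ L) (S : Set Γ)
    (hS : ∀ g ∈ S, g ∈ K ∨ g = x) :
    ∀ g ∈ Subgroup.closure S, g ∈ K ∨ ∃ k ∈ K, ∃ k' ∈ K, g = k * x * k' := by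
  have hn' : ∀ l ∈ L, x⁻¹ * l * x ∈ L := fun l hl => by
    have := L.mul_mem (L.mul_mem (L.inv_mem hx2) (hn l hl)) hx2
    convert this using 1
    group
  have key : ∀ k ∈ K, x * k * x ∈ K ∨ ∃ a ∈ K, ∃ b ∈ K, x * k * x = a * x * b := by
    intro k hk
    rcases hK k hk with h | ⟨l, hl, l', hl', rfl⟩
    · left
      have := K.mul_mem (hLK (hn k h)) (hLK hx2)
      convert this using 1
      group
    · right
      refine ⟨(x * l * x⁻¹) * y⁻¹ * (y * x) ^ 3 * (x ^ 2)⁻¹, ?_, y⁻¹ * (x⁻¹ * l' * x), ?_, ?_⟩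
      · exact K.mul_mem (K.mul_mem (K.mul_mem (hLK (hn l hl)) (K.inv_mem hy)) hxy)
          (K.inv_mem (hLK hx2))
      · exact K.mul_mem (K.inv_mem hy) (hLK (hn' l' hl'))
      · simp only [pow_succ, pow_zero, one_mul]
        group
  let M : Subgroup Γ :=
    { carrier := {g | g ∈ K ∨ ∃ k ∈ K, ∃ k' ∈ K, g = k * x * k'}
      one_mem' := Or.inl K.one_mem
      mul_mem' := by
        rintro g h (hg | ⟨a, ha, b, hb, rfl⟩) (hh | ⟨c, hc, d, hd, rfl⟩)
        · exact Or.inl (K.mul_mem hg hh)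
        · exact Or.inr ⟨g * c, K.mul_mem hg hc, d, hd, by group⟩
        · exact Or.inr ⟨a, ha, b * h, K.mul_mem hb hh, by group⟩
        · rcases key (b * c) (K.mul_mem hb hc) with h1 | ⟨e, he, f, hf, h1⟩
          · left
            have := K.mul_mem (K.mul_mem ha h1) hd
            convert this using 1
            group
          · right
            refine ⟨a * e, K.mul_mem ha he, f * d, K.mul_mem hf hd, ?_⟩
            calc a * x * b * (c * x * d) = a * (x * (b * c) * x) * d := by group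
              _ = _ := by rw [h1]; group
      inv_mem' := by
        rintro g (hg | ⟨a, ha, b, hb, rfl⟩)
        · exact Or.inl (K.inv_mem hg)
        · exact Or.inr ⟨b⁻¹ * (x ^ 2)⁻¹, K.mul_mem (K.inv_mem hb) (K.inv_mem (hLK hx2)), a⁻¹,
            K.inv_mem ha, by group⟩ }
  intro g hg
  refine (Subgroup.closure_le M).mpr ?_ hg
  intro g hg
  rcases hS g hg with h | rfl
  · exact Or.inl h
  · exact Or.inr ⟨1, K.one_mem, 1, K.one_mem, by group⟩


/-- Witt's Lemma for constructing transitive extensions. Points `q 1, …, q t` (`t ≥ 2`) of a finite set are given; `G` fixes `q i` for `i ≥ 3` and is doubly transitive on the remaining points; `s 1 ∈ G` swaps `q 1, q 2`; for `2 ≤ i ≤ t-1`, `s i` swaps `q i, q (i+1)` and fixes the other `q j`; with `H` the stabiliser of `q 1, q 2` in `G`: `s i ^ 2 ∈ H`, `(s i * s (i+1)) ^ 3 ∈ H`, `(s i * s j) ^ 2 ∈ H` for `j ≥ i + 2`, and `s i` (`i ≥ 2`) normalises the stabiliser of `q 2` in `G`.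 Then `G` and the `s i` generate a `t`-transitive group whose pointwise stabiliser of the `q`'s is `H`. -/
theorem result {α : Type*} [Fintype α] [DecidableEq α] (t : ℕ) (ht : 2 ≤ t) (q : ℕ → α) (hq : ∀ i j : ℕ, 1 ≤ i → i ≤ t → 1 ≤ j → j ≤ t → q i = q j → i = j) (G : Subgroup (Equiv.Perm α)) (hfix : ∀ g ∈ G, ∀ i : ℕ, 3 ≤ i → i ≤ t → g (q i) = q i) (h2 : ∀ a b c d : α, (∀ i, 3 ≤ i → i ≤ t → a ≠ q i ∧ b ≠ q i ∧ c ≠ q i ∧ d ≠ q i) → a ≠ b → c ≠ d → ∃ g ∈ G, g a = c ∧ g b = d) (s : ℕ → Equiv.Perm α) (hs1 : s 1 ∈ G) (hs1q : s 1 (q 1) = q 2 ∧ s 1 (q 2) = q 1) (hsq : ∀ i : ℕ, 2 ≤ i → i + 1 ≤ t → s i (q i) = q (i + 1) ∧ s i (q (i + 1)) = q i ∧ ∀ j : ℕ, 1 ≤ j → j ≤ t → j ≠ i → j ≠ i + 1 → s i (q j) = q j) (H : Subgroup (Equiv.Perm α)) (hH : H = G ⊓ MulAction.stabilizer (Equiv.Perm α) (q 1) ⊓ MulAction.stabilizer (Equiv.Perm α) (q 2)) (hsq2 : ∀ i : ℕ, 1 ≤ i → i + 1 ≤ t → s i ^ 2 ∈ H) (hbraid : ∀ i : ℕ, 1 ≤ i → i + 2 ≤ t → (s i *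 s (i + 1)) ^ 3 ∈ H) (hcomm : ∀ i j : ℕ, 1 ≤ i → i + 2 ≤ j → j + 1 ≤ t → (s i * s j) ^ 2 ∈ H ∧ (s j * s i) ^ 2 ∈ H) (hnorm : ∀ i : ℕ, 2 ≤ i → i + 1 ≤ t → ∀ g ∈ G ⊓ MulAction.stabilizer (Equiv.Perm α) (q 2), s i * g * (s i)⁻¹ ∈ G ⊓ MulAction.stabilizer (Equiv.Perm α) (q 2)) : MulAction.IsMultiplyPretransitive ↥(Subgroup.closure ((G : Set (Equiv.Perm α)) ∪ {x | ∃ i : ℕ, 2 ≤ i ∧ i + 1 ≤ t ∧ x = s i})) α t ∧ Subgroup.closure ((G : Set (Equiv.Perm α)) ∪ {x | ∃ i : ℕ, 2 ≤ i ∧ i + 1 ≤ t ∧ x = s i}) ⊓ fixingSubgroup (Equiv.Perm α) {x | ∃ i : ℕ, 1 ≤ i ∧ i ≤ t ∧ x = q i} = H := by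
  classical
  set G₁ := G ⊓ MulAction.stabilizer (Equiv.Perm α) (q 2) with hG₁
  have hHG₁ : H ≤ G₁ := by
    rw [hH]; exact fun g hg => ⟨hg.1.1, hg.2⟩
  let Gs : ℕ → Subgroup (Equiv.Perm α) := fun j =>
    Subgroup.closure ((G₁ : Set (Equiv.Perm α)) ∪ {x | ∃ i : ℕ, 1 ≤ i ∧ i + 1 ≤ j ∧ x = s i})
  have hG₁le : ∀ j, G₁ ≤ Gs j := fun j g hg => Subgroup.subset_closure (Or.inl hg)
  have hsmem : ∀ i j, 1 ≤ i → i + 1 ≤ j → s i ∈ Gs j := fun i j h1 h2 =>
    Subgroup.subset_closure (Or.inr ⟨i, h1, h2, rfl⟩)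
  have hmono : ∀ j, Gs j ≤ Gs (j + 1) := fun j => Subgroup.closure_mono (by
    rintro g (hg | ⟨i, h1, h2, rfl⟩)
    · exact Or.inl hg
    · exact Or.inr ⟨i, h1, by omega, rfl⟩)
  have hGs1 : Gs 1 = G₁ := by
    refine le_antisymm ((Subgroup.closure_le _).mpr ?_) (hG₁le 1)
    rintro g (hg | ⟨i, h1, h2, rfl⟩)
    · exact hg
    · omega
  have hne : ∀ i j, 1 ≤ i → i ≤ t → 1 ≤ j → j ≤ t → i ≠ j → q i ≠ q j :=
    fun i j h1 h2 h3 h4 h5 e => h5 (hq i j h1 h2 h3 h4 e)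
  have hsfix : ∀ i j, 1 ≤ i → i + 1 < j → j ≤ t → s i (q j) = q j := by
    intro i j h1 h2 h3
    by_cases hi : i = 1
    · subst hi; exact hfix _ hs1 j (by omega) h3
    · exact (hsq i (by omega) (by omega)).2.2 j (by omega) h3 (by omega) (by omega)
  have hsswap : ∀ i, 1 ≤ i → i + 1 ≤ t → s i (q (i + 1)) = q i ∧ s i (q i) = q (i + 1) := by
    intro i h1 h2
    by_cases hi : i = 1
    · subst hi; exact ⟨hs1q.2, hs1q.1⟩
    · exact ⟨(hsq i (by omega) h2).2.1, (hsq i (by omega) h2).1⟩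
  have I1 : ∀ j, 1 ≤ j → ∀ i, j < i → i ≤ t → ∀ g ∈ Gs j, g (q i) = q i := by
    intro j hj i hji hi g hg
    have : Gs j ≤ MulAction.stabilizer (Equiv.Perm α) (q i) := by
      refine (Subgroup.closure_le _).mpr ?_
      rintro g (hg | ⟨k, h1, h2, rfl⟩)
      · by_cases hi2 : i = 2
        · subst hi2; exact hg.2
        · exact hfix g hg.1 i (by omega) hi
      · exact hsfix k i h1 (by omega) hi
    exact this hg
  -- transitivity of `G₁`
  have T1 : ∀ z, (∀ i, 1 < i → i ≤ t → z ≠ q i) → ∃ k ∈ Gs 1, k (q 1) = z := by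
    intro z hz
    obtain ⟨g, hg, h1, h2⟩ := h2 (q 1) (q 2) z (q 2) (fun i h3 h4 =>
      ⟨hne _ _ le_rfl (by omega) (by omega) h4 (by omega),
       hne _ _ (by omega) ht (by omega) h4 (by omega), hz i (by omega) h4,
       hne _ _ (by omega) ht (by omega) h4 (by omega)⟩)
      (hne _ _ le_rfl (by omega) (by omega) ht (by omega)) (hz 2 (by omega) ht)
    exact ⟨g, hG₁le 1 ⟨hg, h2⟩, h1⟩
  -- double coset decomposition from transitivity
  have dc : ∀ (j : ℕ) (K : Subgroup (Equiv.Perm α)), 1 ≤ j → j + 1 ≤ t → Gs j ≤ K → s j ∈ K →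
      (∀ k ∈ K, ∀ i, j + 1 < i → i ≤ t → k (q i) = q i) →
      (∀ k ∈ K, k (q (j + 1)) = q (j + 1) → k ∈ Gs j) →
      (∀ z, (∀ i, j < i → i ≤ t → z ≠ q i) → ∃ k ∈ Gs j, k (q j) = z) →
      ∀ k ∈ K, k ∈ Gs j ∨ ∃ l ∈ Gs j, ∃ l' ∈ Gs j, k = l * s j * l' := by
    intro j K h1 h2 hle hs hf hst htr k hk
    by_cases hka : k (q (j + 1)) = q (j + 1)
    · exact Or.inl (hst k hk hka)
    right
    obtain ⟨l, hl, hlz⟩ := htr (k (q (j + 1))) (fun i h3 h4 e => by
      by_cases hi : i = j + 1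
      · subst hi; exact hka e
      · rw [← hf k hk i (by omega) h4] at e
        exact hne _ _ (by omega) h2 (by omega) h4 (by omega) (k.injective e))
    refine ⟨l, hl, (l * s j)⁻¹ * k, hst _ (K.mul_mem (K.inv_mem (K.mul_mem (hle hl) hs)) hk) ?_,
      by group⟩
    rw [Equiv.Perm.mul_apply, Equiv.Perm.inv_eq_iff_eq, Equiv.Perm.mul_apply,
      (hsswap j h1 h2).1, hlz]
  have hG2 : Gs 2 = G := by
    refine le_antisymm ((Subgroup.closure_le _).mpr ?_) ?_
    · rintro g (hg | ⟨i, h1, h2, rfl⟩)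
      · exact hg.1
      · obtain rfl : i = 1 := by omega
        exact hs1
    · intro k hk
      rcases dc 1 G le_rfl ht (by rw [hGs1]; exact inf_le_left) hs1
        (fun k hk i h1 h2 => hfix k hk i (by omega) h2)
        (fun k hk h => hG₁le 1 ⟨hk, h⟩) T1 k hk with h | ⟨l, hl, l', hl', rfl⟩
      · exact hmono 1 h
      · exact (Gs 2).mul_mem ((Gs 2).mul_mem (hmono 1 hl) (hsmem 1 2 le_rfl le_rfl)) (hmono 1 hl')
  -- transitivity passes up
  have Tup : ∀ j, 1 ≤ j → j + 1 ≤ t →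
      (∀ z, (∀ i, j < i → i ≤ t → z ≠ q i) → ∃ k ∈ Gs j, k (q j) = z) →
      ∀ z, (∀ i, j + 1 < i → i ≤ t → z ≠ q i) → ∃ k ∈ Gs (j + 1), k (q (j + 1)) = z := by
    intro j h1 h2 htr z hz
    by_cases hz1 : z = q (j + 1)
    · exact ⟨1, Subgroup.one_mem _, hz1.symm⟩
    obtain ⟨k, hk, hkz⟩ := htr z (fun i h3 h4 => by
      by_cases hi : i = j + 1
      · subst hi; exact hz1
      · exact hz i (by omega) h4)
    refine ⟨k * s j, (Gs (j + 1)).mul_mem (hmono j hk) (hsmem j _ h1 le_rfl), ?_⟩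
    rw [Equiv.Perm.mul_apply, (hsswap j h1 h2).1, hkz]
  have T : ∀ j, 1 ≤ j → j ≤ t →
      ∀ z, (∀ i, j < i → i ≤ t → z ≠ q i) → ∃ k ∈ Gs j, k (q j) = z := by
    intro j h1
    induction j, h1 using Nat.le_induction with
    | base => exact fun _ => T1
    | succ j h1 ih => exact fun h2 => Tup j h1 h2 (ih (by omega))
  have I4 : ∀ j, 1 ≤ j → j + 1 ≤ t →
      ∀ k ∈ Gs (j + 1), k (q (j + 1)) = q (j + 1) → k ∈ Gs j := by
    intro j h1
    induction j, h1 using Nat.le_induction with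
    | base =>
      intro _ k hk h
      rw [hG2] at hk
      exact hG₁le 1 ⟨hk, h⟩
    | succ j h1 ih =>
      intro h2 k hk hka
      have hdc := dc j (Gs (j + 1)) h1 (by omega) (hmono j) (hsmem j _ h1 le_rfl)
        (fun k hk i h3 h4 => I1 (j + 1) (by omega) i h3 h4 k hk) (ih (by omega))
        (T j h1 (by omega))
      have hx2 : s (j + 1) ^ 2 ∈ Gs j := hG₁le j (hHG₁ (hsq2 (j + 1) (by omega) h2))
      have hn : ∀ l ∈ Gs j, s (j + 1) * l * (s (j + 1))⁻¹ ∈ Gs j := by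
        intro l hl
        have : Gs j ≤ (Gs j).comap (MulAut.conj (s (j + 1))).toMonoidHom := by
          refine (Subgroup.closure_le _).mpr ?_
          rintro g (hg | ⟨i, h3, h4, rfl⟩)
          · exact hG₁le j (hnorm (j + 1) (by omega) h2 g hg)
          · have h5 := hG₁le j (hHG₁ (hcomm i (j + 1) h3 (by omega) h2).1)
            have h6 := (Gs j).mul_mem ((Gs j).mul_mem ((Gs j).inv_mem (hsmem i j h3 h4)) h5)
              ((Gs j).inv_mem hx2)
            change s (j + 1) * s i * (s (j + 1))⁻¹ ∈ Gs j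
            convert h6 using 1
            simp only [pow_succ, pow_zero, one_mul]
            group
        exact this hl
      rcases step (Gs (j + 1)) (Gs j) (s (j + 1)) (s j) (hsmem j _ h1 le_rfl) (hmono j) hdc hx2
        (hG₁le _ (hHG₁ (hbraid j h1 h2))) hn _ (by
          rintro g (hg | ⟨i, h3, h4, rfl⟩)
          · exact Or.inl (hG₁le _ hg)
          · by_cases hi : i = j + 1
            · exact Or.inr (by rw [hi])
            · exact Or.inl (hsmem i _ h3 (by omega))) k hk with h | ⟨a, ha, b, hb, rfl⟩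
      · exact h
      · exfalso
        rw [Equiv.Perm.mul_apply, Equiv.Perm.mul_apply, I1 (j + 1) (by omega) _ (by omega) h2 b hb,
          (hsswap (j + 1) (by omega) h2).1] at hka
        rw [← I1 (j + 1) (by omega) _ (by omega) h2 a ha] at hka
        exact hne _ _ (by omega) (by omega) (by omega) h2 (by omega) (a.injective hka)
  have I2 : ∀ j, 1 ≤ j → j ≤ t → ∀ f : ℕ → α,
      (∀ i i', 1 ≤ i → i ≤ j → 1 ≤ i' → i' ≤ j → f i = f i' → i = i') →
      (∀ i, 1 ≤ i → i ≤ j → ∀ i', j < i' → i' ≤ t → f i ≠ q i') →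
      ∃ g ∈ Gs j, ∀ i, 1 ≤ i → i ≤ j → g (q i) = f i := by
    intro j h1
    induction j, h1 using Nat.le_induction with
    | base =>
      intro _ f _ hf
      obtain ⟨k, hk, h⟩ := T1 (f 1) (hf 1 le_rfl le_rfl)
      exact ⟨k, hk, fun i h1 h2 => by obtain rfl : i = 1 := by omega
                                      exact h⟩
    | succ j h1 ih =>
      intro h2 f hinj hf
      obtain ⟨g, hg, hgf⟩ := T (j + 1) (by omega) h2 (f (j + 1)) (hf _ (by omega) le_rfl)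
      obtain ⟨k, hk, hkf⟩ := ih (by omega) (fun i => g⁻¹ (f i))
        (fun i i' h3 h4 h5 h6 e => hinj i i' h3 (by omega) h5 (by omega) (g⁻¹.injective e))
        (fun i h3 h4 i' h5 h6 e => by
          rw [Equiv.Perm.inv_eq_iff_eq] at e
          by_cases hi : i' = j + 1
          · subst hi
            rw [hgf] at e
            have := hinj _ _ h3 (by omega) (by omega) le_rfl e
            omega
          · rw [I1 (j + 1) (by omega) i' (by omega) h6 g hg] at e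
            exact hf i h3 (by omega) i' (by omega) h6 e)
      refine ⟨g * k, (Gs (j + 1)).mul_mem hg (hmono j hk), fun i h3 h4 => ?_⟩
      rw [Equiv.Perm.mul_apply]
      by_cases hi : i = j + 1
      · subst hi
        rw [I1 j h1 _ (by omega) h2 k hk, hgf]
      · rw [hkf i h3 (by omega)]; simp
  have hcl : Subgroup.closure ((G : Set (Equiv.Perm α)) ∪
      {x | ∃ i : ℕ, 2 ≤ i ∧ i + 1 ≤ t ∧ x = s i}) = Gs t := by
    refine le_antisymm ((Subgroup.closure_le _).mpr ?_) ((Subgroup.closure_le _).mpr ?_)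
    · rintro g (hg | ⟨i, h1, h2, rfl⟩)
      · rw [← hG2] at hg
        exact monotone_nat_of_le_succ hmono ht hg
      · exact hsmem i t (by omega) h2
    · rintro g (hg | ⟨i, h1, h2, rfl⟩)
      · exact Subgroup.subset_closure (Or.inl hg.1)
      · by_cases hi : i = 1
        · subst hi; exact Subgroup.subset_closure (Or.inl hs1)
        · exact Subgroup.subset_closure (Or.inr ⟨i, by omega, h2, rfl⟩)
  rw [hcl]
  constructor
  · rw [MulAction.isMultiplyPretransitive_iff]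
    have aux : ∀ x : Fin t ↪ α, ∃ g ∈ Gs t, ∀ i : Fin t, g (q (i + 1)) = x i := by
      intro x
      obtain ⟨g, hg, h⟩ := I2 t (by omega) le_rfl
        (fun i => if h : i - 1 < t then x ⟨i - 1, h⟩ else q 1)
        (fun i i' h1 h2 h3 h4 e => by
          rw [dif_pos (by omega), dif_pos (by omega)] at e
          have := congrArg Fin.val (x.injective e)
          simp only at this
          omega)
        (fun i h1 h2 i' h3 h4 => by omega)
      refine ⟨g, hg, fun i => ?_⟩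
      rw [h (i + 1) (by omega) (by omega), dif_pos (by simp)]
      simp
    intro x y
    obtain ⟨g, hg, hgx⟩ := aux x
    obtain ⟨g', hg', hgy⟩ := aux y
    refine ⟨⟨g' * g⁻¹, (Gs t).mul_mem hg' ((Gs t).inv_mem hg)⟩, ?_⟩
    ext i
    change (g' * g⁻¹) (x i) = y i
    rw [← hgx, ← hgy]; simp
  · ext g
    simp only [Subgroup.mem_inf, mem_fixingSubgroup_iff]
    constructor
    · rintro ⟨hg, hf⟩
      have hf' : ∀ i, 1 ≤ i → i ≤ t → g (q i) = q i := fun i h1 h2 => hf _ ⟨i, h1, h2, rfl⟩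
      have : ∀ n, n + 1 ≤ t → g ∈ Gs (t - n) := by
        intro n
        induction n with
        | zero => exact fun _ => hg
        | succ n ih =>
          intro h
          refine I4 _ (by omega) (by omega) g ?_ (hf' _ (by omega) (by omega))
          rw [show t - (n + 1) + 1 = t - n by omega]
          exact ih (by omega)
      have h1 := this (t - 1) (by omega)
      rw [show t - (t - 1) = 1 by omega, hGs1] at h1
      rw [hH]
      exact ⟨⟨h1.1, hf' 1 le_rfl (by omega)⟩, h1.2⟩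
    · intro hg
      refine ⟨hG₁le t (hHG₁ hg), ?_⟩
      rintro _ ⟨i, h1, h2, rfl⟩
      by_cases hi : i = 1
      · subst hi
        rw [hH] at hg
        exact hg.1.2
      · exact I1 1 le_rfl i (by omega) h2 g (hG₁le 1 (hHG₁ hg))

end Cfsg.Agent.S0709
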