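import Cfsg.Statements.S0710
import Mathlib
import Cfsg.Agent.H3.Burnside2

set_option autoImplicit false
open Cfsg

namespace Cfsg.Agent.S0710


/-- No transitive permutation group on 13 points has order `13 * 12 * 11 * 10 * 9 * 8`. -/
theorem result {α : Type*} [Fintype α] [DecidableEq α] (hα : Fintype.card α = 13) (G : Subgroup (Equiv.Perm α)) [MulAction.IsPretransitive G α] : Nat.card G ≠ 13 * 12 * 11 * 10 * 9 * 8 := by
  intro hG
  have : Fact (Nat.Prime 13) := ⟨by norm_num⟩
  obtain ⟨P⟩ : Nonempty (Sylow 13 G) := inferInstance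
  have hP : Nat.card P = 13 := by
    rw [P.card_eq_multiplicity, hG]
    have : (13 * 12 * 11 * 10 * 9 * 8 : ℕ).factorization 13 = 1 := by
      rw [show (13 * 12 * 11 * 10 * 9 * 8 : ℕ) = 13 * 95040 by norm_num,
        Nat.factorization_mul (by norm_num) (by norm_num)]
      simp only [Finsupp.coe_add, Pi.add_apply]
      rw [Nat.Prime.factorization_self (by norm_num),
        Nat.factorization_eq_zero_of_not_dvd (by norm_num)]
    rw [this]; rfl
  have hcyc : IsCyclic P := isCyclic_of_prime_card hP
  have hne : Nonempty α := Fintype.card_pos_iff.mp (by omega)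
  have htr : MulAction.IsPretransitive (P : Subgroup G) α := by
    obtain ⟨g, hg⟩ : ∃ g : P, g ≠ 1 := by
      have : Nontrivial P := Finite.one_lt_card_iff_nontrivial.mp (by omega)
      exact exists_ne 1
    obtain ⟨x, hx⟩ : ∃ x : α, g • x ≠ x := by
      by_contra hcon
      push Not at hcon
      exact hg (Subtype.ext (Subtype.ext (Equiv.ext hcon)))
    have h1 : MulAction.stabilizer P x = ⊥ := by
      have : Fact (Nat.card P).Prime := ⟨by rw [hP]; norm_num⟩
      refine (Subgroup.eq_bot_or_eq_top_of_prime_card _).resolve_right fun e => hx ?_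
      have : g ∈ MulAction.stabilizer P x := by rw [e]; trivial
      exact this
    have h2 := MulAction.index_stabilizer P x
    rw [h1, Subgroup.index_bot, hP] at h2
    rw [MulAction.isPretransitive_iff_orbit_eq_univ x]
    apply Set.eq_of_subset_of_ncard_le (Set.subset_univ _)
    rw [Set.ncard_univ, Nat.card_eq_fintype_card, hα]
    exact h2.le
  have hcomm : ∀ a ∈ (P : Subgroup G), ∀ b ∈ (P : Subgroup G), a * b = b * a := fun a ha b hb =>
    congrArg Subtype.val (hcyc.isMulCommutative.is_comm.comm (⟨a, ha⟩ : P) ⟨b, hb⟩)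
  have hC : Subgroup.centralizer ((P : Subgroup G) : Set G) ≤ P :=
    H3.Burnside2.le_of_commute (X := α) _ _ _ htr htr hcomm
      (fun a ha l hl => Subgroup.mem_centralizer_iff.mp hl a ha)
  set N := Subgroup.normalizer ((P : Subgroup G) : Set G) with hN
  have h1 : Nat.card (P : Subgroup G).normalizerMonoidHom.ker ∣ 13 := by
    rw [Subgroup.normalizerMonoidHom_ker,
      Nat.card_congr (Subgroup.subgroupOfEquivOfLe (Subgroup.centralizer_le_normalizer _)).toEquiv]
    exact (Subgroup.card_dvd_of_le hC).trans hP.dvd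
  have h2 : Nat.card (P : Subgroup G).normalizerMonoidHom.range ∣ 12 := by
    refine (Subgroup.card_subgroup_dvd_card _).trans ?_
    rw [IsCyclic.card_mulAut, hP]
    decide
  have h3 : Nat.card N ∣ 13 * 12 := by
    rw [← (P : Subgroup G).normalizerMonoidHom.ker.card_mul_index, Subgroup.index_ker]
    exact mul_dvd_mul h1 h2
  have h4 : 13 ∣ Nat.card N := hP ▸ Subgroup.card_dvd_of_le Subgroup.le_normalizer
  have h5 := card_sylow_modEq_one 13 G
  rw [P.card_eq_index_normalizer] at h5
  have h6 := N.index_mul_card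
  obtain ⟨d, hd⟩ := h4
  rw [hd] at h3 h6
  have h7 : d ∣ 12 := Nat.dvd_of_mul_dvd_mul_left (by norm_num) h3
  have h8 : d ≤ 12 := Nat.le_of_dvd (by norm_num) h7
  rw [hG] at h6
  change N.index ≡ 1 [MOD 13] at h5
  unfold Nat.ModEq at h5
  interval_cases d <;> omega

end Cfsg.Agent.S0710
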