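import Cfsg.Statements.S0714
import Cfsg.Agent.H1.PermMod

set_option autoImplicit false
open Cfsg

namespace Cfsg.Agent.S0714

open MulAction Cfsg.Agent.H1.PermMod Equiv

theorem exists_notMem {α : Type*} [Fintype α] [DecidableEq α] (s : Finset α)
    (h : s.card < Fintype.card α) : ∃ x, x ∉ s := by
  by_contra hc
  push Not at hc
  rw [Finset.eq_univ_iff_forall.2 hc] at h
  simp at h

theorem three_mem {α : Type*} [Fintype α] [DecidableEq α] {a b c : α} (hab : a ≠ b) (hac : a ≠ c) :
    swap a b * swap a c ∈ alternatingGroup α := by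
  simp [Perm.mem_alternatingGroup, hab, hac]


/-- Over any field, the permutation module of the alternating group of degree at least 5 has exactly four invariant subspaces: zero, the constant functions, the functions with coordinate sum zero, and everything. -/
theorem result {α : Type*} [Fintype α] [DecidableEq α] (hα : 5 ≤ Fintype.card α) {K : Type*} [Field K] (W : Subrepresentation (Cfsg.permRep K (alternatingGroup α) α)) : W.toSubmodule = ⊥ ∨ W = Cfsg.permConstants K (alternatingGroup α) α ∨ W = Cfsg.permSumZero K (alternatingGroup α) α ∨ W.toSubmodule = ⊤ := by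
  classical
  by_cases hC : W.toSubmodule ≤ (permConstants K (alternatingGroup α) α).toSubmodule
  · by_cases h0 : W.toSubmodule = ⊥
    · exact Or.inl h0
    · right; left
      obtain ⟨f, hf, hf0⟩ := (Submodule.ne_bot_iff _).1 h0
      obtain ⟨c, hc⟩ := mem_constants.1 (hC hf)
      have hc0 : c ≠ 0 := by
        rintro rfl; exact hf0 (funext hc)
      refine Subrepresentation.ext (le_antisymm hC ?_)
      intro g hg
      obtain ⟨d, hd⟩ := mem_constants.1 hg
      have : g = (d / c) • f := by funext x; simp [hc, hd, hc0]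
      rw [this]; exact W.toSubmodule.smul_mem _ hf
  obtain ⟨f, hf, hfC⟩ := SetLike.not_le_iff_exists.1 hC
  have hne : Nonempty α := Fintype.card_pos_iff.1 (by omega)
  obtain ⟨a, b, hab⟩ : ∃ a b, f a ≠ f b := by
    by_contra hc
    push Not at hc
    exact hfC (mem_constants.2 ⟨f hne.some, fun x => hc _ _⟩)
  have hab' : a ≠ b := by rintro rfl; exact hab rfl
  obtain ⟨c, hc⟩ := exists_notMem {a, b} (by have := Finset.card_le_two (a := a) (b := b); omega)
  obtain ⟨d, hd⟩ := exists_notMem {a, b, c}
    (by have := Finset.card_le_three (a := a) (b := b) (c := c); omega)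
  obtain ⟨e, he⟩ := exists_notMem {a, b, c, d}
    (by have := Finset.card_le_four (a := a) (b := b) (c := c) (d := d); omega)
  simp only [Finset.mem_insert, Finset.mem_singleton, not_or] at hc hd he
  let σ : alternatingGroup α := ⟨swap a c * swap a b, three_mem (Ne.symm hc.1) hab'⟩
  let τ : alternatingGroup α := ⟨swap a e * swap a d, three_mem (Ne.symm he.1) (Ne.symm hd.1)⟩
  let h := f - permRep K _ α σ⁻¹ f
  have hh : h ∈ W.toSubmodule := W.toSubmodule.sub_mem hf (W.apply_mem_toSubmodule _ hf)
  have hha : h a ≠ 0 := by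
    simp only [h, Pi.sub_apply, permRep_apply, inv_inv, σ, Subgroup.mk_smul, Perm.smul_def,
      Perm.mul_apply, swap_apply_left]
    rw [swap_apply_of_ne_of_ne hab'.symm (Ne.symm hc.2)]
    exact sub_ne_zero.2 hab
  have hh0 : ∀ x, x ≠ a → x ≠ b → x ≠ c → h x = 0 := by
    intro x h1 h2 h3
    simp only [h, Pi.sub_apply, permRep_apply, inv_inv, σ, Subgroup.mk_smul, Perm.smul_def,
      Perm.mul_apply]
    rw [swap_apply_of_ne_of_ne h1 h2, swap_apply_of_ne_of_ne h1 h3, sub_self]
  have hk : Pi.single a (1 : K) - Pi.single e 1 ∈ W.toSubmodule := by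
    have hk1 := W.toSubmodule.smul_mem (h a)⁻¹
      (W.toSubmodule.sub_mem hh (W.apply_mem_toSubmodule τ⁻¹ hh))
    convert hk1 using 1
    funext x
    simp only [Pi.sub_apply, permRep_apply, inv_inv, τ, Subgroup.mk_smul, Perm.smul_def,
      Perm.mul_apply, Pi.smul_apply, smul_eq_mul]
    have hd0 := hh0 d hd.1 hd.2.1 hd.2.2
    have he0 := hh0 e he.1 he.2.1 he.2.2.1
    by_cases h1 : x = a
    · subst h1
      rw [swap_apply_left, swap_apply_of_ne_of_ne hd.1 (Ne.symm he.2.2.2), hd0]
      simp [hha, Ne.symm he.1]
    by_cases h2 : x = d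
    · subst h2
      rw [swap_apply_right, swap_apply_left, hd0, he0]
      simp [h1, Ne.symm he.2.2.2]
    by_cases h3 : x = e
    · subst h3
      rw [swap_apply_of_ne_of_ne h1 h2, swap_apply_right, he0]
      simp [h1, hha]
    · rw [swap_apply_of_ne_of_ne h1 h2, swap_apply_of_ne_of_ne h1 h3]
      simp [h1, h3]
  have h2t : IsMultiplyPretransitive (alternatingGroup α) α 2 := by
    have := alternatingGroup.isMultiplyPretransitive α
    apply isMultiplyPretransitive_of_le (n := Nat.card α - 2)
    · rw [Nat.card_eq_fintype_card]; omega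
    · omega
  rw [is_two_pretransitive_iff] at h2t
  have hall : ∀ x, Pi.single x (1 : K) - Pi.single a 1 ∈ W.toSubmodule := by
    intro x
    by_cases hx : x = a
    · simp [hx]
    obtain ⟨g, hg1, hg2⟩ := h2t (Ne.symm he.1) hx
    have := W.apply_mem_toSubmodule g hk
    rwa [map_sub, permRep_single, permRep_single, hg1, hg2] at this
  have hdec : ∀ v : α → K, v - (∑ x, v x) • Pi.single a (1 : K) ∈ W.toSubmodule := by
    intro v
    have : v - (∑ x, v x) • Pi.single a (1 : K) =
        ∑ x, v x • (Pi.single x (1 : K) - Pi.single a 1) := by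
      simp only [smul_sub, Finset.sum_sub_distrib, ← Finset.sum_smul]
      congr 1
      funext y
      simp [Finset.sum_apply, Pi.single_apply]
    rw [this]
    exact W.toSubmodule.sum_mem fun x _ => W.toSubmodule.smul_mem _ (hall x)
  by_cases hS : W.toSubmodule ≤ (permSumZero K (alternatingGroup α) α).toSubmodule
  · right; right; left
    refine Subrepresentation.ext (le_antisymm hS fun v hv => ?_)
    have := hdec v
    rwa [mem_sumZero.1 hv, zero_smul, sub_zero] at this
  · right; right; right
    obtain ⟨w, hw, hw0⟩ := SetLike.not_le_iff_exists.1 hS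
    rw [mem_sumZero] at hw0
    have h1 : Pi.single a (1 : K) ∈ W.toSubmodule := by
      have := W.toSubmodule.smul_mem (∑ x, w x)⁻¹ (W.toSubmodule.sub_mem hw (hdec w))
      rwa [sub_sub_cancel, smul_smul, inv_mul_cancel₀ hw0, one_smul] at this
    rw [eq_top_iff]
    intro v _
    have := W.toSubmodule.add_mem (hdec v) (W.toSubmodule.smul_mem (∑ x, v x) h1)
    rwa [sub_add_cancel] at this

end Cfsg.Agent.S0714
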