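import Cfsg.Statements.S0715
import Cfsg.Agent.H1.PermChar

set_option autoImplicit false
open Cfsg

namespace Cfsg.Agent.S0715

open MulAction Cfsg.Agent.H1.Char Cfsg.Agent.H1.PermMod Cfsg.Agent.H1.PermChar Finset

theorem dvd_of_isIntegral {f k : ℕ} {z : ℂ} (hz : IsIntegral ℤ z) (h : (k : ℂ) = f * z) : f ∣ k := by
  rcases Nat.eq_zero_or_pos f with rfl | hf
  · have : (k : ℂ) = 0 := by simpa using h
    have : k = 0 := by exact_mod_cast this
    simp [this]
  have hf' : (f : ℂ) ≠ 0 := by exact_mod_cast hf.ne'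
  have h1 : z = algebraMap ℚ ℂ ((k : ℚ) / f) := by
    simp only [map_div₀, map_natCast, h]; field_simp
  rw [h1, isIntegral_algebraMap_iff (algebraMap ℚ ℂ).injective] at hz
  obtain ⟨y, hy⟩ := IsIntegrallyClosed.algebraMap_eq_of_integral hz
  have hf'' : (f : ℚ) ≠ 0 := by exact_mod_cast hf.ne'
  have h2 : (k : ℚ) = f * y := by
    simp only [algebraMap_int_eq, eq_intCast] at hy
    rw [hy]; field_simp
  have h3 : (k : ℤ) = f * y := by exact_mod_cast h2
  exact Int.natCast_dvd_natCast.1 ⟨y, h3⟩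


/-- If a natural number `f` divides the degree of every non-principal irreducible constituent of the permutation character of a transitive group, then `f` divides every non-trivial subdegree. -/
theorem result {G : Type*} [Group G] [Fintype G] {Ω : Type*} [Fintype Ω] [MulAction G Ω] [MulAction.IsPretransitive G Ω] (f : ℕ) (hf : ∀ χ : G → ℂ, Cfsg.IsIrrCharacter G χ → χ ≠ (fun _ => 1) → Cfsg.classInner (fun g : G => (Nat.card (MulAction.fixedBy Ω g) : ℂ)) χ ≠ 0 → ∃ m : ℕ, χ 1 = (f : ℂ) * m) (a b : Ω) (hab : b ≠ a) : f ∣ Nat.card (MulAction.orbit (MulAction.stabilizer G a) b) := by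
  classical
  let R : Ω → Ω → Prop := fun x y => (x, y) ∈ orbit G (a, b)
  have hR : ∀ (g : G) x y, R (g • x) (g • y) ↔ R x y := orbit_rel_smul _
  obtain ⟨s, hs1, hs2, hs3⟩ := exists_spectral_rel R hR a
  have h1 := hs3 1 1
  rw [pow_one, trace_mul_relMap R hR] at h1
  have h2 : (univ.filter fun x : Ω => R x ((1 : G) • x)) = ∅ := by
    rw [filter_eq_empty_iff]
    rintro x - ⟨g, hg⟩
    rw [one_smul] at hg
    exact hab (smul_left_cancel g ((congrArg Prod.snd hg).trans (congrArg Prod.fst hg).symm))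
  rw [h2] at h1
  have h3 : ∀ x ∈ s, ∃ m : ℕ, x.2 1 = (f : ℂ) * m := by
    intro x hx
    apply hf x.2 (hs1 x hx).2.1 (hs1 x hx).2.2
    rw [hs2, classInner_sum_irr _ (hs1 x hx).2.1]
    · have : x.2 ∈ (fun _ => 1) ::ₘ s.map Prod.snd :=
        Multiset.mem_cons_of_mem (Multiset.mem_map_of_mem _ hx)
      exact_mod_cast (Multiset.count_pos.2 this).ne'
    · intro χ hχ
      rcases Multiset.mem_cons.1 hχ with rfl | hχ
      · exact isIrr_trivial
      · obtain ⟨x, hx, rfl⟩ := Multiset.mem_map.1 hχ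
        exact (hs1 x hx).2.1
  have h4 : ∀ t : Multiset (ℂ × (G → ℂ)), (∀ x ∈ t, IsIntegral ℤ x.1 ∧ ∃ m : ℕ, x.2 1 = (f : ℂ) * m) →
      ∃ z : ℂ, IsIntegral ℤ z ∧ (t.map fun x => x.1 ^ 1 * x.2 1).sum = f * z := by
    intro t
    induction t using Multiset.induction_on with
    | empty => intro _; exact ⟨0, isIntegral_zero, by simp⟩
    | cons x t ih =>
      intro h
      obtain ⟨z, hz1, hz2⟩ := ih fun y hy => h y (Multiset.mem_cons_of_mem hy)
      obtain ⟨h5, m, hm⟩ := h x (Multiset.mem_cons_self _ _)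
      refine ⟨x.1 * m + z, (h5.mul (isIntegral_natCast m)).add hz1, ?_⟩
      rw [Multiset.map_cons, Multiset.sum_cons, hz2, hm]; ring
  obtain ⟨z, hz1, hz2⟩ := h4 s fun x hx => ⟨isIntegral_of_hasEigenvalue R (hs1 x hx).1, h3 x hx⟩
  rw [card_suborbit]
  apply dvd_of_isIntegral hz1.neg
  rw [hz2] at h1
  simp only [card_empty, Nat.cast_zero, pow_one] at h1
  linear_combination -h1

end Cfsg.Agent.S0715
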