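import Cfsg.Statements.S0716
import Cfsg.Agent.S0715

set_option autoImplicit false
open Cfsg

namespace Cfsg.Agent.S0716

open MulAction Cfsg.Agent.H1.Char Cfsg.Agent.H1.PermMod Cfsg.Agent.H1.PermChar Finset

theorem card_eq_sum_orbits {H Ω : Type*} [Group H] [MulAction H Ω] [Fintype Ω]
    [Fintype (orbitRel.Quotient H Ω)] :
    Fintype.card Ω = ∑ q : orbitRel.Quotient H Ω, Nat.card q.orbit := by
  rw [← Nat.card_eq_fintype_card, Nat.card_congr (selfEquivSigmaOrbits' H Ω), Nat.card_sigma]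

open Classical in
theorem exists_decomp {G : Type*} [Group G] [Fintype G] {Ω : Type*} [Fintype Ω] [MulAction G Ω]
    [IsPretransitive G Ω] (a : Ω) :
    ∃ t : Multiset (G → ℂ), (∀ χ ∈ t, IsIrrCharacter G χ ∧ χ ≠ fun _ => 1) ∧
      (∀ χ, IsIrrCharacter G χ → χ ≠ (fun _ => 1) →
        classInner (fun g : G => (Nat.card (fixedBy Ω g) : ℂ)) χ = t.count χ) ∧
      (Fintype.card Ω : ℂ) = 1 + (t.map fun χ => χ 1).sum ∧
      Nat.card (orbitRel.Quotient (stabilizer G a) Ω) = 1 + (t.map fun χ => t.count χ).sum := by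
  have : Nonempty Ω := ⟨a⟩
  obtain ⟨s, hs1, hs2, -⟩ := exists_spectral_rel (G := G) (fun _ _ : Ω => True) (by simp) a
  have h1 : ∀ χ ∈ s.map Prod.snd, IsIrrCharacter G χ ∧ χ ≠ fun _ => 1 := by
    intro χ hχ
    obtain ⟨x, hx, rfl⟩ := Multiset.mem_map.1 hχ
    exact (hs1 x hx).2
  have h2 : ∀ χ, IsIrrCharacter G χ → χ ≠ (fun _ => 1) →
      classInner (fun g : G => (Nat.card (fixedBy Ω g) : ℂ)) χ = (s.map Prod.snd).count χ := by
    intro χ hχ hχ1
    rw [hs2, classInner_sum_irr _ hχ, Multiset.count_cons_of_ne hχ1]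
    intro χ hχ
    rcases Multiset.mem_cons.1 hχ with rfl | hχ
    · exact isIrr_trivial
    · exact (h1 χ hχ).1
  refine ⟨s.map Prod.snd, h1, h2, ?_, ?_⟩
  · have := congrFun hs2 1
    rw [Cfsg.Agent.H1.Derange.card_fixedBy_one, Nat.card_eq_fintype_card, Multiset.sum_cons,
      Pi.add_apply, multiset_sum_apply] at this
    exact this
  · have h3 := classInner_perm_perm (G := G) (Ω := Ω)
    rw [Cfsg.Agent.S0669.result a] at h3
    have h4 := classInner_sum_right (fun g : G => (Nat.card (fixedBy Ω g) : ℂ))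
      ((fun _ => 1) ::ₘ s.map Prod.snd)
    rw [← hs2, h3, Multiset.map_cons, Multiset.sum_cons, classInner_perm_one,
      Multiset.map_congr rfl (fun χ hχ => h2 χ (h1 χ hχ).1 (h1 χ hχ).2)] at h4
    have h5 : ((1 + ((s.map Prod.snd).map fun χ => (s.map Prod.snd).count χ).sum : ℕ) : ℂ) =
        1 + ((s.map Prod.snd).map fun χ => ((s.map Prod.snd).count χ : ℂ)).sum := by
      rw [Nat.cast_add, Nat.cast_one, Nat.cast_multiset_sum, Multiset.map_map]; rfl
    rw [← h5] at h4
    exact_mod_cast h4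

theorem count_ineq {α : Type*} [DecidableEq α] (t : Multiset α) (χ : α) :
    t.card + t.count χ * t.count χ ≤ (t.map fun ψ => t.count ψ).sum + t.count χ := by
  have h1 : (t.map fun ψ => t.count ψ).sum =
      ((t.filter (χ = ·)).map fun ψ => t.count ψ).sum +
        ((t.filter (¬ χ = ·)).map fun ψ => t.count ψ).sum := by
    conv_lhs => rw [← Multiset.filter_add_not (χ = ·) t]
    rw [Multiset.map_add, Multiset.sum_add, Multiset.filter_add_not]
  have h2 : t.card = t.count χ + (t.filter (¬ χ = ·)).card := by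
    conv_lhs => rw [← Multiset.filter_add_not (χ = ·) t]
    rw [Multiset.card_add, Multiset.count_eq_card_filter_eq]
  have h3 : ((t.filter (χ = ·)).map fun ψ => t.count ψ).sum = t.count χ * t.count χ := by
    rw [Multiset.filter_eq]; simp
  have h4 : (t.filter (¬ χ = ·)).card ≤ ((t.filter (¬ χ = ·)).map fun ψ => t.count ψ).sum := by
    have := Multiset.card_nsmul_le_sum (s := (t.filter (¬ χ = ·)).map fun ψ => t.count ψ) (a := 1)
      (by
        intro x hx
        obtain ⟨ψ, hψ, rfl⟩ := Multiset.mem_map.1 hx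
        exact Multiset.count_pos.2 (Multiset.mem_of_mem_filter hψ))
    simpa using this
  omega

theorem partA {G : Type*} [Group G] [Fintype G] {Ω : Type*} [Fintype Ω] [MulAction G Ω] [MulAction.IsPretransitive G Ω] (a : Ω) (f : ℕ) (hf : ∀ χ : G → ℂ, Cfsg.IsIrrCharacter G χ → χ ≠ (fun _ => 1) → Cfsg.classInner (fun g : G => (Nat.card (MulAction.fixedBy Ω g) : ℂ)) χ ≠ 0 → χ 1 = f) : (∀ χ : G → ℂ, Cfsg.IsIrrCharacter G χ → Cfsg.classInner (fun g : G => (Nat.card (MulAction.fixedBy Ω g) : ℂ)) χ = 0 ∨ Cfsg.classInner (fun g : G => (Nat.card (MulAction.fixedBy Ω g) : ℂ)) χ = 1) ∧ ∀ b : Ω, b ≠ a → Nat.card (MulAction.orbit (MulAction.stabilizer G a) b) = f := by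
  classical
  have : Nonempty Ω := ⟨a⟩
  obtain ⟨t, ht1, ht2, ht3, ht4⟩ := exists_decomp (G := G) a
  have h1 : ∀ χ ∈ t, χ 1 = f := by
    intro χ hχ
    apply hf χ (ht1 χ hχ).1 (ht1 χ hχ).2
    rw [ht2 χ (ht1 χ hχ).1 (ht1 χ hχ).2]
    exact_mod_cast (Multiset.count_pos.2 hχ).ne'
  have h2 : Fintype.card Ω = 1 + t.card * f := by
    rw [Multiset.map_congr rfl h1] at ht3
    simp only [Multiset.map_const', Multiset.sum_replicate, nsmul_eq_mul] at ht3
    exact_mod_cast ht3
  have h3 : ∀ b : Ω, b ≠ a → f ≤ Nat.card (orbit (stabilizer G a) b) := by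
    intro b hb
    have : Nonempty (orbit (stabilizer G a) b) := ⟨⟨b, mem_orbit_self b⟩⟩
    exact Nat.le_of_dvd Nat.card_pos (Cfsg.Agent.S0715.result f
      (fun χ h1 h2 h3 => ⟨1, by rw [hf χ h1 h2 h3]; simp⟩) a b hb)
  have := Fintype.ofFinite (orbitRel.Quotient (stabilizer G a) Ω)
  have h4 := card_eq_sum_orbits (H := stabilizer G a) (Ω := Ω)
  let q₀ : orbitRel.Quotient (stabilizer G a) Ω := Quotient.mk'' a
  have hq₀ : Nat.card q₀.orbit = 1 := by
    have : q₀.orbit = {a} := by
      rw [orbitRel.Quotient.orbit_mk]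
      ext y
      constructor
      · rintro ⟨g, rfl⟩; exact g.2
      · rintro rfl; exact mem_orbit_self _
    rw [this]; simp
  rw [← add_sum_erase _ _ (mem_univ q₀), hq₀] at h4
  have h5 : ∀ q ∈ univ.erase q₀, f ≤ Nat.card q.orbit := by
    intro q hq
    induction q using Quotient.inductionOn' with
    | h b =>
      rw [orbitRel.Quotient.orbit_mk]
      apply h3
      rintro rfl
      exact (mem_erase.1 hq).1 rfl
  have h6 := card_nsmul_le_sum _ _ _ h5
  have h7 : (univ.erase q₀).card = (t.map fun χ => t.count χ).sum := by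
    rw [card_erase_of_mem (mem_univ _), card_univ, ← Nat.card_eq_fintype_card, ht4]; omega
  rw [smul_eq_mul, h7] at h6
  constructor
  · intro χ hχ
    by_cases hχ1 : χ = fun _ => 1
    · right; rw [hχ1]; exact classInner_perm_one
    rw [ht2 χ hχ hχ1]
    by_cases hχt : χ ∈ t
    · right
      have hc := Multiset.count_pos.2 hχt
      obtain ⟨n, hn, hn'⟩ := irr_one hχ
      have hf0 : 0 < f := by
        rw [h1 χ hχt] at hn'
        have : f = n := by exact_mod_cast hn'
        omega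
      have h8 := count_ineq t χ
      have h9 : (t.map fun χ => t.count χ).sum ≤ t.card :=
        Nat.le_of_mul_le_mul_right (by omega) hf0
      have h10 : t.count χ = 1 := by nlinarith
      rw [h10]; simp
    · left
      rw [Multiset.count_eq_zero_of_notMem hχt]; simp
  · intro b hb
    have h8 := count_ineq t (fun _ => 1)
    rw [Multiset.count_eq_zero_of_notMem (fun h => (ht1 _ h).2 rfl)] at h8
    have h9 : ∑ q ∈ univ.erase q₀, f = ∑ q ∈ univ.erase q₀, Nat.card q.orbit := by
      rw [sum_const, smul_eq_mul, h7]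
      have := Nat.mul_le_mul_right f (show t.card ≤ (t.map fun χ => t.count χ).sum by omega)
      omega
    have h10 := (sum_eq_sum_iff_of_le h5).1 h9 (Quotient.mk'' b) (by
      rw [mem_erase]
      refine ⟨fun h => hb ?_, mem_univ _⟩
      obtain ⟨g, hg⟩ := orbitRel_apply.1 (Quotient.exact' h)
      exact hg.symm.trans g.2)
    rw [orbitRel.Quotient.orbit_mk] at h10
    exact h10.symm


/-- (a) If all non-principal irreducible constituents of the permutation character of a transitive group have the same degree `f`, the character is multiplicity-free and all non-trivial subdegrees equal `f`. (b) A transitive group of rank at most 5 has multiplicity-free permutation character. -/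
theorem result {G : Type*} [Group G] [Fintype G] {Ω : Type*} [Fintype Ω] [MulAction G Ω] [MulAction.IsPretransitive G Ω] (a : Ω) : ((f : ℕ) → (∀ χ : G → ℂ, Cfsg.IsIrrCharacter G χ → χ ≠ (fun _ => 1) → Cfsg.classInner (fun g : G => (Nat.card (MulAction.fixedBy Ω g) : ℂ)) χ ≠ 0 → χ 1 = f) → (∀ χ : G → ℂ, Cfsg.IsIrrCharacter G χ → Cfsg.classInner (fun g : G => (Nat.card (MulAction.fixedBy Ω g) : ℂ)) χ = 0 ∨ Cfsg.classInner (fun g : G => (Nat.card (MulAction.fixedBy Ω g) : ℂ)) χ = 1) ∧ ∀ b : Ω, b ≠ a → Nat.card (MulAction.orbit (MulAction.stabilizer G a) b) = f) ∧ (Nat.card (MulAction.orbitRel.Quotient (MulAction.stabilizer G a) Ω) ≤ 5 → ∀ χ : G → ℂ, Cfsg.IsIrrCharacter G χ → Cfsg.classInner (fun g : G => (Nat.card (MulAction.fixedBy Ω g) : ℂ)) χ = 0 ∨ Cfsg.classInner (fun g : G => (Nat.card (MulAction.fixedBy Ω g) : ℂ)) χ = 1) := by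
  classical
  refine ⟨fun f hf => partA a f hf, fun hr χ hχ => ?_⟩
  have : Nonempty Ω := ⟨a⟩
  obtain ⟨t, ht1, ht2, ht3, ht4⟩ := exists_decomp (G := G) a
  by_cases hχ1 : χ = fun _ => 1
  · right; rw [hχ1]; exact classInner_perm_one
  by_cases hc : t.count χ ≤ 1
  · rw [ht2 χ hχ hχ1]
    rcases Nat.le_one_iff_eq_zero_or_eq_one.1 hc with h | h <;> simp [h]
  obtain ⟨n, -, hn⟩ := irr_one hχ
  apply (partA a n _).1 χ hχ
  intro ψ hψ hψ1 hψ0
  rw [ht2 ψ hψ hψ1] at hψ0
  have h1 : ψ ∈ t := Multiset.count_pos.1 (Nat.pos_of_ne_zero (by exact_mod_cast hψ0))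
  have h2 := count_ineq t χ
  have h3 := Multiset.count_le_card χ t
  have h4 : t.count χ = t.card := by nlinarith
  rw [Multiset.count_eq_card] at h4
  rw [← h4 ψ h1, hn]

end Cfsg.Agent.S0716
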