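import Cfsg.Statements.S0717
import Cfsg.Agent.H1.Commutant

set_option autoImplicit false
open Cfsg

namespace Cfsg.Agent.S0717

open MulAction Cfsg.Agent.H1.Char Cfsg.Agent.H1.PermMod Cfsg.Agent.H1.PermChar Finset
  Cfsg.Agent.H1.Commutant Representation Module

theorem apply_eq_sum {Ω : Type*} [Fintype Ω] [DecidableEq Ω] (S : End ℂ (Ω → ℂ)) (v : Ω → ℂ) :
    S v = ∑ y, v y • S (Pi.single y 1) := by
  conv_lhs => rw [pi_eq_sum_univ' v]
  simp [map_sum]

theorem real_of_sum {G : Type*} [Fintype G] (z : G → ℂ)
    (h : ∑ g, z g * z g = ∑ g, z g * (starRingEnd ℂ) (z g)) (g : G) :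
    (starRingEnd ℂ) (z g) = z g := by
  have h1 : ∑ g, (z g).im ^ 2 = 0 := by
    have h2 := congrArg Complex.re h
    simp only [Complex.re_sum, Complex.mul_re, Complex.conj_re, Complex.conj_im] at h2
    have h3 : ∑ g, (z g).im ^ 2 * 2 = 0 := by
      rw [← sub_eq_zero, ← sum_sub_distrib] at h2
      rw [← neg_eq_zero, ← h2, ← sum_neg_distrib]
      refine sum_congr rfl fun g _ => by ring
    rw [← sum_mul] at h3
    linarith
  rw [sum_eq_zero_iff_of_nonneg (fun g _ => sq_nonneg _)] at h1
  exact Complex.conj_eq_iff_im.2 (pow_eq_zero_iff two_ne_zero |>.1 (h1 g (mem_univ g)))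


/-- All suborbits of a transitive group are self-paired (every pair of points is interchanged by some group element) if and only if the permutation character is multiplicity-free and each of its irreducible constituents is real-valued. -/
theorem result {G : Type*} [Group G] [Fintype G] {Ω : Type*} [Fintype Ω] [MulAction G Ω] [MulAction.IsPretransitive G Ω] : (∀ a b : Ω, ∃ g : G, g • a = b ∧ g • b = a) ↔ ∀ χ : G → ℂ, Cfsg.IsIrrCharacter G χ → Cfsg.classInner (fun g : G => (Nat.card (MulAction.fixedBy Ω g) : ℂ)) χ ≠ 0 → Cfsg.classInner (fun g : G => (Nat.card (MulAction.fixedBy Ω g) : ℂ)) χ = 1 ∧ ∀ g : G, (starRingEnd ℂ) (χ g) = χ g := by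
  classical
  rw [← perm_char]
  constructor
  · intro h
    have hsym : ∀ S : End ℂ (Ω → ℂ), (∀ g, Commute S (permRep ℂ G Ω g)) →
        ∀ x y, S (Pi.single x 1) y = S (Pi.single y 1) x := by
      intro S hS x y
      obtain ⟨g, h1, h2⟩ := h x y
      have := congr($(hS g) (Pi.single x 1) x)
      rw [End.mul_apply, End.mul_apply, permRep_single, permRep_apply, h1] at this
      rw [this, ← h2, inv_smul_smul, h2]
    have hcomm : ∀ S T : End ℂ (Ω → ℂ), (∀ g, Commute S (permRep ℂ G Ω g)) →
        (∀ g, Commute T (permRep ℂ G Ω g)) → S * T = T * S := by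
      intro S T hS hT
      apply LinearMap.pi_ext'
      intro x
      apply LinearMap.ext_ring
      funext y
      change (S * T) (Pi.single x 1) y = (T * S) (Pi.single x 1) y
      rw [hsym _ (fun g => (hT g).mul_left (hS g)), End.mul_apply, End.mul_apply, apply_eq_sum S,
        apply_eq_sum T (S _)]
      simp only [Finset.sum_apply, Pi.smul_apply, smul_eq_mul]
      refine sum_congr rfl fun z _ => ?_
      rw [hsym S hS z y, hsym T hT x z, mul_comm]
    intro χ hχ hχ0
    refine ⟨(mult_free_of_comm _ hcomm χ hχ).resolve_left hχ0, ?_⟩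
    have hE : ∑ g : G, χ g⁻¹ • permRep ℂ G Ω g = ∑ g : G, χ g • permRep ℂ G Ω g := by
      have h1 := hsym (∑ g : G, χ g⁻¹ • permRep ℂ G Ω g) (by
        intro x
        change _ * _ = _ * _
        simp only [sum_mul, mul_sum, smul_mul_assoc, mul_smul_comm, ← map_mul]
        refine Fintype.sum_equiv (MulAut.conj x⁻¹).toEquiv _ _ fun g => ?_
        simp only [MulEquiv.toEquiv_eq_coe, EquivLike.coe_coe, MulAut.conj_apply, inv_inv]
        rw [← irr_class hχ g⁻¹ x⁻¹]
        congr 2 <;> group)
      apply LinearMap.pi_ext'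
      intro x
      apply LinearMap.ext_ring
      funext y
      change (∑ g : G, χ g⁻¹ • permRep ℂ G Ω g) (Pi.single x 1) y =
        (∑ g : G, χ g • permRep ℂ G Ω g) (Pi.single x 1) y
      rw [h1]
      simp only [LinearMap.sum_apply, LinearMap.smul_apply, Finset.sum_apply, Pi.smul_apply,
        permRep_single]
      refine Fintype.sum_equiv (Equiv.inv G) _ _ fun g => ?_
      simp only [Equiv.inv_apply, Pi.single_apply, eq_inv_smul_iff, eq_comm]
    have hχ' := hχ
    obtain ⟨n, σ, hσ, rfl⟩ := hχ'
    rw [classInner_char] at hχ0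
    have hnt : Nontrivial (IntertwiningMap σ (permRep ℂ G Ω)) :=
      Module.nontrivial_of_finrank_pos (R := ℂ) (Nat.pos_of_ne_zero (by exact_mod_cast hχ0))
    obtain ⟨f, hf⟩ := exists_ne (0 : IntertwiningMap σ (permRep ℂ G Ω))
    have hinj := (IsIrreducible.injective_or_eq_zero f).resolve_right hf
    have hE' : ∑ g : G, σ.character g⁻¹ • σ g = ∑ g : G, σ.character g • σ g := by
      apply LinearMap.ext
      intro w
      apply hinj
      have := congr($hE (f w))
      simpa [LinearMap.sum_apply, map_sum, f.isIntertwining] using this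
    have h2 := congrArg (LinearMap.trace ℂ _) hE'
    simp only [map_sum, map_smul, smul_eq_mul] at h2
    apply real_of_sum
    simp only [conj_char]
    rw [show ∑ g, σ.character g * σ.character g = ∑ g, σ.character g * LinearMap.trace ℂ _ (σ g)
      from rfl, ← h2]
    exact sum_congr rfl fun g _ => mul_comm _ _
  · intro h a b
    let R : Ω → Ω → Prop := fun x y => (x, y) ∈ orbit G (a, b)
    have hR : ∀ (g : G) x y, R (g • x) (g • y) ↔ R x y := orbit_rel_smul _
    let R' : Ω → Ω → Prop := fun x y => R y x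
    have hR' : ∀ (g : G) x y, R' (g • x) (g • y) ↔ R' x y := fun g x y => hR g y x
    have hreal : ∀ (A : End ℂ (Ω → ℂ)), (∀ g, Commute A (permRep ℂ G Ω g)) →
        ∃ s : Multiset (ℂ × (G → ℂ)),
          (∀ x ∈ s, IsIrrCharacter G x.2 ∧ (s.map Prod.snd).count x.2 = 1 ∧ ∀ g, x.2 g⁻¹ = x.2 g) ∧
          ∀ (k : ℕ) (g : G), LinearMap.trace ℂ _ (permRep ℂ G Ω g * A ^ k) =
            (s.map fun x => x.1 ^ k * x.2 g).sum := by
      intro A hA
      obtain ⟨s, hs1, hs2⟩ := exists_spectral (permRep ℂ G Ω) A hA
      refine ⟨s, fun x hx => ?_, hs2⟩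
      have h0 : (permRep ℂ G Ω).character = (s.map Prod.snd).sum := by
        funext g
        have := hs2 0 g
        simp only [pow_zero, mul_one, one_mul] at this
        rw [multiset_sum_apply, Multiset.map_map]
        exact this
      have h1 := classInner_sum_irr (s := s.map Prod.snd) (by
        intro χ hχ
        obtain ⟨x, hx, rfl⟩ := Multiset.mem_map.1 hχ
        exact (hs1 x hx).2) (hs1 x hx).2
      rw [← h0] at h1
      obtain ⟨h2, h3⟩ := h x.2 (hs1 x hx).2 (by
        rw [h1]
        exact_mod_cast (Multiset.count_pos.2 (Multiset.mem_map_of_mem _ hx)).ne')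
      refine ⟨(hs1 x hx).2, ?_, fun g => by rw [← irr_conj (hs1 x hx).2, h3]⟩
      rw [h1] at h2
      exact_mod_cast h2
    have h1 : ∀ g, LinearMap.trace ℂ _ (permRep ℂ G Ω g * (relMap ℂ R - relMap ℂ R')) = 0 := by
      intro g
      obtain ⟨s, hs1, hs2⟩ := hreal (relMap ℂ R) (commute_relMap R hR)
      have h2 := hs2 1 g
      have h3 := hs2 1 g⁻¹
      rw [Multiset.map_congr rfl (fun x hx => by rw [(hs1 x hx).2.2 g]), ← h2] at h3
      rw [pow_one, trace_mul_relMap R hR] at h3
      rw [mul_sub, map_sub, ← h3, trace_mul_relMap R' hR', sub_eq_zero]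
      congr 2
      ext x
      simp only [mem_filter, mem_univ, true_and, R']
      rw [← hR g, smul_inv_smul]
    obtain ⟨s, hs1, hs2⟩ := hreal (relMap ℂ R - relMap ℂ R')
      (fun g => (commute_relMap R hR g).sub_left (commute_relMap R' hR' g))
    have h2 : ∀ x ∈ s, x.1 = 0 := by
      intro x hx
      have h3 := classInner_weighted s (fun x hx => (hs1 x hx).1) (hs1 x hx).1
      have h4 : (fun g => (s.map fun x => x.1 * x.2 g).sum) = 0 := by
        funext g
        have := hs2 1 g
        simp only [pow_one] at this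
        rw [← this, h1]; rfl
      rw [h4, classInner_zero_left] at h3
      have h5 := (hs1 x hx).2.1
      rw [Multiset.count_map, Multiset.card_eq_one] at h5
      obtain ⟨y, hy⟩ := h5
      have h6 : x ∈ s.filter fun a => x.2 = a.2 := by simp [hx]
      rw [hy, Multiset.mem_singleton] at h6
      have h7 : (s.filter fun a => a.2 = x.2) = {x} := by
        rw [h6, ← hy, ← h6]; congr 1; funext z; simp only [eq_comm]
      rw [h7] at h3
      simpa using h3.symm
    have h3 := hs2 2 1
    rw [Multiset.map_congr rfl (g := fun _ => 0) (fun x hx => by rw [h2 x hx]; simp)] at h3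
    simp only [map_one, one_mul, Multiset.map_const', Multiset.sum_replicate, smul_zero] at h3
    let d : Ω → Ω → ℤ := fun x y => (if R x y then 1 else 0) - (if R y x then 1 else 0)
    have h4 : ∀ x y, (relMap ℂ R - relMap ℂ R') (Pi.single y 1) x = d x y := by
      intro x y
      simp only [LinearMap.sub_apply, Pi.sub_apply, relMap_single, d, R']
      split_ifs <;> simp
    rw [trace_eq_sum] at h3
    have h5 : ∑ x, ∑ y, d x y ^ 2 = 0 := by
      have : ((∑ x, ∑ y, d x y ^ 2 : ℤ) : ℂ) = 0 := by
        rw [← neg_eq_zero, ← h3]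
        push_cast
        rw [← sum_neg_distrib]
        refine sum_congr rfl fun x _ => ?_
        rw [pow_two (relMap ℂ R - relMap ℂ R'), End.mul_apply, apply_eq_sum]
        simp only [Finset.sum_apply, Pi.smul_apply, smul_eq_mul, h4, ← sum_neg_distrib]
        refine sum_congr rfl fun y _ => ?_
        simp only [d]; push_cast; ring
      exact_mod_cast this
    rw [sum_eq_zero_iff_of_nonneg (fun x _ => sum_nonneg fun y _ => sq_nonneg _)] at h5
    have h6 := h5 a (mem_univ a)
    rw [sum_eq_zero_iff_of_nonneg (fun y _ => sq_nonneg _)] at h6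
    have h7 := h6 b (mem_univ b)
    have h8 : R a b := mem_orbit_self _
    by_contra hc
    have h9 : ¬ R b a := by
      rintro ⟨g, hg⟩
      exact hc ⟨g, congrArg Prod.fst hg, congrArg Prod.snd hg⟩
    simp [d, h8, h9] at h7

end Cfsg.Agent.S0717
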