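import Cfsg.Statements.S0718
import Cfsg.Agent.H1.Commutant

set_option autoImplicit false
open Cfsg

namespace Cfsg.Agent.S0718

open Cfsg.Agent.H1.Commutant Cfsg.Agent.H1.PermChar

theorem mem_iff {G V : Type*} [Group G] [AddCommGroup V] [Module ℂ V] (ρ : Representation ℂ G V)
    (S : V →ₗ[ℂ] V) : S ∈ (ρ.linHom ρ).invariants ↔ ∀ g, Commute (S : Module.End ℂ V) (ρ g) := by
  rw [Representation.mem_invariants]
  refine (Representation.mem_linHom_invariants_iff_isIntertwining (ρ := ρ) (σ := ρ) S).trans ?_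
  exact ⟨fun h g => LinearMap.ext (h.1 g), fun h => ⟨fun g v => congr($(h g) v)⟩⟩


/-- Multiplicity-freeness of the permutation character is equivalent to commutativity of the centraliser ring, i.e. of the algebra of `G`-equivariant endomorphisms of the complex permutation module. -/
theorem result {G : Type*} [Group G] [Fintype G] {Ω : Type*} [Fintype Ω] [MulAction G Ω] : (∀ χ : G → ℂ, Cfsg.IsIrrCharacter G χ → Cfsg.classInner (fun g : G => (Nat.card (MulAction.fixedBy Ω g) : ℂ)) χ = 0 ∨ Cfsg.classInner (fun g : G => (Nat.card (MulAction.fixedBy Ω g) : ℂ)) χ = 1) ↔ ∀ S T : (Ω → ℂ) →ₗ[ℂ] (Ω → ℂ), S ∈ ((Cfsg.permRep ℂ G Ω).linHom (Cfsg.permRep ℂ G Ω)).invariants → T ∈ ((Cfsg.permRep ℂ G Ω).linHom (Cfsg.permRep ℂ G Ω)).invariants → S ∘ₗ T = T ∘ₗ S := by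
  rw [← perm_char]
  simp only [mem_iff]
  exact ⟨fun h => comm_of_mult_free _ h, fun h => mult_free_of_comm _ h⟩

end Cfsg.Agent.S0718
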