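import Cfsg.Statements.S0719
import Cfsg.Agent.S0716

set_option autoImplicit false
open Cfsg

namespace Cfsg.Agent.S0719

open MulAction Cfsg.Agent.H1.Char Cfsg.Agent.H1.PermMod Cfsg.Agent.H1.PermChar Finset Module

theorem int_of_rat {z : ℂ} (hz : IsIntegral ℤ z) (a : ℤ) (b : ℤ) (hb : b ≠ 0) (h : b * z = a) :
    ∃ y : ℤ, z = y := by
  have hb' : (b : ℂ) ≠ 0 := by exact_mod_cast hb
  have h1 : z = algebraMap ℚ ℂ ((a : ℚ) / b) := by
    simp only [map_div₀, map_intCast, ← h]; field_simp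
  rw [h1, isIntegral_algebraMap_iff (algebraMap ℚ ℂ).injective] at hz
  obtain ⟨y, hy⟩ := IsIntegrallyClosed.algebraMap_eq_of_integral hz
  exact ⟨y, by rw [h1, ← hy]; simp⟩

theorem arith {m k u v : ℤ} (hm : 2 ≤ m) (hk : 2 ≤ k) (hkm : k ≤ m - 1)
    (h1 : k + u * (m - 1) + v * m = 0) (h2 : k ^ 2 + u ^ 2 * (m - 1) + v ^ 2 * m = 2 * m * k) :
    ∃ a : ℤ, 0 < a ∧ m = 2 * a ^ 2 + 2 * a + 1 ∧ k = a * (2 * a + 1) := by
  obtain ⟨t, ht⟩ : ∃ t, t = -(u + v) := ⟨_, rfl⟩
  have hu : u = k - m * t := by rw [ht]; linear_combination -h1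
  have hv : v = -k + (m - 1) * t := by rw [ht]; linear_combination h1
  rw [hu, hv] at h2
  have h3 : 2 * (k - t * (m - 1)) ^ 2 + t ^ 2 * (m - 1) = 2 * k := by
    apply mul_left_cancel₀ (show m ≠ 0 by omega)
    linear_combination h2
  have h4 : t ^ 2 ≤ 2 := by
    by_contra h
    have : 3 ≤ t ^ 2 := by omega
    nlinarith [sq_nonneg (k - t * (m - 1))]
  have h5 : t = -1 ∨ t = 0 ∨ t = 1 := by
    have : -2 < t := by nlinarith
    have : t < 2 := by nlinarith
    omega
  rcases h5 with rfl | rfl | rfl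
  · nlinarith
  · nlinarith
  · refine ⟨m - 1 - k, ?_, by linear_combination -h3, by linear_combination -h3⟩
    by_contra h
    have : k = m - 1 := by omega
    subst this
    nlinarith

open Classical in
theorem main {G : Type*} [Group G] [Fintype G] {Ω : Type*} [Fintype Ω] [MulAction G Ω]
    (hprim : MulAction.IsPreprimitive G Ω) {m : ℕ} (hm : Fintype.card Ω = 2 * m) (a₀ b : Ω)
    (hb : b ≠ a₀)
    (hO : ∀ c c', c ≠ a₀ → c' ≠ a₀ → (a₀, c) ∉ orbit G (a₀, b) → (a₀, c') ∉ orbit G (a₀, b) →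
      (a₀, c) ∈ orbit G (a₀, c'))
    (hkm : (univ.filter fun y => (a₀, y) ∈ orbit G (a₀, b)).card ≤ m - 1)
    (χ₁ χ₂ : G → ℂ) (h₁ : Cfsg.IsIrrCharacter G χ₁) (h₂ : Cfsg.IsIrrCharacter G χ₂)
    (hπ : (fun g : G => (Nat.card (MulAction.fixedBy Ω g) : ℂ)) = fun g => 1 + χ₁ g + χ₂ g)
    (hd₁ : χ₁ 1 = (m : ℂ) - 1) (hd₂ : χ₂ 1 = m) :
    ∃ a : ℕ, 0 < a ∧ m = 2 * a ^ 2 + 2 * a + 1 ∧
      (univ.filter fun y => (a₀, y) ∈ orbit G (a₀, b)).card = a * (2 * a + 1) := by
  let R : Ω → Ω → Prop := fun x y => (x, y) ∈ orbit G (a₀, b)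
  have hR : ∀ (g : G) x y, R (g • x) (g • y) ↔ R x y := orbit_rel_smul _
  set k := (univ.filter fun y => (a₀, y) ∈ orbit G (a₀, b)).card with hk
  have hRab : R a₀ b := mem_orbit_self _
  have hk1 : 1 ≤ k := card_pos.2 ⟨b, mem_filter.2 ⟨mem_univ _, hRab⟩⟩
  have hm2 : 2 ≤ m := by omega
  have hirr : ∀ x, ¬ R x x := by
    rintro x ⟨g, hg⟩
    exact hb (smul_left_cancel g ((congrArg Prod.snd hg).trans (congrArg Prod.fst hg).symm))
  have hout : ∀ x, (univ.filter (R x)).card = k := fun x => card_filter_rel R hR a₀ x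
  have horb : ∀ x y x' y', x ≠ y → x' ≠ y' → (R x y ↔ R x' y') →
      ∃ g : G, g • x = x' ∧ g • y = y' := by
    intro x y x' y' h h' hiff
    by_cases hxy : R x y
    · obtain ⟨g, hg⟩ := hxy
      obtain ⟨g', hg'⟩ := hiff.1 ⟨g, hg⟩
      simp only [Prod.smul_mk, Prod.mk.injEq] at hg hg'
      exact ⟨g' * g⁻¹, by rw [mul_smul, ← hg.1, inv_smul_smul, hg'.1],
        by rw [mul_smul, ← hg.2, inv_smul_smul, hg'.2]⟩
    · obtain ⟨g, rfl⟩ := exists_smul_eq G a₀ x
      obtain ⟨g', rfl⟩ := exists_smul_eq G a₀ x'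
      obtain ⟨c, rfl⟩ : ∃ c, y = g • c := ⟨g⁻¹ • y, by simp⟩
      obtain ⟨c', rfl⟩ : ∃ c, y' = g' • c := ⟨g'⁻¹ • y', by simp⟩
      have hxy' := fun h => hxy (hiff.2 h)
      rw [hR] at hxy hxy'
      obtain ⟨g'', hg''⟩ := hO c' c (by rintro rfl; exact h' rfl) (by rintro rfl; exact h rfl)
        hxy' hxy
      simp only [Prod.smul_mk, Prod.mk.injEq] at hg''
      exact ⟨g' * g'' * g⁻¹, by simp [mul_smul, hg''.1], by simp [mul_smul, hg''.2]⟩
  have hsymm : ∀ x y, R x y → R y x := by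
    have hba : R b a₀ := by
      by_contra hba
      have h1 : (univ.filter fun y => R y a₀).card = k := by
        have h2 : ∀ x, (univ.filter fun y => R y x).card = (univ.filter fun y => R y a₀).card :=
          fun x => card_filter_rel (G := G) (fun x y => R y x) (fun g x y => hR g y x) a₀ x
        have h3 : ∑ x, (univ.filter fun y => R y x).card = ∑ x, (univ.filter (R x)).card := by
          simp only [card_filter]; exact sum_comm
        simp only [h2, hout, sum_const, smul_eq_mul, card_univ] at h3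
        exact Nat.eq_of_mul_eq_mul_left (by omega) h3
      have h2 : (univ.filter fun y => R y a₀) = (univ.erase a₀) \ univ.filter (R a₀) := by
        ext y
        simp only [mem_filter, mem_univ, true_and, mem_sdiff, mem_erase, and_true]
        constructor
        · intro hy
          have hya : y ≠ a₀ := by rintro rfl; exact hirr _ hy
          refine ⟨hya, fun h => hba ?_⟩
          obtain ⟨g, hg1, hg2⟩ := horb a₀ y a₀ b hya.symm hb.symm (by simp [h, hRab])
          rw [← hR g, hg1, hg2] at hy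
          exact hy
        · rintro ⟨hya, hy⟩
          obtain ⟨g, hg1, hg2⟩ := horb a₀ y b a₀ hya.symm hb (by simp [hy, hba])
          rw [← hR g, hg1, hg2]
          exact hRab
      rw [h2, card_sdiff_of_subset (by
        intro y hy
        rw [mem_erase]
        exact ⟨by rintro rfl; exact hirr _ (mem_filter.1 hy).2, mem_univ _⟩),
        card_erase_of_mem (mem_univ _), card_univ, hout] at h1
      omega
    rintro x y ⟨g, hg⟩
    simp only [Prod.smul_mk, Prod.mk.injEq] at hg
    rw [← hg.1, ← hg.2, hR]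
    exact hba
  have hk2 : 2 ≤ k := by
    by_contra h
    have hk1' : k = 1 := by omega
    have huniq : ∀ x y y', R x y → R x y' → y = y' := by
      intro x y y' h h'
      exact card_le_one.1 ((hout x).trans hk1').le y (by simp [h]) y' (by simp [h'])
    have hB : IsBlock G ({a₀, b} : Set Ω) := by
      rw [isBlock_iff_smul_eq_of_mem]
      intro g x hx hgx
      have e1 : R (g • a₀) (g • b) := (hR g _ _).2 hRab
      have e2 := hsymm _ _ e1
      have e3 := hsymm _ _ hRab
      simp only [Set.smul_set_insert, Set.smul_set_singleton]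
      rcases hx with rfl | rfl <;> rcases hgx with h | h <;> rw [h] at e1 e2 ⊢
      · rw [huniq _ _ _ e1 hRab]
      · rw [huniq _ _ _ e1 e3, Set.pair_comm]
      · rw [huniq _ _ _ e2 hRab, Set.pair_comm]
      · rw [huniq _ _ _ e2 e3]
    rcases hprim.isTrivialBlock_of_isBlock hB with h | h
    · exact hb (h (by simp) (by simp))
    · have := congrArg Set.ncard h
      rw [Set.ncard_pair hb.symm, Set.ncard_univ, Nat.card_eq_fintype_card] at this
      omega
  let N : Ω → Ω → ℕ := fun x y => (univ.filter fun z => R x z ∧ R z y).card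
  have hN : ∀ (g : G) x y, N (g • x) (g • y) = N x y := by
    intro g x y
    symm
    apply card_bij (fun z _ => g • z)
    · intro z hz; simpa [hR] using hz
    · intro a _ b _ h; exact smul_left_cancel g h
    · intro z hz
      refine ⟨g⁻¹ • z, ?_, by simp⟩
      simp only [mem_filter, mem_univ, true_and] at hz ⊢
      rwa [← hR g, ← hR g _ y, smul_inv_smul]
  have hNd : ∀ x, N x x = k := by
    intro x
    rw [← hout x]
    apply congrArg Finset.card
    ext z
    simp only [mem_filter, mem_univ, true_and]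
    exact ⟨fun h => h.1, fun h => ⟨h, hsymm _ _ h⟩⟩
  obtain ⟨mu, hmu⟩ : ∃ mu : ℕ, ∀ x y, x ≠ y → ¬ R x y → N x y = mu := by
    by_cases h : ∃ x y, x ≠ y ∧ ¬ R x y
    · obtain ⟨x, y, h1, h2⟩ := h
      refine ⟨N x y, fun x' y' h1' h2' => ?_⟩
      obtain ⟨g, rfl, rfl⟩ := horb x y x' y' h1 h1' (by simp [h2, h2'])
      exact hN g x y
    · exact ⟨0, fun x y h1 h2 => absurd ⟨x, y, h1, h2⟩ h⟩
  have hlam : ∀ x y, R x y → N x y = N a₀ b := by
    intro x y h
    obtain ⟨g, rfl, rfl⟩ := horb a₀ b x y hb.symm (by rintro rfl; exact hirr _ h) (by simp [h, hRab])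
    exact hN g _ _
  have hA2 : ∀ (v : Ω → ℂ) x, relMap ℂ R (relMap ℂ R v) x = ∑ y, (N x y : ℂ) * v y := by
    intro v x
    simp only [relMap_apply, N, card_filter, Nat.cast_sum, sum_mul]
    rw [sum_comm]
    refine sum_congr rfl fun z _ => ?_
    by_cases h : R x z <;> simp [h]
  have heig : ∀ θ : ℂ, End.HasEigenvalue (relMap ℂ R : End ℂ (Ω → ℂ)) θ →
      θ = k ∨ θ ^ 2 = (k - mu) + (N a₀ b - mu) * θ := by
    intro θ hθ
    obtain ⟨v, hv⟩ := hθ.exists_hasEigenvector
    have h1 : relMap ℂ R v = θ • v := hv.apply_eq_smul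
    rw [or_iff_not_imp_left]
    intro hθk
    have h2 : ∑ x, v x = 0 := by
      have h3 : ∑ x, relMap ℂ R v x = k * ∑ x, v x := by
        simp only [relMap_apply]
        rw [sum_comm, mul_sum]
        refine sum_congr rfl fun y _ => ?_
        rw [← hout y, card_filter, Nat.cast_sum, sum_mul]
        refine sum_congr rfl fun x _ => ?_
        by_cases h : R x y
        · have : (y, x) ∈ orbit G (a₀, b) := hsymm _ _ h
          simp [h, this]
        · have : ¬ (y, x) ∈ orbit G (a₀, b) := fun h' => h (hsymm _ _ h')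
          simp [h, this]
      rw [h1] at h3
      simp only [Pi.smul_apply, smul_eq_mul, ← mul_sum] at h3
      exact (mul_eq_mul_right_iff.1 h3).resolve_left hθk
    obtain ⟨x, hx⟩ := Function.ne_iff.1 hv.2
    apply mul_right_cancel₀ hx
    have h3 := hA2 v x
    rw [h1, map_smul, h1] at h3
    have h4 : ∑ y, (N x y : ℂ) * v y = ∑ y, ((if y = x then (k - mu) * v y else 0) +
        (N a₀ b - mu) * (if R x y then v y else 0) + mu * v y) := by
      refine sum_congr rfl fun y _ => ?_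
      by_cases h : y = x
      · subst h; simp [hNd, hirr]; ring
      · by_cases h' : R x y
        · simp [h, h', hlam x y h']; ring
        · simp [h, h', hmu x y (Ne.symm h) h']
    rw [h4, sum_add_distrib, sum_add_distrib, ← mul_sum, ← mul_sum, h2, ← relMap_apply, h1] at h3
    simp only [Pi.smul_apply, smul_eq_mul, sum_ite_eq', mem_univ, if_true] at h3
    linear_combination h3
  obtain ⟨s, hs1, hs2, hs3⟩ := exists_spectral_rel R hR a₀
  have h1 : (fun _ => 1) ::ₘ s.map Prod.snd = (fun _ => 1) ::ₘ {χ₁, χ₂} := by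
    apply multiset_eq_of_sum_eq
    · intro χ hχ
      rcases Multiset.mem_cons.1 hχ with rfl | hχ
      · exact isIrr_trivial
      · obtain ⟨x, hx, rfl⟩ := Multiset.mem_map.1 hχ
        exact (hs1 x hx).2.1
    · intro χ hχ
      simp only [Multiset.insert_eq_cons, Multiset.mem_cons, Multiset.mem_singleton] at hχ
      rcases hχ with rfl | rfl | rfl
      · exact isIrr_trivial
      · exact h₁
      · exact h₂
    · rw [← hs2, hπ]; funext g; simp [add_assoc]
  rw [Multiset.cons_inj_right] at h1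
  obtain ⟨u, v, rfl⟩ : ∃ u v, s = {(u, χ₁), (v, χ₂)} := by
    obtain ⟨x, hx, hx1, hx2⟩ := (Multiset.map_eq_cons _ _ _ _).2 h1
    obtain ⟨y, hy1, hy2⟩ := Multiset.map_eq_singleton.1 hx2
    refine ⟨x.1, y.1, ?_⟩
    rw [← Multiset.cons_erase hx, hy1, ← hx1, ← hy2]; rfl
  have hu := (hs1 (u, χ₁) (by simp)).1
  have hv := (hs1 (v, χ₂) (by simp)).1
  have e1 := hs3 1 1
  have e2 := hs3 2 1
  rw [pow_one, trace_mul_relMap R hR, filter_eq_empty_iff.2 (by simpa using fun x => hirr x)] at e1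
  rw [map_one, one_mul, trace_eq_sum] at e2
  simp only [pow_two (relMap ℂ R), End.mul_apply, hA2, Pi.single_apply, mul_ite, mul_one, mul_zero,
    sum_ite_eq', mem_univ, if_true, hNd, sum_const, card_univ, hm, nsmul_eq_mul] at e2
  simp only [Multiset.insert_eq_cons, Multiset.map_cons, Multiset.map_singleton, Multiset.sum_cons,
    Multiset.sum_singleton, hd₁, hd₂, hout, card_empty, Nat.cast_zero, pow_one] at e1 e2
  obtain ⟨u', rfl⟩ : ∃ y : ℤ, u = y := by
    have hi := isIntegral_of_hasEigenvalue R hu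
    rcases heig u hu with h | h
    · exact ⟨k, by simp [h]⟩
    rcases heig v hv with h' | h'
    · apply int_of_rat hi (-(k * (m + 1))) (m - 1) (by omega)
      push_cast
      rw [h'] at e1
      linear_combination -e1
    by_cases huv : u = v
    · apply int_of_rat hi (-k) (2 * m - 1) (by omega)
      push_cast
      rw [← huv] at e1
      linear_combination -e1
    · have h3 : u + v = N a₀ b - mu := by
        apply mul_left_cancel₀ (sub_ne_zero.2 huv)
        linear_combination h - h'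
      refine ⟨k + m * (N a₀ b - mu), ?_⟩
      push_cast
      rw [← h3]
      linear_combination e1
  obtain ⟨v', rfl⟩ : ∃ y : ℤ, v = y := by
    apply int_of_rat (isIntegral_of_hasEigenvalue R hv) (-k - u' * (m - 1)) m (by omega)
    push_cast
    linear_combination -e1
  obtain ⟨a, ha0, ha1, ha2⟩ := arith (m := m) (k := k) (u := u') (v := v') (by omega) (by omega)
    (by omega) (by
      have : ((k + u' * (m - 1) + v' * m : ℤ) : ℂ) = 0 := by push_cast; linear_combination -e1
      exact_mod_cast this) (by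
      have : ((k ^ 2 + u' ^ 2 * (m - 1) + v' ^ 2 * m : ℤ) : ℂ) = (2 * m * k : ℤ) := by
        push_cast at e2 ⊢; linear_combination -e2
      exact_mod_cast this)
  lift a to ℕ using ha0.le
  exact ⟨a, by exact_mod_cast ha0, by exact_mod_cast ha1, by exact_mod_cast ha2⟩

open Classical in
theorem rank_three {G : Type*} [Group G] {Ω : Type*} [Fintype Ω] [MulAction G Ω] (a₀ : Ω)
    (hrank : Nat.card (orbitRel.Quotient (stabilizer G a₀) Ω) = 3) :
    ∃ b c : Ω, b ≠ a₀ ∧ c ≠ a₀ ∧ (∀ y, y ≠ a₀ → (a₀, y) ∈ orbit G (a₀, b) ∨ (a₀, y) ∈ orbit G (a₀, c)) ∧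
      Fintype.card Ω = 1 + Nat.card (orbit (stabilizer G a₀) b) +
        Nat.card (orbit (stabilizer G a₀) c) := by
  have := Fintype.ofFinite (orbitRel.Quotient (stabilizer G a₀) Ω)
  have h4 := Cfsg.Agent.S0716.card_eq_sum_orbits (H := stabilizer G a₀) (Ω := Ω)
  let q₀ : orbitRel.Quotient (stabilizer G a₀) Ω := Quotient.mk'' a₀
  have hq₀ : Nat.card q₀.orbit = 1 := by
    have : q₀.orbit = {a₀} := by
      rw [orbitRel.Quotient.orbit_mk]
      ext y
      constructor
      · rintro ⟨g, rfl⟩; exact g.2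
      · rintro rfl; exact mem_orbit_self _
    rw [this]; simp
  rw [← add_sum_erase _ _ (mem_univ q₀), hq₀] at h4
  have h5 : (univ.erase q₀).card = 2 := by
    rw [card_erase_of_mem (mem_univ _), card_univ, ← Nat.card_eq_fintype_card, hrank]
  obtain ⟨q₁, q₂, h12, h6⟩ := card_eq_two.1 h5
  obtain ⟨b, rfl⟩ := Quotient.exists_rep q₁
  obtain ⟨c, rfl⟩ := Quotient.exists_rep q₂
  have hb : (⟦b⟧ : orbitRel.Quotient (stabilizer G a₀) Ω) ∈ univ.erase q₀ := by rw [h6]; simp
  have hc : (⟦c⟧ : orbitRel.Quotient (stabilizer G a₀) Ω) ∈ univ.erase q₀ := by rw [h6]; simp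
  refine ⟨b, c, ?_, ?_, ?_, ?_⟩
  · rintro rfl; exact (mem_erase.1 hb).1 rfl
  · rintro rfl; exact (mem_erase.1 hc).1 rfl
  · intro y hy
    have h7 : (⟦y⟧ : orbitRel.Quotient (stabilizer G a₀) Ω) ∈ univ.erase q₀ := by
      rw [mem_erase]
      refine ⟨fun h => hy ?_, mem_univ _⟩
      obtain ⟨g, hg⟩ := orbitRel_apply.1 (Quotient.exact' h)
      exact hg.symm.trans g.2
    rw [h6, mem_insert, mem_singleton] at h7
    rcases h7 with h | h
    · obtain ⟨g, hg⟩ := orbitRel_apply.1 (Quotient.exact' h)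
      exact Or.inl ⟨g.1, Prod.ext g.2 hg⟩
    · obtain ⟨g, hg⟩ := orbitRel_apply.1 (Quotient.exact' h)
      exact Or.inr ⟨g.1, Prod.ext g.2 hg⟩
  · rw [h4, h6, sum_pair h12, add_assoc]
    rfl


/-- Groups of Wielandt type: if a primitive group of degree `2m` has rank 3 and permutation character `1 + χ₁ + χ₂` with irreducible `χ₁, χ₂` of degrees `m - 1` and `m`, then `m = 2a² + 2a + 1` for some positive integer `a` and the two non-trivial subdegrees are `a(2a+1)` and `(a+1)(2a+1)`. -/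
theorem result {G : Type*} [Group G] [Fintype G] {Ω : Type*} [Fintype Ω] [MulAction G Ω] (hprim : MulAction.IsPreprimitive G Ω) {m : ℕ} (hm : Fintype.card Ω = 2 * m) (a₀ : Ω) (hrank : Nat.card (MulAction.orbitRel.Quotient (MulAction.stabilizer G a₀) Ω) = 3) (χ₁ χ₂ : G → ℂ) (h₁ : Cfsg.IsIrrCharacter G χ₁) (h₂ : Cfsg.IsIrrCharacter G χ₂) (hπ : (fun g : G => (Nat.card (MulAction.fixedBy Ω g) : ℂ)) = fun g => 1 + χ₁ g + χ₂ g) (hd₁ : χ₁ 1 = (m : ℂ) - 1) (hd₂ : χ₂ 1 = m) : ∃ a : ℕ, 0 < a ∧ m = 2 * a ^ 2 + 2 * a + 1 ∧ ∀ b : Ω, b ≠ a₀ → Nat.card (MulAction.orbit (MulAction.stabilizer G a₀) b) = a * (2 * a + 1) ∨ Nat.card (MulAction.orbit (MulAction.stabilizer G a₀) b) = (a + 1) * (2 * a + 1) := by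
  classical
  obtain ⟨b, c, hb, hc, hbc, hcard⟩ := rank_three a₀ hrank
  wlog hle : Nat.card (orbit (stabilizer G a₀) b) ≤ Nat.card (orbit (stabilizer G a₀) c)
    generalizing b c
  · exact this c b hc hb (fun y hy => (hbc y hy).symm) (by omega) (by omega)
  obtain ⟨a, ha0, ha1, ha2⟩ := main hprim hm a₀ b hb (by
    intro y y' hy hy' h h'
    have h1 := (hbc y hy).resolve_left h
    have h2 := (hbc y' hy').resolve_left h'
    rw [← orbit_eq_iff.2 h2] at h1
    exact h1) (by
    have := card_suborbit (G := G) a₀ b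
    convert (show Nat.card (orbit (stabilizer G a₀) b) ≤ m - 1 by omega) using 1
    convert this.symm) χ₁ χ₂ h₁ h₂ hπ hd₁ hd₂
  have ha3 : Nat.card (orbit (stabilizer G a₀) b) = a * (2 * a + 1) := by
    rw [card_suborbit]; convert ha2
  refine ⟨a, ha0, ha1, fun y hy => ?_⟩
  rcases hbc y hy with h | h
  · left
    rw [card_suborbit, orbit_eq_iff.2 h, ← card_suborbit, ha3]
  · right
    rw [card_suborbit, orbit_eq_iff.2 h, ← card_suborbit]
    rw [ha3, hm, ha1] at hcard
    nlinarith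

end Cfsg.Agent.S0719
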