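import Cfsg.Statements.S0720
import Cfsg.Agent.H1.TwoP
import Cfsg.Agent.H1.PrimeDeg
import Cfsg.Agent.H1.PermChar

set_option autoImplicit false
open Cfsg

namespace Cfsg.Agent.S0720

open Finset MulAction Cfsg.Agent.H1.GroupRing Cfsg.Agent.H1.PermMod Cfsg.Agent.H1.TwoP
  Cfsg.Agent.H1.PrimeDeg

theorem av_compl {Ω : Type*} {p : ℕ} [hp : Fact p.Prime] (e : ZMod p × Bool ≃ Ω)
    {S : Ω → Ω → Prop} (hS0 : ∀ x, ¬ S x x) :
    av e (ind fun x y => x ≠ y ∧ ¬ S x y) = -1 - av e (ind S) ∧
    ∑ j, ent e (ind fun x y => x ≠ y ∧ ¬ S x y) false true j =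
      p - ∑ j, ent e (ind S) false true j := by
  have h1 : ∀ j, ent e (ind fun x y => x ≠ y ∧ ¬ S x y) false true j =
      1 - ent e (ind S) false true j := by
    intro j
    by_cases h : S (e (0, false)) (e (j, true)) <;> simp [ent, ind, h]
  have h2 : ∀ j, ent e (ind fun x y => x ≠ y ∧ ¬ S x y) false false j =
      1 - ent e (ind S) false false j - if j = 0 then 1 else 0 := by
    intro j
    by_cases hj : j = 0
    · simp [ent, ind, hj, hS0]
    · by_cases h : S (e (0, false)) (e (j, false)) <;> simp [ent, ind, h, hj, Ne.symm hj]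
  simp only [av, h1, h2, sum_sub_distrib, sum_const, card_univ, ZMod.card, nsmul_eq_mul, mul_one,
    sum_ite_eq', mem_univ, if_true]
  exact ⟨by ring, trivial⟩

theorem params {G Ω : Type*} [Group G] [MulAction G Ω] [Fintype Ω] {p : ℕ} [hp : Fact p.Prime]
    {c : G} {e : ZMod p × Bool ≃ Ω} (hG : IsPreprimitive G Ω)
    (he : ∀ j i, c • e (j, i) = e (j + 1, i))
    {S : Ω → Ω → Prop} (hS : ∀ (g : G) x y, S (g • x) (g • y) ↔ S x y) (hS0 : ∀ x, ¬ S x x)
    (horb : ∀ x y x' y', x ≠ y → x' ≠ y' → (S x y ↔ S x' y') → ∃ g : G, g • x = x' ∧ g • y = y')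
    (hpos : 0 < av e (ind S)) :
    ∃ s : ℕ, 0 < s ∧ p = 2 * s ^ 2 + 2 * s + 1 ∧ ∀ x, ∑ y, ind S x y = (s * (2 * s + 1) : ℕ) := by
  classical
  have hF := ind_inv hS
  have hT : ∀ (g : G) (x y : Ω), (g • x ≠ g • y ∧ ¬ S (g • x) (g • y)) ↔ (x ≠ y ∧ ¬ S x y) := by
    intro g x y; simp only [ne_eq, smul_left_cancel_iff, hS]
  obtain ⟨hT1, hT2⟩ := av_compl e hS0
  have h1 := self_pairing hG he hS hS0
  have h2 := self_pairing hG he (S := fun x y => x ≠ y ∧ ¬ S x y) hT (fun x h => h.1 rfl)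
  have hm : ∀ S : Ω → Ω → Prop, 0 ≤ ∑ k, ent e (ind S) false false k * ent e (ind S) true true k :=
    fun S => sum_nonneg fun k _ => mul_nonneg (ind_nonneg _ _ _) (ind_nonneg _ _ _)
  have hv0 : 0 < ∑ j, ent e (ind S) false true j := by have := hm S; nlinarith
  have hvp : ∑ j, ent e (ind S) false true j < p := by
    have := hm (fun x y => x ≠ y ∧ ¬ S x y)
    rw [hT1, hT2] at h2
    nlinarith
  let H : Ω → Ω → ℚ := fun x y => ∑ z, ind S x z * ind S z y
  have hH : Inv G H := by
    intro g x y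
    simp only [H]
    rw [← sum_smul_eq g]
    exact sum_congr rfl fun z _ => by rw [hF, hF]
  have hval : ∀ P : Prop, ∃ h : ℚ, ∀ x y, x ≠ y → (S x y ↔ P) → H x y = h := by
    intro P
    by_cases h : ∃ x y, x ≠ y ∧ (S x y ↔ P)
    · obtain ⟨x, y, h1, h2⟩ := h
      refine ⟨H x y, fun x' y' h1' h2' => ?_⟩
      obtain ⟨g, rfl, rfl⟩ := horb x y x' y' h1 h1' (h2.trans h2'.symm)
      exact hH g x y
    · exact ⟨0, fun x y h1 h2 => absurd ⟨x, y, h1, h2⟩ h⟩
  obtain ⟨hp', hhp⟩ := hval True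
  obtain ⟨hm', hhm⟩ := hval False
  have h3 : ent e H false true = fun j => (hp' - hm') * ent e (ind S) false true j + hm' := by
    funext j
    by_cases h : S (e (0, false)) (e (j, true))
    · rw [ent, hhp _ _ (by simp) (by simp [h])]; simp [ent, ind, h]
    · rw [ent, hhm _ _ (by simp) (by simp [h])]; simp [ent, ind, h]
  have h4 := hat_mul_mat he hF (ind S) false true
  rw [h3, hat_add, hat_smul] at h4
  have h5 : ev p (hat (ent e (ind S) false true)) ≠ 0 := by
    rw [Ne, ev_hat_eq_zero_iff]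
    intro h
    rw [sum_congr rfl (fun j _ => h j 0), sum_const, card_univ, ZMod.card, nsmul_eq_mul] at hv0 hvp
    by_cases h : S (e (0, false)) (e (0, true)) <;> simp [ent, ind, h] at hv0 hvp
  have h6 : ev p (hat fun j => ent e (ind S) false false j + ent e (ind S) true true j -
      (hp' - hm') * if j = 0 then 1 else 0) = 0 := by
    apply mul_right_cancel₀ h5
    have h7 := congrArg (ev p) h4
    have h8 : ev p (hat fun _ : ZMod p => hm') = 0 := (ev_hat_eq_zero_iff _).2 fun _ _ => rfl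
    rw [hat_sub, hat_add, hat_smul, hat_delta]
    simp only [map_add, map_mul, h8, map_sub, map_one, Algebra.smul_def] at h7 ⊢
    linear_combination -h7
  rw [ev_hat_eq_zero_iff] at h6
  have h7 : ∀ j, j ≠ 0 → ent e (ind S) false false j + ent e (ind S) true true j =
      ent e (ind S) false false 1 + ent e (ind S) true true 1 := by
    intro j hj
    simpa [hj] using h6 j 1
  have h00 : ∀ i, ent e (ind S) i i 0 = 0 := fun i => by simp [ent, ind, hS0]
  have hu := (aug_symm he hF).1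
  have hav : av e (ind S) = ∑ j, ent e (ind S) false false j - ∑ j, ent e (ind S) false true j := rfl
  have h01 : ∀ i i' j, ent e (ind S) i i' j = 0 ∨ ent e (ind S) i i' j = 1 := by
    intro i i' j; unfold ent ind; split_ifs <;> simp
  have h8 : ∀ j, j ≠ 0 → ent e (ind S) false false j + ent e (ind S) true true j = 1 := by
    by_contra hc
    have h9 : ∀ j, ent e (ind S) false false j * ent e (ind S) true true j =
        ent e (ind S) false false j := by
      intro j
      by_cases hj : j = 0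
      · simp [hj, h00]
      push Not at hc
      obtain ⟨j', hj', hc⟩ := hc
      rw [h7 j' hj', ← h7 j hj] at hc
      rcases h01 false false j with h | h <;> rcases h01 true true j with h' | h' <;>
        simp [h, h'] at hc ⊢
    simp only [h9] at h1
    nlinarith
  have h9 : ∑ j, ent e (ind S) false false j * ent e (ind S) true true j = 0 := by
    apply sum_eq_zero
    intro j _
    by_cases hj : j = 0
    · simp [hj, h00]
    have := h8 j hj
    rcases h01 false false j with h | h <;> rcases h01 true true j with h' | h' <;>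
      simp [h, h'] at this ⊢
  have h10 : 2 * ∑ j, ent e (ind S) false false j = p - 1 := by
    have : ∑ j, (ent e (ind S) false false j + ent e (ind S) true true j) =
        ∑ j : ZMod p, ((1 : ℚ) - if j = 0 then 1 else 0) := by
      refine sum_congr rfl fun j _ => ?_
      by_cases hj : j = 0
      · simp [hj, h00]
      · simp [hj, h8 j hj]
    rw [sum_add_distrib, hu, sum_sub_distrib] at this
    simp at this
    linarith
  obtain ⟨U, hU⟩ : ∃ U : ℕ, ∑ j, ent e (ind S) false false j = U := ⟨_, by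
    simp only [ent, ind]; exact sum_boole _ _⟩
  obtain ⟨V, hV⟩ : ∃ U : ℕ, ∑ j, ent e (ind S) false true j = U := ⟨_, by
    simp only [ent, ind]; exact sum_boole _ _⟩
  rw [hU, hV] at hav
  have hVU : V < U := by
    have : (V : ℚ) < U := by linarith
    exact_mod_cast this
  obtain ⟨s, rfl⟩ := Nat.exists_eq_add_of_le hVU.le
  have hs : av e (ind S) = s := by rw [hav]; push_cast; ring
  rw [h9, hs, hV, zero_add] at h1
  rw [hU] at h10
  refine ⟨s, by omega, ?_, fun x => ?_⟩
  · have : (p : ℚ) = 2 * s ^ 2 + 2 * s + 1 := by push_cast at h10; linarith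
    exact_mod_cast this
  · rw [row_const hF x (e (0, false)), sum_eq e]
    simp only [ent] at hU hV
    rw [hU, hV]
    push_cast
    linarith

theorem exists_coord2 {G Ω : Type*} [Group G] [MulAction G Ω] [Fintype Ω] {p : ℕ}
    [hp : Fact p.Prime] (hΩ : Fintype.card Ω = 2 * p) {c : G} (hc : orderOf c = p)
    (hfpf : ∀ x : Ω, c • x ≠ x) :
    ∃ e : ZMod p × Bool ≃ Ω, ∀ j i, c • e (j, i) = e (j + 1, i) := by
  classical
  have hp0 := hp.out.pos
  obtain ⟨x₀⟩ : Nonempty Ω := Fintype.card_pos_iff.1 (by omega)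
  obtain ⟨x₁, hx₁⟩ : ∃ x₁, x₁ ∉ univ.image fun j : ZMod p => c ^ j.val • x₀ := by
    by_contra h
    push Not at h
    have h1 := card_le_card (fun x _ => h x : (univ : Finset Ω) ⊆ _)
    have h2 := card_image_le (s := univ) (f := fun j : ZMod p => c ^ j.val • x₀)
    rw [card_univ, ZMod.card] at h2
    rw [card_univ] at h1
    omega
  have hpow : ∀ i j : ZMod p, c ^ i.val * c ^ j.val = c ^ (i + j).val := by
    intro i j
    rw [← pow_add, pow_eq_pow_iff_modEq, hc, ← ZMod.natCast_eq_natCast_iff]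
    simp
  have hne : ∀ i j : ZMod p, c ^ i.val • x₀ ≠ c ^ j.val • x₁ := by
    intro i j h
    apply hx₁
    rw [mem_image]
    refine ⟨-j + i, mem_univ _, ?_⟩
    rw [← hpow, mul_smul, h, smul_smul, hpow]
    simp
  let f : ZMod p × Bool → Ω := fun x => c ^ x.1.val • (if x.2 then x₁ else x₀)
  have hb : Function.Bijective f := by
    rw [Fintype.bijective_iff_injective_and_card]
    refine ⟨?_, by simp [hΩ, mul_comm]⟩
    rintro ⟨i, _ | _⟩ ⟨j, _ | _⟩ h
    · rw [show i = j from orbit_inj hc (hfpf x₀) h]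
    · exact absurd h (hne i j)
    · exact absurd h.symm (hne j i)
    · rw [show i = j from orbit_inj hc (hfpf x₁) h]
  refine ⟨Equiv.ofBijective f hb, fun j i => ?_⟩
  simp only [Equiv.ofBijective_apply, f]
  rw [smul_smul, pow_val_succ hc]

theorem two_trans_of_fix {G Ω : Type*} [Group G] [MulAction G Ω] [Fintype Ω] [FaithfulSMul G Ω]
    {p : ℕ} [hp : Fact p.Prime] (hΩ : Fintype.card Ω = 2 * p) (hG : IsPreprimitive G Ω) {c : G}
    (hc : orderOf c = p) {x₀ : Ω} (hx₀ : c • x₀ = x₀) : IsMultiplyPretransitive G Ω 2 := by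
  classical
  have hp1 := hp.out.one_lt
  have hc1 : c ≠ 1 := by rintro rfl; rw [orderOf_one] at hc; omega
  have hP : IsPGroup p (Subgroup.zpowers c) := IsPGroup.of_card (n := 1) (by simp [hc])
  have h1 := hP.card_modEq_card_fixedPoints Ω
  have h2 : fixedPoints (Subgroup.zpowers c) Ω = fixedBy Ω c := by
    ext x
    constructor
    · intro h; exact h ⟨c, Subgroup.mem_zpowers c⟩
    · rintro h ⟨_, k, rfl⟩
      exact (stabilizer G x).zpow_mem h k
  rw [h2, Nat.card_eq_fintype_card, hΩ] at h1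
  have h3 := Cfsg.Agent.H1.Derange.card_fixedBy_lt (Ω := Ω) hc1
  have h4 : Nat.card (fixedBy Ω c) ≠ 0 := by
    rw [Ne, Cfsg.Agent.H1.Derange.card_fixedBy_eq_zero_iff]
    exact fun h => h x₀ hx₀
  obtain ⟨k, hk⟩ := (h1.dvd_iff dvd_rfl).1 (Dvd.intro_left 2 rfl)
  rw [Nat.card_eq_fintype_card (α := Ω), hΩ, hk] at h3
  have hk1 : k = 1 := by
    have : k < 2 := by nlinarith
    have : k ≠ 0 := by rintro rfl; exact h4 hk
    omega
  rw [hk1, mul_one] at hk
  apply hG.is_two_pretransitive (s := fixedBy Ω c) (n := p - 1)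
  · rw [← Nat.card_coe_set_eq, hk]; omega
  · rw [Nat.card_eq_fintype_card, hΩ]; omega
  · let c' : fixingSubgroup G (fixedBy Ω c) := ⟨c, (mem_fixingSubgroup_iff G).2 fun y hy => hy⟩
    have hc' : orderOf c' = p := by rw [← hc]; exact (Subgroup.orderOf_coe c').symm
    have := Fintype.ofFinite (SubMulAction.ofFixingSubgroup G (fixedBy Ω c))
    have h5 : Fintype.card (SubMulAction.ofFixingSubgroup G (fixedBy Ω c)) = p := by
      have h6 := Set.ncard_add_ncard_compl (fixedBy Ω c)
      rw [← Nat.card_coe_set_eq, hk, Nat.card_eq_fintype_card, hΩ] at h6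
      rw [← Nat.card_eq_fintype_card]
      change (fixedBy Ω c)ᶜ.ncard = p
      omega
    obtain ⟨y, hy⟩ := exists_move (Ω := Ω) hc1
    obtain ⟨e, -, he⟩ := exists_coord h5 hc' (a := ⟨y, hy⟩) (fun h => hy (congrArg Subtype.val h))
    have hpow : ∀ (n : ℕ) j, c' ^ n • e j = e (j + n) := by
      intro n
      induction n with
      | zero => simp
      | succ n ih => intro j; rw [pow_succ', mul_smul, ih, he]; congr 1; push_cast; ring
    constructor
    intro x y
    obtain ⟨i, rfl⟩ := e.surjective x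
    obtain ⟨j, rfl⟩ := e.surjective y
    exact ⟨c' ^ (j - i).val, by rw [hpow]; simp⟩

theorem main {G α : Type*} [Group G] [Finite G] [MulAction G α] [FaithfulSMul G α] [Fintype α] {p : ℕ} (hp : p.Prime) (hα : Fintype.card α = 2 * p) (hG : MulAction.IsPreprimitive G α) (a₀ : α) : MulAction.IsMultiplyPretransitive G α 2 ∨ (Nat.card (MulAction.orbitRel.Quotient (MulAction.stabilizer G a₀) α) = 3 ∧ ∃ a : ℕ, 0 < a ∧ p = 2 * a ^ 2 + 2 * a + 1 ∧ ∀ b : α, b ≠ a₀ → Nat.card (MulAction.orbit (MulAction.stabilizer G a₀) b) = a * (2 * a + 1) ∨ Nat.card (MulAction.orbit (MulAction.stabilizer G a₀) b) = (a + 1) * (2 * a + 1)) := by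
  classical
  have : Fact p.Prime := ⟨hp⟩
  have : Nonempty α := ⟨a₀⟩
  obtain ⟨c, hc⟩ := exists_orderOf_eq (G := G) (Ω := α) (p := p) (hα ▸ Dvd.intro_left 2 rfl)
  by_cases hfix : ∃ x : α, c • x = x
  · obtain ⟨x, hx⟩ := hfix
    exact Or.inl (two_trans_of_fix hα hG hc hx)
  push Not at hfix
  obtain ⟨e, he⟩ := exists_coord2 hα hc hfix
  rw [or_iff_not_imp_left]
  intro h2
  let R : α → α → α → Prop := fun b x y => (x, y) ∈ orbit G (a₀, b)
  have hR : ∀ b (g : G) x y, R b (g • x) (g • y) ↔ R b x y := fun b => orbit_rel_smul _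
  have hirr : ∀ b, b ≠ a₀ → ∀ x, ¬ R b x x := by
    rintro b hb x ⟨g, hg⟩
    exact hb (smul_left_cancel g ((congrArg Prod.snd hg).trans (congrArg Prod.fst hg).symm))
  have hne : ∀ b, b ≠ a₀ → av e (ind (R b)) ≠ 0 := fun b hb =>
    av_ne_zero hG he (hR b) (hirr b hb) (mem_orbit_self _)
  have hneg : ∀ b b', b ≠ a₀ → b' ≠ a₀ → ¬ R b a₀ b' → av e (ind (R b)) * av e (ind (R b')) < 0 := by
    intro b b' hb hb' h
    refine lt_of_le_of_ne (av_mul_nonpos hG he (hR b) (hirr b hb) (hR b') (hirr b' hb') ?_)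
      (mul_ne_zero (hne b hb) (hne b' hb'))
    intro x y h1 h3
    apply h
    change _ ∈ orbit G (a₀, b)
    rw [← orbit_eq_iff.2 h1, orbit_eq_iff.2 h3]
    exact mem_orbit_self _
  obtain ⟨b, b', hb, hb', hbb', hpos⟩ : ∃ b b', b ≠ a₀ ∧ b' ≠ a₀ ∧ ¬ R b a₀ b' ∧
      0 < av e (ind (R b)) := by
    obtain ⟨b, b', hb, hb', hbb'⟩ : ∃ b b', b ≠ a₀ ∧ b' ≠ a₀ ∧ ¬ R b a₀ b' := by
      by_contra hcon
      push Not at hcon
      apply h2
      rw [is_two_pretransitive_iff]
      intro x y x' y' h h'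
      obtain ⟨g, rfl⟩ := exists_smul_eq G a₀ x
      obtain ⟨g', rfl⟩ := exists_smul_eq G a₀ x'
      obtain ⟨g'', hg''⟩ := hcon (g⁻¹ • y) (g'⁻¹ • y') (by rw [Ne, inv_smul_eq_iff]; exact h.symm)
        (by rw [Ne, inv_smul_eq_iff]; exact h'.symm)
      simp only [Prod.smul_mk, Prod.mk.injEq] at hg''
      exact ⟨g' * g'' * g⁻¹, by simp [mul_smul, hg''.1], by simp [mul_smul, hg''.2]⟩
    by_cases h : 0 < av e (ind (R b))
    · exact ⟨b, b', hb, hb', hbb', h⟩
    · refine ⟨b', b, hb', hb, fun h1 => hbb' (mem_orbit_symm.1 h1), ?_⟩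
      have := hneg b b' hb hb' hbb'
      nlinarith
  have hall : ∀ y, y ≠ a₀ → ¬ R b a₀ y → R b' a₀ y := by
    intro y hy h
    by_contra h'
    have h3 := hneg b b' hb hb' hbb'
    have h4 := hneg b y hb hy h
    have h5 := hneg b' y hb' hy h'
    have h6 : av e (ind (R b')) < 0 := by nlinarith
    have h7 : av e (ind (R y)) < 0 := by nlinarith
    nlinarith
  obtain ⟨s, hs0, hs1, hs2⟩ := params hG he (hR b) (hirr b hb) (by
    intro x y x' y' h h' hiff
    by_cases hxy : R b x y
    · obtain ⟨g, hg⟩ := hxy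
      obtain ⟨g', hg'⟩ := hiff.1 ⟨g, hg⟩
      simp only [Prod.smul_mk, Prod.mk.injEq] at hg hg'
      exact ⟨g' * g⁻¹, by rw [mul_smul, ← hg.1, inv_smul_smul, hg'.1],
        by rw [mul_smul, ← hg.2, inv_smul_smul, hg'.2]⟩
    · obtain ⟨g, rfl⟩ := exists_smul_eq G a₀ x
      obtain ⟨g', rfl⟩ := exists_smul_eq G a₀ x'
      obtain ⟨z, rfl⟩ : ∃ c, y = g • c := ⟨g⁻¹ • y, by simp⟩
      obtain ⟨z', rfl⟩ : ∃ c, y' = g' • c := ⟨g'⁻¹ • y', by simp⟩
      have hxy' := fun h => hxy (hiff.2 h)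
      rw [hR] at hxy hxy'
      obtain ⟨k, hk⟩ := hall z (by rintro rfl; exact h rfl) hxy
      obtain ⟨k', hk'⟩ := hall z' (by rintro rfl; exact h' rfl) hxy'
      simp only [Prod.smul_mk, Prod.mk.injEq] at hk hk'
      refine ⟨g' * k' * k⁻¹ * g⁻¹, ?_, ?_⟩
      · rw [mul_smul, inv_smul_smul, mul_smul, inv_smul_eq_iff.2 hk.1.symm, mul_smul, hk'.1]
      · rw [mul_smul, inv_smul_smul, mul_smul, inv_smul_eq_iff.2 hk.2.symm, mul_smul, hk'.2]) hpos
  have hcb : (univ.filter fun y => R b a₀ y).card = s * (2 * s + 1) := by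
    have := hs2 a₀
    simp only [ind, sum_boole] at this
    exact_mod_cast this
  refine ⟨?_, s, hs0, hs1, fun y hy => ?_⟩
  · have := Fintype.ofFinite (orbitRel.Quotient (stabilizer G a₀) α)
    have hq : ∀ x y : α, (Quotient.mk'' x : orbitRel.Quotient (stabilizer G a₀) α) = Quotient.mk'' y
        ↔ R y a₀ x := by
      intro x y
      rw [Quotient.eq'', orbitRel_apply]
      constructor
      · rintro ⟨g, hg⟩; exact ⟨g.1, Prod.ext g.2 hg⟩
      · rintro ⟨g, hg⟩; exact ⟨⟨g, congrArg Prod.fst hg⟩, congrArg Prod.snd hg⟩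
    rw [Nat.card_eq_fintype_card, ← card_univ, card_eq_three]
    refine ⟨Quotient.mk'' a₀, Quotient.mk'' b, Quotient.mk'' b', ?_, ?_, ?_, ?_⟩
    · rw [Ne, hq]; exact hirr b hb a₀
    · rw [Ne, hq]; exact hirr b' hb' a₀
    · rw [Ne, eq_comm, hq]; exact hbb'
    · ext q
      induction q using Quotient.inductionOn' with
      | h y =>
        simp only [mem_univ, mem_insert, mem_singleton, true_iff, hq]
        by_cases hy : y = a₀
        · left; rw [hy]; exact mem_orbit_self _
        · right; exact or_iff_not_imp_left.2 (hall y hy)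
  · rw [Cfsg.Agent.H1.PermChar.card_suborbit]
    by_cases h : R b a₀ y
    · left
      rw [orbit_eq_iff.2 h, ← hcb]
    · right
      rw [orbit_eq_iff.2 (hall y hy h)]
      have h3 : (univ.filter fun z => (a₀, z) ∈ orbit G (a₀, b')) =
          (univ.erase a₀) \ univ.filter fun y => R b a₀ y := by
        ext z
        simp only [mem_filter, mem_univ, true_and, mem_sdiff, mem_erase, and_true]
        constructor
        · intro hz
          refine ⟨by rintro rfl; exact hirr b' hb' _ hz, fun h4 => hbb' ?_⟩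
          change _ ∈ orbit G (a₀, b)
          rw [← orbit_eq_iff.2 h4, orbit_eq_iff.2 hz]
          exact mem_orbit_self _
        · exact fun hz => hall z hz.1 hz.2
      have h4 := congrArg Finset.card h3
      rw [card_sdiff_of_subset (by
        intro y hy
        rw [mem_erase]
        exact ⟨by rintro rfl; exact hirr b hb _ (mem_filter.1 hy).2, mem_univ _⟩),
        card_erase_of_mem (mem_univ _), card_univ, hcb, hα, hs1] at h4
      convert h4 using 1
      symm
      apply Nat.sub_eq_of_eq_add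
      apply Nat.sub_eq_of_eq_add
      ring


/-- Wielandt's Theorem on primitive groups of degree `2p`: such a group is doubly transitive, or it has rank 3, `p = 2a² + 2a + 1`, and subdegrees `a(2a+1)` and `(a+1)(2a+1)`. -/
theorem result {α : Type*} [Fintype α] [DecidableEq α] {p : ℕ} (hp : p.Prime) (hα : Fintype.card α = 2 * p) (G : Subgroup (Equiv.Perm α)) (hG : MulAction.IsPreprimitive G α) (a₀ : α) : MulAction.IsMultiplyPretransitive G α 2 ∨ (Nat.card (MulAction.orbitRel.Quotient (MulAction.stabilizer G a₀) α) = 3 ∧ ∃ a : ℕ, 0 < a ∧ p = 2 * a ^ 2 + 2 * a + 1 ∧ ∀ b : α, b ≠ a₀ → Nat.card (MulAction.orbit (MulAction.stabilizer G a₀) b) = a * (2 * a + 1) ∨ Nat.card (MulAction.orbit (MulAction.stabilizer G a₀) b) = (a + 1) * (2 * a + 1)) := by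
  exact main hp hα hG a₀

end Cfsg.Agent.S0720
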