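import Cfsg.Statements.S0724
import Mathlib

set_option autoImplicit false
open Cfsg

namespace Cfsg.Agent.S0724

open MulAction

theorem dvd_sum_pow {G α : Type*} [Group G] [Fintype G] [Fintype α] [MulAction G α] (k : ℕ) :
    Nat.card G ∣ ∑ g : G, Nat.card (fixedBy α g) ^ k := by
  classical
  have : Fintype (orbitRel.Quotient G (Fin k → α)) := Fintype.ofFinite _
  have h := sum_card_fixedBy_eq_card_orbits_mul_card_group G (Fin k → α)
  have h2 : ∀ g : G, Fintype.card (fixedBy (Fin k → α) g) = Nat.card (fixedBy α g) ^ k := by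
    intro g
    rw [← Nat.card_eq_fintype_card]
    have : Nat.card (fixedBy α g) ^ k = Nat.card (Fin k → fixedBy α g) := by simp
    rw [this]
    exact Nat.card_congr ⟨fun f i => ⟨f.1 i, congrFun f.2 i⟩,
      fun f => ⟨fun i => f i, funext fun i => (f i).2⟩, fun f => rfl, fun f => rfl⟩
  simp only [h2] at h
  rw [h, Nat.card_eq_fintype_card]
  exact Dvd.intro_left _ rfl

theorem dvd_sum_poly {G α : Type*} [Group G] [Fintype G] [Fintype α] [MulAction G α]
    (P : Polynomial ℤ) :
    (Nat.card G : ℤ) ∣ ∑ g : G, P.eval (Nat.card (fixedBy α g) : ℤ) := by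
  induction P using Polynomial.induction_on' with
  | add p q hp hq => simp only [Polynomial.eval_add, Finset.sum_add_distrib]; exact dvd_add hp hq
  | monomial n a =>
    simp only [Polynomial.eval_monomial, ← Finset.mul_sum]
    apply Dvd.dvd.mul_left
    exact_mod_cast dvd_sum_pow n


/-- Blichfeldt's Theorem: if a finite set `L` of natural numbers contains the number of fixed points of every non-identity element of a permutation group `G` of degree `n`, then the order of `G` divides `∏ (n - l)` over `l ∈ L`. -/
theorem result {α : Type*} [Fintype α] [DecidableEq α] (G : Subgroup (Equiv.Perm α)) (L : Finset ℕ) (hL : ∀ g ∈ G, g ≠ 1 → Nat.card (MulAction.fixedBy α g) ∈ L) : Nat.card G ∣ ∏ l ∈ L, (Fintype.card α - l) := by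
  classical
  by_cases hle : ∀ l ∈ L, l ≤ Fintype.card α
  · have h := dvd_sum_poly (G := G) (α := α) (∏ l ∈ L, (Polynomial.X - Polynomial.C (l : ℤ)))
    rw [Finset.sum_eq_single 1] at h
    · simp only [Polynomial.eval_prod, Polynomial.eval_sub, Polynomial.eval_X, Polynomial.eval_C,
        fixedBy_one_eq_univ, Nat.card_eq_fintype_card] at h
      rw [← Int.natCast_dvd_natCast, Nat.card_eq_fintype_card, Nat.cast_prod]
      convert h using 1
      refine Finset.prod_congr rfl fun l hl => ?_
      rw [Nat.cast_sub (hle l hl)]; simp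
    · intro g _ hg
      simp only [Polynomial.eval_prod, Polynomial.eval_sub, Polynomial.eval_X, Polynomial.eval_C]
      have := hL g.1 g.2 (fun h => hg (Subtype.ext h))
      exact Finset.prod_eq_zero this (sub_self _)
    · simp
  · push Not at hle
    obtain ⟨l, hl, hlt⟩ := hle
    rw [Finset.prod_eq_zero hl (by omega)]
    exact dvd_zero _

end Cfsg.Agent.S0724
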