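import Cfsg.Statements.S0725
import Cfsg.Agent.H1.PS2
import Cfsg.Agent.H1.PS3
import Cfsg.Agent.H1.PS5
import Cfsg.Agent.H3.PSa
import Cfsg.Agent.H3.PSj
import Cfsg.Agent.H3.PSu
import Cfsg.Agent.H7.PSr
import Cfsg.Agent.H7.PSb
import Cfsg.Agent.H8.PSb
import Cfsg.Agent.H8.PSc
import Cfsg.Agent.H9.PSu
import Cfsg.Agent.H9.PSi

set_option autoImplicit false
open Cfsg

namespace Cfsg.Agent.S0725

/-- The Praeger–Saxl bound: a primitive permutation group of degree `n` not containing the alternating group has order at most `4 ^ n`. -/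
theorem result {α : Type*} [Fintype α] [DecidableEq α] (G : Subgroup (Equiv.Perm α)) (hG : MulAction.IsPreprimitive G α) (hA : ¬ alternatingGroup α ≤ G) : Nat.card G ≤ 4 ^ Fintype.card α := by
  have hU := H1.PS.hu_of H3.PSu.ua H7.PSb.ub H1.PS.uc
  have h2 := H1.PS.h2_of hU (H1.PS.hi_of H3.PSa.ia H1.PS.ib)
  exact H1.PS.main hU H3.PSj.jo (H7.PSr.ra h2) (H7.PSr.rb (H1.PS.h3_of h2)) H8.PS.ns H8.PS.num H9.PS.nul H8.PS.nim
    H9.PS.nil G hG hA

end Cfsg.Agent.S0725
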