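import Cfsg.Statements.S0726
import Cfsg.Agent.H3.Centralizer

set_option autoImplicit false
open Cfsg

namespace Cfsg.Agent.S0726


/-- The left and right regular permutation representations of a group are each other's centralisers in the symmetric group: the centraliser of the left regular image is the right regular image, and a transitive subgroup centralising the left regular image is the whole right regular image. -/
theorem result {G : Type*} [Group G] : Subgroup.centralizer ((MulAction.toPermHom G G).range : Set (Equiv.Perm G)) = (MulAction.toPermHom Gᵐᵒᵖ G).range ∧ ∀ H : Subgroup (Equiv.Perm G), H ≤ Subgroup.centralizer ((MulAction.toPermHom G G).range : Set (Equiv.Perm G)) → MulAction.IsPretransitive H G → H = (MulAction.toPermHom Gᵐᵒᵖ G).range := by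
  have hL : MulAction.IsPretransitive (MulAction.toPermHom G G).range G := by
    apply H3.Centralizer.isPretransitive_of_trans
    intro a b
    exact ⟨MulAction.toPermHom G G (b * a⁻¹), ⟨_, rfl⟩, by simp⟩
  have hR : MulAction.IsPretransitive (MulAction.toPermHom Gᵐᵒᵖ G).range G := by
    apply H3.Centralizer.isPretransitive_of_trans
    intro a b
    exact ⟨MulAction.toPermHom Gᵐᵒᵖ G (MulOpposite.op (a⁻¹ * b)), ⟨_, rfl⟩, by simp⟩
  have hle : (MulAction.toPermHom Gᵐᵒᵖ G).range ≤
      Subgroup.centralizer ((MulAction.toPermHom G G).range : Set (Equiv.Perm G)) := by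
    rintro _ ⟨x, rfl⟩
    rw [Subgroup.mem_centralizer_iff]
    rintro _ ⟨y, rfl⟩
    ext z
    simp [mul_assoc]
  have hs := fun c hc a ha => H3.Centralizer.semiregular (MulAction.toPermHom G G).range c hc a ha
  have h1 := H3.Centralizer.eq_of_le_of_semiregular _ _ hle hR hs
  refine ⟨h1.symm, fun H hH ht => ?_⟩
  rw [h1]
  exact H3.Centralizer.eq_of_le_of_semiregular _ _ hH ht hs

end Cfsg.Agent.S0726
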