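import Cfsg.Statements.S0729
import Cfsg.Agent.H4.ZSharp3

set_option autoImplicit false
open Cfsg

namespace Cfsg.Agent.S0729

/-- In a sharply triply transitive group of even degree at least 6, the two-point stabiliser `H = G_{a,b}` has a normal subgroup of index 2 that is normalised by the element `s` interchanging `a, b` and fixing a third point `c`. -/
theorem result {α : Type*} [Fintype α] [DecidableEq α] (heven : Even (Fintype.card α)) (h6 : 6 ≤ Fintype.card α) (G : Subgroup (Equiv.Perm α)) (h3 : MulAction.IsMultiplyPretransitive G α 3) (hsharp : ∀ x : Fin 3 ↪ α, MulAction.stabilizer G x = ⊥) {a b c : α} (hab : a ≠ b) (hac : a ≠ c) (hbc : b ≠ c) (s : G) (hsa : s • a = b) (hsb : s • b = a) (hsc : s • c = c) : ∃ N : Subgroup G, N ≤ MulAction.stabilizer G a ⊓ MulAction.stabilizer G b ∧ (N.subgroupOf (MulAction.stabilizer G a ⊓ MulAction.stabilizer G b)).Normal ∧ N.relIndex (MulAction.stabilizer G a ⊓ MulAction.stabilizer G b) = 2 ∧ ∀ n ∈ N, s * n * s⁻¹ ∈ N := by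
  have hc : 3 ≤ Nat.card α := by rw [Nat.card_eq_fintype_card]; omega
  have hZ := H4.ZBasic.zt_of_sharp hc G h3 hsharp
  obtain ⟨Z, rfl, rfl⟩ := H4.ZIdent.exists_ZK hZ hab
  have hF := Z.card_F
  rw [Nat.card_eq_fintype_card] at hF
  exact H4.ZSharp3.exists_invariant_index_two Z (H4.ZEven.card_H_of_three Z h3 hc)
    (by rw [hF, Nat.even_add_one] at heven; exact Nat.not_even_iff_odd.1 heven)
    (hZ.three _ _ _ c hab hbc hac (by rw [mul_smul, hsa, hsb]) (by rw [mul_smul, hsb, hsa])
      (by rw [mul_smul, hsc, hsc])) hsa hsb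

end Cfsg.Agent.S0729
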