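import Cfsg.Statements.S0730
import Cfsg.Agent.H4.ZSharp2

set_option autoImplicit false
open Cfsg

namespace Cfsg.Agent.S0730

/-- A sharply triply transitive group of degree `p^f + 1`, `p` an odd prime and `f` odd, is isomorphic to the projective general linear group of degree 2 over the field with `p^f` elements (for even `f` there is a second, twisted, group). -/
theorem result {α : Type*} [Fintype α] [DecidableEq α] {p f : ℕ} (hp : p.Prime) (hp2 : p ≠ 2) (hfo : Odd f) (hα : Fintype.card α = p ^ f + 1) (G : Subgroup (Equiv.Perm α)) (h3 : MulAction.IsMultiplyPretransitive G α 3) (hsharp : ∀ x : Fin 3 ↪ α, MulAction.stabilizer G x = ⊥) : ∃ (F : Type) (_ : Field F) (_ : Fintype F), Fintype.card F = p ^ f ∧ Nonempty (G ≃* Matrix.ProjGenLinGroup (Fin 2) F) := by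
  have := Fact.mk hp
  have hc : 3 ≤ Nat.card α := by
    rw [Nat.card_eq_fintype_card, hα]
    have : p ≤ p ^ f := Nat.le_self_pow hfo.pos.ne' p
    have := hp.two_le
    omega
  have hZ := H4.ZBasic.zt_of_sharp hc G h3 hsharp
  have : Nontrivial α := Finite.one_lt_card_iff_nontrivial.1 (by omega)
  obtain ⟨a, b, hab⟩ := exists_pair_ne α
  obtain ⟨Z, -, -⟩ := H4.ZIdent.exists_ZK hZ hab
  have hF := Z.card_F
  rw [Nat.card_eq_fintype_card, hα] at hF
  have hK := GaloisField.card p f hfo.pos.ne'
  have := Fintype.ofFinite (GaloisField p f)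
  refine ⟨GaloisField p f, inferInstance, this, by rw [← Nat.card_eq_fintype_card, hK], ?_⟩
  exact H4.ZSharp2.pgl_of_odd_exp Z (H4.ZEven.card_H_of_three Z h3 hc) hp2 (by omega) hfo

end Cfsg.Agent.S0730
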