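import Cfsg.Statements.S0731
import Cfsg.Agent.H4.ZAb

set_option autoImplicit false
open Cfsg

namespace Cfsg.Agent.S0731

/-- A finite Zassenhaus group whose point stabiliser has an abelian regular normal subgroup on the remaining points is sharply triply transitive or isomorphic to `PSL(2, F)` for a finite field `F` of odd characteristic. -/
theorem result {G Ω : Type*} [Group G] [Finite G] [MulAction G Ω] [Finite Ω] (hZ : Cfsg.IsZassenhausGroup G Ω) (x : Ω) (F : Subgroup G) (hFle : F ≤ MulAction.stabilizer G x) (hFn : (F.subgroupOf (MulAction.stabilizer G x)).Normal) (hFab : IsMulCommutative F) (hreg : ∀ y z : Ω, y ≠ x → z ≠ x → ∃! u : F, (u : G) • y = z) : (MulAction.IsMultiplyPretransitive G Ω 3 ∧ ∀ t : Fin 3 ↪ Ω, MulAction.stabilizer G t = ⊥) ∨ ∃ (K : Type) (_ : Field K) (_ : Fintype K), ringChar K ≠ 2 ∧ Nonempty (G ≃* Matrix.ProjectiveSpecialLinearGroup (Fin 2) K) := by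
  obtain ⟨g, -, c, d, hcd, -⟩ := hZ.2.2.2.1
  have : Nontrivial Ω := ⟨⟨c, d, hcd⟩⟩
  obtain ⟨y, hy⟩ := exists_ne x
  obtain ⟨Z, hZa, hZF⟩ : ∃ Z : H4.ZKer.ZK G Ω, Z.a = x ∧ Z.F = F :=
    ⟨H4.ZKer.ZK.ofReg (H4.ZBasic.zt_of_zass hZ) hy.symm F hFle
      (H4.ZKer.norm_of_subgroupOf hFle hFn) hreg, rfl, rfl⟩
  subst hZa hZF
  rcases H4.ZAb.abelian_kernel Z (H4.ZMS.H_ne_bot hZ Z.hab) hZ.2.2.2.2 with h | ⟨h1, h2⟩
  · exact Or.inl ⟨H4.ZEven.three_of_card_H Z h, H4.ZBasic.sharp_of_three Z.zt.three⟩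
  · right
    obtain ⟨p, f, hp, -, hf⟩ := Z.elementary_of_large (by omega)
    have hpos : 0 < Nat.card Z.H := Nat.card_pos
    have hf0 : f ≠ 0 := by
      rintro rfl
      rw [pow_zero] at hf
      omega
    have := Fact.mk hp
    have hK := GaloisField.card p f hf0
    have := Fintype.ofFinite (GaloisField p f)
    refine ⟨GaloisField p f, inferInstance, this, ?_, h2 _ (by omega)⟩
    intro h
    have := FiniteField.even_card_of_char_two h
    rw [← Nat.card_eq_fintype_card] at this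
    omega

end Cfsg.Agent.S0731
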