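import Cfsg.Statements.S0733
import Mathlib

set_option autoImplicit false
open Cfsg

namespace Cfsg.Agent.S0733


/-- A permutation group of affine type — generated by the translations of a finite vector space `V` over `ZMod p` together with a group `G₀` of linear automorphisms — is primitive on `V` if and only if `G₀` is irreducible on `V`. -/
theorem result {p : ℕ} [Fact p.Prime] {V : Type*} [AddCommGroup V] [Module (ZMod p) V] [Finite V] [Nontrivial V] (G₀ : Subgroup (V ≃ₗ[ZMod p] V)) (G : Subgroup (Equiv.Perm V)) (hG : ∀ σ : Equiv.Perm V, σ ∈ G ↔ ∃ g ∈ G₀, ∃ b : V, ∀ x : V, σ x = (g : V ≃ₗ[ZMod p] V) x + b) : MulAction.IsPreprimitive G V ↔ ∀ W : Submodule (ZMod p) V, (∀ g ∈ G₀, ∀ v ∈ W, (g : V ≃ₗ[ZMod p] V) v ∈ W) → W = ⊥ ∨ W = ⊤ := by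
  have htr : ∀ b : V, Equiv.addRight b ∈ G := fun b =>
    (hG _).mpr ⟨1, G₀.one_mem, b, fun x => by simp⟩
  have hlin : ∀ g ∈ G₀, (g : V ≃ₗ[ZMod p] V).toEquiv ∈ G := fun g hg =>
    (hG _).mpr ⟨g, hg, 0, fun x => by simp⟩
  have htrans : MulAction.IsPretransitive G V :=
    ⟨fun x y => ⟨⟨_, htr (y - x)⟩, by
      change Equiv.addRight (y - x) x = y
      simp⟩⟩
  constructor
  · intro hprim W hW
    have hblock : MulAction.IsBlock G (W : Set V) := by
      rw [MulAction.isBlock_iff_smul_eq_of_mem]
      rintro ⟨σ, hσ⟩ a ha hσa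
      obtain ⟨g, hg, b, e⟩ := (hG σ).mp hσ
      change σ a ∈ W at hσa
      rw [e] at hσa
      have hb : b ∈ W := by
        have := W.sub_mem hσa (hW g hg a ha)
        simpa using this
      ext y
      constructor
      · rintro ⟨x, hx, rfl⟩
        change σ x ∈ W
        rw [e]
        exact W.add_mem (hW g hg x hx) hb
      · intro hy
        refine ⟨g⁻¹ (y - b), hW _ (G₀.inv_mem hg) _ (W.sub_mem hy hb), ?_⟩
        change σ _ = y
        rw [e]
        have : g (g⁻¹ (y - b)) = y - b := g.apply_symm_apply _
        rw [this]; simp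
    rcases hblock.subsingleton_or_eq_univ with h | h
    · left
      rw [eq_bot_iff]
      intro x hx
      exact h hx W.zero_mem
    · right
      rw [eq_top_iff]
      intro x _
      have : x ∈ (W : Set V) := by rw [h]; trivial
      exact this
  · intro hirr
    apply MulAction.IsPreprimitive.of_isTrivialBlock_base (0 : V)
    intro B h0 hB
    rw [MulAction.isBlock_iff_smul_eq_of_mem] at hB
    have hadd : ∀ a ∈ B, ∀ b ∈ B, a + b ∈ B := by
      intro a ha b hb
      have := hB (g := ⟨_, htr b⟩) h0 (by
        change Equiv.addRight b 0 ∈ B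
        simpa using hb)
      rw [← this]
      exact ⟨a, ha, rfl⟩
    have hns : ∀ n : ℕ, ∀ a ∈ B, n • a ∈ B := by
      intro n a ha
      induction n with
      | zero => simpa using h0
      | succ n ih => rw [succ_nsmul]; exact hadd _ ih _ ha
    let W : Submodule (ZMod p) V :=
      { carrier := B
        add_mem' := fun {a b} ha hb => hadd a ha b hb
        zero_mem' := h0
        smul_mem' := fun c x hx => by
          have := hns c.val x hx
          rwa [← Nat.cast_smul_eq_nsmul (ZMod p), ZMod.natCast_zmod_val] at this }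
    have := hirr W (by
      intro g hg v hv
      have := hB (g := ⟨_, hlin g hg⟩) h0 (by
        change g 0 ∈ B
        simpa using h0)
      change g v ∈ B
      rw [← this]
      exact ⟨v, hv, rfl⟩)
    rcases this with h | h
    · left
      intro x hx y hy
      have hx' : x ∈ W := hx
      have hy' : y ∈ W := hy
      rw [h, Submodule.mem_bot] at hx' hy'
      rw [hx', hy']
    · right
      rw [Set.eq_univ_iff_forall]
      intro x
      have : x ∈ W := by rw [h]; trivial
      exact this

end Cfsg.Agent.S0733
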