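import Cfsg.Statements.S0736
import Cfsg.Agent.H1.Homog

set_option autoImplicit false
open Cfsg

namespace Cfsg.Agent.S0736

open MulAction Cfsg.Agent.H1.Homog Finset
open scoped Pointwise

theorem not_dvd_choose {p a k : ℕ} (hp : p.Prime) (h : p ^ a ∣ k) :
    ¬ p ∣ (k + p ^ a - 1).choose k := by
  have : Fact p.Prime := ⟨hp⟩
  induction a generalizing k with
  | zero => simp [hp.one_lt.ne']
  | succ a ih =>
    obtain ⟨m, rfl⟩ := h
    have hpa : 0 < p ^ a := pow_pos hp.pos a
    have hp1 := hp.one_lt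
    have h1 := Choose.choose_modEq_choose_mod_mul_choose_div_nat (p := p)
      (n := p ^ (a + 1) * m + p ^ (a + 1) - 1) (k := p ^ (a + 1) * m)
    have e1 : p ^ (a + 1) * m + p ^ (a + 1) - 1 = (p - 1) + p * (p ^ a * m + p ^ a - 1) := by
      obtain ⟨r, hr⟩ : ∃ r, p ^ a = r + 1 := ⟨p ^ a - 1, by omega⟩
      obtain ⟨s, rfl⟩ : ∃ s, p = s + 1 := ⟨p - 1, by omega⟩
      rw [pow_succ, hr]
      have : (r + 1) * m + (r + 1) - 1 = (r + 1) * m + r := by omega
      rw [this]
      apply Nat.sub_eq_of_eq_add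
      simp only [Nat.add_sub_cancel]
      ring
    have e2 : p ^ (a + 1) * m = p * (p ^ a * m) := by ring
    have e3 : (p ^ (a + 1) * m + p ^ (a + 1) - 1) / p = p ^ a * m + p ^ a - 1 := by
      rw [e1, Nat.add_mul_div_left _ _ hp.pos, Nat.div_eq_of_lt (by omega), zero_add]
    have e4 : p ^ (a + 1) * m / p = p ^ a * m := by rw [e2, Nat.mul_div_cancel_left _ hp.pos]
    have e5 : p ^ (a + 1) * m % p = 0 := by rw [e2, Nat.mul_mod_right]
    rw [e3, e4, e5, Nat.choose_zero_right, one_mul] at h1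
    intro h2
    exact ih (Dvd.intro m rfl) ((h1.dvd_iff dvd_rfl).1 h2)

theorem main {G α : Type*} [Group G] [MulAction G α] [Fintype α] [DecidableEq α] {k : ℕ}
    (hk : 2 ≤ k) (hG : IsPretransitive G (Set.powersetCard α k))
    (hq : ∀ q : ℕ, IsPrimePow q → q ∣ k → k + q - 1 ≤ Fintype.card α) :
    IsPretransitive G (Set.powersetCard α (k - 1)) := by
  classical
  rw [homog_iff] at hG ⊢
  intro s t hs ht
  have hkn : k < Fintype.card α := by
    obtain ⟨p, hp, hpk⟩ := Nat.exists_prime_and_dvd (n := k) (by omega)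
    have := hq p hp.isPrimePow hpk
    have := hp.two_le
    omega
  have hext : ∀ X : Finset α, X.card = k - 1 → ∃ S : Finset α, X ⊆ S ∧ S.card = k := by
    intro X hX
    obtain ⟨S, h1, -, h2⟩ := exists_subsuperset_card_eq (n := k) (subset_univ X) (by omega)
      (by rw [card_univ]; omega)
    exact ⟨S, h1, h2⟩
  let O : Finset α → Prop := fun X => ∃ g : G, g • s = X
  let r : Finset α → ℕ := fun S => ((powersetCard (k - 1) S).filter O).card
  have hr : ∀ (g : G) S, r (g • S) = r S := by
    intro g S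
    symm
    apply card_bij (fun X _ => g • X)
    · intro X hX
      simp only [mem_filter, mem_powersetCard] at hX ⊢
      obtain ⟨⟨h1, h2⟩, g', h3⟩ := hX
      exact ⟨⟨smul_finset_subset_smul_finset h1, by rw [card_smul_finset, h2]⟩,
        g * g', by rw [mul_smul, h3]⟩
    · intro X _ Y _ h; exact smul_left_cancel g h
    · intro X hX
      simp only [mem_filter, mem_powersetCard] at hX ⊢
      obtain ⟨⟨h1, h2⟩, g', h3⟩ := hX
      refine ⟨g⁻¹ • X, ⟨⟨?_, by rw [card_smul_finset, h2]⟩, g⁻¹ * g', by rw [mul_smul, h3]⟩, by simp⟩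
      have := smul_finset_subset_smul_finset (a := g⁻¹) h1
      rwa [inv_smul_smul] at this
  obtain ⟨S₀, hS₀, hS₀c⟩ := hext s hs
  have hr0 : ∀ S : Finset α, S.card = k → r S = r S₀ := by
    intro S hS
    obtain ⟨g, rfl⟩ := hG S₀ S hS₀c hS
    exact hr g S₀
  have hpos : 0 < r S₀ := card_pos.2 ⟨s, by
    simp only [mem_filter, mem_powersetCard]; exact ⟨⟨hS₀, hs⟩, 1, one_smul _ _⟩⟩
  have hdvd : k ∣ r S₀ := by
    rw [Nat.dvd_iff_prime_pow_dvd_dvd]
    intro p a hp hpa
    rcases Nat.eq_zero_or_pos a with rfl | ha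
    · simp
    obtain ⟨T, -, hT⟩ := exists_subset_card_eq (s := (univ : Finset α)) (n := k + p ^ a - 1)
      (by rw [card_univ]; exact hq _ (hp.isPrimePow.pow ha.ne') hpa)
    have hpa0 : 0 < p ^ a := pow_pos hp.pos a
    have h1 := sum_card_bipartiteAbove_eq_sum_card_bipartiteBelow (r := fun X S : Finset α => X ⊆ S)
      (s := (powersetCard (k - 1) T).filter O) (t := powersetCard k T)
    have h2 : ∀ X ∈ (powersetCard (k - 1) T).filter O,
        (bipartiteAbove (fun X S : Finset α => X ⊆ S) (powersetCard k T) X).card = p ^ a := by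
      intro X hX
      simp only [mem_filter, mem_powersetCard] at hX
      have h3 : (T \ X).card = p ^ a := by rw [card_sdiff_of_subset hX.1.1]; omega
      rw [← h3]
      symm
      apply card_bij (fun x _ => insert x X)
      · intro x hx
        rw [mem_sdiff] at hx
        simp only [mem_bipartiteAbove, mem_powersetCard]
        exact ⟨⟨insert_subset hx.1 hX.1.1, by rw [card_insert_of_notMem hx.2]; omega⟩,
          subset_insert _ _⟩
      · intro x hx y hy h
        rw [mem_sdiff] at hx hy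
        have : x ∈ insert y X := h ▸ mem_insert_self x X
        exact (mem_insert.1 this).resolve_right hx.2
      · intro S hS
        simp only [mem_bipartiteAbove, mem_powersetCard] at hS
        obtain ⟨x, hx, h4⟩ := exists_eq_insert_iff.2 ⟨hS.2, by omega⟩
        exact ⟨x, mem_sdiff.2 ⟨hS.1.1 (h4 ▸ mem_insert_self x X), hx⟩, h4⟩
    have h3 : ∀ S ∈ powersetCard k T,
        (bipartiteBelow (fun X S : Finset α => X ⊆ S) ((powersetCard (k - 1) T).filter O) S).card =
          r S₀ := by
      intro S hS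
      rw [mem_powersetCard] at hS
      rw [← hr0 S hS.2]
      congr 1
      ext X
      simp only [mem_bipartiteBelow, mem_filter, mem_powersetCard]
      constructor
      · rintro ⟨⟨⟨-, h2⟩, h3⟩, h4⟩; exact ⟨⟨h4, h2⟩, h3⟩
      · rintro ⟨⟨h4, h2⟩, h3⟩; exact ⟨⟨⟨h4.trans hS.1, h2⟩, h3⟩, h4⟩
    rw [sum_congr rfl h2, sum_congr rfl h3, sum_const, sum_const, smul_eq_mul, smul_eq_mul,
      card_powersetCard, hT] at h1
    have h4 : p ^ a ∣ (k + p ^ a - 1).choose k * r S₀ := h1 ▸ Dvd.intro_left _ rfl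
    exact (Nat.Coprime.pow_left a ((Nat.Prime.coprime_iff_not_dvd hp).2
      (not_dvd_choose hp hpa))).dvd_of_dvd_mul_left h4
  obtain ⟨S, hS, hSc⟩ := hext t ht
  have h1 : (powersetCard (k - 1) S).card = k := by
    rw [card_powersetCard, hSc]
    obtain ⟨j, rfl⟩ : ∃ j, k = j + 1 := ⟨k - 1, by omega⟩
    simp
  have h2 : (powersetCard (k - 1) S).filter O = powersetCard (k - 1) S := by
    apply eq_of_subset_of_card_le (filter_subset _ _)
    rw [h1]
    have := Nat.le_of_dvd hpos hdvd
    rwa [← hr0 S hSc] at this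
  have h3 : t ∈ (powersetCard (k - 1) S).filter O := by
    rw [h2, mem_powersetCard]; exact ⟨hS, ht⟩
  exact (mem_filter.1 h3).2


/-- A `k`-homogeneous permutation group of degree `n`, `k ≥ 2`, with `k + q - 1 ≤ n` for every prime power `q` dividing `k`, is `(k-1)`-homogeneous. -/
theorem result {α : Type*} [Fintype α] [DecidableEq α] (G : Subgroup (Equiv.Perm α)) {k : ℕ} (hk : 2 ≤ k) (hG : MulAction.IsPretransitive G (Set.powersetCard α k)) (hq : ∀ q : ℕ, IsPrimePow q → q ∣ k → k + q - 1 ≤ Fintype.card α) : MulAction.IsPretransitive G (Set.powersetCard α (k - 1)) := by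
  exact main hk hG hq

end Cfsg.Agent.S0736
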