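import Cfsg.Statements.S0740
import Cfsg.Agent.H4.ZCount

set_option autoImplicit false
open Cfsg

namespace Cfsg.Agent.S0740

/-- In a finite Zassenhaus group any two points `a ≠ b` are swapped by an involution; every such involution has exactly one fixed point when the degree is odd and 0 or 2 fixed points when the degree is even; and if the two-point stabiliser has even order, some such involution has exactly 2 fixed points. -/
theorem result {G Ω : Type*} [Group G] [Finite G] [MulAction G Ω] [Fintype Ω] (hZ : Cfsg.IsZassenhausGroup G Ω) {a b : Ω} (hab : a ≠ b) : (∃ s : G, orderOf s = 2 ∧ s • a = b ∧ s • b = a) ∧ (∀ s : G, orderOf s = 2 → s • a = b → s • b = a → (Odd (Fintype.card Ω) → Nat.card (MulAction.fixedBy Ω s) = 1) ∧ (Even (Fintype.card Ω) → Nat.card (MulAction.fixedBy Ω s) = 0 ∨ Nat.card (MulAction.fixedBy Ω s) = 2)) ∧ (Even (Fintype.card Ω) → Even (Nat.card ↥(MulAction.stabilizer G a ⊓ MulAction.stabilizer G b)) → ∃ s : G, orderOf s = 2 ∧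 s • a = b ∧ s • b = a ∧ Nat.card (MulAction.fixedBy Ω s) = 2) := by
  have hT := H4.ZBasic.zt_of_zass hZ
  refine ⟨?_, ?_, ?_⟩
  · obtain ⟨s, h1, h2, h3, h4⟩ := H4.ZCount.exists_inv_swap hT hab
    exact ⟨s, H4.ZCount.orderOf_eq_two_iff'.2 ⟨h1, h2⟩, h3, h4⟩
  · intro s hs _ _
    obtain ⟨h1, h2⟩ := H4.ZCount.orderOf_eq_two_iff'.1 hs
    have hle := hT.card_fixedBy_le h1
    have hmod := H4.ZBasic.card_fixedBy_modEq (Ω := Ω) Nat.prime_two (g := s) (by rw [sq, h2])
    rw [Nat.card_eq_fintype_card (α := Ω), Nat.ModEq] at hmod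
    constructor
    · intro h
      rw [Nat.odd_iff] at h
      omega
    · intro h
      rw [Nat.even_iff] at h
      omega
  · intro _ h
    obtain ⟨z, hz, hz1, hz2⟩ := H4.ZCount.exists_inv_of_even h
    obtain ⟨s, ⟨h1, h2, u, v, huv, hu, hv⟩, h3, h4⟩ :=
      H4.ZCount.exists_inv2_swap hT ⟨hz1, hz2, a, b, hab, hz.1, hz.2⟩ hab
    exact ⟨s, H4.ZCount.orderOf_eq_two_iff'.2 ⟨h1, h2⟩, h3, h4, hT.card_fixedBy_eq_two h1 huv hu hv⟩

end Cfsg.Agent.S0740
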