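import Cfsg.Statements.S0742
import Cfsg.Agent.H4.ZEven

set_option autoImplicit false
open Cfsg

namespace Cfsg.Agent.S0742

/-- A finite Zassenhaus group of degree `n + 1` with two-point stabilisers of even order `d` satisfying `2d ≤ n - 1` has `n = p^f` for an odd prime `p` and is isomorphic to `PSL(2, p^f)`. -/
theorem result {G Ω : Type*} [Group G] [Finite G] [MulAction G Ω] [Fintype Ω] (hZ : Cfsg.IsZassenhausGroup G Ω) {a b : Ω} (hab : a ≠ b) (heven : Even (Nat.card ↥(MulAction.stabilizer G a ⊓ MulAction.stabilizer G b))) (hd : 2 * Nat.card ↥(MulAction.stabilizer G a ⊓ MulAction.stabilizer G b) ≤ Fintype.card Ω - 2) : ∃ (p f : ℕ) (K : Type) (_ : Field K) (_ : Fintype K), p.Prime ∧ p ≠ 2 ∧ Fintype.card K = p ^ f ∧ Fintype.card Ω = p ^ f + 1 ∧ Nonempty (G ≃* Matrix.ProjectiveSpecialLinearGroup (Fin 2) K) := by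
  obtain ⟨Z, rfl, rfl⟩ := H4.ZIdent.exists_ZK (H4.ZBasic.zt_of_zass hZ) hab
  have hF := Z.card_F
  rw [Nat.card_eq_fintype_card] at hF
  change 2 * Nat.card Z.H ≤ _ at hd
  obtain ⟨h1, h2⟩ := H4.ZEven.psl_of_even_small Z heven (by omega)
  obtain ⟨p, f, hp, -, hf⟩ := Z.elementary_of_large (by omega)
  have hpos : 0 < Nat.card Z.H := Nat.card_pos
  have hf0 : f ≠ 0 := by
    rintro rfl
    rw [pow_zero] at hf
    omega
  have := Fact.mk hp
  have hK := GaloisField.card p f hf0
  have := Fintype.ofFinite (GaloisField p f)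
  refine ⟨p, f, GaloisField p f, inferInstance, this, hp, ?_, by rw [← Nat.card_eq_fintype_card, hK],
    by omega, h2 _ (by omega)⟩
  rintro rfl
  have : Even (2 ^ f) := (Nat.even_pow' hf0).2 even_two
  rw [← hf, Nat.even_iff] at this
  omega

end Cfsg.Agent.S0742
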