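import Cfsg.Statements.S0744
import Cfsg.Agent.H1.Basic

set_option autoImplicit false
open Cfsg

namespace Cfsg.Agent.S0744

open MulAction


/-- If for some `k > 1` the pointwise stabilisers of all `(k-1)`-subsets have the same order `> 1` and those of all `k`-subsets have the same order, then the group is `(k-1)`-transitive. -/
theorem result {α : Type*} [Fintype α] [DecidableEq α] (G : Subgroup (Equiv.Perm α)) {k : ℕ} (hk : 1 < k) (hkn : k ≤ Fintype.card α) (l m : ℕ) (hl : 1 < l) (hkm1 : ∀ s : Finset α, s.card = k - 1 → Nat.card (fixingSubgroup G (s : Set α)) = l) (hkm : ∀ s : Finset α, s.card = k → Nat.card (fixingSubgroup G (s : Set α)) = m) : MulAction.IsMultiplyPretransitive G α (k - 1) := by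
  classical
  have hidx : ∀ s : Finset α, s.card = k - 1 → ∀ x, x ∉ s →
      Nat.card (orbit (fixingSubgroup G (s : Set α)) x) * m = l := by
    intro s hs x hx
    rw [← hkm1 s hs, ← hkm (insert x s) (by rw [Finset.card_insert_of_notMem hx, hs]; omega)]
    rw [← Nat.card_congr (orbitProdStabilizerEquivGroup (fixingSubgroup G (s : Set α)) x),
      Nat.card_prod]
    congr 1
    refine Nat.card_congr ⟨fun g => ⟨⟨g.1, ?_⟩, ?_⟩, fun g => ⟨g.1.1, ?_⟩, fun g => rfl, fun g => rfl⟩
    · rw [mem_fixingSubgroup_iff]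
      intro y hy
      exact (mem_fixingSubgroup_iff G).1 g.2 y (by simp [hy])
    · exact (mem_fixingSubgroup_iff G).1 g.2 x (by simp)
    · rw [mem_fixingSubgroup_iff]
      intro y hy
      simp only [Finset.coe_insert, Set.mem_insert_iff] at hy
      rcases hy with rfl | hy
      · exact g.2
      · exact (mem_fixingSubgroup_iff G).1 g.1.2 y hy
  obtain ⟨s₀, -, hs₀⟩ := Finset.exists_subset_card_eq (s := (Finset.univ : Finset α)) (n := k - 1)
    (by rw [Finset.card_univ]; omega)
  obtain ⟨x₀, hx₀⟩ : ∃ x, x ∉ s₀ := by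
    by_contra hc
    push Not at hc
    have : s₀ = Finset.univ := Finset.eq_univ_iff_forall.2 hc
    rw [this, Finset.card_univ] at hs₀
    omega
  obtain ⟨r, hr⟩ : ∃ r, r * m = l := ⟨_, hidx s₀ hs₀ x₀ hx₀⟩
  have hm : 0 < m := by
    rcases Nat.eq_zero_or_pos m with h | h
    · rw [h] at hr; omega
    · exact h
  have hr' : ∀ s : Finset α, s.card = k - 1 → ∀ x, x ∉ s →
      Nat.card (orbit (fixingSubgroup G (s : Set α)) x) = r := by
    intro s hs x hx
    have := hidx s hs x hx
    rw [← hr] at this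
    exact Nat.eq_of_mul_eq_mul_right hm this
  have hr1 : r ≠ 1 := by
    intro h1
    have hbot : fixingSubgroup G (s₀ : Set α) = ⊥ := by
      rw [eq_bot_iff]
      intro g hg
      rw [Subgroup.mem_bot]
      apply Subtype.ext
      ext x
      by_cases hx : x ∈ s₀
      · exact (mem_fixingSubgroup_iff G).1 hg x hx
      · have h2 := hr' s₀ hs₀ x hx
        rw [h1] at h2
        have h3 := (Nat.card_eq_one_iff_unique.1 h2).1
        have h4 := h3.elim ⟨(⟨g, hg⟩ : fixingSubgroup G (s₀ : Set α)) • x, mem_orbit _ _⟩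
          ⟨x, mem_orbit_self x⟩
        exact congrArg Subtype.val h4
    have := hkm1 s₀ hs₀
    rw [hbot] at this
    simp at this
    omega
  obtain ⟨p, hp, hpr⟩ := Nat.exists_prime_and_dvd hr1
  have : Fact p.Prime := ⟨hp⟩
  apply Cfsg.Agent.H1.Basic.gleason hp (by omega) (by omega)
  intro s hs
  let P : Sylow p (fixingSubgroup G (s : Set α)) := default
  refine ⟨(P : Subgroup _).map (fixingSubgroup G (s : Set α)).subtype, P.isPGroup'.map _, ?_⟩
  ext x
  constructor
  · intro hx
    by_contra hxs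
    have h1 := Cfsg.Agent.H1.Basic.pow_dvd_card_orbit_sylow (k := 1) P x
      (by rw [hr' s hs x hxs, pow_one]; exact hpr)
    have h2 : orbit (P : Subgroup (fixingSubgroup G (s : Set α))) x = {x} := by
      ext y
      constructor
      · rintro ⟨g, rfl⟩
        exact hx ⟨g.1.1, Subgroup.mem_map.2 ⟨g.1, g.2, rfl⟩⟩
      · rintro rfl
        exact mem_orbit_self _
    rw [h2] at h1
    simp at h1
    exact hp.one_lt.ne' h1
  · rintro hx ⟨g, hg⟩
    obtain ⟨g', -, rfl⟩ := Subgroup.mem_map.1 hg
    exact (mem_fixingSubgroup_iff G).1 g'.2 x hx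

end Cfsg.Agent.S0744
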