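import Cfsg.Statements.S0745
import Cfsg.Agent.H8.LW3
import Cfsg.Agent.S0744

set_option autoImplicit false
open Cfsg

namespace Cfsg.Agent.S0745

set_option synthInstance.maxSize 2000 in
/-- Let `G` have degree `n` and `3 ≤ k ≤ n`; suppose `G` is `(k-2)`-transitive but not `(k-1)`-transitive, and is `(k-1)`-homogeneous and `k`-homogeneous. Then `k = n` and `G` is the alternating group, or `n = 5, k = 4, |G| = 20`, or `n = 6, k = 5, |G| = 120`, or `n = 9, k = 5, |G| ∈ {504, 1512}`. -/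
theorem result {α : Type*} [Fintype α] [DecidableEq α] (G : Subgroup (Equiv.Perm α)) {k : ℕ} (hk : 3 ≤ k) (hkn : k ≤ Fintype.card α) (ht : MulAction.IsMultiplyPretransitive G α (k - 2)) (hnt : ¬ MulAction.IsMultiplyPretransitive G α (k - 1)) (hh1 : MulAction.IsPretransitive G (Set.powersetCard α (k - 1))) (hh : MulAction.IsPretransitive G (Set.powersetCard α k)) : (k = Fintype.card α ∧ G = alternatingGroup α) ∨ (Fintype.card α = 5 ∧ k = 4 ∧ Nat.card G = 20) ∨ (Fintype.card α = 6 ∧ k = 5 ∧ Nat.card G = 120) ∨ (Fintype.card α = 9 ∧ k = 5 ∧ (Nat.card G = 504 ∨ Nat.card G = 1512)) := by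
  obtain ⟨j, rfl⟩ : ∃ j, k = j + 2 := ⟨k - 2, by omega⟩
  replace ht : MulAction.IsMultiplyPretransitive G α j := ht
  replace hnt : ¬ MulAction.IsMultiplyPretransitive G α (j + 1) := hnt
  replace hh := H1.Homog.homog_iff.1 hh
  replace hh1 := H1.Homog.homog_iff.1 hh1
  obtain ⟨s, -, hs⟩ := Finset.exists_subset_card_eq (s := (Finset.univ : Finset α)) (n := j + 1)
    (by rw [Finset.card_univ]; omega)
  obtain ⟨s', -, hs'⟩ := Finset.exists_subset_card_eq (s := (Finset.univ : Finset α)) (n := j + 2) (by simpa)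
  have hT : H8.LW.Triv G α (j + 1) := fun g t ht hg => by
    obtain ⟨t, h1, ht⟩ := Finset.exists_subset_card_eq ht
    by_contra h2
    refine hnt (S0744.result G (by omega) hkn _ _ ?_ (fun u hu => H8.LW.card_fixing_eq hh1 hu ht)
      fun u hu => H8.LW.card_fixing_eq hh hu hs')
    exact (Subgroup.one_lt_card_iff_ne_bot _).2 fun h => h2 (Subgroup.mem_bot.1
      (h ▸ (mem_fixingSubgroup_iff G).2 fun x hx => hg x (h1 hx)))
  have hA : Fintype.card α = j + 2 → j + 2 = Fintype.card α ∧ G = alternatingGroup α := fun h => ⟨h.symm, by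
    have h1 := IsMultiplyPretransitive.alternatingGroup_le α G (by rwa [Nat.card_eq_fintype_card, h])
    have : Nontrivial α := Fintype.one_lt_card_iff_nontrivial.1 (by omega)
    have h2 := Subgroup.index_dvd_of_le h1
    rw [alternatingGroup.index_eq_two, Nat.dvd_prime Nat.prime_two, Subgroup.index_eq_one] at h2
    refine Equiv.Perm.eq_alternatingGroup_of_index_eq_two (h2.resolve_left fun e => hnt ?_)
    exact H3.MultiTrans.mt_of_perm fun _ _ σ => ⟨⟨σ, e ▸ trivial⟩, fun _ _ => rfl⟩⟩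
  by_cases h4 : 4 ≤ j
  · rcases H8.LW.core ht h4 hT (by omega) with ⟨t, h1, h2⟩ | h
    exacts [absurd (H8.LW.mt_of_top hh1 h1 h2) hnt, Or.inl (hA h)]
  obtain ⟨t, m, e, h1, h2, h3, h5, h6⟩ := H8.LW.arith ht hkn hT hnt hh1 hh
  have f := fun i p q h => H8.LW.fx_cases (i := i) (p := p) (q := q) ht hT h (by omega)
  have h7 := Nat.le_of_dvd (Nat.factorial_pos _) h1
  have h8 := Nat.le_of_dvd (Nat.factorial_pos _) ((Dvd.intro_left _ rfl).trans h3)
  have h9 : m ≠ 0 := by rintro rfl; exact (Nat.factorial_pos _).ne' (Nat.eq_zero_of_zero_dvd h1)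
  have h10 : t ≤ 121 := by
    have : (j + 2).factorial ≤ 120 := Nat.factorial_le (show j + 2 ≤ 5 by omega)
    have := Nat.le_mul_of_pos_right t (Nat.pos_of_ne_zero h9); omega
  rw [e] at h6 f hA ⊢
  clear h8 hh hh1 hT hs hs' hnt e ht hkn
  obtain rfl | rfl | rfl : j = 1 ∨ j = 2 ∨ j = 3 := by omega
  · obtain ⟨rfl, rfl⟩ := (by decide +kernel : ∀ m ≤ 2, ∀ t ≤ 121, m ∣ 2 ∧ m ≠ 1 ∧ m * (t * m - 1) ∣ 6 ∧ t % 2 = 1 →
      m = 2 ∧ t = 1) m h7 t h10 ⟨h1, h2, h3, h5⟩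
    exact Or.inl (hA rfl)
  · obtain ⟨rfl, rfl⟩ | ⟨rfl, rfl⟩ | ⟨rfl, rfl⟩ := (by decide +kernel : ∀ m ≤ 6, ∀ t ≤ 121, m ∣ 6 ∧ m ≠ 1 ∧
      m * (t * m - 1) ∣ 24 ∧ t % 2 = 1 → m = 2 ∧ t = 1 ∨ m = 3 ∧ t = 1 ∨ m = 3 ∧ t = 3) m h7 t h10 ⟨h1, h2, h3, h5⟩
    · exact Or.inl (hA rfl)
    · simp [h6, Nat.choose]
    · have := f 1 3 5 (by omega) h6 (by norm_num) (by norm_num) (by norm_num) (by norm_num) (by norm_num)
        (by norm_num) (by norm_num)
      omega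
  · obtain ⟨rfl, rfl⟩ | ⟨rfl, rfl⟩ | ⟨rfl, rfl⟩ | ⟨rfl, rfl⟩ | ⟨rfl, rfl⟩ | ⟨rfl, rfl⟩ | ⟨rfl, rfl⟩ :=
      (by decide +kernel : ∀ m ≤ 24, ∀ t ≤ 121, m ∣ 24 ∧ m ≠ 1 ∧ m * (t * m - 1) ∣ 120 ∧ t % 2 = 1 →
        m = 2 ∧ t = 1 ∨ m = 2 ∧ t = 3 ∨ m = 3 ∧ t = 1 ∨ m = 6 ∧ t = 1 ∨ m = 3 ∧ t = 3 ∨ m = 3 ∧ t = 7 ∨
        m = 4 ∧ t = 1) m h7 t h10 ⟨h1, h2, h3, h5⟩
    · exact Or.inl (hA rfl)
    · simp [h6, Nat.choose, Nat.factorial]
    · simp [h6, Nat.choose, Nat.factorial]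
    · simp [h6, Nat.choose, Nat.factorial]
    · have := f 2 3 5 (by omega) h6 (by norm_num) (by norm_num) (by norm_num) (by norm_num) (by norm_num)
        (by norm_num) (by norm_num)
      omega
    · have := f 2 7 11 (by omega) h6 (by norm_num) (by norm_num) (by norm_num) (by norm_num) (by norm_num)
        (by norm_num) (by norm_num)
      omega
    · have := f 1 3 5 (by omega) h6 (by norm_num) (by norm_num) (by norm_num) (by norm_num) (by norm_num)
        (by norm_num) (by norm_num)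
      omega

end Cfsg.Agent.S0745
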