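import Cfsg.Statements.S0746
import Cfsg.Agent.S0745
import Cfsg.Agent.S0736

set_option autoImplicit false
open Cfsg

namespace Cfsg.Agent.S0746

/-- The Livingstone–Wagner Theorem, first form: a `k`-homogeneous group of degree `n` with `4 ≤ 2k ≤ n` is `(k-1)`-transitive. -/
theorem result {α : Type*} [Fintype α] [DecidableEq α] (G : Subgroup (Equiv.Perm α)) {k : ℕ} (hk : 2 ≤ k) (hkn : 2 * k ≤ Fintype.card α) (hh : MulAction.IsPretransitive G (Set.powersetCard α k)) : MulAction.IsMultiplyPretransitive G α (k - 1) := by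
  have h1 : ∀ d i, i + d = k → 1 ≤ i → MulAction.IsPretransitive G (Set.powersetCard α i) := fun d => by
    induction d with
    | zero => rintro i rfl _; exact hh
    | succ d ih =>
      exact fun i h hi => S0736.result G (k := i + 1) (by omega) (ih _ (by omega) (by omega)) fun q _ hq => by
        have := Nat.le_of_dvd (by omega) hq; omega
  have h2 : ∀ i, i + 1 + 1 ≤ k → MulAction.IsMultiplyPretransitive G α (i + 1) := fun i => by
    induction i with
    | zero =>
      refine fun _ => H3.MultiTrans.mt_iff_fun.2 fun x y _ _ => ?_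
      obtain ⟨g, hg⟩ := H1.Homog.homog_iff.1 (h1 (k - 1) 1 (by omega) le_rfl) {x 0} {y 0} rfl rfl
      exact ⟨g, fun i => by rw [Fin.fin_one_eq_zero i]; simpa using hg⟩
    | succ i ih =>
      refine fun h => by_contra fun hn => ?_
      have := S0745.result G (k := i + 3) (by omega) (by omega) (ih (by omega)) hn
        (h1 (k - (i + 2)) _ (by omega) (by omega)) (h1 (k - (i + 3)) _ (by omega) (by omega))
      omega
  obtain ⟨i, rfl⟩ : ∃ i, k = i + 2 := ⟨k - 2, by omega⟩
  exact h2 i le_rfl

end Cfsg.Agent.S0746
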