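import Cfsg.Statements.S0748
import Cfsg.Agent.S0746
import Cfsg.Agent.H8.LW4

set_option autoImplicit false
open Cfsg

namespace Cfsg.Agent.S0748

/-- The Livingstone–Wagner Theorem: a `k`-homogeneous permutation group of degree `n` with `10 ≤ 2k ≤ n` is `k`-transitive. -/
theorem result {α : Type*} [Fintype α] [DecidableEq α] (G : Subgroup (Equiv.Perm α)) {k : ℕ} (hk : 5 ≤ k) (hkn : 2 * k ≤ Fintype.card α) (hh : MulAction.IsPretransitive G (Set.powersetCard α k)) : MulAction.IsMultiplyPretransitive G α k := by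
  have h1 := S0746.result G (by omega) hkn hh
  replace hh := H1.Homog.homog_iff.1 hh
  obtain ⟨j, rfl⟩ : ∃ j, k = j + 1 := ⟨k - 1, by omega⟩
  obtain ⟨s, hs, h2⟩ := H8.LW.alt_on (k := j) (by omega) _ α G rfl (by omega) h1
  obtain ⟨t, ht, h3⟩ := H8.LW.not_alt (j := j) h1 (by omega) (by omega) fun t ht => by
    obtain ⟨g, rfl⟩ := hh s t hs ht
    exact h2.smul g
  exact H8.LW.mt_of_top hh ht h3

end Cfsg.Agent.S0748
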