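import Cfsg.Statements.S1119
import Cfsg.Agent.H5.RankOne2

set_option autoImplicit false
open Cfsg

namespace Cfsg.Agent.S1119

open MulAction Cfsg.Agent.H5.Odd Cfsg.Agent.H5.RankOne Cfsg.Agent.H5.RankOne2 in

/-- In the rank-one set-up (`G` finite and doubly transitive on `Ω`, `t` an involution moving `a`, `Q` normal in `G_a` with `G_a = Q D`, `Q ⊓ D = 1` for the two-point stabiliser `D = G_a ⊓ G_{t • a}`, `|Q|` even, `|D|` odd): `Q` acts regularly on `Ω` minus `a`; hence `|Ω| = |Q| + 1`, `|G| = |Q| |D| (|Q| + 1)`, some Sylow 2-subgroup of `G` lies in `Q`, and each `g ∉ G_a` is uniquely `x t y` with `x ∈ G_a`, `y ∈ Q` (canonical form). -/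
theorem result {G Ω : Type*} [Group G] [Finite G] [MulAction G Ω] {a : Ω} {t : G} {Q : Subgroup G}
    (hS : Cfsg.IsRankOneSetup G Ω a t Q) :
    (∀ b c : Ω, b ≠ a → c ≠ a → ∃! x : Q, (x : G) • b = c) ∧
      Nat.card Ω = Nat.card Q + 1 ∧
      Nat.card G = Nat.card Q * Nat.card ↥(MulAction.stabilizer G a ⊓ MulAction.stabilizer G (t • a)) * (Nat.card Q + 1) ∧
      (∃ P : Sylow 2 G, (P : Subgroup G) ≤ Q) ∧
      ∀ g : G, g ∉ MulAction.stabilizer G a → ∃! p : G × G, p.1 ∈ MulAction.stabilizer G a ∧ p.2 ∈ Q ∧ g = p.1 * t * p.2 := by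
  refine ⟨fun b c hb hc => ?_, card_Ω hS, card_G hS, ?_, fun g hg => ?_⟩
  · obtain ⟨q, hq, h⟩ := Q_trans hS hb hc
    exact ⟨⟨q, hq⟩, h, fun q' h' => Subtype.ext (Q_uniq hS q'.2 hq hb (h'.trans h.symm))⟩
  · obtain ⟨P⟩ : Nonempty (Sylow 2 Q) := inferInstance
    have hi : Q.index = Nat.card (DD a t) * (Nat.card Q + 1) := by
      have := Q.card_mul_index
      rw [card_G hS, mul_assoc] at this
      exact Nat.eq_of_mul_eq_mul_left Nat.card_pos this
    have hP : IsPGroup 2 ((P : Subgroup Q).map Q.subtype) := P.isPGroup'.map _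
    have hind : ¬ 2 ∣ ((P : Subgroup Q).map Q.subtype).index := by
      rw [Subgroup.index_map_subtype, hi]
      have h1 := P.not_dvd_index
      have h2 := hS.odd_card
      have h3 := hS.even_card.add_one
      intro h
      rcases (Nat.Prime.dvd_mul Nat.prime_two).mp h with h | h
      · exact h1 h
      · exact (Nat.not_even_iff_odd.mpr (h2.mul h3)) (even_iff_two_dvd.mpr h)
    exact ⟨hP.toSylow hind, Subgroup.map_subtype_le _⟩
  · obtain ⟨x, y, hx, hy, h⟩ := canon_exists hS hg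
    refine ⟨(x, y), ⟨hx, hy, h⟩, ?_⟩
    rintro ⟨x', y'⟩ ⟨hx', hy', h'⟩
    obtain ⟨e1, e2⟩ := canon_unique hS hx' hx hy' hy (h'.symm.trans h)
    exact Prod.ext e1 e2

end Cfsg.Agent.S1119
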