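import Cfsg.Statements.S1124
import Cfsg.Agent.H5.Odd

set_option autoImplicit false
open scoped Pointwise
open Cfsg

namespace Cfsg.Agent.S1124

open Cfsg.Agent.H5.Odd in

/-- Let `t` be an element of order 2 of a finite group normalising a subgroup `X` of odd order, `Y = C_X(t)` and `Z` the set of elements of `X` inverted by `t`. Then `(y, z) ↦ y z` is a bijection `Y × Z → X`, so `|X| = |Y| |Z|`, and the subgroup generated by `Z` is normal in `X`. -/
theorem result {M : Type*} [Group M] [Finite M]
    (t : M) (ht : orderOf t = 2) (X : Subgroup M) (hodd : Odd (Nat.card X))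
    (hnorm : ∀ x ∈ X, t * x * t⁻¹ ∈ X) :
    (∀ x ∈ X, ∃! p : M × M, p.1 ∈ X ⊓ Subgroup.centralizer {t} ∧ p.2 ∈ Cfsg.invertedBy X t ∧ x = p.1 * p.2) ∧
      Nat.card X = Nat.card ↥(X ⊓ Subgroup.centralizer {t}) * Nat.card (Cfsg.invertedBy X t) ∧
      ∀ x ∈ X, MulAut.conj x • Subgroup.closure (Cfsg.invertedBy X t) = Subgroup.closure (Cfsg.invertedBy X t) := by
  have ht2 : t * t = 1 := by rw [← sq, ← ht, pow_orderOf_eq_one]
  refine ⟨fun x hx => ?_, card_factor ht2 hodd hnorm, ?_⟩
  · obtain ⟨y, z, hy, hyt, hz, e⟩ := factor ht2 hodd hnorm hx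
    refine ⟨(y, z), ⟨⟨hy, Subgroup.mem_centralizer_singleton_iff.mpr hyt⟩, hz, e⟩, ?_⟩
    rintro ⟨y', z'⟩ ⟨hy', hz', e'⟩
    obtain ⟨e1, e2⟩ := factor_unique hodd (Subgroup.mem_centralizer_singleton_iff.mp hy'.2) hyt hz'
      hz (e'.symm.trans e)
    exact Prod.ext e1 e2
  · have key : ∀ x ∈ X, ∀ w ∈ Subgroup.closure (Cfsg.invertedBy X t),
        x * w * x⁻¹ ∈ Subgroup.closure (Cfsg.invertedBy X t) := by
      intro x hx w hw
      obtain ⟨y, z, hy, hyt, hz, rfl⟩ := factor ht2 hodd hnorm hx
      have hz' := Subgroup.subset_closure hz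
      have h1 : z * w * z⁻¹ ∈ Subgroup.closure (Cfsg.invertedBy X t) :=
        Subgroup.mul_mem _ (Subgroup.mul_mem _ hz' hw) (Subgroup.inv_mem _ hz')
      have h2 : ∀ w ∈ Subgroup.closure (Cfsg.invertedBy X t),
          y * w * y⁻¹ ∈ Subgroup.closure (Cfsg.invertedBy X t) := by
        intro w hw
        induction hw using Subgroup.closure_induction with
        | mem w hw => exact Subgroup.subset_closure (inverted_conj hy hyt hw)
        | one => simp
        | mul a b _ _ ha hb =>
          have := Subgroup.mul_mem _ ha hb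
          convert this using 1; group
        | inv a _ ha =>
          have := Subgroup.inv_mem _ ha
          convert this using 1; group
      have := h2 _ h1
      convert this using 1; group
    intro x hx
    ext w
    rw [Subgroup.mem_pointwise_smul_iff_inv_smul_mem]
    constructor
    · intro h
      have := key x hx _ h
      simpa [mul_assoc] using this
    · intro h
      have := key x⁻¹ (X.inv_mem hx) _ h
      simpa [mul_assoc] using this

end Cfsg.Agent.S1124
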