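import Cfsg.Statements.S1125
import Cfsg.Agent.H5.RankOne2

set_option autoImplicit false
open Cfsg

namespace Cfsg.Agent.S1125

open MulAction Cfsg.Agent.H5.Odd Cfsg.Agent.H5.RankOne Cfsg.Agent.H5.RankOne2 in

/-- In the rank-one set-up (`G` finite and doubly transitive on `Ω`, `t` an involution moving `a`, `Q` normal in `G_a` with `G_a = Q D`, `Q ⊓ D = 1` for the two-point stabiliser `D = G_a ⊓ G_{t • a}`, `|Q|` even, `|D|` odd), let `X ⊆ D` fix at least three points of `Ω`. Then `C_G(X)` is doubly transitive on the fixed-point set of `X`, `|C_Q(X)|` is even, and `C_{G_a}(X) = C_Q(X) C_D(X)`. -/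
theorem result {G Ω : Type*} [Group G] [Finite G] [MulAction G Ω] {a : Ω} {t : G} {Q : Subgroup G}
    (hS : Cfsg.IsRankOneSetup G Ω a t Q)
    (X : Set G) (hX : X ⊆ ((MulAction.stabilizer G a ⊓ MulAction.stabilizer G (t • a)) : Set G))
    (h3 : ∃ b c d : Ω, b ≠ c ∧ b ≠ d ∧ c ≠ d ∧ ∀ x ∈ X, x • b = b ∧ x • c = c ∧ x • d = d) :
    (∀ b₁ b₂ c₁ c₂ : Ω, (∀ x ∈ X, x • b₁ = b₁ ∧ x • b₂ = b₂ ∧ x • c₁ = c₁ ∧ x • c₂ = c₂) →
        b₁ ≠ b₂ → c₁ ≠ c₂ → ∃ g ∈ Subgroup.centralizer X, g • b₁ = c₁ ∧ g • b₂ = c₂) ∧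
      Even (Nat.card ↥(Subgroup.centralizer X ⊓ Q)) ∧
      (Subgroup.centralizer X ⊓ Q) ⊔ (Subgroup.centralizer X ⊓ (MulAction.stabilizer G a ⊓ MulAction.stabilizer G (t • a))) = Subgroup.centralizer X ⊓ MulAction.stabilizer G a := by
  have hX' : ∀ x ∈ X, x ∈ DD a t := fun x hx => hX hx
  refine ⟨fun b₁ b₂ c₁ c₂ h hb hc => C_two_trans hS h3 (fun x hx => (h x hx).1)
    (fun x hx => (h x hx).2.1) (fun x hx => (h x hx).2.2.1) (fun x hx => (h x hx).2.2.2) hb hc,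
    ?_, ?_⟩
  · obtain ⟨s, hs, hsX, hs1, hs2⟩ := exists_inv_CQ hS hX' h3
    exact even_card_of_involution ⟨hsX, hs⟩ hs1 hs2
  · apply le_antisymm
    · exact sup_le (inf_le_inf_left _ hS.le) (inf_le_inf_left _ inf_le_left)
    · rintro h ⟨hc, hh⟩
      have hb : ∀ x ∈ X, x • t • a = t • a := fun x hx => (hX' x hx).2
      obtain ⟨q, hq, hqX, e⟩ := CQ_trans hS (fun x hx => (hX' x hx).1) (b_ne hS)
        (Q_smul_ne hS hh (b_ne hS)) hb (fix_of_centralizer hc hb)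
      have e2 : h = q * (q⁻¹ * h) := by group
      rw [e2]
      refine Subgroup.mul_mem_sup ⟨hqX, hq⟩ ⟨Subgroup.mul_mem _ (Subgroup.inv_mem _ hqX) hc, ?_, ?_⟩
      · exact Subgroup.mul_mem _ (Subgroup.inv_mem _ (hS.le hq)) hh
      · show (q⁻¹ * h) • t • a = t • a
        rw [mul_smul, ← e, inv_smul_smul]

end Cfsg.Agent.S1125
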