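import Cfsg.Statements.S1134
import Cfsg.Agent.H5.RankOne2

set_option autoImplicit false
open Cfsg

namespace Cfsg.Agent.S1134

open MulAction Cfsg.Agent.H5.Odd Cfsg.Agent.H5.RankOne Cfsg.Agent.H5.RankOne2 in

/-- In the rank-one set-up (`G` finite and doubly transitive on `Ω`, `t` an involution moving `a`, `Q` normal in `G_a` with `G_a = Q D`, `Q ⊓ D = 1` for the two-point stabiliser `D = G_a ⊓ G_{t • a}`, `|Q|` even, `|D|` odd), with the action faithful and `G` containing two distinct commuting involutions, with `V = C_D(t)`: subsets of `V` conjugate in `G` are conjugate in `V`. -/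
theorem result {G Ω : Type*} [Group G] [Finite G] [MulAction G Ω] [FaithfulSMul G Ω] {a : Ω} {t : G} {Q : Subgroup G}
    (hS : Cfsg.IsRankOneSetup G Ω a t Q)
    (h2 : ∃ x y : G, x ≠ 1 ∧ y ≠ 1 ∧ x ≠ y ∧ x * x = 1 ∧ y * y = 1 ∧ x * y = y * x)
    (X : Set G) (hX : X ⊆ (((MulAction.stabilizer G a ⊓ MulAction.stabilizer G (t • a)) ⊓ Subgroup.centralizer {t} : Subgroup G) : Set G)) (g : G)
    (hY : (fun x => g * x * g⁻¹) '' X ⊆ (((MulAction.stabilizer G a ⊓ MulAction.stabilizer G (t • a)) ⊓ Subgroup.centralizer {t} : Subgroup G) : Set G)) :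
    ∃ v ∈ (MulAction.stabilizer G a ⊓ MulAction.stabilizer G (t • a)) ⊓ Subgroup.centralizer {t}, (fun x => v * x * v⁻¹) '' X = (fun x => g * x * g⁻¹) '' X := by
  obtain ⟨c, hc⟩ := exists_fix hS hS.mul_self
  set Y := (fun x => g * x * g⁻¹) '' X with hYdef
  have hVc : ∀ v ∈ (MulAction.stabilizer G a ⊓ MulAction.stabilizer G (t • a)) ⊓
      Subgroup.centralizer {t}, v • c = c := fun v hv =>
    fix_of_commute hS hS.ne_one hS.mul_self hc (Subgroup.mem_centralizer_singleton_iff.mp hv.2).symm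
  have h3 : ∃ b c d : Ω, b ≠ c ∧ b ≠ d ∧ c ≠ d ∧ ∀ x ∈ Y, x • b = b ∧ x • c = c ∧ x • d = d :=
    ⟨a, t • a, c, (b_ne hS).symm, (t_fix_ne hS hc).1.symm, (t_fix_ne hS hc).2.symm,
      fun y hy => ⟨(hY hy).1.1, (hY hy).1.2, hVc y (hY hy)⟩⟩
  obtain ⟨h, hh, e1, e2⟩ := C_two_trans hS h3 (b₁ := g • a) (b₂ := g • t • a) (c₁ := a) (c₂ := t • a)
    (by rintro _ ⟨x, hx, rfl⟩; exact conj_fix (hX hx).1.1 g)
    (by rintro _ ⟨x, hx, rfl⟩; exact conj_fix (hX hx).1.2 g)
    (fun y hy => (hY hy).1.1) (fun y hy => (hY hy).1.2)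
    (fun h => b_ne hS (MulAction.injective g h).symm) (b_ne hS).symm
  have hd : h * g ∈ DD a t := ⟨by show (h * g) • a = a; rw [mul_smul, e1],
    by show (h * g) • t • a = t • a; rw [mul_smul, e2]⟩
  obtain ⟨v, k, hv, hvt, hk, e⟩ := D_factor hS hd
  refine ⟨v, ⟨hv, Subgroup.mem_centralizer_singleton_iff.mpr hvt⟩, Set.image_congr fun x hx => ?_⟩
  have i1 : (g * x * g⁻¹) * h = h * (g * x * g⁻¹) := hh _ ⟨x, hx, rfl⟩
  have i2 : g * x * g⁻¹ = v * (k * x * k⁻¹) * v⁻¹ := by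
    calc g * x * g⁻¹ = h * (g * x * g⁻¹) * h⁻¹ := by rw [← i1]; group
      _ = (h * g) * x * (h * g)⁻¹ := by group
      _ = _ := by rw [e]; group
  have i3 : Commute (g * x * g⁻¹) t := Subgroup.mem_centralizer_singleton_iff.mp (hY ⟨x, hx, rfl⟩).2
  have i4 : Commute x t := Subgroup.mem_centralizer_singleton_iff.mp (hX hx).2
  have i5 : Commute v t := hvt
  have i6 : Commute (k * x * k⁻¹) t := by
    have : k * x * k⁻¹ = v⁻¹ * (g * x * g⁻¹) * v := by rw [i2]; group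
    rw [this]
    exact (i5.inv_left.mul_left i3).mul_left i5
  have i7 : k * x * k⁻¹ = k⁻¹ * x * k := by
    calc k * x * k⁻¹ = t * (k * x * k⁻¹) * t⁻¹ := by rw [← i6.eq]; group
      _ = (t * k * t⁻¹) * (t * x * t⁻¹) * (t * k * t⁻¹)⁻¹ := by group
      _ = _ := by rw [hk.2, ← i4.eq]; group
  have i8 : k * x = x * k := commute_of_sq_commute (D_odd hS hk.1) (by
    calc k * k * x = k * (k * x * k⁻¹) * k := by group
      _ = _ := by rw [i7]; group)
  show v * x * v⁻¹ = g * x * g⁻¹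
  rw [i2, i8]; group

end Cfsg.Agent.S1134
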