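import Cfsg.Statements.S1139
import Cfsg.Agent.H5.Higman4

set_option autoImplicit false
open Cfsg

namespace Cfsg.Agent.S1139

open Cfsg.Agent.H5.Higman1 Cfsg.Agent.H5.Higman2 Cfsg.Agent.H5.Higman4 in

/-- A Suzuki 2-group `P` with `|P| = |Z(P)|²` is of type A: for some finite field `F` with `|F| = |Z(P)|` and some field automorphism `φ ≠ 1` of odd order, `P` is isomorphic to the group of lower unitriangular matrices with rows `(1,0,0)`, `(x,1,0)`, `(y, φ x, 1)`. -/
theorem result {P : Type*} [Group P] (hP : Cfsg.IsSuzukiTwoGroup P)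
    (hcard : Nat.card P = Nat.card (Subgroup.center P) ^ 2) :
    ∃ (F : Type) (_ : Field F) (_ : Fintype F) (φ : F ≃+* F), Fintype.card F = Nat.card (Subgroup.center P) ∧
      φ ≠ RingEquiv.refl F ∧ Odd (orderOf φ) ∧ Nonempty (P ≃* Cfsg.suzukiTypeA F (φ : F →+* F)) := by
  obtain ⟨hf, hp, hna, h2, K, hK, hreg⟩ := hP
  obtain ⟨F, _, _, _, ξ, e, ω, -, hM⟩ := exists_main hp h2 K hK hreg
  rw [center_eq hM hna, card_Om hM] at hcard ⊢
  obtain ⟨θ, φ, r, h1, h3, hφ, hr, hb⟩ := typeA hM hna hcard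
  refine ⟨F, inferInstance, inferInstance, θ, rfl, h1, h3, ?_⟩
  have hφ1 : φ 1 = 0 := by simpa using hφ 1 1
  have hr1 : r 1 = 0 := by simpa [hφ1] using hr 1 1
  let m : P →* Matrix (Fin 3) (Fin 3) F :=
    { toFun := fun u => !![1, 0, 0; φ u, 1, 0; r u, θ (φ u), 1]
      map_one' := by
        rw [hφ1, hr1, map_zero, Matrix.one_fin_three]
      map_mul' := fun u v => by
        rw [Matrix.mul_fin_three, hφ, hr, map_add]
        ext i j
        fin_cases i <;> fin_cases j <;> simp <;> ring }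
  let f : P →* GL (Fin 3) F := m.toHomUnits
  have hf : Function.Injective f := fun u v h => by
    have h' : m u = m v := congrArg Units.val h
    exact hb.1 (Prod.ext (congrFun (congrFun h' 1) 0) (congrFun (congrFun h' 2) 0))
  have hrange : Cfsg.suzukiTypeA F (θ : F →+* F) = f.range := by
    unfold Cfsg.suzukiTypeA
    rw [← Subgroup.closure_eq f.range]
    congr 1
    ext g
    constructor
    · rintro ⟨x, y, h⟩
      obtain ⟨u, hu⟩ := hb.2 (x, y)
      refine ⟨u, Units.ext ?_⟩
      rw [h, ← show φ u = x from congrArg Prod.fst hu, ← show r u = y from congrArg Prod.snd hu]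
      rfl
    · rintro ⟨u, rfl⟩
      exact ⟨φ u, r u, rfl⟩
  rw [hrange]
  exact ⟨MonoidHom.ofInjective hf⟩

end Cfsg.Agent.S1139
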