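import Cfsg.Statements.S1141
import Cfsg.Agent.H3.SU3Syl

set_option autoImplicit false
open Cfsg

namespace Cfsg.Agent.S1141

open Cfsg.Agent.H3.SU3Syl Matrix

theorem exists_dat {F : Type*} [Field F] [Fintype F] {n : ℕ} (hn : 2 ≤ n)
    (hF : Fintype.card F = (2 ^ n) ^ 2) :
    ∃ D : Dat F, (∀ x, D.σ x = x ^ 2 ^ n) ∧ Nat.card (Hs.Fix D) = 2 ^ n := by
  classical
  have h2 : (2 : F) = 0 := by
    have := FiniteField.cast_card_eq_zero F
    rw [hF] at this
    push_cast at this
    exact pow_eq_zero_iff (by omega) |>.1 (pow_eq_zero_iff (by omega) |>.1 this)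
  have hc : CharP F 2 := by
    have : ringChar F = 2 := CharP.ringChar_of_prime_eq_zero Nat.prime_two (by exact_mod_cast h2)
    exact this ▸ ringChar.charP F
  let σ : F →+* F := iterateFrobenius F 2 n
  have hσ : ∀ x, σ x = x ^ 2 ^ n := fun x => iterateFrobenius_def 2 n x
  have hinv : ∀ x, σ (σ x) = x := by
    intro x
    rw [hσ, hσ, ← pow_mul, ← sq, ← hF, FiniteField.pow_card]
  have hq : 1 < 2 ^ n := Nat.one_lt_two_pow (by omega)
  let K : Subfield F := RingHom.eqLocusField σ (RingHom.id F)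
  have hK : ∀ x, x ∈ K ↔ σ x = x := fun x => Iff.rfl
  have hle : Nat.card K ≤ 2 ^ n := by
    have hp : (Polynomial.X ^ 2 ^ n - Polynomial.X : Polynomial F) ≠ 0 :=
      FiniteField.X_pow_card_sub_X_ne_zero F hq
    have h1 := Polynomial.card_roots' (Polynomial.X ^ 2 ^ n - Polynomial.X : Polynomial F)
    rw [FiniteField.X_pow_card_sub_X_natDegree_eq F hq] at h1
    have h3 : Nat.card K ≤ (Polynomial.X ^ 2 ^ n - Polynomial.X : Polynomial F).roots.toFinset.card := by
      rw [← Nat.card_eq_finsetCard]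
      refine Nat.card_le_card_of_injective (fun x => ⟨x.1, ?_⟩) ?_
      · have := (hK _).1 x.2
        rw [hσ] at this
        simp [Polynomial.mem_roots hp, this]
      · intro x y h
        simp only [Subtype.mk.injEq] at h
        exact Subtype.ext h
    exact h3.trans ((Multiset.toFinset_card_le _).trans h1)
  let t : F →+ K := 
    { toFun := fun x => ⟨σ x + x, by rw [hK, map_add, hinv, add_comm]⟩
      map_zero' := by apply Subtype.ext; simp
      map_add' := fun x y => by apply Subtype.ext; simp only [map_add, Subfield.coe_add]; ring }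
  have hker : Nat.card t.ker = Nat.card K := by
    apply Nat.card_congr
    refine Equiv.subtypeEquivRight fun x => ?_
    rw [AddMonoidHom.mem_ker, hK, Subtype.ext_iff]
    show σ x + x = 0 ↔ _
    constructor <;> intro h <;> grind
  have hr : Nat.card t.range ≤ Nat.card K := Nat.card_le_card_of_injective _ Subtype.val_injective
  have hm : Nat.card t.range * Nat.card t.ker = (2 ^ n) ^ 2 := by
    rw [← hF, ← Nat.card_eq_fintype_card, AddSubgroup.card_eq_card_quotient_mul_card_addSubgroup t.ker,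
      Nat.card_congr (QuotientAddGroup.quotientKerEquivRange t).toEquiv]
  rw [hker] at hm
  have hKc : Nat.card K = 2 ^ n := by nlinarith
  obtain ⟨x, hx⟩ : ∃ x, σ x ≠ x := by
    by_contra hx
    push Not at hx
    have : Nat.card K = Nat.card F :=
      Nat.card_congr (Equiv.subtypeUnivEquiv fun x => (hK x).2 (hx x))
    rw [hKc, Nat.card_eq_fintype_card, hF] at this
    nlinarith
  have hx0 : σ x + x ≠ 0 := by intro h; apply hx; grind
  refine ⟨⟨σ, x / (σ x + x), h2, hinv, ?_⟩, hσ, hKc⟩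
  rw [map_div₀, map_add, hinv, add_comm x]
  field_simp
  grind


/-- Let `q = 2^n ≥ 4` and `|F| = q²`. A Sylow 2-subgroup `S` of `PSU₃(q)` has order `q³`, its centre has order `q`, and `S` is a Suzuki 2-group. -/
theorem result {F : Type*} [Field F] [Fintype F] {n : ℕ} (hn : 2 ≤ n)
    (hF : Fintype.card F = (2 ^ n) ^ 2) (S : Sylow 2 (Cfsg.PSU 3 F (2 ^ n))) :
    Nat.card S = (2 ^ n) ^ 3 ∧ Nat.card (Subgroup.center ↥(S : Subgroup (Cfsg.PSU 3 F (2 ^ n)))) = 2 ^ n ∧
      Cfsg.IsSuzukiTwoGroup ↥(S : Subgroup (Cfsg.PSU 3 F (2 ^ n))) := by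
  classical
  obtain ⟨D, hσ, hK⟩ := exists_dat hn hF
  have h2 := D.two
  have hc : CharP F 2 := by
    have : ringChar F = 2 := CharP.ringChar_of_prime_eq_zero Nat.prime_two (by exact_mod_cast h2)
    exact this ▸ ringChar.charP F
  have hform : ∀ u v, hermForm 3 F (2 ^ n) u v = hf D u v := by
    intro u v
    simp [hermForm, hf, Fin.sum_univ_three, hσ]
  have hmem : ∀ g : Matrix.SpecialLinearGroup (Fin 3) F, g ∈ SU 3 F (2 ^ n) ↔
      ∀ u v, hf D (g.1 *ᵥ u) (g.1 *ᵥ v) = hf D u v := by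
    intro g
    simp only [← hform]
    rfl
  let φ : Hs D →* SU 3 F (2 ^ n) :=
    { toFun := fun x => ⟨⟨M D x, M_det D x⟩, (hmem _).2 (hf_M D x)⟩
      map_one' := by apply Subtype.ext; apply Subtype.ext; exact M_one D
      map_mul' := fun x y => by apply Subtype.ext; apply Subtype.ext; exact M_mul D x y }
  have hφ : ∀ x, (φ x).1.1 = M D x := fun x => rfl
  let T : Sylow 2 (SU 3 F (2 ^ n)) :=
    { toSubgroup := φ.range
      isPGroup' := Hs.isPGroup.of_surjective φ.rangeRestrict φ.rangeRestrict_surjective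
      is_maximal' := by
        intro Q hQ hle
        refine le_antisymm ?_ hle
        let ρ : Representation F Q (Fin 3 → F) :=
          (Matrix.toLinAlgEquiv' (R := F) (n := Fin 3)).toMonoidHom.comp
            ((slToMat 3 F).comp ((SU 3 F (2 ^ n)).subtype.comp Q.subtype))
        have hρ : ∀ (g : Q) v, ρ g v = g.1.1.1 *ᵥ v := fun g v => rfl
        obtain ⟨v, -, hv0, hv⟩ := Cfsg.Agent.H1.Basic.exists_fixed_vector hQ ρ ⊤ (fun _ _ _ => trivial)
          top_ne_bot
        obtain ⟨c, rfl⟩ := fix_all D v fun x => hv ⟨φ x, hle ⟨x, rfl⟩⟩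
        have hc0 : c ≠ 0 := by rintro rfl; simp at hv0
        intro g hg
        have h1 := hv ⟨g, hg⟩
        rw [hρ, Matrix.mulVec_smul] at h1
        obtain ⟨x, hx⟩ := exists_M D g.1.1 g.1.2 ((hmem _).1 g.2) (smul_right_injective _ hc0 h1)
        exact ⟨x, Subtype.ext (Subtype.ext hx.symm)⟩ }
  let π := QuotientGroup.mk' (Subgroup.center (SU 3 F (2 ^ n)))
  have hinj : Function.Injective (π.comp φ) := by
    rw [injective_iff_map_eq_one]
    intro x hx
    have hz : φ x ∈ Subgroup.center (SU 3 F (2 ^ n)) := (QuotientGroup.eq_one_iff _).1 hx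
    let s : SU 3 F (2 ^ n) := ⟨⟨!![1, 0, 0; 0, 0, 1; 0, 1, 0], by
      simp [Matrix.det_fin_three]; grind⟩, (hmem _).2 (by
        intro u v
        simp [hf, Matrix.mulVec, dotProduct, Fin.sum_univ_three]; ring)⟩
    have h1 := congrArg (fun g : SU 3 F (2 ^ n) => g.1.1 *ᵥ ![1, 1, 0])
      (Subgroup.mem_center_iff.1 hz s)
    have e1 : s.1.1 *ᵥ ![1, 1, 0] = ![1, 0, 1] := by
      ext i; fin_cases i <;> simp [s, Matrix.mulVec, dotProduct, Fin.sum_univ_three]
    simp only [Subgroup.coe_mul, Matrix.SpecialLinearGroup.coe_mul, ← Matrix.mulVec_mulVec, hφ,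
      M_e, e1] at h1
    exact eq_one_of_fix D x h1.symm
  let T' := T.mapSurjective (QuotientGroup.mk'_surjective (Subgroup.center (SU 3 F (2 ^ n))))
  have hT' : (π.comp φ).range = (T' : Subgroup (PSU 3 F (2 ^ n))) := by
    rw [MonoidHom.range_comp]; rfl
  let e : Hs D ≃* S := ((MonoidHom.ofInjective hinj).trans (MulEquiv.subgroupCongr hT')).trans
    (Sylow.equiv T' S)
  refine ⟨?_, ?_, isSuzuki_of_equiv e (Hs.isSuzuki ?_)⟩
  · rw [← Nat.card_congr e.toEquiv, Nat.card_congr Hs.equivProd, Nat.card_prod, hK,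
      Nat.card_eq_fintype_card, hF]
    ring
  · rw [← Nat.card_congr (Subgroup.centerCongr e).toEquiv, Nat.card_congr Hs.equivCenter, hK]
  · rw [hK]
    calc 3 ≤ 2 ^ 2 := by norm_num
      _ ≤ 2 ^ n := Nat.pow_le_pow_right (by norm_num) hn

end Cfsg.Agent.S1141
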