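import Cfsg.Statements.S1142
import Cfsg.Agent.H6.FH

set_option autoImplicit false
open Cfsg

namespace Cfsg.Agent.S1142

/-- Feit–Higman: if a finite group has a (B,N)-pair of rank 2, its Weyl group `N/(B ⊓ N)` has order 4, 6, 8, 12 or 16. -/
theorem result {G : Type*} [Group G] [Finite G] (P : Cfsg.BNPair G)
    (h2 : P.rank = 2) :
    ((P.B ⊓ P.N).subgroupOf P.N).index ∈ ({4, 6, 8, 12, 16} : Set ℕ) := by
  classical
  have := Fintype.ofFinite (G ⧸ P.B)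
  obtain ⟨s, t, hst, hS⟩ := Set.ncard_eq_two.1 (show P.S.ncard = 2 from h2)
  have hs : s ∈ P.S := by simp [hS]
  have ht : t ∈ P.S := by simp [hS]
  have hs' : H6.BN.π P ⟨s, P.subset hs⟩ ∈ H6.BN.SW P := ⟨_, hs, rfl⟩
  have ht' : H6.BN.π P ⟨t, P.subset ht⟩ ∈ H6.BN.SW P := ⟨_, ht, rfl⟩
  have hne : H6.BN.π P ⟨s, P.subset hs⟩ ≠ H6.BN.π P ⟨t, P.subset ht⟩ := fun h =>
    hst (P.inj s hs t ht ((H6.BN.π_eq P).1 h))
  have hSW : H6.BN.SW P = {H6.BN.π P ⟨s, P.subset hs⟩, H6.BN.π P ⟨t, P.subset ht⟩} := by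
    ext w
    constructor
    · rintro ⟨⟨x, hx⟩, hx', rfl⟩
      rw [hS] at hx'
      rcases hx' with rfl | rfl
      · exact Or.inl rfl
      · exact Or.inr rfl
    · rintro (rfl | rfl) <;> assumption
  have h3 := H6.FH.card_dihedral (H6.BN.SW_mul_self hs') (H6.BN.SW_mul_self ht') (H6.BN.SW_ne_one hs')
    (H6.BN.SW_ne_one ht') (by rw [← hSW, H6.BN.closure_SW])
  have h4 := H6.FH.order_cases hs' ht' hne (orderOf_pos _)
  rw [Subgroup.index, h3]
  simp only [Set.mem_insert_iff, Set.mem_singleton_iff]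
  omega

end Cfsg.Agent.S1142
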