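import Cfsg.Statements.S1147
import Cfsg.Agent.H5.Zas5
import Cfsg.Agent.S1137
import Cfsg.Agent.S1138
import Cfsg.Agent.S1139

set_option autoImplicit false
open Cfsg

namespace Cfsg.Agent.S1147

open MulAction Subgroup Cfsg.Agent.H5.Odd Cfsg.Agent.H5.RankOne Cfsg.Agent.H5.RankOne2 Cfsg.Agent.H5.TI Cfsg.Agent.H5.Zas1 in

/-- Let a finite simple Zassenhaus group `G` on `Ω` have a normal subgroup `U` of `G_a`, regular on `Ω` minus `a`, which is a non-abelian 2-group. Then `|Ω| = 2^(2n) + 1` with `n` odd, `n > 1`, a two-point stabiliser `G_a ⊓ G_b` is cyclic of order `2^n - 1`, and `U` is isomorphic to the type-A group over a field with `2^n` elements for some field automorphism `φ`. -/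
theorem result {G Ω : Type*} [Group G] [Finite G] [MulAction G Ω] [Finite Ω]
    (hZ : Cfsg.IsZassenhausGroup G Ω) [IsSimpleGroup G] {a b : Ω} (hab : a ≠ b)
    (U : Subgroup G) (hUle : U ≤ MulAction.stabilizer G a)
    (hUn : ∀ h ∈ MulAction.stabilizer G a, ∀ u ∈ U, h * u * h⁻¹ ∈ U)
    (hreg : ∀ c d : Ω, c ≠ a → d ≠ a → ∃! u : U, (u : G) • c = d)
    (hU2 : IsPGroup 2 U) (hUna : ∃ u ∈ U, ∃ v ∈ U, u * v ≠ v * u) :
    ∃ n : ℕ, Odd n ∧ 1 < n ∧ Nat.card Ω = 2 ^ (2 * n) + 1 ∧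
      IsCyclic ↥(MulAction.stabilizer G a ⊓ MulAction.stabilizer G b) ∧
      Nat.card ↥(MulAction.stabilizer G a ⊓ MulAction.stabilizer G b) = 2 ^ n - 1 ∧
      ∃ (F : Type) (_ : Field F) (_ : Fintype F) (φ : F ≃+* F), Fintype.card F = 2 ^ n ∧
        Nonempty (U ≃* Cfsg.suzukiTypeA F (φ : F →+* F)) := by
  classical
  have := Fintype.ofFinite G
  obtain ⟨-, h2t, h3, ⟨g, hg1, c, c', hcc, hgc, hgc'⟩, -⟩ := hZ
  have hsemi : ∀ u ∈ U, u • b = b → u = 1 := fun u hu h => congrArg Subtype.val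
    ((hreg b b hab.symm hab.symm).unique (y₁ := ⟨u, hu⟩) (y₂ := 1) h (one_smul _ _))
  obtain ⟨u, hu, v, hv, huv⟩ := hUna
  have heven : Even (Nat.card U) := by
    obtain ⟨n, hn⟩ := IsPGroup.iff_card.mp hU2
    rw [hn, Nat.even_pow]
    refine ⟨even_two, ?_⟩
    rintro rfl
    rw [pow_zero, Subgroup.card_eq_one] at hn
    rw [hn, mem_bot] at hu
    simp [hu] at huv
  obtain ⟨s, hs, hs1, hs2⟩ := exists_involution_of_even heven
  obtain ⟨y, hy1, hy2⟩ := (is_two_pretransitive_iff.mp h2t)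
    (fun h : b = s • b => hs1 (hsemi s hs h.symm)) hab
  obtain ⟨t, ht1, ht2, rfl⟩ : ∃ t : G, t ≠ 1 ∧ t * t = 1 ∧ t • a = b :=
    ⟨y * s * y⁻¹, conj_ne hs1 y, conj_sq hs2 y, by
      rw [← hy1, mul_smul, mul_smul, inv_smul_smul, hy2]⟩
  have hne : ∀ h ∈ stabilizer G a, h • t • a ≠ a := fun h hh e =>
    hab (smul_left_cancel h (hh.trans e.symm))
  have hZ : ZS G Ω a t U := ⟨⟨h2t, ht2, ht1, hab.symm, hUle, hUn,
    eq_bot_iff.mpr fun x hx => hsemi x hx.1 hx.2,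
    le_antisymm (sup_le hUle inf_le_left) fun h hh => by
      obtain ⟨w, hw, -⟩ := hreg _ _ hab.symm (hne h hh)
      rw [show h = w * ((w : G)⁻¹ * h) by group]
      exact mul_mem (mem_sup_left w.2) (mem_sup_right ⟨Subgroup.mul_mem _ (Subgroup.inv_mem _ (hUle w.2)) hh, by
        show ((w : G)⁻¹ * h) • t • a = t • a
        rw [mul_smul, ← hw, inv_smul_smul]⟩), heven, by
    refine Odd.of_dvd_nat (n := Nat.card U - 1) (Nat.Even.sub_odd Nat.card_pos heven odd_one) ?_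
    rw [show Nat.card U = (U : Set G).ncard from rfl, ← Set.ncard_sdiff_singleton_of_mem U.one_mem]
    refine H4.Util.card_dvd_of_conj_free _ _ (fun d hd x hx => ⟨hUn d hd.1 x hx.1, conj_ne hx.2 d⟩)
      fun d hd x hx e => h3 d a (t • a) (x • t • a) hab (fun h => hx.2 (hsemi x hx.1 h.symm))
        (hne x (hUle hx.1)).symm hd.1 hd.2 ?_
    rw [← mul_smul, mul_inv_eq_iff_eq_mul.mp e, mul_smul, show d • t • a = t • a from hd.2]⟩, h3⟩
  obtain ⟨d, hd, hd1⟩ : ∃ d ∈ DD a t, d ≠ 1 := by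
    obtain ⟨z, e1, e2⟩ := two_trans hZ.rk hcc hab
    exact ⟨z * g * z⁻¹, ⟨e1 ▸ conj_fix hgc z, e2 ▸ conj_fix hgc' z⟩, conj_ne hg1 z⟩
  have hk : 2 ≤ Nat.card (DD a t) :=
    (one_lt_card_iff_ne_bot _).mpr fun h => hd1 (mem_bot.mp (h ▸ hd))
  have hDN : DD a t ≤ normalizer (U : Set G) := fun x hx => mem_normalizer_iff.mpr fun w =>
    ⟨hUn x hx.1 w, fun h => by simpa [mul_assoc] using Q_conj' hZ.rk hx.1 h⟩
  have hP : IsSuzukiTwoGroup U := by
    have := hZ.D_cyclic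
    refine ⟨inferInstance, hU2, ⟨⟨u, hu⟩, ⟨v, hv⟩, fun e => huv (congrArg Subtype.val e)⟩,
      ⟨⟨s, hs⟩, ⟨d * s * d⁻¹, hUn d hd.1 s hs⟩, fun e => hd1 (K_eq_one_of_commute hZ.rk
        (hUle hs) hs1 hs2 (hZ.D_inv hd) (eq_mul_inv_iff_mul_eq.mp (congrArg Subtype.val e))),
        fun e => hs1 (congrArg Subtype.val e), Subtype.ext hs2,
        fun e => conj_ne hs1 d (congrArg Subtype.val e), Subtype.ext (conj_sq hs2 d)⟩,
      (U.normalizerMonoidHom.comp (inclusion hDN)).range,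
      isCyclic_of_surjective _ (MonoidHom.rangeRestrict_surjective _), fun x w hx1 hx2 hw1 hw2 => ?_⟩
    have hx1' : (x : G) ≠ 1 := fun e => hx1 (Subtype.ext e)
    have hx2' : (x : G) * x = 1 := congrArg Subtype.val hx2
    obtain ⟨k, hk, e⟩ := hZ.Om_trans ⟨x.2, hx2'⟩ hx1' ⟨w.2, congrArg Subtype.val hw2⟩
      fun e => hw1 (Subtype.ext e)
    refine ⟨⟨_, ⟨k⁻¹, inv_mem hk⟩, rfl⟩, Subtype.ext (by simpa using e), ?_⟩
    rintro ⟨_, k', rfl⟩ e'
    have e2 : (k' : G) * x * (k' : G)⁻¹ = w := congrArg Subtype.val e'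
    have := K_inj hZ.rk (hUle x.2) hx1' hx2' (hZ.D_inv (inv_mem k'.2)) (hZ.D_inv hk)
      (by rw [inv_inv, e2, e])
    congr
    exact Subtype.ext (inv_eq_iff_eq_inv.mp this)
  obtain ⟨-, hcm, hcard, hexp⟩ := S1138.result hP
  have hc : center U = hZ.ZQ := Subgroup.ext fun x => by
    by_cases h : x = 1
    · simp [h]
    · have := (S1137.result hP).1 x
      simp only [ne_eq, h, not_false_eq_true, true_and, and_true] at this
      exact this.symm.trans ⟨fun h => ⟨x.2, congrArg Subtype.val h⟩, fun h => Subtype.ext h.2⟩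
  have C : C2 hZ.ZQ := ⟨fun z hz w => mem_center_iff.mp (hc ▸ hz) w, fun x w => hc ▸ hcm x w⟩
  have h4 : ∀ x ∈ U, x ^ 4 = 1 := fun x hx =>
    congrArg Subtype.val (hexp ▸ Monoid.pow_exponent_eq_one (⟨x, hx⟩ : U))
  have hcz : Nat.card (center U) = Nat.card (DD a t) + 1 := hc ▸ hZ.card_ZQ
  have hN := hcard.resolve_right (hcz ▸ hZ.not_cube C hk hU2 h4)
  obtain ⟨F, _, _, φ, hF, -, -, hiso⟩ := S1139.result hP hN
  obtain ⟨n, hn⟩ := IsPGroup.iff_card.mp (hU2.to_subgroup (center U))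
  refine ⟨n, ?_, ?_, by rw [card_Ω hZ.rk, hN, hn, ← pow_mul, mul_comm], hZ.D_cyclic,
    by rw [← hn, hcz]; rfl, F, inferInstance, inferInstance, φ, hF.trans hn, hiso⟩
  · rcases hZ.three_or_five h4 with h | h
    · rw [hN, hcz, show (Nat.card (DD a t) + 1) ^ 2 * ((Nat.card (DD a t) + 1) ^ 2 + 1) =
        (Nat.card (DD a t) + 2) * (Nat.card (DD a t) * ((Nat.card (DD a t) + 1) ^ 2 + 2)) + 2 by
          ring] at h
      have := Nat.le_of_dvd two_pos ((Nat.dvd_add_right (dvd_mul_right _ _)).mp h)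
      omega
    · rw [← Nat.not_even_iff_odd]
      rintro ⟨m, rfl⟩
      rw [hN, hn, ← pow_mul, show (m + m) * 2 = 4 * m by ring, pow_mul] at h
      have : (2 ^ 4) ^ m % 5 = 1 := by rw [Nat.pow_mod]; simp
      omega
  · rw [hcz] at hn
    by_contra h
    interval_cases n <;> omega

end Cfsg.Agent.S1147
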