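import Cfsg.Statements.S1148
import Cfsg.Agent.H8.U3h
import Cfsg.Agent.H8.U3BN

set_option autoImplicit false
open Cfsg

namespace Cfsg.Agent.S1148

/-- Let `G` be finite simple with a (B,N)-pair of rank 1, `B = U H` with `U` nilpotent normal in `B`, `H = B ⊓ N`, `U ⊓ H = 1`, where `[G : B] = p^(3n) + 1` for an odd prime `p`, `|U| = p^(3n)` and `H` is cyclic of order `(p^(2n) - 1)/gcd(3, p^n + 1)`. Then `G ≅ PSU₃(p^n)`. -/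
theorem result {G : Type*} [Group G] [Finite G] [IsSimpleGroup G]
    (P : Cfsg.BNPair G) (h1 : P.rank = 1) {p n : ℕ} (hp : p.Prime) (hp2 : p ≠ 2) (hn : 1 ≤ n)
    (U : Subgroup G) (hUB : U ≤ P.B) (hUn : ∀ b ∈ P.B, ∀ u ∈ U, b * u * b⁻¹ ∈ U)
    (hUnil : Group.IsNilpotent U) (hsplit : U ⊔ (P.B ⊓ P.N) = P.B) (hdisj : U ⊓ (P.B ⊓ P.N) = ⊥)
    (hind : P.B.index = p ^ (3 * n) + 1) (hU : Nat.card U = p ^ (3 * n))
    (hHc : IsCyclic ↥(P.B ⊓ P.N))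
    (hH : Nat.gcd 3 (p ^ n + 1) * Nat.card ↥(P.B ⊓ P.N) = p ^ (2 * n) - 1) :
    ∃ (F : Type) (_ : Field F) (_ : Fintype F), Fintype.card F = (p ^ n) ^ 2 ∧
      Nonempty (G ≃* Cfsg.PSU 3 F (p ^ n)) := by
  obtain ⟨R, h2, h3⟩ := H8.U3.exists_RK P h1 U hUB hUn hsplit
    (by rw [hind, hU])
  obtain ⟨k, hk⟩ := Nat.gcd_dvd_right 3 (p ^ n + 1)
  have hd := (Nat.dvd_prime Nat.prime_three).1 (Nat.gcd_dvd_left 3 (p ^ n + 1))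
  have h0 : 0 < p ^ n := pow_pos hp.pos n
  refine H8.U3.Hyp.main (R := R) (p := p) (e := n) (d := Nat.gcd 3 (p ^ n + 1)) (k := k)
    ⟨hp, hp2, hn, rfl, hd, hk, by rw [h2, hU, mul_comm, pow_mul], h3 ▸ hHc, ?_, R.faith⟩
  rw [h3]
  apply Nat.eq_of_mul_eq_mul_left (Nat.gcd_pos_of_pos_left (p ^ n + 1) (show 0 < 3 by omega))
  rw [hH, mul_left_comm, ← hk, mul_comm 2, pow_mul]
  obtain ⟨r, hr⟩ : ∃ r, p ^ n = r + 1 := ⟨p ^ n - 1, by omega⟩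
  rw [hr, Nat.add_sub_cancel, Nat.sub_eq_iff_eq_add (by nlinarith)]
  ring

end Cfsg.Agent.S1148
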