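import Cfsg.Statements.S1151
import Cfsg.Agent.H6.ReeBasic

set_option autoImplicit false
open Cfsg

namespace Cfsg.Agent.S1151

/-- In the small Ree group ²G₂(q), q = 3^(2m+1), realised as G¹ inside the Chevalley group G₂ over the field with q elements (θ the 3^m-th power map), with H¹ = G¹ ∩ H and U¹ = G¹ ∩ U the intersections with the ambient diagonal and positive unipotent subgroups: `H¹` has exactly `(q - 1)/2` elements of odd order, and each non-identity one centralises no non-identity element of `U¹`. -/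
theorem result {K : Type*} [Field K] [Fintype K] {m : ℕ} (hK : Fintype.card K = 3 ^ (2 * m + 1)) :
    2 * Nat.card {h : ↥(Cfsg.Lie.chevG2.diagonalSubgroup K ⊓ Cfsg.Lie.twistedG2 K (3 ^ m)) // Odd (orderOf h)} = 3 ^ (2 * m + 1) - 1 ∧
      ∀ h ∈ (Cfsg.Lie.chevG2.diagonalSubgroup K ⊓ Cfsg.Lie.twistedG2 K (3 ^ m)), h ≠ 1 → Odd (orderOf h) →
        (Cfsg.Lie.chevG2.posUnipotent K ⊓ Cfsg.Lie.twistedG2 K (3 ^ m)) ⊓ Subgroup.centralizer {h} = ⊥ := by
  obtain ⟨_, ψ, M, hM, hψ⟩ := H6.Ree.exists_model' hK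
  have hK' : Nat.card K = 3 ^ (2 * m + 1) := by rw [Nat.card_eq_fintype_card, hK]
  let e := (H6.Ree.infEquiv _ _ M.H (fun g => by rw [← hM, M.ad_mem_diag])).trans M.hEquiv.symm
  constructor
  · rw [← hK', ← H6.Ree.card_odd_units (K := K) (by have := H6.Ree.pow_mod_eight m; omega)]
    congr 1
    exact Nat.card_congr (e.toEquiv.subtypeEquiv fun h => by
      rw [show e.toEquiv h = e h from rfl, MulEquiv.orderOf_eq])
  · rintro h ⟨hH, hG⟩ h1 hodd
    rw [eq_bot_iff]
    rintro u ⟨⟨hU, huG⟩, hc⟩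
    obtain ⟨k, hk⟩ := M.mem_H.1 ((M.ad_mem_diag ⟨h, hG⟩).1 (by rw [hM]; exact hH))
    obtain ⟨a, b, c, hu⟩ := (M.ad_mem_pos ⟨u, huG⟩).1 (by rw [hM]; exact hU)
    by_contra hu1
    have hx : M.x a b c ≠ 1 := by
      rw [← hu]; intro h; exact hu1 (congrArg Subtype.val h)
    have hc' : u * h = h * u := Subgroup.mem_centralizer_singleton_iff.1 hc
    have e1 : M.h k * M.x a b c * (M.h k)⁻¹ = M.x a b c := by
      rw [← hk, ← hu, mul_inv_eq_iff_eq_mul]
      exact Subtype.ext hc'.symm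
    rcases M.eq_pm_of_fix hx e1 with rfl | rfl
    · rw [M.h_one] at hk
      exact h1 (congrArg Subtype.val hk)
    · have h2 : h ^ 2 = 1 := by
        have := M.a_mul_a
        rw [H6.Ree.Model.a, ← hk] at this
        rw [sq]; exact congrArg Subtype.val this
      rw [orderOf_eq_prime h2 h1] at hodd
      exact absurd hodd (by decide)

end Cfsg.Agent.S1151
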