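import Cfsg.Statements.S1163
import Cfsg.Agent.H6.Suzuki

set_option autoImplicit false
open Cfsg

namespace Cfsg.Agent.S1163

/-- For the Suzuki group Sz(q), q = 2^(2m+1) ≥ 8, realised as the elements g of Sp₄(F) with g* = g^θ (θ the 2^(m+1)-th power map, so that θ² is squaring): `|Sz(q)| = q² (q - 1) (q² + 1)`, and there is a Sylow 2-subgroup `S` whose normaliser `H` has order `q²(q-1)` and index `q² + 1`, the action of `Sz(q)` on the cosets of `H` is doubly transitive, and `S` acts regularly on the cosets other than `H` itself. -/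
theorem result {F : Type*} [Field F] [Fintype F] {m : ℕ} (hm : 1 ≤ m) (hF : Fintype.card F = 2 ^ (2 * m + 1)) :
    Nat.card ↥(Cfsg.Lie.Sz F (2 ^ (m + 1))) = (2 ^ (2 * m + 1)) ^ 2 * (2 ^ (2 * m + 1) - 1) * ((2 ^ (2 * m + 1)) ^ 2 + 1) ∧
    ∃ S : Sylow 2 ↥(Cfsg.Lie.Sz F (2 ^ (m + 1))),
      Nat.card (Subgroup.normalizer ((S : Subgroup ↥(Cfsg.Lie.Sz F (2 ^ (m + 1)))) : Set ↥(Cfsg.Lie.Sz F (2 ^ (m + 1))))) = (2 ^ (2 * m + 1)) ^ 2 * (2 ^ (2 * m + 1) - 1) ∧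
      (Subgroup.normalizer ((S : Subgroup ↥(Cfsg.Lie.Sz F (2 ^ (m + 1)))) : Set ↥(Cfsg.Lie.Sz F (2 ^ (m + 1))))).index = (2 ^ (2 * m + 1)) ^ 2 + 1 ∧
      MulAction.IsMultiplyPretransitive ↥(Cfsg.Lie.Sz F (2 ^ (m + 1))) (↥(Cfsg.Lie.Sz F (2 ^ (m + 1))) ⧸ Subgroup.normalizer ((S : Subgroup ↥(Cfsg.Lie.Sz F (2 ^ (m + 1)))) : Set ↥(Cfsg.Lie.Sz F (2 ^ (m + 1))))) 2 ∧
      ∀ x y : ↥(Cfsg.Lie.Sz F (2 ^ (m + 1))) ⧸ Subgroup.normalizer ((S : Subgroup ↥(Cfsg.Lie.Sz F (2 ^ (m + 1)))) : Set ↥(Cfsg.Lie.Sz F (2 ^ (m + 1)))),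
        x ≠ (QuotientGroup.mk 1) → y ≠ (QuotientGroup.mk 1) → ∃! s : ↥(S : Subgroup ↥(Cfsg.Lie.Sz F (2 ^ (m + 1)))), (s : ↥(Cfsg.Lie.Sz F (2 ^ (m + 1)))) • x = y := by
  have : CharP F 2 := H6.Suzuki.charP_of_card hF
  rw [H6.Suzuki.Sz_eq (iterateFrobenius F 2 (m + 1)) _ (fun x => iterateFrobenius_def 2 (m + 1) x)]
  have hF' : Nat.card F = 2 ^ (2 * m + 1) := by rw [Nat.card_eq_fintype_card, hF]
  have hθ := H6.Suzuki.tits_sq hF
  set S := H6.Suzuki.split hθ with hS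
  have hU : Nat.card S.U = (2 ^ (2 * m + 1)) ^ 2 := by
    rw [← hF']; exact H6.Suzuki.card_U hθ
  have hH : Nat.card S.H = 2 ^ (2 * m + 1) - 1 := by
    rw [← hF']; exact H6.Suzuki.card_H hθ
  have hodd : ¬ 2 ∣ Nat.card S.H := by
    rw [hH]
    have : 2 ∣ 2 ^ (2 * m + 1) := dvd_pow_self 2 (by omega)
    have h2 : 0 < 2 ^ (2 * m + 1) := by positivity
    omega
  have hU' : Nat.card S.U = 2 ^ ((2 * m + 1) * 2) := by rw [hU, pow_mul]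
  have hne : S.U ≠ ⊥ := by
    intro h
    rw [h, Subgroup.card_bot] at hU'
    have : 1 < 2 ^ ((2 * m + 1) * 2) := Nat.one_lt_two_pow (by omega)
    omega
  refine ⟨by rw [S.card_G, hU, hH], S.sylowU (by omega) hU' hodd, ?_⟩
  rw [S.coe_sylowU, S.normalizer_U hne]
  refine ⟨by rw [S.card_B, hU, hH], by rw [S.index_B, hU], S.isMultiplyPretransitive, ?_⟩
  intro x y hx hy
  rcases S.eq_inf_or x with h | ⟨u, hu, rfl⟩
  · exact absurd h hx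
  rcases S.eq_inf_or y with h | ⟨u', hu', rfl⟩
  · exact absurd h hy
  refine ⟨⟨u' * u⁻¹, S.U.mul_mem hu' (S.U.inv_mem hu)⟩, ?_, ?_⟩
  · simp only
    rw [S.smul_pt]; simp
  · intro s hs
    rw [S.smul_pt] at hs
    have := S.pt_inj (S.U.mul_mem s.2 hu) hu' hs
    apply Subtype.ext
    simp [← this]

end Cfsg.Agent.S1163
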