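import Cfsg.Statements.S5633
import Cfsg.Agent.H7.SubspaceSL

set_option autoImplicit false
open Cfsg

namespace Cfsg.Agent.S5633

/-- For a finite field F and complementary non-zero subspaces W ⊕ U = F^n with dim W < dim U, the elements of SL_n(F) stabilising both W and U form a subgroup that is not maximal in SL_n(F): some subgroup lies strictly between it and SL_n(F). -/
theorem result {F : Type*} [Field F] [Fintype F] (n : ℕ) (W U : Submodule F (Fin n → F)) (hW0 : W ≠ ⊥) (hWU : W ⊓ U = ⊥) (hWU' : W ⊔ U = ⊤) (hdim : Module.finrank F W < Module.finrank F U) : ∃ K : Subgroup (Matrix.GeneralLinearGroup (Fin n) F), Cfsg.Geo.subspaceStabilizer W ⊓ Cfsg.Geo.subspaceStabilizer U ⊓ Cfsg.Geo.specialLinear (Fin n) F < K ∧ K < Cfsg.Geo.specialLinear (Fin n) F := by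
  have hU0 : U ≠ ⊥ := by
    rintro rfl
    simp at hdim
  have hW1 : W ≠ ⊤ := by
    rintro rfl
    exact hU0 (by simpa using hWU)
  refine H7.exists_between_of _ _ (fun g => LinearEquiv.det g = 1)
    (fun g => ((∀ v, v ∈ W ↔ g v ∈ W) ∧ (∀ v, v ∈ U ↔ g v ∈ U)) ∧ LinearEquiv.det g = 1)
    H7.mem_SL_iff ?_ (H7.stabSL W) (fun g h => ⟨h.1.1, h.2⟩) (fun g h => h.2) ?_ ?_
  · intro g
    rw [Subgroup.mem_inf, Subgroup.mem_inf, H7.mem_SL_iff, H7.mem_subspaceStabilizer_iff,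
      H7.mem_subspaceStabilizer_iff]
  · obtain ⟨u, hu, hu0⟩ := Submodule.exists_mem_ne_zero_of_ne_bot hU0
    obtain ⟨x, hxW, hx0⟩ := Submodule.exists_mem_ne_zero_of_ne_bot hW0
    have hx : x ∉ U := fun h => hx0 (by
      have : x ∈ W ⊓ U := ⟨hxW, h⟩
      rwa [hWU] at this)
    obtain ⟨g, hg, h1, h2⟩ := H7.exists_sl_fix_move (W := W) hu hx (by
      rw [H7.mem_sup_span_iff]
      rintro ⟨w, hw, a, e⟩
      apply hu0
      have : u ∈ W ⊓ U := ⟨by rw [e]; exact W.add_mem hw (W.smul_mem _ hxW), hu⟩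
      rwa [hWU] at this)
    refine ⟨g, ⟨H7.stab_iff_of_le g W (fun w hw => by rwa [h1 w hw]), hg⟩, fun h => h2 ?_⟩
    exact (h.1.2 u).1 hu
  · obtain ⟨g, hg, h⟩ := H7.exists_sl_not_stab hW0 hW1
    exact ⟨g, hg, fun h' => h h'.1⟩

end Cfsg.Agent.S5633
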