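import Cfsg.Statements.S5635
import Cfsg.Agent.H7.Contain

set_option autoImplicit false
open Cfsg

namespace Cfsg.Agent.S5635

/-- For a finite field F with q elements and n ≥ 13, let D be a decomposition of F^n into t ≥ 2 independent subspaces of equal dimension m spanning F^n, where m = 1 and q ≤ 4, or m = 2 and q = 2. Then the elements of SL_n(F) permuting the members of D form a subgroup that is not maximal: some subgroup lies strictly between it and SL_n(F). -/
theorem result {F : Type*} [Field F] [Fintype F] (n : ℕ) (hn : 13 ≤ n) {t : ℕ} (m : ℕ) (D : Fin t → Submodule F (Fin n → F)) (hD : Cfsg.Geo.IsMDecomposition m D) (h : (m = 1 ∧ Fintype.card F ≤ 4) ∨ (m = 2 ∧ Fintype.card F = 2)) : ∃ K : Subgroup (Matrix.GeneralLinearGroup (Fin n) F), Cfsg.Geo.decompositionStabilizer D ⊓ Cfsg.Geo.specialLinear (Fin n) F < K ∧ K < Cfsg.Geo.specialLinear (Fin n) F := by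
  have hc := H7.card_eq_of_isMDecomposition hD
  rw [Fintype.card_fin] at hc
  have h3 : 3 ≤ Fintype.card (Fin n) := by simp; omega
  rcases h with ⟨rfl, h⟩ | ⟨rfl, h⟩
  · have h1 := Fintype.one_lt_card (α := F)
    obtain h2 | h2 | h2 : Fintype.card F = 2 ∨ Fintype.card F = 3 ∨ Fintype.card F = 2 ^ 2 := by omega
    · obtain ⟨W, a1, a2, -, a3, a4⟩ := H7.monomial_card_two h2 hD
      exact H7.exists_between_of_le (inf_le_left.trans a3) (H7.SL_not_le_subspaceStabilizer h3 a1 a2)
        (a4 (by omega))
    · obtain ⟨Q, a1, a3, a4⟩ := H7.monomial_card_three h2 hD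
      exact H7.exists_between_of_le (inf_le_left.trans a3) (fun h' => H7.SL_not_le_quadSimilarityGroup h3 a1
        (h'.trans (H7.isometryGroup_le_quadSimilarityGroup Q))) (a4 (by omega))
    · obtain ⟨f, a1, a3, a4⟩ := H7.monomial_card_four h2 hD
      exact H7.exists_between_of_le (inf_le_left.trans a3) (fun h' => H7.SL_not_le_similarityGroup_unit h3 a1
        (h'.trans (H7.preserving_le_similarityGroup f))) (a4 (by omega))
  · obtain ⟨f, a1, a3, a4⟩ := H7.planes_card_two h hD
    exact H7.exists_between_of_le (inf_le_left.trans a3) (fun h' => H7.SL_not_le_similarityGroup_symp h3 a1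
      (h'.trans (H7.preserving_le_similarityGroup f))) a4

end Cfsg.Agent.S5635
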