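import Cfsg.Statements.S5638
import Cfsg.Agent.H7.Contain2

set_option autoImplicit false
open Cfsg

namespace Cfsg.Agent.S5638

/-- Over the field with 2 elements, for n = 2 n₂ ≥ 13, the stabiliser in SL_n of a tensor decomposition with factors of dimensions 2 and n₂ (the conjugate by any P of the Kronecker-product subgroup transported along any bijection Fin n ≃ Fin 2 × Fin n₂, intersected with SL_n) is not a maximal subgroup: some subgroup lies strictly between it and SL_n. -/
theorem result {F : Type*} [Field F] [Fintype F] (n : ℕ) (hn : 13 ≤ n) (hq : Fintype.card F = 2) (n₂ : ℕ) (e : Fin n ≃ Fin 2 × Fin n₂) (P : Matrix.GeneralLinearGroup (Fin n) F) : ∃ K : Subgroup (Matrix.GeneralLinearGroup (Fin n) F), Cfsg.Geo.tensorProductSubgroup 2 n₂ e P ⊓ Cfsg.Geo.specialLinear (Fin n) F < K ∧ K < Cfsg.Geo.specialLinear (Fin n) F := by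
  have hc := Fintype.card_congr e
  simp only [Fintype.card_fin, Fintype.card_prod] at hc
  obtain ⟨K, a1, a2, a3⟩ := H7.tensor_card_two hq (by omega) e P
  exact H7.exists_between_of_le (inf_le_left.trans a2)
    (H7.SL_not_le_subalgebraNormalizer (by simp; omega) a1 (by norm_num)) (a3 (by omega))

end Cfsg.Agent.S5638
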