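import Cfsg.Statements.S5648
import Cfsg.Agent.H7.Contain

set_option autoImplicit false
open Cfsg

namespace Cfsg.Agent.S5648

/-- Over the field with 2 elements and for m ≥ 7, let D be a decomposition of F^(2m) into t pairwise orthogonal non-degenerate 2-dimensional subspaces for the standard alternating form (t = m ≥ 2). Then the elements of Sp_2m(2) permuting the members of D form a subgroup that is not maximal: some subgroup lies strictly between it and Sp_2m(2). -/
theorem result {F : Type*} [Field F] [Fintype F] (m : ℕ) (hm : 7 ≤ m) (hq : Fintype.card F = 2) {t : ℕ} (D : Fin t → Submodule F (Fin m ⊕ Fin m → F)) (hD : Cfsg.Geo.IsNondegenerateMDecomposition (Cfsg.sympForm m F) 2 D) : ∃ K : Subgroup (Matrix.GeneralLinearGroup (Fin m ⊕ Fin m) F), Cfsg.Geo.decompositionStabilizer D ⊓ Cfsg.spGL m F < K ∧ K < Cfsg.spGL m F := by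
  have hc := H7.card_eq_of_isMDecomposition hD.decomp
  simp only [Fintype.card_fin, Fintype.card_sum] at hc
  obtain ⟨Q, a1, -, a3, a4⟩ := H7.symp_planes_card_two hq (Form.isSymplecticForm_sympForm m F) hD
  exact H7.exists_between_of_le (inf_le_left.trans a3) (fun h' => H7.Sp_not_le_quadSimilarityGroup (by omega) a1
    (h'.trans (H7.isometryGroup_le_quadSimilarityGroup Q))) (a4 (by omega))

end Cfsg.Agent.S5648
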