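import Cfsg.Statements.S5662
import Cfsg.Agent.Asch.Sp

set_option autoImplicit false
open Cfsg

namespace Cfsg.Agent.S5662

/-- Subgroup structure of the finite symplectic groups. Let F be a finite field and m ≥ 2 with (m, |F|) ≠ (2, 2), and let Sp_2m(F) be the group of invertible matrices preserving the standard alternating form on F^(2m). Let H be a subgroup of Sp_2m(F) whose product with the scalar matrices ±1 is not all of Sp_2m(F) (H does not cover PSp_2m(F)). Then either H is contained in a member of one of the eight geometric classes of subgroups of Sp_2m(F) (with the conditions built into InSymplecticClass), or H is in the residual class: modulo scalars it is almost simple, and the perfect preimage of its socle acts absolutely irreducibly, is realisable over no proper subfield, and fixes no non-degenerate quadratic form and no non-degenerate unitary form on F^(2m). -/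
theorem result {F : Type*} [Field F] [Fintype F] (m : ℕ) (hm : 2 ≤ m) (hex : ¬ (m = 2 ∧ Fintype.card F = 2)) (H : Subgroup (Matrix.GeneralLinearGroup (Fin m ⊕ Fin m) F)) (hH : H ≤ Cfsg.spGL m F) (hproper : H ⊔ (Cfsg.Geo.scalars (Fin m ⊕ Fin m) F ⊓ Cfsg.spGL m F) ≠ Cfsg.spGL m F) : (∃ M : Subgroup (Matrix.GeneralLinearGroup (Fin m ⊕ Fin m) F), Cfsg.Geo.InSymplecticClass m F M ∧ H ≤ M) ∨ Cfsg.Geo.InSymplecticResidualClass H := by
  have hf := Form.isSymplecticForm_sympForm m F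
  have hI : H ≤ Asch.IsoB (Form.sympPQ hf) := hH
  rcases Asch.spCase (Form.sympPQ_nondeg hf) (by simp; omega) hI with ⟨W, h1, h2, h⟩ | ⟨W, h1, h2, h3, h⟩ |
    ⟨t, k, D, h1, h⟩ | ⟨k, D, h1, h2, h3, h⟩ | ⟨r, K, h1, h2, h3, h4, h⟩ | ⟨K, h1, h2, h3, h4, h⟩ |
    ⟨n₁, n₂, e, P, f₁, f₂, h1, h2, h3, h4, h5, h⟩ | ⟨F₀, r, P, ζ, h1, h2, h3, h4, h⟩ |
    ⟨R, k, h1, h2, h3, h4, h5, h6, h7, h8, -, h⟩ | ⟨k, t, e, P, f₁, h1, h2, h3, h4, h5, h6, h⟩ |
    ⟨Q, h1, h2, h3, h⟩ | h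
  · exact Or.inl ⟨_, .inl (.inl ⟨W, h1, h2, rfl⟩), le_inf h hH⟩
  · exact Or.inl ⟨_, .inl (.inr (.inl ⟨W, h1, h2, by simp at h3; omega, rfl⟩)), le_inf h hH⟩
  · exact Or.inl ⟨_, .inl (.inr (.inr (.inl ⟨t, k, D, h1, rfl⟩))), le_inf h hH⟩
  · obtain rfl : k = m := by
      have := Asch.mul_eq_card_of_decomp h2
      simp at this; omega
    exact Or.inl ⟨_, .inl (.inr (.inr (.inr (.inl ⟨D, h1, h2, h3, rfl⟩)))), le_inf h hH⟩
  · exact Or.inl ⟨_, .inr (.inl ⟨r, K, h1, h2, h3, h4, rfl⟩), le_inf h hH⟩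
  · exact Or.inl ⟨_, .inr (.inr (.inl ⟨K, h1, h2, h3, h4, rfl⟩)), le_inf h hH⟩
  · exact Or.inl ⟨_, .inr (.inr (.inr (.inl ⟨n₁, n₂, e, P, f₁, f₂, h1, h2, h3, h4, h5, rfl⟩))), le_inf h hH⟩
  · exact Or.inl ⟨_, .inl (.inr (.inr (.inr (.inr (.inl ⟨F₀, r, P, ζ, h1, h2, h3, h4, rfl⟩))))), le_inf h hH⟩
  · exact Or.inl ⟨_, .inl (.inr (.inr (.inr (.inr (.inr (.inl ⟨R, _, k, h1, h2, h3.trans Asch.IsoB_le_sim, h4, h5,
      rfl, h6, h7, h8, rfl⟩)))))), le_inf h hH⟩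
  · exact Or.inl ⟨_, .inr (.inr (.inr (.inr ⟨k, t, e, P, f₁, h1, h2, h3, h4, h5, h6, rfl⟩))), le_inf h hH⟩
  · exact Or.inl ⟨_, .inl (.inr (.inr (.inr (.inr (.inr (.inr ⟨Q, h1, h2, h3, rfl⟩)))))),
      le_inf (fun g hg => ⟨1, fun v => by simpa using Asch.mem_isometryGroup'.1 (h hg) v⟩) hH⟩
  · exact Or.inr h

end Cfsg.Agent.S5662
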