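import Cfsg.Statements.S5663
import Cfsg.Agent.Asch.Uni

set_option autoImplicit false
open Cfsg

namespace Cfsg.Agent.S5663

/-- Subgroup structure of the finite unitary groups. Let F be the field with q² elements and n ≥ 3 with (n, q) ≠ (3, 2), and let SU_n(q) be the group of matrices of determinant one preserving the standard unitary form Σ u_i v_i^q on F^n. Let H be a subgroup of SU_n(q) whose product with the scalar matrices in SU_n(q) is not all of SU_n(q) (H does not cover PSU_n(q)). Then either H is contained in a member of one of the geometric classes of subgroups of the unitary group GU_n(q) (with the conditions built into InUnitaryClass), or H is in the residual class: modulo scalars it is almost simple, and the perfect preimage of its socle acts absolutely irreducibly, is realisable over no proper subfield of F, and fixes no non-degenerate quadratic form and no non-degenerate symplectic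 form on F^n. -/
theorem result {F : Type*} [Field F] [Fintype F] (n q : ℕ) (hF : Fintype.card F = q ^ 2) (hn : 3 ≤ n) (hex : ¬ (n = 3 ∧ q = 2)) (H : Subgroup (Matrix.GeneralLinearGroup (Fin n) F)) (hH : H ≤ (Cfsg.GU n F q ⊓ Cfsg.Geo.specialLinear (Fin n) F)) (hproper : H ⊔ (Cfsg.Geo.scalars (Fin n) F ⊓ (Cfsg.GU n F q ⊓ Cfsg.Geo.specialLinear (Fin n) F)) ≠ (Cfsg.GU n F q ⊓ Cfsg.Geo.specialLinear (Fin n) F)) : (∃ M : Subgroup (Matrix.GeneralLinearGroup (Fin n) F), Cfsg.Geo.InUnitaryClass n F q M ∧ H ≤ M) ∨ Cfsg.Geo.InUnitaryResidualClass H := by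
  have hf := Form.isUnitaryForm_hermForm hF n
  have hH' : H ≤ Cfsg.GU n F q := hH.trans inf_le_left
  have hI : H ≤ Asch.IsoB (P := Asch.UP hF) (Form.unitPQ hf) := hH'
  rcases Asch.uniCase (hq := hF) (Form.unitPQ_nondeg hf) (by simp; omega) hI with ⟨W, h1, h2, h⟩ |
    ⟨W, h1, h2, h3, h⟩ | ⟨t, k, D, h1, h⟩ | ⟨k, D, h1, h2, h⟩ | ⟨r, K, h1, h2, h3, h4, h⟩ |
    ⟨n₁, n₂, e, P, f₁, f₂, h1, h2, h3, h4, h5, h⟩ | ⟨F₀, r, P, h1, h2, h3, h4, h⟩ | ⟨F₀, P, h1, h2, h3, h⟩ |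
    ⟨F₀, P, ζ, h1, h2, h3, h4, h5, h6, h⟩ | ⟨r, R, p, e, k, h1, h2, h3, h4, h5, h6, -, h⟩ |
    ⟨k, t, e, P, f₁, h1, h2, h3, h4, h5, h⟩ | h
  · exact Or.inl ⟨_, .inl (.inl ⟨W, h1, h2, rfl⟩), le_inf h hH'⟩
  · exact Or.inl ⟨_, .inl (.inr (.inl ⟨W, h1, h2, by simpa using h3, rfl⟩)), le_inf h hH'⟩
  · exact Or.inl ⟨_, .inl (.inr (.inr (.inl ⟨t, k, D, h1, rfl⟩))), le_inf h hH'⟩
  · exact Or.inl ⟨_, .inl (.inr (.inr (.inr (.inl ⟨k, D, by simpa using Asch.mul_eq_card_of_decomp h1, h1, h2,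
      rfl⟩)))), le_inf h hH'⟩
  · exact Or.inl ⟨_, .inr (.inl ⟨r, K, h1, h2, h3, h4, rfl⟩), le_inf h hH'⟩
  · exact Or.inl ⟨_, .inr (.inr (.inl ⟨n₁, n₂, e, P, f₁, f₂, h1, h2, h3, h4, h5, rfl⟩)), le_inf h hH'⟩
  · exact Or.inl ⟨_, .inl (.inr (.inr (.inr (.inr (.inl ⟨F₀, r, P, h1, h2, h3, h4, rfl⟩))))), le_inf h hH'⟩
  · exact Or.inl ⟨_, .inl (.inr (.inr (.inr (.inr (.inr (.inl ⟨F₀, P, h1, h2, h3, rfl⟩)))))), le_inf h hH'⟩
  · exact Or.inl ⟨_, .inl (.inr (.inr (.inr (.inr (.inr (.inr (.inl ⟨F₀, P, ζ, by simpa using h1, h2, h3, h4, h5,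
      h6, rfl⟩))))))), le_inf h hH'⟩
  · exact Or.inl ⟨_, .inl (.inr (.inr (.inr (.inr (.inr (.inr (.inr ⟨r, R, p, e, k, h1, h2, h3, h4, h5, h6,
      rfl⟩))))))), le_inf h hH'⟩
  · exact Or.inl ⟨_, .inr (.inr (.inr ⟨k, t, e, P, f₁, h1, h2, h3, h4, h5, rfl⟩)), le_inf h hH'⟩
  · exact Or.inr h

end Cfsg.Agent.S5663
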