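import Cfsg.Statements.S5673
import Cfsg.Agent.Asch.Orth

set_option autoImplicit false
open Cfsg

namespace Cfsg.Agent.S5673

/-- Subgroup structure of the odd-dimensional orthogonal groups. Let F be a finite field of odd order and m ≥ 3, let Q be the standard quadratic form x₀² + Σ x_i y_i on F^(2m+1), and let Ω be the commutator subgroup of its isometry group, viewed inside GL_(2m+1)(F). Let H be a subgroup of Ω whose product with the scalar matrices in Ω is not all of Ω. Then either H is contained in a member of one of the geometric classes of subgroups of the isometry group (with the conditions built into InOrthogonalOddClass), or H is in the residual class: modulo scalars it is almost simple, and the perfect preimage of its socle acts absolutely irreducibly, is realisable over no proper subfield, and fixes no non-degenerate unitary form. -/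
theorem result {F : Type*} [Field F] [Fintype F] (hodd : Odd (Fintype.card F)) (m : ℕ) (hm : 3 ≤ m) (H : Subgroup (Matrix.GeneralLinearGroup (Unit ⊕ (Fin m ⊕ Fin m)) F)) (hH : H ≤ Cfsg.Geo.omegaGL (Cfsg.quadFormOdd m F)) (hproper : H ⊔ (Cfsg.Geo.scalars (Unit ⊕ (Fin m ⊕ Fin m)) F ⊓ Cfsg.Geo.omegaGL (Cfsg.quadFormOdd m F)) ≠ Cfsg.Geo.omegaGL (Cfsg.quadFormOdd m F)) : (∃ M : Subgroup (Matrix.GeneralLinearGroup (Unit ⊕ (Fin m ⊕ Fin m)) F), Cfsg.Geo.InOrthogonalOddClass m F M ∧ H ≤ M) ∨ Cfsg.Geo.InOrthogonalResidualClass H := by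
  have h2 := Asch.odd_card_iff.1 hodd
  have hQ := Form.isNondeg_quadFormOdd m F h2
  have hI : H ≤ isometryGroup F (Form.quadPQ hQ).Q := hH.trans (Subgroup.map_subtype_le _)
  have hn : Fintype.card (Unit ⊕ (Fin m ⊕ Fin m)) = 2 * m + 1 := by simp; omega
  have ho : Odd (Fintype.card (Unit ⊕ (Fin m ⊕ Fin m))) := ⟨m, hn⟩
  have he := Nat.not_even_iff_odd.2 ho
  rcases Asch.orthCase (Form.quadPQ_nondeg hQ) (by omega) hI with ⟨W, h1, h3, h⟩ | ⟨W, h1, h3, h4, -, h⟩ | ⟨v, h1, -⟩ |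
    ⟨t, k, D, -, h1 | ⟨rfl, h1, -⟩, h3, h⟩ | ⟨k, D, -, h1, -⟩ | ⟨r, K, -, h1, h3, h4, h5, -, h⟩ | ⟨K, -, h1, -⟩ |
    ⟨n₁, n₂, e, P, f₁, f₂, -, -, -, h1, h3, h4, -, h5, h6, h7, h⟩ | ⟨n₁, n₂, e, P, f₁, f₂, -, -, -, -, h1, -⟩ |
    ⟨F₀, r, P, ζ, -, h1, h3, h4, h5, h⟩ | ⟨k, t, -, h1, h3, h4, -⟩ | ⟨k, t, e, P, f₁, -, -, h1, h3, h4, h5, h6, h⟩ | h
  · exact Or.inl ⟨_, .inl ⟨W, h1, h3, rfl⟩, le_inf h hI⟩
  · exact Or.inl ⟨_, .inr (.inl ⟨W, h1, h3, h4, rfl⟩), le_inf h hI⟩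
  · exact absurd h1 h2
  · exact Or.inl ⟨_, .inr (.inr (.inl ⟨t, k, D, h1, h3, rfl⟩)), le_inf h hI⟩
  · exact Or.inl ⟨_, .inr (.inr (.inr (.inl ⟨t, D, h1, h3, rfl⟩))), le_inf h hI⟩
  · exact absurd (Asch.mul_eq_card_of_decomp h1 ▸ even_two_mul k) he
  · exact Or.inl ⟨_, .inr (.inr (.inr (.inr (.inl ⟨r, K, h1, by omega, h4, h5, rfl⟩)))), le_inf h hI⟩
  · exact absurd (even_iff_two_dvd.2 (Asch.dvd_card_of_field h1)) he
  · refine Or.inl ⟨_, .inr (.inr (.inr (.inr (.inr (.inl ⟨n₁, n₂, e, P, f₁, f₂, h1, h3.lt_of_ne fun h0 => he ?_, h5, h6,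
      h7, rfl⟩))))), le_inf h hI⟩
    rw [Fintype.card_congr e]; simpa using (h4 h0).mul_right n₂
  · refine absurd ?_ he
    have := Asch.even_card_of_symplectic h1
    rw [Fintype.card_fin] at this
    rw [Fintype.card_congr e]; simpa using this.mul_right n₂
  · obtain ⟨P', h6, h7⟩ := Asch.exists_rational_one (Form.quadPQ_nondeg hQ) ho h1 h3
      (Asch.over_gram_quadFormOdd m F₀) h4 h5
    exact Or.inl ⟨_, .inr (.inr (.inr (.inr (.inr (.inr (.inl ⟨F₀, r, P', h1, h3, h6, rfl⟩)))))), le_inf (h7 ▸ h) hI⟩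
  · exact absurd (h4 ▸ h3.pow_of_ne_zero (by omega)) he
  · exact Or.inl ⟨_, .inr (.inr (.inr (.inr (.inr (.inr (.inr ⟨k, t, e, P, f₁, h1, h3, h4, h5, h6, rfl⟩)))))),
      le_inf h hI⟩
  · exact Or.inr h

end Cfsg.Agent.S5673
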