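import Cfsg.Statements.S5675
import Cfsg.Agent.H8.Plane

set_option autoImplicit false
open Cfsg

namespace Cfsg.Agent.S5675

/-- Let F be a finite field of odd order q, m ≥ 6, Q the standard quadratic form on F^(2m+1) and Ω the commutator subgroup of its isometry group. Let W be a non-zero subspace of even dimension on which the polar form of Q is non-degenerate; exclude the case q = 3, dim W = 2 with Q vanishing on some line of W (a plus-type plane). Then the elements of Ω stabilising W (equivalently, stabilising its orthogonal complement, of odd dimension) form a maximal subgroup of Ω. -/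
theorem result {F : Type*} [Field F] [Fintype F] (hodd : Odd (Fintype.card F)) (m : ℕ) (hm : 6 ≤ m) (W : Submodule F (Unit ⊕ (Fin m ⊕ Fin m) → F)) (hW0 : W ≠ ⊥) (hev : Even (Module.finrank F W)) (hW : Cfsg.Geo.IsNondegenerateOn (QuadraticMap.polar (Cfsg.quadFormOdd m F)) W) (hex : ¬ (Fintype.card F = 3 ∧ Module.finrank F W = 2 ∧ Cfsg.Geo.IsPlusTypeOn (Cfsg.quadFormOdd m F) W)) : Cfsg.Geo.IsMaximalIn (Cfsg.Geo.omegaGL (Cfsg.quadFormOdd m F)) (Cfsg.Geo.subspaceStabilizer W ⊓ Cfsg.Geo.omegaGL (Cfsg.quadFormOdd m F)) := by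
  obtain ⟨Q, hQ, hN⟩ := H8.exists_quadraticForm
    (H8.quadFormOdd_nondeg (F := F) m (H8.two_ne_zero_of_odd hodd))
  rw [← hQ] at hW hex ⊢
  rw [H8.omegaGL_eq, H8.subspaceStabilizer_eq, ← H8.pull_inf]
  have hd := H8.finrank_odd_space (F := F) m
  have hp := hN.finrank_perp W
  obtain ⟨k, hk⟩ := hev
  obtain ⟨j, hj⟩ := hodd
  have h1 : 1 < Fintype.card F := Fintype.one_lt_card
  refine H8.isMaximalIn_pull (H8.nondeg_max' hN (by omega) (H8.ndOn_of_isNondegenerateOn hW) hW0
    ?_ (fun g _ h => ?_) ?_ ?_)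
  · rintro rfl
    rw [finrank_top] at hk; omega
  · rw [← h, LinearEquiv.finrank_map_eq] at hp; omega
  · rintro ⟨h1, h2, h3⟩
    rw [Nat.card_eq_fintype_card] at h1
    exact hex ⟨by omega, h2, (H8.isPlusTypeOn_plane h2).2 h3⟩
  · rintro ⟨-, h2, -⟩
    omega

end Cfsg.Agent.S5675
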