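import Cfsg.Statements.S5677
import Cfsg.Agent.H8.Imp3

set_option autoImplicit false
open Cfsg

namespace Cfsg.Agent.S5677

/-- Let F be a finite field of odd order q, m ≥ 6, Q the standard quadratic form on F^(2m+1) and Ω the commutator subgroup of its isometry group. Let D be a decomposition of F^(2m+1) into t ≥ 2 pairwise orthogonal, pairwise Q-isometric subspaces of equal dimension k > 1 on which the polar form is non-degenerate. Unless q = 3 and k = 3, the elements of Ω permuting the members of D form a maximal subgroup of Ω. -/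
theorem result {F : Type*} [Field F] [Fintype F] (hodd : Odd (Fintype.card F)) (m : ℕ) (hm : 6 ≤ m) {t : ℕ} (k : ℕ) (hk : 1 < k) (D : Fin t → Submodule F (Unit ⊕ (Fin m ⊕ Fin m) → F)) (hD : Cfsg.Geo.IsOrthogonalMDecomposition (Cfsg.quadFormOdd m F) k D) (hex : ¬ (Fintype.card F = 3 ∧ k = 3)) : Cfsg.Geo.IsMaximalIn (Cfsg.Geo.omegaGL (Cfsg.quadFormOdd m F)) (Cfsg.Geo.decompositionStabilizer D ⊓ Cfsg.Geo.omegaGL (Cfsg.quadFormOdd m F)) := by
  have h2 : (2 : F) ≠ 0 := H8.two_ne_zero_of_odd hodd
  obtain ⟨Q, hQ, hN⟩ := H8.exists_quadraticForm (H8.quadFormOdd_nondeg m h2)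
  rw [← hQ] at hD ⊢
  rw [H8.omegaGL_eq, H8.decompositionStabilizer_eq, ← H8.pull_inf]
  have hd : Module.finrank F (Unit ⊕ (Fin m ⊕ Fin m) → F) = 2 * m + 1 := by simp; omega
  have h := H8.od_of_geo hD
  have ht : 2 ≤ t := hD.decomp.decomp.two_le
  rw [← Nat.card_eq_fintype_card] at hex hodd
  refine H8.isMaximalIn_pull ?_
  have hk2 : k ≠ 2 := by
    rintro rfl
    have := h.total; omega
  by_cases hk3 : k = 3
  · subst hk3
    have := Finite.one_lt_card (α := F)
    obtain ⟨r, hr⟩ := hodd
    exact h.max_three hN ht h2 (by omega)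
  · exact h.max_four hN (by omega) ht fun i => (h.nd i).good_of_odd hN h2 (by rw [h.dim]; omega)

end Cfsg.Agent.S5677
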