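import Cfsg.Statements.S5686
import Cfsg.Agent.H8.Parity

set_option autoImplicit false
open Cfsg

namespace Cfsg.Agent.S5686

/-- Let F be a finite field with q elements, n ≥ 13 even, Q a non-degenerate quadratic form on F^n of plus type (some subspace of dimension n/2 is totally singular), and Ω the commutator subgroup of the isometry group of Q, viewed inside GL_n(F). The elements of Ω stabilising a subspace of dimension n/2 − 1 on which Q vanishes form a subgroup that is not maximal: some subgroup lies strictly between it and Ω. -/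
theorem result {F : Type*} [Field F] [Fintype F] {n : ℕ} (hn : 13 ≤ n) (heven : Even n) (Q : (Fin n → F) → F) (hQ : Cfsg.Geo.IsNondegenerateQuadraticForm Q) (hplus : Cfsg.Geo.IsPlusTypeOn Q ⊤) (W : Submodule F (Fin n → F)) (hW : Cfsg.Geo.IsTotallySingularQuad Q W) (hdim : 2 * (Module.finrank F W + 1) = n) : ∃ K : Subgroup (Matrix.GeneralLinearGroup (Fin n) F), Cfsg.Geo.subspaceStabilizer W ⊓ Cfsg.Geo.omegaGL Q < K ∧ K < Cfsg.Geo.omegaGL Q := by
  obtain ⟨Q, rfl, hN⟩ := H8.exists_quadraticForm hQ
  rw [H8.omegaGL_eq, H8.subspaceStabilizer_eq, ← H8.pull_inf]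
  have hd : Module.finrank F (Fin n → F) = n := by simp
  obtain ⟨U, -, hU1, hU2⟩ := hplus
  rw [finrank_top] at hU2
  exact H8.between_pull (H8.submax_not_max hN (by omega) ⟨hU1, hU2⟩ hW (by omega))

end Cfsg.Agent.S5686
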