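import Cfsg.Statements.S5687
import Cfsg.Agent.H8.Similarity

set_option autoImplicit false
open Cfsg

namespace Cfsg.Agent.S5687

/-- Let F be a finite field with q elements, n ≥ 13 even, Q a non-degenerate quadratic form on F^n of minus type (no subspace of dimension n/2 is totally singular), and Ω the commutator subgroup of the isometry group of Q, viewed inside GL_n(F). The elements of Ω stabilising a non-zero subspace on which Q vanishes form a maximal subgroup of Ω. -/
theorem result {F : Type*} [Field F] [Fintype F] {n : ℕ} (hn : 13 ≤ n) (heven : Even n) (Q : (Fin n → F) → F) (hQ : Cfsg.Geo.IsNondegenerateQuadraticForm Q) (hminus : ¬ Cfsg.Geo.IsPlusTypeOn Q ⊤) (W : Submodule F (Fin n → F)) (hW0 : W ≠ ⊥) (hW : Cfsg.Geo.IsTotallySingularQuad Q W) : Cfsg.Geo.IsMaximalIn (Cfsg.Geo.omegaGL Q) (Cfsg.Geo.subspaceStabilizer W ⊓ Cfsg.Geo.omegaGL Q) := by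
  obtain ⟨Q, rfl, hN⟩ := H8.exists_quadraticForm hQ
  rw [H8.omegaGL_eq, H8.subspaceStabilizer_eq, ← H8.pull_inf]
  have hd : Module.finrank F (Fin n → F) = n := by simp
  refine H8.isMaximalIn_pull (H8.parabolic_max hN (by omega) hW0 hW fun h u hu hQu => ?_)
  by_contra huW
  refine hminus ⟨W ⊔ H8.sp F [u], le_top, fun x hx => ?_, ?_⟩
  · obtain ⟨a, ha, b, hb, rfl⟩ := Submodule.mem_sup.1 hx
    obtain ⟨c, rfl⟩ := H8.mem_sp_one.1 hb
    rw [H8.Q_add, H8.Q_smul, H8.pol_smul_right, hW a ha, hQu, H8.mem_perp.1 hu a ha]; ring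
  · rw [H8.finrank_sup_sp_one huW, finrank_top, h]

end Cfsg.Agent.S5687
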