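import Cfsg.Statements.S5692
import Cfsg.Agent.H8.Imp

set_option autoImplicit false
open Cfsg

namespace Cfsg.Agent.S5692

/-- Let F be a finite field with q elements, n ≥ 13 even, Q a non-degenerate quadratic form on F^n of plus type (some subspace of dimension n/2 is totally singular), and Ω the commutator subgroup of the isometry group of Q, viewed inside GL_n(F). Let D be a decomposition of F^n into t ≥ 2 pairwise orthogonal, pairwise Q-isometric subspaces of equal dimension k ≥ 2 on which the polar form is non-degenerate, such that: if k is even, either every member is of plus type or t is even; if k is odd, q is odd and the discriminant of Q is a square. Exclude the cases k = 2 with q = 3, k = 2 with plus-type members and q ∈ {2, 4, 5}, k = 3 with q = 3, and k = 4 with plus-type members and q = 2. Then the elements of Ω permuting the members of D form a maximal subgroup of Ω. -/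
theorem result {F : Type*} [Field F] [Fintype F] {n : ℕ} (hn : 13 ≤ n) (heven : Even n) (Q : (Fin n → F) → F) (hQ : Cfsg.Geo.IsNondegenerateQuadraticForm Q) (hplus : Cfsg.Geo.IsPlusTypeOn Q ⊤) {t : ℕ} (k : ℕ) (hk : 2 ≤ k) (D : Fin t → Submodule F (Fin n → F)) (hD : Cfsg.Geo.IsOrthogonalMDecomposition Q k D) (hke : Even k → ((∀ i, Cfsg.Geo.IsPlusTypeOn Q (D i)) ∨ Even t)) (hko : Odd k → (Odd (Fintype.card F) ∧ Cfsg.Geo.HasSquareDiscriminant Q)) (hex : ¬ ((k = 2 ∧ (Fintype.card F = 3 ∨ ((∀ i, Cfsg.Geo.IsPlusTypeOn Q (D i)) ∧ (Fintype.card F = 2 ∨ Fintype.card F = 4 ∨ Fintype.card F = 5)))) ∨ (k = 3 ∧ Fintype.card F = 3) ∨ (k = 4 ∧ Fintype.card F = 2 ∧ ∀ i, Cfsg.Geo.IsPlusTypeOn Q (D i)))) : Cfsg.Geo.IsMaximalIn (Cfsg.Geo.omegaGL Q) (Cfsg.Geo.decompositionStabilizer D ⊓ Cfsg.Geo.omegaGL Q) := by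
  obtain ⟨Q, rfl, hN⟩ := H8.exists_quadraticForm hQ
  rw [H8.omegaGL_eq, H8.decompositionStabilizer_eq, ← H8.pull_inf]
  have hd : Module.finrank F (Fin n → F) = n := by simp
  have h := H8.od_of_geo hD
  have ht : 2 ≤ t := hD.decomp.decomp.two_le
  have h1 := Finite.one_lt_card (α := F)
  rw [← Nat.card_eq_fintype_card] at hex
  refine H8.isMaximalIn_pull (h.max_general hN hk ht ?_ ?_ ?_)
  · rintro rfl
    have := h.total
    refine ⟨by omega, fun e => hex (Or.inl ⟨rfl, Or.inl e⟩), ?_⟩
    by_contra hc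
    push Not at hc
    exact hex (Or.inl ⟨rfl, by
      by_cases e : Nat.card F = 3
      · exact Or.inl e
      · exact Or.inr ⟨fun i => (H8.isPlusTypeOn_plane (h.dim i)).2 (hc.2 i), by omega⟩⟩)
  · rintro rfl
    exact ⟨H8.two_ne_zero_of_odd (hko (by decide)).1, fun e => hex (Or.inr (Or.inl ⟨rfl, e⟩))⟩
  · rintro rfl e
    by_contra hc
    push Not at hc
    exact hex (Or.inr (Or.inr ⟨rfl, e, hc⟩))

end Cfsg.Agent.S5692
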