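import Cfsg.Statements.S5699
import Cfsg.Agent.H8.Plane

set_option autoImplicit false
open Cfsg

namespace Cfsg.Agent.S5699

/-- Let F be a finite field with q elements, n ≥ 13 even, Q a non-degenerate quadratic form on F^n (of either type), and Ω the commutator subgroup of the isometry group of Q, viewed inside GL_n(F). Let D be a decomposition of F^n into two orthogonal subspaces of odd dimension n/2 on which the polar form is non-degenerate and which are not Q-isometric to each other. Then the elements of Ω permuting (necessarily fixing) the two subspaces form a maximal subgroup of Ω. -/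
theorem result {F : Type*} [Field F] [Fintype F] {n : ℕ} (hn : 13 ≤ n) (heven : Even n) (Q : (Fin n → F) → F) (hQ : Cfsg.Geo.IsNondegenerateQuadraticForm Q) (k : ℕ) (hk : 2 * k = n) (hko : Odd k) (D : Fin 2 → Submodule F (Fin n → F)) (hD : Cfsg.Geo.IsNondegenerateMDecomposition (QuadraticMap.polar Q) k D) (hni : ¬ Cfsg.Geo.AreIsometricFor Q (D 0) (D 1)) : Cfsg.Geo.IsMaximalIn (Cfsg.Geo.omegaGL Q) (Cfsg.Geo.decompositionStabilizer D ⊓ Cfsg.Geo.omegaGL Q) := by
  obtain ⟨Q, rfl, hN⟩ := H8.exists_quadraticForm hQ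
  have hd : Module.finrank F (Fin n → F) = n := by simp
  have h0 := H8.ndOn_of_isNondegenerateOn (hD.nondegenerate 0)
  have hk0 := hD.decomp.finrank_eq 0
  have hk1 := hD.decomp.finrank_eq 1
  have hp := hN.finrank_perp (D 0)
  have hperp : D 1 = H8.perp Q (D 0) :=
    Submodule.eq_of_le_of_finrank_eq (fun x hx y hy => hD.orthogonal 0 1 (by decide) y hy x hx)
      (by omega)
  have hiso : ∀ g ∈ H8.OG Q, (D 0).map (g : (Fin n → F) →ₗ[F] (Fin n → F)) ≠ D 1 := by
    intro g hg h
    refine hni ⟨(g.submoduleMap (D 0)).trans (LinearEquiv.ofEq _ _ h), fun w => ?_⟩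
    exact hg w
  have heq : H8.DStab D ⊓ H8.Om Q = H8.Stab (D 0) ⊓ H8.Om Q := by
    ext g
    constructor
    · rintro ⟨⟨σ, hσ⟩, hg⟩
      refine ⟨H8.mem_Stab_iff_map.2 ?_, hg⟩
      have h1 := hσ 0
      by_cases h2 : σ 0 = 0
      · rwa [h2] at h1
      · have h3 : σ 0 = 1 := by
          revert h2; generalize σ 0 = j; revert j; decide
        rw [h3] at h1
        exact absurd h1 (hiso g (H8.Om_le_OG hg))
    · rintro ⟨h1, hg⟩
      refine ⟨⟨1, fun i => ?_⟩, hg⟩
      fin_cases i
      · exact H8.mem_Stab_iff_map.1 h1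
      · have := H8.mem_Stab_iff_map.1 (H8.Stab_perp (H8.Om_le_OG hg) h1)
        rw [← hperp] at this
        exact this
  rw [H8.omegaGL_eq, H8.decompositionStabilizer_eq, ← H8.pull_inf, heq]
  refine H8.isMaximalIn_pull (H8.nondeg_max' hN (by omega) h0 ?_ ?_ (by rwa [← hperp]) ?_ ?_)
  · intro h; rw [h, finrank_bot] at hk0; omega
  · intro h; rw [h, finrank_top] at hk0; omega
  · rintro ⟨-, h2, -⟩; omega
  · rintro ⟨-, h2, -⟩; omega

end Cfsg.Agent.S5699
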