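import Cfsg.Statements.S5774
import Cfsg.Agent.H5.X10
import Cfsg.Agent.H1.SLAll

set_option autoImplicit false
open Cfsg

namespace Cfsg.Agent.S5774

open Cfsg Matrix Cfsg.Agent Cfsg.Agent.Asch Cfsg.Agent.Form Cfsg.Agent.H5.MH Cfsg.Agent.H5.X

/-- Maximal subgroups of SL_3(q) of geometric type, for a finite field F with q elements (any q). Each of the following subgroups of SL_3(F), obtained by intersecting SL_3(F) with the stated subgroup of GL_3(F), is a maximal subgroup of SL_3(F): (1) the stabiliser of any proper non-zero subspace of F^3; (2) for q ≥ 5, the stabiliser of any decomposition of F^3 into three independent lines; (3) for q ≠ 4, the normaliser of any subfield of the 3 × 3 matrix algebra of degree 3 over F (a commutative subalgebra of dimension 3 in which every non-zero element is invertible); (4) for every subfield F₀ with |F| = |F₀|^r, r prime, every subfield group (a conjugate of GL_3(F₀) times the scalars of F); (5) for q = p prime with p ≡ 1 mod 3, the normaliser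 of any absolutely irreducible 3-subgroup R of exponent 3 with centre of order 3, all of whose characteristic abelian subgroups are cyclic, of order 3^(1+2m) for some m ≥ 1, with F the smallest field of characteristic p containing the cube roots of unity (so R is extraspecial of order 27); (6) for q odd, the group of similarities of any non-degenerate quadratic form on F^3; (7) the group of similarities of any non-degenerate unitary form on F^3 (these exist exactly when q is a square). -/
theorem result {F : Type*} [Field F] [Fintype F] :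
    (∀ W : Submodule F (Fin 3 → F), W ≠ ⊥ → W ≠ ⊤ → Cfsg.Geo.IsMaximalIn (Cfsg.Geo.specialLinear (Fin 3) F) (Cfsg.Geo.subspaceStabilizer W ⊓ Cfsg.Geo.specialLinear (Fin 3) F)) ∧
    (5 ≤ Fintype.card F → ∀ D : Fin 3 → Submodule F (Fin 3 → F), Cfsg.Geo.IsMDecomposition 1 D → Cfsg.Geo.IsMaximalIn (Cfsg.Geo.specialLinear (Fin 3) F) (Cfsg.Geo.decompositionStabilizer D ⊓ Cfsg.Geo.specialLinear (Fin 3) F)) ∧
    (Fintype.card F ≠ 4 → ∀ K : Subalgebra F (Matrix (Fin 3) (Fin 3) F), Cfsg.Geo.IsFieldSubalgebra 3 K → Cfsg.Geo.IsMaximalIn (Cfsg.Geo.specialLinear (Fin 3) F) (Cfsg.Geo.subalgebraNormalizer K ⊓ Cfsg.Geo.specialLinear (Fin 3) F)) ∧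
    (∀ (F₀ : Subfield F) (r : ℕ) (P : Matrix.GeneralLinearGroup (Fin 3) F), r.Prime → Fintype.card F = Nat.card F₀ ^ r → Cfsg.Geo.IsMaximalIn (Cfsg.Geo.specialLinear (Fin 3) F) (Cfsg.Geo.subfieldSubgroup F₀ P ⊓ Cfsg.Geo.specialLinear (Fin 3) F)) ∧
    (∀ (p : ℕ) (R : Subgroup (Matrix.GeneralLinearGroup (Fin 3) F)), p.Prime → Fintype.card F = p → p % 3 = 1 → Cfsg.Geo.IsLinearSymplecticTypeData 3 R → Cfsg.Geo.IsMaximalIn (Cfsg.Geo.specialLinear (Fin 3) F) (Cfsg.Geo.subgroupNormalizer R ⊓ Cfsg.Geo.specialLinear (Fin 3) F)) ∧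
    (Odd (Fintype.card F) → ∀ Q : (Fin 3 → F) → F, Cfsg.Geo.IsNondegenerateQuadraticForm Q → Cfsg.Geo.IsMaximalIn (Cfsg.Geo.specialLinear (Fin 3) F) (Cfsg.Geo.quadSimilarityGroup Q ⊓ Cfsg.Geo.specialLinear (Fin 3) F)) ∧
    (∀ (σ : F ≃+* F) (f : (Fin 3 → F) → (Fin 3 → F) → F), Cfsg.Geo.IsUnitaryForm σ f → Cfsg.Geo.IsMaximalIn (Cfsg.Geo.specialLinear (Fin 3) F) (Cfsg.Geo.similarityGroup f ⊓ Cfsg.Geo.specialLinear (Fin 3) F)) := by
  have h3 : 3 ≤ Fintype.card (Fin 3) := by simp
  refine ⟨H1.SLAll.subspace_max, fun h D hD => (sl_frame h hD).max (H7.SL_not_le_decompositionStabilizer h3 hD),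
    fun h K hK => (sl_singer h hK).max (H7.SL_not_le_subalgebraNormalizer h3 hK (by omega)), fun E r P hr h => ?_,
    fun p R hp hq h1 hR => ?_, fun h Q hQ => ?_, fun σ f hf => ?_⟩
  · obtain ⟨p, hc, ⟨α, h0⟩, hp, hq⟩ := FiniteField.card' F
    have := Fact.mk hp
    replace hq : Fintype.card F = p ^ α := hq
    obtain ⟨δ, -, hE, -⟩ := sub_card p hq E
    exact (Mx.tr (X := Geo.subfieldSubgroup E P) P (sl_conj P) ((sl_sub hq hE hr (Nat.pow_right_injective hp.two_le (by
      simpa only [hE, ← pow_mul] using hq.symm.trans h))).mono fun y hy => sub_of_Tw hE P hy)).max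
      (H7.SL_not_le_subfieldSubgroup h3 (ne_top_of_card hr.one_lt h) P)
  · have := Fact.mk hp
    have := charP_of_card_eq_prime hq
    obtain ⟨_, _, -, -, ⟨-, -, hZ, m, hm, h2⟩ | ⟨h2, -⟩ | ⟨h2, -⟩⟩ := hR.field
    · obtain ⟨w, g, ww, rfl⟩ := exists_hR (hq ▸ h1) hR.symplecticType hR.absIrred hZ
        (h2.symm ▸ Nat.pow_le_pow_right (n := 3) (i := 3) (by omega) (by omega))
      exact (sl_hess (hq.trans (pow_one p).symm) (by omega) (.inr rfl) ww (exists_w (hq ▸ h1)).1 g).max
        (H7.SL_not_le_subgroupNormalizer h3 Nat.prime_three hR.symplecticType.pGroup hR.absIrred)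
    all_goals omega
  · obtain ⟨p, hc, ⟨α, h0⟩, hp, hq⟩ := FiniteField.card' F
    have := Fact.mk hp
    replace hq : Fintype.card F = p ^ α := hq
    have h2 := odd_card_iff.1 h
    have hS := sesq_of_bilinear hQ.polar_bilinear
    obtain ⟨a, d, -, ha⟩ := exists_similar h2 (k := 3) (by decide) (G := Geo.gramMatrix (QuadraticMap.polar Q))
      (Matrix.ext fun i j => QuadraticMap.polar_comm _ _ _) transpose_one (hS.det_ne_zero (fun _ => rfl)
      hQ.nondegenerate) (by simp)
    exact (Mx.tr a (sl_conj a) ((sl_orth hq fun e => h2 ((cast_iff Nat.prime_two).2 e)).mono fun y hy =>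
      similarityGroup_le_quad h2 hQ (hS.eq_ofG' ▸ sim_of_Tw (by simpa using ha) hy))).max
      (H7.SL_not_le_quadSimilarityGroup h3 hQ)
  · have hne : ∃ a, σ a ≠ a := unit_ne hf
    have h1 := card_eq_pow_finrank_subfield (fixSub (σ : F →+* F))
    obtain ⟨k, hk⟩ := even_of_fixes (σ := (σ : F →+* F)) hf.involutive hne h1 fun _ h => h
    rw [hk, ← two_mul, pow_mul'] at h1
    generalize Nat.card (fixSub (σ : F →+* F)) ^ k = q at h1
    clear hk
    obtain rfl := involution_unique hf.involutive (pow_q_pow_q h1) hne (exists_pow_q_ne h1) (t := frobQ h1)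
    have hS := sesq_of_unitary hf
    obtain ⟨a, ha⟩ := exists_orthonormal (hq := h1) (G := Geo.gramMatrix f)
      (Matrix.ext fun i j => (hf.herm _ _).symm) (hS.det_ne_zero hf.involutive hf.nondegenerate)
    exact (Mx.tr a (sl_conj a) ((sl_unit h1).mono fun y hy =>
      hS.eq_ofG' ▸ sim_of_Tw (d := 1) (ha.trans (one_smul _ _).symm) hy)).max (H7.SL_not_le_similarityGroup_unit h3 hf)

end Cfsg.Agent.S5774
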