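import Cfsg.Statements.S5776
import Cfsg.Agent.H5.MH11
import Cfsg.Agent.MH.Main

set_option autoImplicit false
open Cfsg

namespace Cfsg.Agent.S5776

open Cfsg.Agent.H5.MH

/-- The maximal subgroups of SL_3(q) in the residual class. Let F be a finite field with q elements of characteristic p, and let H be a maximal subgroup of SL_3(F) lying in the residual class of the linear case. Then the perfect socle preimage P of H (the subgroup given by the residual-class conditions) satisfies one of: P modulo scalars is isomorphic to the simple group of order 168 (written here as PSL_3(2)) and q = p with p ≠ 2 and p ≡ 1, 2 or 4 mod 7; or P modulo scalars is isomorphic to the alternating group A_6 and either q = p with p ≡ 1 or 4 mod 15, or q = p² with p ≡ 2 or 3 mod 5 and p ≠ 3. -/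
theorem result {F : Type*} [Field F] [Fintype F] (H : Subgroup (Matrix.GeneralLinearGroup (Fin 3) F)) (hH : Cfsg.Geo.IsMaximalIn (Cfsg.Geo.specialLinear (Fin 3) F) H) (hS : Cfsg.Geo.InLinearResidualClass H) :
    ∃ (P : Subgroup (Matrix.GeneralLinearGroup (Fin 3) F)) (p : ℕ), Cfsg.Geo.IsResidualCore H P ∧ p.Prime ∧ CharP F p ∧
    ((Nonempty ((P ⧸ (Cfsg.Geo.scalars (Fin 3) F).subgroupOf P) ≃* Matrix.ProjectiveSpecialLinearGroup (Fin 3) (ZMod 2)) ∧
        Fintype.card F = p ∧ p ≠ 2 ∧ (p % 7 = 1 ∨ p % 7 = 2 ∨ p % 7 = 4)) ∨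
     (Nonempty ((P ⧸ (Cfsg.Geo.scalars (Fin 3) F).subgroupOf P) ≃* alternatingGroup (Fin 6)) ∧
        ((Fintype.card F = p ∧ (p % 15 = 1 ∨ p % 15 = 4)) ∨ (Fintype.card F = p ^ 2 ∧ p ≠ 3 ∧ (p % 5 = 2 ∨ p % 5 = 3))))) := by
  obtain ⟨P, p, h1, h2, h3, h4⟩ := s5776 Cfsg.Agent.MH.main H hH.1 hS
  have := perfect_PQ h1.perfect
  exact ⟨P, p, h1, h2, h3, h4.imp_left fun h => ⟨iso_PSL3 h.1, h.2⟩⟩

end Cfsg.Agent.S5776
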