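import Cfsg.Statements.S5777
import Cfsg.Agent.H5.X11
import Cfsg.Agent.H2.SUMax

set_option autoImplicit false
open Cfsg

namespace Cfsg.Agent.S5777

open Cfsg Matrix Cfsg.Agent Cfsg.Agent.Asch Cfsg.Agent.Form Cfsg.Agent.H5.MH Cfsg.Agent.H5.X

/-- Maximal subgroups of SU_3(q) of geometric type, q ≥ 3. Let F be the field with q² elements, f the standard unitary form Σ u_i v_i^q on F^3, and SU_3(q) the determinant-one isometries of f. Each of the following, intersected with SU_3(q), is a maximal subgroup of SU_3(q): (1) the stabiliser of any non-zero subspace on which f vanishes identically (an isotropic 1-space); (2) the stabiliser of any non-degenerate 1-space; (3) for q ≠ 5, the stabiliser of any decomposition of F^3 into three mutually orthogonal non-degenerate 1-spaces; (4) for q ≠ 3, 5, the normaliser of any degree-3 subfield of the matrix algebra that is closed under taking adjoints for f; (5) every subfield group for a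 subfield F₀ of odd prime index r in F whose F₀-structure carries f; (6) for q odd with q ≥ 7, every subfield group for the subfield F₀ of index 2 whose F₀-structure carries f (the orthogonal type); (7) for q = p prime with p ≡ 2 mod 3 and p ≥ 11, the normaliser of any absolutely irreducible subgroup R of order 27 with centre of order 3, of exponent 3 with every characteristic abelian subgroup cyclic, contained in the similarity group of f. -/
theorem result {F : Type*} [Field F] [Fintype F] (q : ℕ) (hF : Fintype.card F = q ^ 2) (hq : 3 ≤ q) :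
    (∀ W : Submodule F (Fin 3 → F), W ≠ ⊥ → Cfsg.Geo.IsTotallySingularFor (Cfsg.hermForm 3 F q) W → Cfsg.Geo.IsMaximalIn (Cfsg.GU 3 F q ⊓ Cfsg.Geo.specialLinear (Fin 3) F) (Cfsg.Geo.subspaceStabilizer W ⊓ (Cfsg.GU 3 F q ⊓ Cfsg.Geo.specialLinear (Fin 3) F))) ∧
    (∀ W : Submodule F (Fin 3 → F), W ≠ ⊥ → Cfsg.Geo.IsNondegenerateOn (Cfsg.hermForm 3 F q) W → 2 * Module.finrank F W < 3 → Cfsg.Geo.IsMaximalIn (Cfsg.GU 3 F q ⊓ Cfsg.Geo.specialLinear (Fin 3) F) (Cfsg.Geo.subspaceStabilizer W ⊓ (Cfsg.GU 3 F q ⊓ Cfsg.Geo.specialLinear (Fin 3) F))) ∧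
    (q ≠ 5 → ∀ D : Fin 3 → Submodule F (Fin 3 → F), Cfsg.Geo.IsNondegenerateMDecomposition (Cfsg.hermForm 3 F q) 1 D → Cfsg.Geo.IsMaximalIn (Cfsg.GU 3 F q ⊓ Cfsg.Geo.specialLinear (Fin 3) F) (Cfsg.Geo.decompositionStabilizer D ⊓ (Cfsg.GU 3 F q ⊓ Cfsg.Geo.specialLinear (Fin 3) F))) ∧
    (q ≠ 3 → q ≠ 5 → ∀ K : Subalgebra F (Matrix (Fin 3) (Fin 3) F), Cfsg.Geo.IsFieldSubalgebra 3 K → Cfsg.Geo.IsAdjointClosedFor (Cfsg.hermForm 3 F q) K → Cfsg.Geo.IsMaximalIn (Cfsg.GU 3 F q ⊓ Cfsg.Geo.specialLinear (Fin 3) F) (Cfsg.Geo.subalgebraNormalizer K ⊓ (Cfsg.GU 3 F q ⊓ Cfsg.Geo.specialLinear (Fin 3) F))) ∧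
    (∀ (F₀ : Subfield F) (r : ℕ) (P : Matrix.GeneralLinearGroup (Fin 3) F), r.Prime → Odd r → Fintype.card F = Nat.card F₀ ^ r → Cfsg.Geo.IsFormRationalStructure (Cfsg.hermForm 3 F q) F₀ 1 P → Cfsg.Geo.IsMaximalIn (Cfsg.GU 3 F q ⊓ Cfsg.Geo.specialLinear (Fin 3) F) (Cfsg.Geo.subfieldSubgroup F₀ P ⊓ (Cfsg.GU 3 F q ⊓ Cfsg.Geo.specialLinear (Fin 3) F))) ∧
    (Odd q → 7 ≤ q → ∀ (F₀ : Subfield F) (P : Matrix.GeneralLinearGroup (Fin 3) F), Fintype.card F = Nat.card F₀ ^ 2 → Cfsg.Geo.IsFormRationalStructure (Cfsg.hermForm 3 F q) F₀ 1 P → Cfsg.Geo.IsMaximalIn (Cfsg.GU 3 F q ⊓ Cfsg.Geo.specialLinear (Fin 3) F) (Cfsg.Geo.subfieldSubgroup F₀ P ⊓ (Cfsg.GU 3 F q ⊓ Cfsg.Geo.specialLinear (Fin 3) F))) ∧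
    (∀ (p : ℕ) (R : Subgroup (Matrix.GeneralLinearGroup (Fin 3) F)), p.Prime → q = p → p % 3 = 2 → 11 ≤ p → Cfsg.Geo.IsSymplecticTypeGroup 3 R → Cfsg.Geo.ActsAbsolutelyIrreducibly (Cfsg.Geo.matrixSet R) → R ≤ Cfsg.Geo.similarityGroup (Cfsg.hermForm 3 F q) → Nat.card R = 27 → Nat.card (Subgroup.center R) = 3 → Cfsg.Geo.IsMaximalIn (Cfsg.GU 3 F q ⊓ Cfsg.Geo.specialLinear (Fin 3) F) (Cfsg.Geo.subgroupNormalizer R ⊓ (Cfsg.GU 3 F q ⊓ Cfsg.Geo.specialLinear (Fin 3) F))) := by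
  refine ⟨geo_ts3 hF hq, geo_nondeg3 hF hq, ?_⟩
  obtain ⟨p, γ, hp, hc, h0, rfl⟩ := exists_prime_pow_of_card_sq hF
  have := Fact.mk hp
  have key : ∀ P y : G3 F, (P * y).valᵀ * 1 * (P * y).val.map (UP hF).σ =
      y.valᵀ * (P.valᵀ * 1 * P.val.map (UP hF).σ) * y.val.map (UP hF).σ := fun P y => by
    simp [Matrix.mul_assoc]
  refine ⟨fun h D hD => (su_frame hF hq h hD).max (H7.SU_not_le_decompositionStabilizer hF le_rfl (by omega) hD.decomp),
    fun h h' K hK ha => (su_singer hF hq h h' hK ha).max (H7.SU_not_le_subalgebraNormalizer hF le_rfl hK (by omega)),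
    fun E r P hr ho h hP => ?_, fun ho h7 E P h hP => ?_, fun p' R hp' e h3 h11 hR hi hs h27 hZ => ?_⟩
  · obtain ⟨δ, -, hE, -⟩ := sub_card p (hq2 hF) E
    have h1 : 2 * γ = δ * r := Nat.pow_right_injective hp.two_le (by
      simpa only [hE, ← pow_mul] using (hq2 hF).symm.trans h)
    obtain ⟨δ, rfl⟩ := (Nat.Prime.dvd_mul Nat.prime_two).1 (h1 ▸ dvd_mul_right _ _) |>.resolve_right ho.not_two_dvd_nat
    obtain ⟨G, h2, h3, h4⟩ := exists_gram hF hP
    have := Fintype.ofFinite E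
    have hE' : Fintype.card E = (p ^ δ) ^ 2 := by rw [← Nat.card_eq_fintype_card, hE, pow_mul']
    have h5 : ∀ e : E, (e : F) ^ p ^ γ = (e ^ p ^ δ : E) := fun e => by
      obtain ⟨k, rfl⟩ := ho
      rw [show γ = δ * 2 * k + δ by nlinarith, pow_add, pow_mul, pow_mul, pow_mul, ← hE', ← SubmonoidClass.coe_pow,
        FiniteField.pow_card_pow, SubmonoidClass.coe_pow]
    obtain ⟨b, hb⟩ := exists_orthonormal (hq := hE') (G := G) (Matrix.ext fun i j => Subtype.ext
      ((h5 _).symm.trans (h4 j i))) h2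
    refine (mx_sub hF hE (Tw_of ((gm_eq_iff p hE (g := gm E.subtype b)).2 (over_map _))) ((mem_GU3 hF).2 ?_)
      (su_sub hF hE hr ho (by nlinarith))).max (H7.SU_not_le_subfieldSubgroup hF le_rfl (ne_top_of_card hr.one_lt h) P)
    rw [key, h3, show (gm E.subtype b).val.map (UP hF).σ = (b.val.map (UP hE').σ).map E.subtype from
      Matrix.ext fun i j => h5 _, gm_val, ← transpose_map, ← Matrix.map_mul, ← Matrix.map_mul, hb]
    simp
  · have hE : Nat.card E = p ^ γ := Nat.pow_left_injective two_ne_zero (h.symm.trans hF)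
    have h2 : p ≠ 2 := by rintro rfl; exact ho.not_two_dvd_nat (dvd_pow_self 2 h0.ne')
    obtain ⟨G, h3, h4, h5⟩ := exists_gram hF hP
    have := Fintype.ofFinite E
    have h6 : ∀ e : E, (e : F) ^ p ^ γ = e := fun e => hE ▸ (mem_subfield_iff E _).1 e.2
    obtain ⟨b, d, d0, hb⟩ := exists_similar (F := E) (fun e => h2 ((cast_iff Nat.prime_two).1 e)) (k := 3) (by decide)
      (G := G) (Matrix.ext fun i j => Subtype.ext ((h6 _).symm.trans (h5 j i))) transpose_one h3 (by simp)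
    obtain ⟨l, hl⟩ := exists_norm_eq hF (h6 d⁻¹)
    have l0 : l ≠ 0 := fun e => inv_ne_zero d0 (Subtype.ext (by simp [← hl, e]))
    refine (mx_sub hF hE (mul_mem (Tw_of ((gm_eq_iff p hE (g := gm E.subtype b)).2 (over_map _)))
      (show H5.MH.sc l l0 ∈ _ from ((pr_gm _ _).2 (pr_sc _ _)).trans (pr_sc _ _).symm)) ((mem_GU3 hF).2 ?_)
      (su_orth hF h2 h7 hE)).max (H7.SU_not_le_subfieldSubgroup hF le_rfl (ne_top_of_card one_lt_two h) P)
    have h8 : (gm E.subtype b).valᵀ * (P.valᵀ * 1 * P.val.map (UP hF).σ) * (gm E.subtype b).val.map (UP hF).σ =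
        (d : F) • 1 := by
      rw [h4, show (gm E.subtype b).val.map (UP hF).σ = b.val.map E.subtype from Matrix.ext fun i j => h6 _, gm_val,
        ← transpose_map, ← Matrix.map_mul, ← Matrix.map_mul, hb]
      ext i j; by_cases e : i = j <;> simp [e]
    rw [← mul_assoc P, key, key, h8]
    have h9 : (d : F) * l ^ p ^ γ * l = 1 := by
      rw [mul_assoc, mul_comm _ l, hl]; exact_mod_cast mul_inv_cancel₀ d0
    ext i j; by_cases e : i = j <;> simp [H5.MH.sc, e, UP_σ, one_apply, ← mul_assoc, mul_comm l, h9, hp.ne_zero]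
  · obtain ⟨rfl, rfl⟩ := (Nat.Prime.pow_eq_iff hp').1 e
    have h1 : Fintype.card F % 3 = 1 := by rw [hF, pow_one, Nat.pow_mod, h3]
    obtain ⟨w, g, ww, rfl⟩ := exists_hR h1 hR hi hZ h27.ge
    exact (su_hess hF (by omega) (by simpa using h3) (fun β a b c => by
      obtain rfl : β = 0 := by omega
      simp at a) ww (exists_w h1).1 (le_inf (H2.Cases.le_GU_of_exponent hF (by omega) hs hR.exponent_eq
      ((Nat.prime_three.coprime_iff_not_dvd).2 (by omega))) hR_SL)).max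
      (H7.SU_not_le_subgroupNormalizer hF le_rfl (by omega) Nat.prime_three hR.pGroup hi)

end Cfsg.Agent.S5777
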