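import Cfsg.Statements.S5778
import Cfsg.Agent.H2.SU3S
import Cfsg.Agent.H2.SU3B

set_option autoImplicit false
open Cfsg

namespace Cfsg.Agent.S5778

/-- Every maximal subgroup of SU_3(q), q ≥ 3, is of one of the listed geometric types or lies in the residual class. Let F be the field with q² elements, f the standard unitary form Σ u_i v_i^q on F^3, and H a maximal subgroup of SU_3(q) (the determinant-one isometries of f, inside GL_3(F)). Then H is the intersection with SU_3(q) of one of: the stabiliser of a non-zero subspace on which f vanishes; the stabiliser of a non-degenerate 1-space; for q ≠ 5, the stabiliser of a decomposition into three mutually orthogonal non-degenerate 1-spaces; for q ≠ 3, 5, the normaliser of an adjoint-closed degree-3 subfield of the matrix algebra; a subfield group of odd prime index whose F₀-structure carries f; for q odd, q ≥ 7, a subfield group of index 2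 whose F₀-structure carries f; for q = p ≡ 2 mod 3 prime with p ≥ 11, the normaliser of an absolutely irreducible subgroup of order 27 with centre of order 3, exponent 3 and all characteristic abelian subgroups cyclic, contained in the similarity group of f — or else H lies in the residual class of the unitary case. -/
theorem result {F : Type*} [Field F] [Fintype F] (q : ℕ) (hF : Fintype.card F = q ^ 2) (hq : 3 ≤ q) (H : Subgroup (Matrix.GeneralLinearGroup (Fin 3) F)) (hH : Cfsg.Geo.IsMaximalIn (Cfsg.GU 3 F q ⊓ Cfsg.Geo.specialLinear (Fin 3) F) H) :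
    (∃ W : Submodule F (Fin 3 → F), W ≠ ⊥ ∧ Cfsg.Geo.IsTotallySingularFor (Cfsg.hermForm 3 F q) W ∧ H = Cfsg.Geo.subspaceStabilizer W ⊓ (Cfsg.GU 3 F q ⊓ Cfsg.Geo.specialLinear (Fin 3) F)) ∨
    (∃ W : Submodule F (Fin 3 → F), W ≠ ⊥ ∧ Cfsg.Geo.IsNondegenerateOn (Cfsg.hermForm 3 F q) W ∧ 2 * Module.finrank F W < 3 ∧ H = Cfsg.Geo.subspaceStabilizer W ⊓ (Cfsg.GU 3 F q ⊓ Cfsg.Geo.specialLinear (Fin 3) F)) ∨
    (q ≠ 5 ∧ ∃ D : Fin 3 → Submodule F (Fin 3 → F), Cfsg.Geo.IsNondegenerateMDecomposition (Cfsg.hermForm 3 F q) 1 D ∧ H = Cfsg.Geo.decompositionStabilizer D ⊓ (Cfsg.GU 3 F q ⊓ Cfsg.Geo.specialLinear (Fin 3) F)) ∨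
    (q ≠ 3 ∧ q ≠ 5 ∧ ∃ K : Subalgebra F (Matrix (Fin 3) (Fin 3) F), Cfsg.Geo.IsFieldSubalgebra 3 K ∧ Cfsg.Geo.IsAdjointClosedFor (Cfsg.hermForm 3 F q) K ∧ H = Cfsg.Geo.subalgebraNormalizer K ⊓ (Cfsg.GU 3 F q ⊓ Cfsg.Geo.specialLinear (Fin 3) F)) ∨
    (∃ (F₀ : Subfield F) (r : ℕ) (P : Matrix.GeneralLinearGroup (Fin 3) F), r.Prime ∧ Odd r ∧ Fintype.card F = Nat.card F₀ ^ r ∧ Cfsg.Geo.IsFormRationalStructure (Cfsg.hermForm 3 F q) F₀ 1 P ∧ H = Cfsg.Geo.subfieldSubgroup F₀ P ⊓ (Cfsg.GU 3 F q ⊓ Cfsg.Geo.specialLinear (Fin 3) F)) ∨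
    (Odd q ∧ 7 ≤ q ∧ ∃ (F₀ : Subfield F) (P : Matrix.GeneralLinearGroup (Fin 3) F), Fintype.card F = Nat.card F₀ ^ 2 ∧ Cfsg.Geo.IsFormRationalStructure (Cfsg.hermForm 3 F q) F₀ 1 P ∧ H = Cfsg.Geo.subfieldSubgroup F₀ P ⊓ (Cfsg.GU 3 F q ⊓ Cfsg.Geo.specialLinear (Fin 3) F)) ∨
    (∃ (p : ℕ) (R : Subgroup (Matrix.GeneralLinearGroup (Fin 3) F)), p.Prime ∧ q = p ∧ p % 3 = 2 ∧ 11 ≤ p ∧ Cfsg.Geo.IsSymplecticTypeGroup 3 R ∧ Cfsg.Geo.ActsAbsolutelyIrreducibly (Cfsg.Geo.matrixSet R) ∧ R ≤ Cfsg.Geo.similarityGroup (Cfsg.hermForm 3 F q) ∧ Nat.card R = 27 ∧ Nat.card (Subgroup.center R) = 3 ∧ H = Cfsg.Geo.subgroupNormalizer R ⊓ (Cfsg.GU 3 F q ⊓ Cfsg.Geo.specialLinear (Fin 3) F)) ∨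
    Cfsg.Geo.InUnitaryResidualClass H := by
  have hq2 := Form.two_le_of_card_sq hF
  rcases H2.Cases.suMax hF (by norm_num) (by omega) hH with ⟨W, h1, h2, h⟩ | ⟨W, h1, h2, h3, h⟩ |
    ⟨t, k, D, h1, h2, h3, h4, h⟩ | ⟨k, D, h1, h2, h3, h⟩ | ⟨r, K, h1, h2, h3, h4, h5, h⟩ |
    ⟨n₁, n₂, e, P, f₁, f₂, h1, h2, h3, h4, h5, h6, h7, h⟩ | ⟨F₀, r, P, h1, h2, h3, h4, h⟩ |
    ⟨F₀, P, h1, h2, h3, h⟩ | ⟨F₀, P, ζ, h1, h2, h3, h4, h5, h6, h⟩ |
    ⟨r, R, p, j, a, k, h1, h2, h3, h4, h5, h6, h7, h8, h9, h10, h11, h12, h13, h14, h15, h16, h17, h18, h⟩ |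
    ⟨R, k, h1, h2, h3, h4, h5, h6, h7, h8, h⟩ | ⟨k, t, e, P, f₁, h1, h2, h3, h4, h5, h6, h⟩ | h
  · exact .inl ⟨W, h1, h2, h⟩
  · exact .inr (.inl ⟨W, h1, h2, h3, h⟩)
  · have : t ≤ 3 := Nat.le_of_dvd (by norm_num) ⟨k, h2.symm⟩
    obtain ⟨rfl, rfl⟩ : (t = 3 ∧ k = 1) := by
      interval_cases t <;> omega
    exact .inr (.inr (.inl ⟨by rintro rfl; exact H2.Cases.U3.frame5 hF h1 (h ▸ hH), D, h1, h⟩))
  · omega
  · have : r ≤ 3 := Nat.le_of_dvd (by norm_num) h3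
    obtain rfl : r = 3 := by
      interval_cases r <;> simp_all (config := {decide := true})
    exact .inr (.inr (.inr (.inl ⟨by rintro rfl; exact H2.Cases.Sing33.not_max hF h4 h5 (h ▸ hH),
      by rintro rfl; exact H2.Cases.Sing35.not_max hF h4 h5 (h ▸ hH), K, h4, h5, h⟩)))
  · have : n₁ ≤ 3 := Nat.le_of_dvd (by norm_num) ⟨n₂, h3.symm⟩
    interval_cases n₁ <;> omega
  · exact .inr (.inr (.inr (.inr (.inl ⟨F₀, r, P, h1, h2, h3, h4, h⟩))))
  · have a1 : q ≠ 3 := by rintro rfl; exact H2.Cases.U3.real3 hF h2 h3 (h ▸ hH)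
    have a2 : q ≠ 5 := by rintro rfl; exact H2.Cases.U3.real5 hF h2 h3 (h ▸ hH)
    exact .inr (.inr (.inr (.inr (.inr (.inl ⟨h1, by obtain ⟨k, rfl⟩ := h1; omega, F₀, P, h2, h3, h⟩)))))
  · exact absurd h1 (by decide)
  · obtain rfl : r = 3 := (H7.prime_pow_eq h1 h18 (by norm_num)).trans (by norm_num)
    obtain rfl : k = 1 := Nat.pow_right_injective (by norm_num : 2 ≤ 3) h18
    obtain rfl : j = 1 := by omega
    have a1 := h11 1 one_pos (by omega)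
    rw [pow_one] at h5
    subst h5
    have a2 : q ≠ 5 := by rintro rfl; exact H2.Cases.U3.extra5 hF h12 h13 h15 h16 h17 (h ▸ hH)
    have a3 : q % 3 = 2 := by
      rw [h6]
      clear hH h
      interval_cases a <;> simp_all
    have a4 : q ≠ 8 := by rintro rfl; exact absurd h3 (by norm_num)
    exact .inr (.inr (.inr (.inr (.inr (.inr (.inl ⟨q, R, h3, rfl, a3, by omega, h12, h13, h14, h16, h17, h⟩))))))
  · have := H2.Cases.two_pow_small h8.symm (by norm_num)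
    interval_cases k <;> omega
  · obtain ⟨rfl, rfl⟩ := H7.pow_eq_small h1 h2 h3 (by norm_num)
    omega
  · exact .inr (.inr (.inr (.inr (.inr (.inr (.inr (h)))))))

end Cfsg.Agent.S5778
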