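import Cfsg.Statements.S5781
import Cfsg.Agent.H7.SmallSL

set_option autoImplicit false
open Cfsg

namespace Cfsg.Agent.S5781

/-- Every maximal subgroup of SL_4(q) is of one of the listed geometric types or lies in the residual class. Let F be a finite field with q elements and H a maximal subgroup of SL_4(F) (inside GL_4(F)). Then H is the intersection with SL_4(F) of one of: the stabiliser of a proper non-zero subspace; for q ≥ 7, the stabiliser of a decomposition into four independent lines; for q ≥ 4, the stabiliser of a decomposition into two independent planes; the normaliser of a degree-2 subfield of the matrix algebra; a subfield group for a subfield F₀ with |F| = |F₀|^r, r prime; for q = p ≡ 1 mod 4 prime, the normaliser of an absolutely irreducible 2-subgroup R of exponent 4 with centre of order 4, all of whose characteristic abelian subgroups are cyclic, of order 2^(2+2m) for some m (here |R| = 64), with 4 dividing p − 1;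 for q odd, the similarity group of a non-degenerate quadratic form; the similarity group of a non-degenerate symplectic form; the similarity group of a non-degenerate unitary form — or else H lies in the residual class of the linear case. -/
theorem result {F : Type*} [Field F] [Fintype F] (H : Subgroup (Matrix.GeneralLinearGroup (Fin 4) F)) (hH : Cfsg.Geo.IsMaximalIn (Cfsg.Geo.specialLinear (Fin 4) F) H) :
    (∃ W : Submodule F (Fin 4 → F), W ≠ ⊥ ∧ W ≠ ⊤ ∧ H = Cfsg.Geo.subspaceStabilizer W ⊓ Cfsg.Geo.specialLinear (Fin 4) F) ∨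
    (7 ≤ Fintype.card F ∧ ∃ D : Fin 4 → Submodule F (Fin 4 → F), Cfsg.Geo.IsMDecomposition 1 D ∧ H = Cfsg.Geo.decompositionStabilizer D ⊓ Cfsg.Geo.specialLinear (Fin 4) F) ∨
    (4 ≤ Fintype.card F ∧ ∃ D : Fin 2 → Submodule F (Fin 4 → F), Cfsg.Geo.IsMDecomposition 2 D ∧ H = Cfsg.Geo.decompositionStabilizer D ⊓ Cfsg.Geo.specialLinear (Fin 4) F) ∨
    (∃ K : Subalgebra F (Matrix (Fin 4) (Fin 4) F), Cfsg.Geo.IsFieldSubalgebra 2 K ∧ H = Cfsg.Geo.subalgebraNormalizer K ⊓ Cfsg.Geo.specialLinear (Fin 4) F) ∨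
    (∃ (F₀ : Subfield F) (r : ℕ) (P : Matrix.GeneralLinearGroup (Fin 4) F), r.Prime ∧ Fintype.card F = Nat.card F₀ ^ r ∧ H = Cfsg.Geo.subfieldSubgroup F₀ P ⊓ Cfsg.Geo.specialLinear (Fin 4) F) ∨
    (∃ (p : ℕ) (R : Subgroup (Matrix.GeneralLinearGroup (Fin 4) F)), p.Prime ∧ Fintype.card F = p ∧ p % 4 = 1 ∧ Cfsg.Geo.IsLinearSymplecticTypeData 2 R ∧ H = Cfsg.Geo.subgroupNormalizer R ⊓ Cfsg.Geo.specialLinear (Fin 4) F) ∨
    (Odd (Fintype.card F) ∧ ∃ Q : (Fin 4 → F) → F, Cfsg.Geo.IsNondegenerateQuadraticForm Q ∧ H = Cfsg.Geo.quadSimilarityGroup Q ⊓ Cfsg.Geo.specialLinear (Fin 4) F) ∨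
    (∃ f : (Fin 4 → F) → (Fin 4 → F) → F, Cfsg.Geo.IsSymplecticForm f ∧ H = Cfsg.Geo.similarityGroup f ⊓ Cfsg.Geo.specialLinear (Fin 4) F) ∨
    (∃ (σ : F ≃+* F) (f : (Fin 4 → F) → (Fin 4 → F) → F), Cfsg.Geo.IsUnitaryForm σ f ∧ H = Cfsg.Geo.similarityGroup f ⊓ Cfsg.Geo.specialLinear (Fin 4) F) ∨
    Cfsg.Geo.InLinearResidualClass H := by
  rcases H7.slCase (by simp) hH with ⟨W, h1, h2, h⟩ | ⟨t, m, D, h1, h2, h3, h4, h⟩ | ⟨r, K, h1, h2, h3, h⟩ |
    ⟨n₁, n₂, e, P, h1, h2, h3, h4, h⟩ | ⟨F₀, r, P, h1, h2, h⟩ | ⟨r, m, R, h1, h2, h3, h⟩ |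
    ⟨m, t, e, P, h1, h2, h3, h⟩ | ⟨f, h1, h2, h⟩ | ⟨σ, f, h1, h⟩ | ⟨Q, h1, h2, h⟩ | h
  · exact .inl ⟨W, h1, h2, h⟩
  · rw [Fintype.card_fin] at h2
    have h5 := h1.two_le
    have h6 : t ≤ 4 := Nat.le_of_dvd (by norm_num) ⟨m, h2.symm⟩
    obtain ⟨rfl, rfl⟩ | ⟨rfl, rfl⟩ : (t = 4 ∧ m = 1) ∨ (t = 2 ∧ m = 2) := by
      interval_cases t <;> omega
    · have a1 := h3 rfl
      have a2 : Fintype.card F ≠ 5 := fun hq => H7.monomial_four_five hq h1 (h ▸ hH)
      have a3 : Fintype.card F ≠ 6 := fun hq => by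
        obtain ⟨p, -, n, hp, hn⟩ := FiniteField.card' F
        have := H7.not_prime_pow_eq hp (hn.symm.trans hq) Nat.prime_two Nat.prime_three (by decide) (by decide)
        omega
      exact .inr (.inl ⟨by omega, D, h1, h⟩)
    · have a1 := h4 rfl
      by_cases hq : Fintype.card F = 3
      · obtain ⟨f, a2, a3⟩ := H7.planes_four_three hq h1
        exact .inr (.inr (.inr (.inr (.inr (.inr (.inr (.inl ⟨f, a2, H7.eq_inf_of_max hH (h ▸ a3)
          (H7.SL_not_le_similarityGroup_symp (by simp) a2)⟩)))))))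
      · exact .inr (.inr (.inl ⟨by omega, D, h1, h⟩))
  · rw [Fintype.card_fin] at h2
    have h6 : r ≤ 4 := Nat.le_of_dvd (by norm_num) h2
    obtain rfl : r = 2 := by
      interval_cases r <;> simp_all (config := {decide := true})
    exact .inr (.inr (.inr (.inl ⟨K, h3, h⟩)))
  · rw [Fintype.card_fin] at h3
    nlinarith
  · exact .inr (.inr (.inr (.inr (.inl ⟨F₀, r, P, h1, h2, h⟩))))
  · rw [Fintype.card_fin] at h3
    obtain rfl : r = 2 := (H7.prime_pow_eq h1 h3 (by norm_num)).trans (by norm_num)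
    obtain ⟨p, a1, a2, a3⟩ := H7.c6_two (by simp) h2
    exact .inr (.inr (.inr (.inr (.inr (.inl ⟨p, R, a1, a2, a3, h2, h⟩)))))
  · rw [Fintype.card_fin] at h3
    obtain ⟨rfl, rfl⟩ := H7.pow_eq_small h1 h2 h3 (by norm_num)
    norm_num at h3
  · exact .inr (.inr (.inr (.inr (.inr (.inr (.inr (.inl ⟨f, h1, h⟩)))))))
  · exact .inr (.inr (.inr (.inr (.inr (.inr (.inr (.inr (.inl ⟨σ, f, h1, h⟩))))))))
  · exact .inr (.inr (.inr (.inr (.inr (.inr (.inl ⟨h2, Q, h1, h⟩))))))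
  · exact .inr (.inr (.inr (.inr (.inr (.inr (.inr (.inr (.inr h))))))))

end Cfsg.Agent.S5781
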