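import Cfsg.Statements.S5782
import Cfsg.Agent.H2.FG
import Cfsg.Agent.H1.N1e
import Cfsg.Agent.H8.ArG

set_option autoImplicit false
open Cfsg

namespace Cfsg.Agent.S5782

/-- The maximal subgroups of SL_4(q) in the residual class. Let F be a finite field with q elements and H a maximal subgroup of SL_4(F) lying in the residual class of the linear case. Then q = p is prime and the perfect socle preimage P of H satisfies one of: P modulo scalars is isomorphic to the alternating group A_7 and either p = 2 or p ≡ 1, 2 or 4 mod 7; or P modulo scalars is isomorphic to the unitary group U_4(2) (here PSU_4 over the field with 4 elements) and p ≡ 1 mod 6. (A residual-class subgroup whose socle modulo scalars has order 168 is never maximal in SL_4(q); it is maximal only in certain extensions by outer automorphisms.) -/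
theorem result {F : Type*} [Field F] [Fintype F] (H : Subgroup (Matrix.GeneralLinearGroup (Fin 4) F)) (hH : Cfsg.Geo.IsMaximalIn (Cfsg.Geo.specialLinear (Fin 4) F) H) (hS : Cfsg.Geo.InLinearResidualClass H) :
    ∃ (P : Subgroup (Matrix.GeneralLinearGroup (Fin 4) F)) (p : ℕ), Cfsg.Geo.IsResidualCore H P ∧ p.Prime ∧ Fintype.card F = p ∧
    ((Nonempty ((P ⧸ (Cfsg.Geo.scalars (Fin 4) F).subgroupOf P) ≃* alternatingGroup (Fin 7)) ∧ (p = 2 ∨ p % 7 = 1 ∨ p % 7 = 2 ∨ p % 7 = 4)) ∨
     ((∃ (K : Type) (_ : Field K) (_ : Fintype K), Fintype.card K = 4 ∧ Nonempty ((P ⧸ (Cfsg.Geo.scalars (Fin 4) F).subgroupOf P) ≃* Cfsg.PSU 4 K 2)) ∧ p % 6 = 1)) := by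
  exact H2.M4.s5782 (H2.FG.main4 H1.N1.arD H8.Ar2.arH) H hH hS

end Cfsg.Agent.S5782
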