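import Cfsg.Statements.S5785
import Cfsg.Agent.H2.FG
import Cfsg.Agent.H1.N1e
import Cfsg.Agent.H8.ArG

set_option autoImplicit false
open Cfsg

namespace Cfsg.Agent.S5785

/-- The maximal subgroups of SU_4(q) in the residual class. Let F be the field with q² elements and H a maximal subgroup of SU_4(q) (determinant-one isometries of the standard unitary form on F^4) lying in the residual class of the unitary case. Then q = p is prime and the perfect socle preimage P of H satisfies one of: P modulo scalars is isomorphic to A_7 and p ≡ 3, 5 or 6 mod 7; or P modulo scalars is isomorphic to PSL_3 over the field with 4 elements and p = 3; or P modulo scalars is isomorphic to U_4(2) (PSU_4 over the field with 4 elements) and p ≡ 5 mod 6. (A residual-class subgroup whose socle modulo scalars has order 168 is never maximal in SU_4(q) itself.) -/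
theorem result {F : Type*} [Field F] [Fintype F] (q : ℕ) (hF : Fintype.card F = q ^ 2) (H : Subgroup (Matrix.GeneralLinearGroup (Fin 4) F)) (hH : Cfsg.Geo.IsMaximalIn (Cfsg.GU 4 F q ⊓ Cfsg.Geo.specialLinear (Fin 4) F) H) (hS : Cfsg.Geo.InUnitaryResidualClass H) :
    ∃ P : Subgroup (Matrix.GeneralLinearGroup (Fin 4) F), Cfsg.Geo.IsResidualCore H P ∧ q.Prime ∧
    ((Nonempty ((P ⧸ (Cfsg.Geo.scalars (Fin 4) F).subgroupOf P) ≃* alternatingGroup (Fin 7)) ∧ (q % 7 = 3 ∨ q % 7 = 5 ∨ q % 7 = 6)) ∨
     ((∃ (K : Type) (_ : Field K) (_ : Fintype K), Fintype.card K = 4 ∧ Nonempty ((P ⧸ (Cfsg.Geo.scalars (Fin 4) F).subgroupOf P) ≃* Matrix.ProjectiveSpecialLinearGroup (Fin 3) K)) ∧ q = 3) ∨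
     ((∃ (K : Type) (_ : Field K) (_ : Fintype K), Fintype.card K = 4 ∧ Nonempty ((P ⧸ (Cfsg.Geo.scalars (Fin 4) F).subgroupOf P) ≃* Cfsg.PSU 4 K 2)) ∧ q % 6 = 5)) := by
  exact H2.M4.s5785 (H2.FG.main4 H1.N1.arD H8.Ar2.arH) q hF H hH hS

end Cfsg.Agent.S5785
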