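import Cfsg.Statements.S5788
import Cfsg.Agent.H1.M4Main

set_option autoImplicit false
open Cfsg

namespace Cfsg.Agent.S5788

open Matrix Cfsg.Geo Cfsg.Agent.H1.Mit Cfsg.Agent.Asch

def e4 : Fin 2 ⊕ Fin 2 ≃ Fin 4 where
  toFun := Sum.elim ![0, 1] ![3, 2]
  invFun := ![Sum.inl 0, Sum.inl 1, Sum.inr 1, Sum.inr 0]
  left_inv := by decide
  right_inv := by decide

section
variable {F : Type*} [Field F]

abbrev G4 (F : Type*) [Field F] := GL (Fin 2 ⊕ Fin 2) F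

/-- the matrix in the reordered basis -/
def m (g : G4 F) : M4 F := Matrix.reindexAlgEquiv F F e4 g.val

theorem m_mul (g h : G4 F) : m (g * h) = m g * m h := by simp only [m, Units.val_mul, map_mul]

theorem m_one : m (1 : G4 F) = 1 := by simp only [m, Units.val_one, map_one]

theorem m_neg (g : G4 F) : m (-g) = -m g := by simp only [m, Units.val_neg, map_neg]

theorem m_inj {g h : G4 F} (e : m g = m h) : g = h := Units.ext ((Matrix.reindexAlgEquiv F F e4).injective e)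

theorem m_mv (g : G4 F) (v : V4 F) : g.val *ᵥ (v ∘ e4) = (m g *ᵥ v) ∘ e4 := by
  ext i
  simp [m, mulVec, dotProduct, ← e4.sum_comp]

theorem symp_e (u v : V4 F) : sympForm 2 F (u ∘ e4) (v ∘ e4) = -B u v := by
  simp [sympForm, B, Matrix.J, dotProduct, Matrix.mulVec, Fintype.sum_sum_type, Fin.sum_univ_two, e4, Matrix.one_apply]
  ring

theorem mem_sp {g : G4 F} : g ∈ spGL 2 F ↔ Sp (m g) := by
  refine ⟨fun h => sp_of_B fun u v => neg_injective ?_, fun h u v => ?_⟩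
  · rw [← symp_e, ← symp_e, ← m_mv, ← m_mv]
    exact h _ _
  obtain ⟨u, rfl⟩ : ∃ w : V4 F, u = w ∘ e4 := ⟨u ∘ e4.symm, by ext i; simp⟩
  obtain ⟨v, rfl⟩ : ∃ w : V4 F, v = w ∘ e4 := ⟨v ∘ e4.symm, by ext i; simp⟩
  change sympForm 2 F (g.val *ᵥ _) (g.val *ᵥ _) = _
  rw [m_mv, m_mv, symp_e, symp_e, h.B_eq]

theorem m_inv {g : G4 F} (h : Sp (m g)) : m g⁻¹ = ad (m g) := h.cancel (by rw [← m_mul, mul_inv_cancel, m_one, h.right])

theorem m_surj {X : M4 F} (h : Sp X) : ∃ g, m g = X :=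
  ⟨Units.map (Matrix.reindexAlgEquiv F F e4).symm.toMonoidHom ⟨X, ad X, h.right, h.left⟩, by simp [m]⟩

theorem sc_iff {g : G4 F} (h : Sp (m g)) : g ∈ scalars _ F ↔ g = 1 ∨ g = -1 := by
  refine ⟨fun k => ?_, ?_⟩
  · obtain ⟨c, hc⟩ := (Geo.mem_scalars_iff g).1 k
    have e : m g = (c : F) • 1 := by rw [m, hc, map_smul, map_one]
    exact (Sp.scalar (e ▸ h)).imp (fun a => m_inj (by simp [e, a, m_one])) fun a => m_inj (by simp [e, a, m_neg, m_one])
  · rintro (rfl | rfl)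
    exacts [one_mem _, (Geo.mem_scalars_iff _).2 ⟨-1, by simp⟩]

theorem mk_eq {P : Subgroup (G4 F)} (hP : P ≤ spGL 2 F) {a b : P} :
    (a : P ⧸ (scalars _ F).subgroupOf P) = b ↔ m b.1 = m a.1 ∨ m b.1 = -m a.1 := by
  rw [QuotientGroup.eq, Subgroup.mem_subgroupOf, sc_iff (mem_sp.1 (hP (a⁻¹ * b).2)), ← m_neg]
  simp only [Subgroup.coe_mul, Subgroup.coe_inv, inv_mul_eq_iff_eq_mul, mul_one, mul_neg]
  exact or_congr ⟨congrArg m, m_inj⟩ ⟨congrArg m, m_inj⟩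

/-- the projective representation of `P` modulo scalars -/
def rep {P : Subgroup (G4 F)} (hP : P ≤ spGL 2 F) : SRep (P ⧸ (scalars _ F).subgroupOf P) F where
  R x X := ∃ g : P, (g : P ⧸ _) = x ∧ (X = m g.1 ∨ X = -m g.1)
  ex x := (QuotientGroup.mk_surjective x).elim fun g e => ⟨_, g, e, Or.inl rfl⟩
  one := ⟨1, rfl, Or.inl m_one.symm⟩
  r_mul := by
    rintro _ _ X Y ⟨a, rfl, h⟩ ⟨b, rfl, k⟩
    refine ⟨a * b, rfl, ?_⟩
    rcases h with rfl | rfl <;> rcases k with rfl | rfl <;> simp [m_mul]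
  r_neg := by
    rintro _ X ⟨a, rfl, h⟩
    exact ⟨a, rfl, h.symm.imp (fun e => by simp [e]) fun e => by simp [e]⟩
  r_uniq := by
    rintro _ X Y ⟨a, rfl, h⟩ ⟨b, e, k⟩
    rcases (mk_eq hP).1 e with e | e <;> rcases h with rfl | rfl <;> rcases k with rfl | rfl <;> simp [e]
  r_inj := by
    rintro _ _ X ⟨a, rfl, h⟩ ⟨b, rfl, k⟩
    refine (mk_eq hP).2 ?_
    rcases h with rfl | rfl <;> rcases k with k | k
    exacts [Or.inl k.symm, Or.inr (by simp [k]), Or.inr k.symm, Or.inl (neg_injective k).symm]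
  r_sp := by
    rintro _ X ⟨a, rfl, rfl | rfl⟩
    exacts [mem_sp.1 (hP a.2), (mem_sp.1 (hP a.2)).neg]

theorem rep_L {P : Subgroup (G4 F)} (hP : P ≤ spGL 2 F) {g : G4 F} (hg : g ∈ P) : ∃ x, (rep hP).L x (m g) :=
  ⟨_, ⟨g, hg⟩, rfl, Or.inl rfl⟩

end

/-- The maximal subgroups of Sp_4(q), q odd, in the residual class. Let F be a finite field of odd order q and characteristic p, and H a maximal subgroup of Sp_4(F) (isometries of the standard alternating form on F^4) lying in the residual class of the symplectic case. Then the perfect socle preimage P of H satisfies one of: P modulo scalars is isomorphic to A_6 and q = p with p ≥ 5 and p ≠ 7; or P modulo scalars is isomorphic to A_7 and q = 7; or P modulo scalars is isomorphic to PSL_2(F) itself, with p ≥ 5 and q > 7. -/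
theorem result {F : Type*} [Field F] [Fintype F] (hodd : Odd (Fintype.card F)) (H : Subgroup (Matrix.GeneralLinearGroup (Fin 2 ⊕ Fin 2) F)) (hH : Cfsg.Geo.IsMaximalIn (Cfsg.spGL 2 F) H) (hS : Cfsg.Geo.InSymplecticResidualClass H) :
    ∃ (P : Subgroup (Matrix.GeneralLinearGroup (Fin 2 ⊕ Fin 2) F)) (p : ℕ), Cfsg.Geo.IsResidualCore H P ∧ p.Prime ∧ CharP F p ∧
    ((Nonempty ((P ⧸ (Cfsg.Geo.scalars (Fin 2 ⊕ Fin 2) F).subgroupOf P) ≃* alternatingGroup (Fin 6)) ∧ Fintype.card F = p ∧ 5 ≤ p ∧ p ≠ 7) ∨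
     (Nonempty ((P ⧸ (Cfsg.Geo.scalars (Fin 2 ⊕ Fin 2) F).subgroupOf P) ≃* alternatingGroup (Fin 7)) ∧ Fintype.card F = 7) ∨
     (Nonempty ((P ⧸ (Cfsg.Geo.scalars (Fin 2 ⊕ Fin 2) F).subgroupOf P) ≃* Matrix.ProjectiveSpecialLinearGroup (Fin 2) F) ∧ 5 ≤ p ∧ 7 < Fintype.card F)) := by
  obtain ⟨P, hP, -⟩ := hS
  have hle : P ≤ spGL 2 F := hP.le.trans hH.1.le
  have fl : Full (matrixSet P) := full_of_absIrr ((irr_iff P).2 hP.absIrred.1) fun Z h => hP.absIrred.2 Z (by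
    rintro _ ⟨g, hg, rfl⟩; exact h g hg)
  have := hP.simple
  have h : (rep hle).Hyp := ⟨fun e => by
      have : CharP F 2 := (CharP.charP_iff_prime_eq_zero Nat.prime_two).2 e
      have := FiniteField.even_card_of_char_two (ringChar.eq F 2)
      have := Nat.odd_iff.1 hodd
      omega, this, (Subgroup.Normal.eq_bot_or_eq_top inferInstance).resolve_left fun e =>
        hP.nonabelian ((commutator_eq_bot_iff _).1 e), (fl.map (Matrix.reindexAlgEquiv F F e4)).mono (by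
      rintro _ ⟨_, ⟨g, hg, rfl⟩, rfl⟩
      exact rep_L hle hg)⟩
  obtain ⟨p, hp, p0, k⟩ := SRep.classify h (fun k => hH.1.not_ge fun g hg => hP.le (by
      have k' : ∀ X, Sp X → ∃ a ∈ P, X = m a ∨ X = -m a := fun X s => (k X s).elim fun _ ⟨a, _, e⟩ => ⟨a, a.2, e⟩
      obtain ⟨a, ha, e⟩ := k' _ (mem_sp.1 hg)
      obtain ⟨b, hb, e1⟩ := k' (dd 1 (-1)) (by rw [Sp, ad_eq]; unfold dd; mat4)
      obtain ⟨c, hc, e2⟩ := k' !![0, 1, 0, 0; 1, 0, 0, 0; 0, 0, 0, 1; 0, 0, 1, 0] (by rw [Sp, ad_eq]; mat4)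
      have e3 : dd (1 : F) (-1) * !![0, 1, 0, 0; 1, 0, 0, 0; 0, 0, 0, 1; 0, 0, 1, 0] =
          -(!![0, 1, 0, 0; 1, 0, 0, 0; 0, 0, 0, 1; 0, 0, 1, 0] * dd 1 (-1)) := by unfold dd; mat4
      have e4 : b * c = -(c * b) := m_inj (by
        rw [m_neg, m_mul, m_mul]
        rcases e1 with e1 | e1 <;> rcases e2 with e2 | e2 <;> rw [e1, e2] at e3 <;> simpa [neg_eq_iff_eq_neg] using e3)
      rcases e with e | e
      · exact m_inj e ▸ ha
      · have := mul_mem (mul_mem (mul_mem hb hc) (inv_mem (mul_mem hc hb))) ha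
        rwa [e4, neg_mul, mul_inv_cancel, neg_one_mul, ← m_inj (e.trans (m_neg a).symm)] at this))
    (fun E k => by_contra fun n => by
      obtain ⟨Q, hQ⟩ := exists_over_of_trace E (S := matrixSet P) ⟨1, P.one_mem, rfl⟩ (by
        rintro _ ⟨a, ha, rfl⟩ _ ⟨b, hb, rfl⟩; exact ⟨_, mul_mem ha hb, rfl⟩) fl (by
        rintro _ ⟨a, ha, rfl⟩
        obtain ⟨x, hx⟩ := rep_L hle ha
        simpa [m, trace, ← e4.sum_comp] using k x _ hx)
      exact hP.no_subfield E n ⟨Q⁻¹, fun s hs => (hQ s).1 (Submodule.subset_span hs)⟩) (by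
    rintro ⟨A, a1, a2, ⟨X, a3, a4⟩, Y, a5, a6⟩
    let M : Subgroup (G4 F) := ⟨⟨⟨{g | m g ∈ A}, fun {a b} ha hb => show m (a * b) ∈ A from m_mul a b ▸ A.mul_mem ha hb⟩,
      show m 1 ∈ A from m_one (F := F) ▸ A.one_mem⟩, fun {a} ha => show m a⁻¹ ∈ A from m_inv (a1 _ ha).1 ▸ (a1 _ ha).2⟩
    have nm : ∀ g ∈ H, (rep hle).Nrm (m g) := fun g hg => by
      have s := mem_sp.1 (hH.1.le hg)
      refine ⟨s, ?_⟩
      rintro _ _ ⟨a, rfl, e⟩
      obtain ⟨y, hy⟩ := rep_L hle (hP.normal g hg a a.2)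
      rw [m_mul, m_mul, m_inv s] at hy
      rcases e with rfl | rfl
      exacts [⟨y, hy⟩, ⟨y, hy.neg.congr (by simp)⟩]
    rcases hH.2 M (fun g hg => a2 _ (nm g hg)) (fun g hg => mem_sp.2 (a1 _ hg).1) with e | e
    · obtain ⟨g, rfl⟩ := m_surj (a1 X a3).1
      exact a4 (nm g (e.le a3))
    · obtain ⟨g, rfl⟩ := m_surj a5
      exact a6 (e.ge (mem_sp.2 a5)))
  exact ⟨P, p, hP, hp, (CharP.charP_iff_prime_eq_zero hp).2 p0, by simpa only [Nat.card_eq_fintype_card] using k⟩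

end Cfsg.Agent.S5788
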