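import Cfsg.Statements.S5790
import Cfsg.Agent.H2.SpMax

set_option autoImplicit false
open Cfsg

namespace Cfsg.Agent.S5790

/-- Every maximal subgroup of Sp_4(q), q ≥ 4 even, is of one of the listed geometric types or lies in the residual class. Let F be a finite field of even order q ≥ 4, f the standard alternating form on F^4 (coordinates Fin 2 ⊕ Fin 2), and H a maximal subgroup of Sp_4(F) (inside GL_4(F)). Then H is the intersection with Sp_4(F) of one of: the stabiliser of a non-zero totally isotropic subspace; the stabiliser of a decomposition into two orthogonal non-degenerate 2-spaces; the normaliser of a degree-2 subfield K of the matrix algebra, self-adjoint with f(k v, v) = 0; a subfield group whose F₀-structure carries a non-zero multiple of f, |F| = |F₀|^r with r prime; the similarity group of a non-degenerate quadratic form whose polar form is f — or else H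 lies in the residual class of the symplectic case. -/
theorem result {F : Type*} [Field F] [Fintype F] (heven : ¬ Odd (Fintype.card F)) (h4 : 4 ≤ Fintype.card F) (H : Subgroup (Matrix.GeneralLinearGroup (Fin 2 ⊕ Fin 2) F)) (hH : Cfsg.Geo.IsMaximalIn (Cfsg.spGL 2 F) H) :
    (∃ W : Submodule F (Fin 2 ⊕ Fin 2 → F), W ≠ ⊥ ∧ Cfsg.Geo.IsTotallySingularFor (Cfsg.sympForm 2 F) W ∧ H = Cfsg.Geo.subspaceStabilizer W ⊓ Cfsg.spGL 2 F) ∨
    (∃ D : Fin 2 → Submodule F (Fin 2 ⊕ Fin 2 → F), Cfsg.Geo.IsNondegenerateMDecomposition (Cfsg.sympForm 2 F) 2 D ∧ H = Cfsg.Geo.decompositionStabilizer D ⊓ Cfsg.spGL 2 F) ∨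
    (∃ K : Subalgebra F (Matrix (Fin 2 ⊕ Fin 2) (Fin 2 ⊕ Fin 2) F), Cfsg.Geo.IsFieldSubalgebra 2 K ∧ Cfsg.Geo.IsSelfAdjointFor (Cfsg.sympForm 2 F) K ∧ (∀ k ∈ K, ∀ v : (Fin 2 ⊕ Fin 2 → F), (Cfsg.sympForm 2 F) (Matrix.mulVec k v) v = 0) ∧ H = Cfsg.Geo.subalgebraNormalizer K ⊓ Cfsg.spGL 2 F) ∨
    (∃ (F₀ : Subfield F) (r : ℕ) (P : Matrix.GeneralLinearGroup (Fin 2 ⊕ Fin 2) F) (ζ : F), r.Prime ∧ Fintype.card F = Nat.card F₀ ^ r ∧ ζ ≠ 0 ∧ Cfsg.Geo.IsFormRationalStructure (Cfsg.sympForm 2 F) F₀ ζ P ∧ H = Cfsg.Geo.subfieldSubgroup F₀ P ⊓ Cfsg.spGL 2 F) ∨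
    (∃ Q : (Fin 2 ⊕ Fin 2 → F) → F, Cfsg.Geo.IsNondegenerateQuadraticForm Q ∧ (∀ u v : (Fin 2 ⊕ Fin 2 → F), QuadraticMap.polar Q u v = (Cfsg.sympForm 2 F) u v) ∧ H = Cfsg.Geo.quadSimilarityGroup Q ⊓ Cfsg.spGL 2 F) ∨
    Cfsg.Geo.InSymplecticResidualClass H := by
  rcases H2.Cases.spMax (by norm_num) hH with ⟨W, h1, h2, h⟩ | ⟨W, h1, h2, h3, h4, h⟩ |
    ⟨t, k, D, h1, h2, h3, h4, h⟩ | ⟨D, h1, h2, h3, h⟩ | ⟨r, K, h1, h2, h3, h4, h5, h⟩ | ⟨K, h1, h2, h3, h4, h⟩ |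
    ⟨n₁, n₂, e, P, f₁, f₂, h1, h2, h3, h4, h5, h6, h7, h⟩ | ⟨F₀, r, P, ζ, h1, h2, h3, h4, h⟩ |
    ⟨R, k, h1, h2, h3, h4, h5, h6, h7, h8, h9, h⟩ | ⟨k, t, e, P, f₁, h1, h2, h3, h4, h5, h6, h7, h8, h⟩ |
    ⟨Q, h1, h2, h3, h⟩ | h
  · exact .inl ⟨W, h1, h2, h⟩
  · omega
  · have : t ≤ 2 := Nat.le_of_dvd (by norm_num) ⟨k, h2.symm⟩
    obtain ⟨rfl, rfl⟩ : t = 2 ∧ k = 1 := by interval_cases t <;> omega
    exact .inr (.inl ⟨D, h1, h⟩)
  · exact (heven h1).elim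
  · obtain rfl := (Nat.prime_dvd_prime_iff_eq h1 Nat.prime_two).1 h2
    exact .inr (.inr (.inl ⟨K, h3, h4, h5, h⟩))
  · exact (heven h1).elim
  · exact (heven h1).elim
  · exact .inr (.inr (.inr (.inl ⟨F₀, r, P, ζ, h1, h2, h3, h4, h⟩)))
  · exact (heven h5).elim
  · exact (heven h1).elim
  · exact .inr (.inr (.inr (.inr (.inl ⟨Q, h2, h3, h⟩))))
  · exact .inr (.inr (.inr (.inr (.inr (h)))))

end Cfsg.Agent.S5790
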