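import Cfsg.Statements.S5791
import Cfsg.Agent.H3.Sz10

set_option autoImplicit false
open Cfsg

namespace Cfsg.Agent.S5791

open Matrix Cfsg.Lie Cfsg.Geo Cfsg.Agent.H3.Sz1 Cfsg.Agent.H3.Sz4

def e4 : Fin 2 ⊕ Fin 2 ≃ Fin 4 where
  toFun := Sum.elim ![0, 1] ![3, 2]
  invFun := ![Sum.inl 0, Sum.inl 1, Sum.inr 1, Sum.inr 0]
  left_inv := by decide
  right_inv := by decide

section
variable {F : Type*} [Field F] [CharP F 2]

def ρ (F : Type*) [Field F] : GL (Fin 4) F ≃* GL (Fin 2 ⊕ Fin 2) F :=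
  Units.mapEquiv (Matrix.reindexAlgEquiv F F e4.symm).toMulEquiv

def ψ (F : Type*) [Field F] : G F →* GL (Fin 2 ⊕ Fin 2) F := (ρ F).toMonoidHom.comp (Sp4 F).subtype

theorem ψ_val (g : G F) : (ψ F g : Matrix _ _ F) = (m g).submatrix e4 e4 := rfl

theorem ψ_inj : Function.Injective (ψ F) := (ρ F).injective.comp Subtype.val_injective

theorem sub_mv (A : Matrix (Fin 4) (Fin 4) F) (v : Fin 4 → F) :
    A.submatrix e4 e4 *ᵥ (v ∘ e4) = (A *ᵥ v) ∘ e4 := by
  rw [Matrix.submatrix_mulVec_equiv]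
  congr 2
  ext i; simp

theorem ex_e (u : Fin 2 ⊕ Fin 2 → F) : ∃ v : Fin 4 → F, u = v ∘ e4 := ⟨u ∘ e4.symm, by ext i; simp⟩

theorem symp_e (u v : Fin 4 → F) : sympForm 2 F (u ∘ e4) (v ∘ e4) = B F u v := by
  simp [sympForm, B_app, Matrix.J, dotProduct, Matrix.mulVec, Fintype.sum_sum_type, Fin.sum_univ_two, e4,
    Matrix.one_apply]
  grind

theorem ψ_mem (g : G F) : ψ F g ∈ spGL 2 F := by
  intro u v
  obtain ⟨u, rfl⟩ := ex_e u
  obtain ⟨v, rfl⟩ := ex_e v
  show sympForm 2 F ((m g).submatrix e4 e4 *ᵥ _) ((m g).submatrix e4 e4 *ᵥ _) = _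
  rw [sub_mv, sub_mv, symp_e, symp_e, B_m]

theorem ψ_surj {x : GL (Fin 2 ⊕ Fin 2) F} (hx : x ∈ spGL 2 F) : ∃ g, ψ F g = x := by
  obtain ⟨y, rfl⟩ := (ρ F).surjective x
  refine ⟨⟨y, fun u v => ?_⟩, rfl⟩
  have : sympForm 2 F (y.1.submatrix e4 e4 *ᵥ _) (y.1.submatrix e4 e4 *ᵥ _) = _ := hx (u ∘ e4) (v ∘ e4)
  rw [sub_mv, sub_mv, symp_e, symp_e] at this
  exact this

theorem sc_triv {g : G F} (h : ψ F g ∈ scalars _ F) : g = 1 := by
  obtain ⟨c, hc⟩ := (mem_scalars_iff _).1 h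
  rw [ψ_val] at hc
  have h1 : m g = (c : F) • 1 := by
    ext i j
    obtain ⟨i, rfl⟩ := e4.surjective i
    obtain ⟨j, rfl⟩ := e4.surjective j
    simpa [Matrix.one_apply] using congrFun (congrFun hc i) j
  have h2 := (cr g).2.2.1
  simp [h1] at h2
  have h3 : (c : F) = 1 := sq_inj (by rw [sq, h2]; simp)
  exact m_inj (by rw [h1, h3, one_smul, m_one])

end


/-- The maximal subgroups of Sp_4(q), q ≥ 4 even, in the residual class. Let F be a finite field of even order q ≥ 4 and H a maximal subgroup of Sp_4(F) (isometries of the standard alternating form on F^4) lying in the residual class of the symplectic case. Then q = 2^(2m+1) with m ≥ 1 and the perfect socle preimage P of H is, modulo scalars, isomorphic to the Suzuki group over F (the subgroup Sz(F, θ) of the four-dimensional symplectic group with θ(x) = x^(2^(m+1))). -/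
theorem result {F : Type*} [Field F] [Fintype F] (heven : ¬ Odd (Fintype.card F)) (h4 : 4 ≤ Fintype.card F) (H : Subgroup (Matrix.GeneralLinearGroup (Fin 2 ⊕ Fin 2) F)) (hH : Cfsg.Geo.IsMaximalIn (Cfsg.spGL 2 F) H) (hS : Cfsg.Geo.InSymplecticResidualClass H) :
    ∃ (P : Subgroup (Matrix.GeneralLinearGroup (Fin 2 ⊕ Fin 2) F)) (m : ℕ), Cfsg.Geo.IsResidualCore H P ∧ 1 ≤ m ∧ Fintype.card F = 2 ^ (2 * m + 1) ∧
    Nonempty ((P ⧸ (Cfsg.Geo.scalars (Fin 2 ⊕ Fin 2) F).subgroupOf P) ≃* Cfsg.Lie.Sz F (2 ^ (m + 1))) := by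
  have : CharP F 2 := by
    obtain ⟨p, hp, n, hpp, hn⟩ := FiniteField.card' F
    rw [Nat.not_odd_iff_even, hn, Nat.even_pow] at heven
    obtain rfl := (hpp.even_iff).1 heven.1
    exact hp
  obtain ⟨P, hP, hQ, -⟩ := hS
  have hle : P ≤ spGL 2 F := hP.le.trans hH.1.le
  have hmap : (P.comap (ψ F)).map (ψ F) = P :=
    Subgroup.map_comap_eq_self (fun x hx => ψ_surj (hle hx))
  generalize P.comap (ψ F) = P₄ at hmap
  subst hmap
  have hm : ∀ {g}, g ∈ P₄ → (m g).submatrix e4 e4 ∈ matrixSet (P₄.map (ψ F)) :=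
    fun {g} hg => ⟨_, ⟨g, hg, rfl⟩, rfl⟩
  let E : P₄ ≃* P₄.map (ψ F) := P₄.equivMapOfInjective _ ψ_inj
  have hb : (scalars (Fin 2 ⊕ Fin 2) F).subgroupOf (P₄.map (ψ F)) = ⊥ := by
    rw [eq_bot_iff]
    rintro ⟨_, g, hg, rfl⟩ h
    obtain rfl := sc_triv h
    exact Subtype.ext (map_one _)
  let E' : (P₄.map (ψ F) ⧸ (scalars (Fin 2 ⊕ Fin 2) F).subgroupOf (P₄.map (ψ F))) ≃* P₄ :=
    ((QuotientGroup.quotientMulEquivOfEq hb).trans QuotientGroup.quotientBot).trans E.symm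
  have hsimp : IsSimpleGroup P₄ := by
    have := hP.simple
    exact E'.symm.isSimpleGroup
  have hs : Simp P₄ := by
    intro N hN hn
    rcases hsimp.eq_bot_or_eq_top_of_normal (N.subgroupOf P₄)
      ⟨fun x hx g => hn g g.2 x hx⟩ with h | h
    · left
      rwa [Subgroup.subgroupOf_eq_bot, disjoint_iff, inf_eq_left.2 hN] at h
    · right
      exact le_antisymm hN (Subgroup.subgroupOf_eq_top.1 h)
  have hperf : ⁅P₄, P₄⁆ = P₄ := by
    apply Subgroup.map_injective ψ_inj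
    rw [Subgroup.map_commutator, hP.perfect]
  have hirr := npt_of_irr (P := P₄) fun W hW => by
    let L : (Fin 4 → F) ≃ₗ[F] (Fin 2 ⊕ Fin 2 → F) := LinearEquiv.funCongrLeft F F e4
    have := hP.absIrred.1 (W.map L.toLinearMap) (by
      rintro _ ⟨_, ⟨g, hg, rfl⟩, rfl⟩ _ ⟨_, ⟨w, hw, rfl⟩, rfl⟩
      exact ⟨_, hW g hg w hw, (sub_mv _ _).symm⟩)
    rwa [Submodule.map_eq_bot_iff, Submodule.map_eq_top_iff] at this
  obtain ⟨θ, hθ, ⟨E''⟩⟩ := main (P := P₄) (by rwa [Nat.card_eq_fintype_card]) hs hperf hirr.1 hirr.2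
    (fun A hA => by
      obtain ⟨c, hc⟩ := hP.absIrred.2 (A.submatrix e4 e4) (by
        rintro _ ⟨_, ⟨g, hg, rfl⟩, rfl⟩
        simp only [ψ_val, Matrix.submatrix_mul_equiv, hA g hg])
      refine ⟨c, ?_⟩
      ext i j
      obtain ⟨i, rfl⟩ := e4.surjective i
      obtain ⟨j, rfl⟩ := e4.surjective j
      simpa [Matrix.one_apply] using congrFun (congrFun hc i) j)
    (by
      rintro ⟨Q, h1, h2⟩
      have hp : ∀ u v : Fin 2 ⊕ Fin 2 → F, QuadraticMap.polar (fun v => Q (v ∘ e4.symm)) u v =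
          B F (u ∘ e4.symm) (v ∘ e4.symm) := by
        intro u v
        have := h1.add (u ∘ e4.symm) (v ∘ e4.symm)
        simp only [QuadraticMap.polar]
        rw [show (u + v) ∘ e4.symm = u ∘ e4.symm + v ∘ e4.symm from rfl, this]
        ring
      refine hQ ⟨fun v => Q (v ∘ e4.symm), ⟨fun c v => h1.smul c _, ⟨?_, ?_, ?_, ?_⟩, fun v hv => ?_⟩, ?_⟩
      · intro x y v; simp only [hp, B_app, Function.comp, Pi.add_apply]; ring
      · intro x y v; simp only [hp, B_app, Function.comp, Pi.smul_apply, smul_eq_mul]; ring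
      · intro x y v; simp only [hp, B_app, Function.comp, Pi.add_apply]; ring
      · intro x y v; simp only [hp, B_app, Function.comp, Pi.smul_apply, smul_eq_mul]; ring
      · obtain ⟨w, hw⟩ : ∃ w, B F (v ∘ e4.symm) w ≠ 0 := by
          by_contra h
          push Not at h
          refine hv (funext fun i => ?_)
          simpa using congrFun (B_nd _ h) (e4 i)
        have he : (w ∘ e4) ∘ e4.symm = w := by ext i; simp
        refine ⟨⟨w ∘ e4, ?_⟩, ⟨w ∘ e4, ?_⟩⟩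
        · rw [hp, he, B_app]; rw [B_app] at hw; intro h; exact hw (by linear_combination h)
        · rwa [hp, he]
      · rintro _ ⟨_, ⟨g, hg, rfl⟩, rfl⟩ v
        obtain ⟨v, rfl⟩ := ex_e v
        have he : ∀ w : Fin 4 → F, (w ∘ e4) ∘ e4.symm = w := fun w => by ext i; simp
        simp only [ψ_val, sub_mv, he, h2 g hg])
    (by
      rintro ⟨K, hK, k, h⟩
      refine hP.no_subfield K hK ⟨ψ F k⁻¹, ?_⟩
      rintro _ ⟨_, ⟨g, hg, rfl⟩, rfl⟩ i j
      have := h g hg (e4 i) (e4 j)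
      rw [← map_inv, inv_inv, ← Units.val_mul, ← Units.val_mul, ← map_mul, ← map_mul]
      exact this)
    (by
      rintro rfl
      refine hH.1.not_ge fun x hx => hP.le ?_
      obtain ⟨g, rfl⟩ := ψ_surj hx
      exact ⟨g, trivial, rfl⟩)
  obtain ⟨n, h1, h2, h3⟩ := tits h4 hθ
  refine ⟨_, n, hP, h1, h2, ⟨E'.trans ?_⟩⟩
  rw [H6.Suzuki.Sz_eq θ _ h3]
  exact E''

end Cfsg.Agent.S5791
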