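import Cfsg.Statements.S5793
import Cfsg.Agent.H7.SLCase

set_option autoImplicit false
open Cfsg

namespace Cfsg.Agent.S5793

/-- Every maximal subgroup of SL_5(q) is of one of the listed geometric types or lies in the residual class. Let F be a finite field with q elements (p its characteristic) and H a maximal subgroup of SL_5(F) (inside GL_5(F)). Then H is the intersection with SL_5(F) of one of: the stabiliser of a proper non-zero subspace; for q ≥ 5, the stabiliser of a decomposition into 5 independent 1-spaces; the normaliser of a degree-5 subfield of the matrix algebra; a subfield group for a subfield F₀ with |F| = |F₀|^r, r prime; for q = p prime with p ≡ 1 mod 5, the normaliser of an absolutely irreducible 5-subgroup R of exponent 5 and order 5^(1+2m) with centre of order 5, all of whose characteristic abelian subgroups are cyclic, F being the smallest field of characteristic p containing the fifth roots of unity (here R is extraspecial of order 125);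 for q odd, the similarity group of a non-degenerate quadratic form; the similarity group of a non-degenerate unitary form — or else H lies in the residual class of the linear case (modulo scalars H is almost simple, with absolutely irreducible perfect socle preimage realisable over no proper subfield and fixing no non-degenerate quadratic, symplectic or unitary form). -/
theorem result {F : Type*} [Field F] [Fintype F] (H : Subgroup (Matrix.GeneralLinearGroup (Fin 5) F)) (hH : Cfsg.Geo.IsMaximalIn (Cfsg.Geo.specialLinear (Fin 5) F) H) :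
    (∃ W : Submodule F (Fin 5 → F), W ≠ ⊥ ∧ W ≠ ⊤ ∧ H = Cfsg.Geo.subspaceStabilizer W ⊓ Cfsg.Geo.specialLinear (Fin 5) F) ∨
    (5 ≤ Fintype.card F ∧ ∃ D : Fin 5 → Submodule F (Fin 5 → F), Cfsg.Geo.IsMDecomposition 1 D ∧ H = Cfsg.Geo.decompositionStabilizer D ⊓ Cfsg.Geo.specialLinear (Fin 5) F) ∨
    (∃ K : Subalgebra F (Matrix (Fin 5) (Fin 5) F), Cfsg.Geo.IsFieldSubalgebra 5 K ∧ H = Cfsg.Geo.subalgebraNormalizer K ⊓ Cfsg.Geo.specialLinear (Fin 5) F) ∨
    (∃ (F₀ : Subfield F) (r : ℕ) (P : Matrix.GeneralLinearGroup (Fin 5) F), r.Prime ∧ Fintype.card F = Nat.card F₀ ^ r ∧ H = Cfsg.Geo.subfieldSubgroup F₀ P ⊓ Cfsg.Geo.specialLinear (Fin 5) F) ∨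
    ((∃ p : ℕ, p.Prime ∧ Fintype.card F = p ∧ (p % 5 = 1)) ∧ ∃ R : Subgroup (Matrix.GeneralLinearGroup (Fin 5) F), Cfsg.Geo.IsLinearSymplecticTypeData 5 R ∧ H = Cfsg.Geo.subgroupNormalizer R ⊓ Cfsg.Geo.specialLinear (Fin 5) F) ∨
    (Odd (Fintype.card F) ∧ ∃ Q : (Fin 5 → F) → F, Cfsg.Geo.IsNondegenerateQuadraticForm Q ∧ H = Cfsg.Geo.quadSimilarityGroup Q ⊓ Cfsg.Geo.specialLinear (Fin 5) F) ∨
    (∃ (σ : F ≃+* F) (f : (Fin 5 → F) → (Fin 5 → F) → F), Cfsg.Geo.IsUnitaryForm σ f ∧ H = Cfsg.Geo.similarityGroup f ⊓ Cfsg.Geo.specialLinear (Fin 5) F) ∨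
    Cfsg.Geo.InLinearResidualClass H := by
  rcases H7.slCase (by simp) hH with ⟨W, h1, h2, h⟩ | ⟨t, m, D, h1, h2, h3, h4, h⟩ | ⟨r, K, h1, h2, h3, h⟩ |
    ⟨n₁, n₂, e, P, h1, h2, h3, h4, h⟩ | ⟨F₀, r, P, h1, h2, h⟩ | ⟨r, m, R, h1, h2, h3, h⟩ |
    ⟨m, t, e, P, h1, h2, h3, h⟩ | ⟨f, h1, h2, h⟩ | ⟨σ, f, h1, h⟩ | ⟨Q, h1, h2, h⟩ | h
  · exact .inl ⟨W, h1, h2, h⟩
  · rw [Fintype.card_fin] at h2
    have h5 := h1.two_le
    have h6 : t ≤ 5 := Nat.le_of_dvd (by norm_num) ⟨m, h2.symm⟩
    obtain ⟨rfl, rfl⟩ : (t = 5 ∧ m = 1) := by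
      interval_cases t <;> omega
    · exact .inr (.inl ⟨h3 rfl, D, h1, h⟩)
  · rw [Fintype.card_fin] at h2
    have h6 : r ≤ 5 := Nat.le_of_dvd (by norm_num) h2
    obtain rfl : r = 5 := by
      interval_cases r <;> simp_all (config := {decide := true})
    · exact .inr (.inr (.inl ⟨K, h3, h⟩))
  · rw [Fintype.card_fin] at h3
    have h6 : n₁ ≤ 3 := by nlinarith
    exfalso; interval_cases n₁ <;> omega
  · exact .inr (.inr (.inr (.inl ⟨F₀, r, P, h1, h2, h⟩)))
  · rw [Fintype.card_fin] at h3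
    obtain rfl : r = 5 := (H7.prime_pow_eq h1 h3 (by norm_num)).trans (by norm_num)
    exact .inr (.inr (.inr (.inr (.inl ⟨H7.c6_five h2, R, h2, h⟩))))
  · rw [Fintype.card_fin] at h3
    obtain ⟨rfl, rfl⟩ := H7.pow_eq_small h1 h2 h3 (by norm_num)
    norm_num at h3
  · exact absurd h2 (by decide)
  · exact .inr (.inr (.inr (.inr (.inr (.inr (.inl ⟨σ, f, h1, h⟩))))))
  · exact .inr (.inr (.inr (.inr (.inr (.inl ⟨h2, Q, h1, h⟩)))))
  · exact .inr (.inr (.inr (.inr (.inr (.inr (.inr (h)))))))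

end Cfsg.Agent.S5793
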