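import Cfsg.Statements.S5810
import Cfsg.Agent.H6.SUOrth
import Cfsg.Agent.H6.SUSub
import Cfsg.Agent.H6.SUMono3
import Cfsg.Agent.H9.U7y
import Cfsg.Agent.H7.U7d
import Cfsg.Agent.H1.U7t

set_option autoImplicit false
open Cfsg

namespace Cfsg.Agent.S5810

/-- Maximal subgroups of SU_7(q) of geometric type (any prime power q). Let F be the field with q² elements (characteristic p), f the standard unitary form Σ u_i v_i^q on F^7 and SU_7(q) its determinant-one isometry group inside GL_7(F). Each of the following, intersected with SU_7(q), is a maximal subgroup of SU_7(q): (1) the stabiliser of any non-zero subspace on which f vanishes identically (totally isotropic 1-, 2- and 3-spaces); (2) the stabiliser of any non-degenerate 1-, 2- or 3-space; (3) the stabiliser of any decomposition of F^7 into seven mutually orthogonal non-degenerate 1-spaces; (4) the normaliser of any degree-7 subfield of the matrix algebra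 closed under adjoints for f; (5) every subfield group for a subfield F₀ of odd prime index in F whose F₀-structure carries f; (6) for q odd, every subfield group for the subfield F₀ of index 2 whose F₀-structure carries f (orthogonal type); (7) when q = p with p ≡ 6 mod 7, or q = p³ with p ≡ 3 or 5 mod 7, the normaliser of any absolutely irreducible 7-group R of exponent 7, order 343 and centre of order 7 with all characteristic abelian subgroups cyclic, contained in the similarity group of f. -/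
theorem result {F : Type*} [Field F] [Fintype F] (q : ℕ) (hF : Fintype.card F = q ^ 2) :
    (∀ W : Submodule F (Fin 7 → F), W ≠ ⊥ → Cfsg.Geo.IsTotallySingularFor (Cfsg.hermForm 7 F q) W → Cfsg.Geo.IsMaximalIn (Cfsg.GU 7 F q ⊓ Cfsg.Geo.specialLinear (Fin 7) F) (Cfsg.Geo.subspaceStabilizer W ⊓ (Cfsg.GU 7 F q ⊓ Cfsg.Geo.specialLinear (Fin 7) F))) ∧
    (∀ W : Submodule F (Fin 7 → F), W ≠ ⊥ → Cfsg.Geo.IsNondegenerateOn (Cfsg.hermForm 7 F q) W → 2 * Module.finrank F W < 7 → Cfsg.Geo.IsMaximalIn (Cfsg.GU 7 F q ⊓ Cfsg.Geo.specialLinear (Fin 7) F) (Cfsg.Geo.subspaceStabilizer W ⊓ (Cfsg.GU 7 F q ⊓ Cfsg.Geo.specialLinear (Fin 7) F))) ∧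
    (∀ D : Fin 7 → Submodule F (Fin 7 → F), Cfsg.Geo.IsNondegenerateMDecomposition (Cfsg.hermForm 7 F q) 1 D → Cfsg.Geo.IsMaximalIn (Cfsg.GU 7 F q ⊓ Cfsg.Geo.specialLinear (Fin 7) F) (Cfsg.Geo.decompositionStabilizer D ⊓ (Cfsg.GU 7 F q ⊓ Cfsg.Geo.specialLinear (Fin 7) F))) ∧
    (∀ K : Subalgebra F (Matrix (Fin 7) (Fin 7) F), Cfsg.Geo.IsFieldSubalgebra 7 K → Cfsg.Geo.IsAdjointClosedFor (Cfsg.hermForm 7 F q) K → Cfsg.Geo.IsMaximalIn (Cfsg.GU 7 F q ⊓ Cfsg.Geo.specialLinear (Fin 7) F) (Cfsg.Geo.subalgebraNormalizer K ⊓ (Cfsg.GU 7 F q ⊓ Cfsg.Geo.specialLinear (Fin 7) F))) ∧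
    (∀ (F₀ : Subfield F) (r : ℕ) (P : Matrix.GeneralLinearGroup (Fin 7) F), r.Prime → Odd r → Fintype.card F = Nat.card F₀ ^ r → Cfsg.Geo.IsFormRationalStructure (Cfsg.hermForm 7 F q) F₀ 1 P → Cfsg.Geo.IsMaximalIn (Cfsg.GU 7 F q ⊓ Cfsg.Geo.specialLinear (Fin 7) F) (Cfsg.Geo.subfieldSubgroup F₀ P ⊓ (Cfsg.GU 7 F q ⊓ Cfsg.Geo.specialLinear (Fin 7) F))) ∧
    (Odd q → ∀ (F₀ : Subfield F) (P : Matrix.GeneralLinearGroup (Fin 7) F), Fintype.card F = Nat.card F₀ ^ 2 → Cfsg.Geo.IsFormRationalStructure (Cfsg.hermForm 7 F q) F₀ 1 P → Cfsg.Geo.IsMaximalIn (Cfsg.GU 7 F q ⊓ Cfsg.Geo.specialLinear (Fin 7) F) (Cfsg.Geo.subfieldSubgroup F₀ P ⊓ (Cfsg.GU 7 F q ⊓ Cfsg.Geo.specialLinear (Fin 7) F))) ∧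
    (∀ (p : ℕ) (R : Subgroup (Matrix.GeneralLinearGroup (Fin 7) F)), p.Prime → CharP F p → ((q = p ∧ p % 7 = 6) ∨ (q = p ^ 3 ∧ (p % 7 = 3 ∨ p % 7 = 5))) → Cfsg.Geo.IsSymplecticTypeGroup 7 R → Cfsg.Geo.ActsAbsolutelyIrreducibly (Cfsg.Geo.matrixSet R) → R ≤ Cfsg.Geo.similarityGroup (Cfsg.hermForm 7 F q) → Nat.card R = 343 → Nat.card (Subgroup.center R) = 7 → Cfsg.Geo.IsMaximalIn (Cfsg.GU 7 F q ⊓ Cfsg.Geo.specialLinear (Fin 7) F) (Cfsg.Geo.subgroupNormalizer R ⊓ (Cfsg.GU 7 F q ⊓ Cfsg.Geo.specialLinear (Fin 7) F))) := by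
  refine ⟨fun W hW h => ?_, fun W hW h h2 => ?_, fun D hD => ?_, fun K hK hA => ?_,
    fun F₀ r P hr hro hc hP => ?_, fun hq F₀ P hc hP => ?_, fun p R hp hc hq hR hA hS h343 h7 => ?_⟩
  · exact H6.SU.geo_ts hF (by omega) W hW h
  · exact H6.SU.geo_nondeg hF (by omega) W hW h h2
  · exact H6.SU.geo_mono hF (Or.inl le_rfl) D hD
  · refine H9.U7.geo_singer7 hF (fun K T Γ _ _ π X D => Or.inl (H9.U7.weil7 (H9.U7.un7_std hF) D ?_)) K hK hA
    have h := H9.U7.un7_std hF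
    generalize H6.SU.std hF 7 = S at h D ⊢
    rintro _ _ χ H rfl
    exact H1.U7t.thirteen H h D
  · exact H6.SU.geo_sub hF (by omega) F₀ r hr hro hc P hP
  · exact H6.SU.geo_orth hF (by omega) hq F₀ hc P hP
  · exact H7.U7.geo_es7 hF p R hp hc hq hR hA hS h343 h7

end Cfsg.Agent.S5810
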