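import Cfsg.Statements.S5826
import Cfsg.Agent.Asch.OMax

set_option autoImplicit false
open Cfsg

namespace Cfsg.Agent.S5826

/-- Every maximal subgroup of Ω_8^-(q) is of one of the listed geometric types or lies in the residual class. Let F be a finite field with q elements, Q a non-degenerate quadratic form on F^8 of minus type (no totally singular 4-space), Ω the commutator subgroup of its isometry group, and H a maximal subgroup of Ω (inside GL_8(F)). Then H is the intersection with Ω of one of: the stabiliser of a non-zero totally singular subspace; for q odd, the stabiliser of a non-degenerate subspace of odd dimension; the stabiliser of a non-degenerate 2-space of minus type; for q ≥ 4, the stabiliser of a non-degenerate 2-space of plus type; the stabiliser of a non-degenerate 4-space; for q even, the stabiliser of the span of a non-singular vector; the normaliser of a degree-2 subfield of the matrix algebra;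 a subfield group of odd prime index whose F₀-structure carries a non-zero multiple of Q — or else H lies in the residual class of the orthogonal case (modulo scalars H is almost simple, with absolutely irreducible perfect socle preimage realisable over no proper subfield and fixing no non-degenerate unitary form). -/
theorem result {F : Type*} [Field F] [Fintype F] (Q : (Fin 8 → F) → F) (hQ : Cfsg.Geo.IsNondegenerateQuadraticForm Q) (hminus : ¬ Cfsg.Geo.IsPlusTypeOn Q ⊤) (H : Subgroup (Matrix.GeneralLinearGroup (Fin 8) F)) (hH : Cfsg.Geo.IsMaximalIn (Cfsg.Geo.omegaGL Q) H) :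
    (∃ W : Submodule F (Fin 8 → F), W ≠ ⊥ ∧ Cfsg.Geo.IsTotallySingularQuad Q W ∧ H = Cfsg.Geo.subspaceStabilizer W ⊓ Cfsg.Geo.omegaGL Q) ∨
    (Odd (Fintype.card F) ∧ ∃ W : Submodule F (Fin 8 → F), W ≠ ⊥ ∧ W ≠ ⊤ ∧ Odd (Module.finrank F W) ∧ Cfsg.Geo.IsNondegenerateOn (QuadraticMap.polar Q) W ∧ H = Cfsg.Geo.subspaceStabilizer W ⊓ Cfsg.Geo.omegaGL Q) ∨
    (∃ W : Submodule F (Fin 8 → F), Module.finrank F W = 2 ∧ Cfsg.Geo.IsNondegenerateOn (QuadraticMap.polar Q) W ∧ ¬ Cfsg.Geo.IsPlusTypeOn Q W ∧ H = Cfsg.Geo.subspaceStabilizer W ⊓ Cfsg.Geo.omegaGL Q) ∨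
    (4 ≤ Fintype.card F ∧ ∃ W : Submodule F (Fin 8 → F), Module.finrank F W = 2 ∧ Cfsg.Geo.IsNondegenerateOn (QuadraticMap.polar Q) W ∧ Cfsg.Geo.IsPlusTypeOn Q W ∧ H = Cfsg.Geo.subspaceStabilizer W ⊓ Cfsg.Geo.omegaGL Q) ∨
    (∃ W : Submodule F (Fin 8 → F), Module.finrank F W = 4 ∧ Cfsg.Geo.IsNondegenerateOn (QuadraticMap.polar Q) W ∧ H = Cfsg.Geo.subspaceStabilizer W ⊓ Cfsg.Geo.omegaGL Q) ∨
    (¬ Odd (Fintype.card F) ∧ ∃ v : (Fin 8 → F), Q v ≠ 0 ∧ H = Cfsg.Geo.subspaceStabilizer (Submodule.span F {v}) ⊓ Cfsg.Geo.omegaGL Q) ∨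
    (∃ K : Subalgebra F (Matrix (Fin 8) (Fin 8) F), Cfsg.Geo.IsFieldSubalgebra 2 K ∧ H = Cfsg.Geo.subalgebraNormalizer K ⊓ Cfsg.Geo.omegaGL Q) ∨
    (∃ (F₀ : Subfield F) (r : ℕ) (P : Matrix.GeneralLinearGroup (Fin 8) F) (ζ : F), r.Prime ∧ Odd r ∧ Fintype.card F = Nat.card F₀ ^ r ∧ ζ ≠ 0 ∧ Cfsg.Geo.IsQuadFormRationalStructure (fun v : Fin 8 → F => ζ * Q v) F₀ P ∧ H = Cfsg.Geo.subfieldSubgroup F₀ P ⊓ Cfsg.Geo.omegaGL Q) ∨
    Cfsg.Geo.InOrthogonalResidualClass H := by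
  rcases Asch.oMax hQ (by simp) hH with ⟨W, h1, h2, h3, h⟩ | ⟨W, h1, h2, h3, h4, h5, h6, h7, h8, h⟩ | ⟨v, h1, h2, h⟩ |
    ⟨t, k, D, h1, h2, h3, h4, h5, h6, h7, h8, h9, h10, h⟩ | ⟨k, D, h1, h2, h3, h4, h5, h6, h⟩ |
    ⟨k, D, h1, h2, h3, h4, h5, h⟩ | ⟨r, K, h1, h2, h3, h4, h5, h6, h7, h⟩ | ⟨K, h1, h2, h3, h4, h5, h⟩ |
    ⟨n₁, n₂, e, P, f₁, f₂, h1, h2, h3, h4, h5, h6, h7, h8, h9, h10, h⟩ |
    ⟨n₁, n₂, e, P, f₁, f₂, h1, h2, h3, h4, h5, h6, h7, h8, h9, h10, h11, h⟩ | ⟨F₀, r, P, ζ, h1, h2, h3, h4, h5, h⟩ |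
    ⟨k, t, h1, h2, h3, h4⟩ | ⟨k, t, h1, h2, h3⟩ | h <;> try simp only [Fintype.card_fin] at *
  · exact .inl ⟨W, h1, h2, h⟩
  · rcases Nat.even_or_odd (Module.finrank F W) with he | ho
    swap
    · exact .inr (.inl ⟨h6 ho, W, h1, h2, ho, h3, h⟩)
    have h9 := Nat.even_iff.1 he
    by_cases h10 : Module.finrank F W = 2
    · by_cases h11 : Geo.IsPlusTypeOn Q W
      · exact .inr (.inr (.inr (.inl ⟨h7 h10 h11, W, h10, h3, h11, h⟩)))
      · exact .inr (.inr (.inl ⟨W, h10, h3, h11, h⟩))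
    exact .inr (.inr (.inr (.inr (.inl ⟨W, by omega, h3, h⟩))))
  · exact .inr (.inr (.inr (.inr (.inr (.inl ⟨h1, v, h2, h⟩)))))
  · have h11 : k ≤ 4 := by nlinarith
    have h12 := h1.decomp.decomp.pos
    refine absurd ?_ hminus
    interval_cases k
    · exact (h10 (by decide) ⟨4, by omega⟩).2 (.inr (by omega))
    · exact (h9 (by decide)).2.2 (.inr ⟨2, by omega⟩)
    · omega
    · exact (h9 (by decide)).2.2 (.inr ⟨1, by omega⟩)
  · have := Nat.odd_iff.1 h3; omega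
  · exact absurd h5 hminus
  · obtain rfl : r = 2 := (Nat.prime_dvd_prime_iff_eq h1 Nat.prime_two).1 (h1.dvd_of_dvd_pow (n := 3) h2)
    exact .inr (.inr (.inr (.inr (.inr (.inr (.inl ⟨K, h6, h⟩))))))
  · exact .inr (.inr (.inr (.inr (.inr (.inr (.inl ⟨K, h1, h⟩))))))
  · nlinarith
  · exact absurd h11 hminus
  · exact .inr (.inr (.inr (.inr (.inr (.inr (.inr (.inl ⟨F₀, r, P, ζ, h1, h4 (by decide) hminus, h2, h3, h5, h⟩)))))))
  · exact absurd h4 hminus
  · obtain ⟨rfl, rfl⟩ := H7.pow_eq_small h1 h2 h3 (by omega); omega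
  · exact .inr (.inr (.inr (.inr (.inr (.inr (.inr (.inr (h))))))))

end Cfsg.Agent.S5826
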