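import Cfsg.Statements.S5835
import Cfsg.Agent.Asch.OMax0

set_option autoImplicit false
open Cfsg

namespace Cfsg.Agent.S5835

/-- Every maximal subgroup of Ω_9(q), q odd, is of one of the listed geometric types or lies in the residual class. Let F be a finite field of odd order q, Q the standard quadratic form x₀² + Σ x_i y_i on F^9 (coordinates Unit ⊕ (Fin 4 ⊕ Fin 4)), Ω the commutator subgroup of its isometry group, and H a maximal subgroup of Ω (inside GL_9(F)). Then H is the intersection with Ω of one of: the stabiliser of a non-zero totally singular subspace; the stabiliser of a non-zero non-degenerate subspace of even dimension (not a plus-type plane when q = 3); for q prime, the stabiliser of a decomposition into nine pairwise orthogonal, pairwise isometric non-degenerate 1-spaces; for q ≥ 5, the stabiliser of a decomposition into three pairwise orthogonal, pairwise isometric non-degenerate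 3-spaces; the normaliser of a degree-3 subfield of the matrix algebra, self-adjoint for the polar form; a subfield group (|F| = |F₀|^r, r prime) whose F₀-structure carries Q; for q ≥ 5, the stabiliser of a tensor decomposition of the polar form as a tensor square of a symmetric form on F^3 — or else H lies in the residual class of the orthogonal case (modulo scalars H is almost simple, with absolutely irreducible perfect socle preimage realisable over no proper subfield and fixing no non-degenerate unitary form). -/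
theorem result {F : Type*} [Field F] [Fintype F] (hodd : Odd (Fintype.card F)) (H : Subgroup (Matrix.GeneralLinearGroup (Unit ⊕ (Fin 4 ⊕ Fin 4)) F)) (hH : Cfsg.Geo.IsMaximalIn (Cfsg.Geo.omegaGL (Cfsg.quadFormOdd 4 F)) H) :
    (∃ W : Submodule F (Unit ⊕ (Fin 4 ⊕ Fin 4) → F), W ≠ ⊥ ∧ Cfsg.Geo.IsTotallySingularQuad (Cfsg.quadFormOdd 4 F) W ∧ H = Cfsg.Geo.subspaceStabilizer W ⊓ Cfsg.Geo.omegaGL (Cfsg.quadFormOdd 4 F)) ∨
    (∃ W : Submodule F (Unit ⊕ (Fin 4 ⊕ Fin 4) → F), W ≠ ⊥ ∧ Even (Module.finrank F W) ∧ Cfsg.Geo.IsNondegenerateOn (QuadraticMap.polar (Cfsg.quadFormOdd 4 F)) W ∧ ¬ (Fintype.card F = 3 ∧ Module.finrank F W = 2 ∧ Cfsg.Geo.IsPlusTypeOn (Cfsg.quadFormOdd 4 F) W) ∧ H = Cfsg.Geo.subspaceStabilizer W ⊓ Cfsg.Geo.omegaGL (Cfsg.quadFormOdd 4 F)) ∨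
    ((Fintype.card F).Prime ∧ ∃ D : Fin 9 → Submodule F (Unit ⊕ (Fin 4 ⊕ Fin 4) → F), Cfsg.Geo.IsOrthogonalMDecomposition (Cfsg.quadFormOdd 4 F) 1 D ∧ H = Cfsg.Geo.decompositionStabilizer D ⊓ Cfsg.Geo.omegaGL (Cfsg.quadFormOdd 4 F)) ∨
    (5 ≤ Fintype.card F ∧ ∃ D : Fin 3 → Submodule F (Unit ⊕ (Fin 4 ⊕ Fin 4) → F), Cfsg.Geo.IsOrthogonalMDecomposition (Cfsg.quadFormOdd 4 F) 3 D ∧ H = Cfsg.Geo.decompositionStabilizer D ⊓ Cfsg.Geo.omegaGL (Cfsg.quadFormOdd 4 F)) ∨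
    (∃ K : Subalgebra F (Matrix (Unit ⊕ (Fin 4 ⊕ Fin 4)) (Unit ⊕ (Fin 4 ⊕ Fin 4)) F), Cfsg.Geo.IsFieldSubalgebra 3 K ∧ Cfsg.Geo.IsSelfAdjointFor (QuadraticMap.polar (Cfsg.quadFormOdd 4 F)) K ∧ H = Cfsg.Geo.subalgebraNormalizer K ⊓ Cfsg.Geo.omegaGL (Cfsg.quadFormOdd 4 F)) ∨
    (∃ (F₀ : Subfield F) (r : ℕ) (P : Matrix.GeneralLinearGroup (Unit ⊕ (Fin 4 ⊕ Fin 4)) F), r.Prime ∧ Fintype.card F = Nat.card F₀ ^ r ∧ Cfsg.Geo.IsQuadFormRationalStructure (Cfsg.quadFormOdd 4 F) F₀ P ∧ H = Cfsg.Geo.subfieldSubgroup F₀ P ⊓ Cfsg.Geo.omegaGL (Cfsg.quadFormOdd 4 F)) ∨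
    (5 ≤ Fintype.card F ∧ ∃ (e : (Unit ⊕ (Fin 4 ⊕ Fin 4)) ≃ (Fin 2 → Fin 3)) (P : Matrix.GeneralLinearGroup (Unit ⊕ (Fin 4 ⊕ Fin 4)) F) (f₁ : (Fin 3 → F) → (Fin 3 → F) → F), Cfsg.Geo.IsSymmetricForm f₁ ∧ Cfsg.Geo.IsTensorPowerFormStructure id (QuadraticMap.polar (Cfsg.quadFormOdd 4 F)) f₁ e P ∧ H = Cfsg.Geo.tensorWreathSubgroup 3 2 e P ⊓ Cfsg.Geo.omegaGL (Cfsg.quadFormOdd 4 F)) ∨
    Cfsg.Geo.InOrthogonalResidualClass H := by
  have h2 := Asch.odd_card_iff.1 hodd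
  have hQ := Form.isNondeg_quadFormOdd 4 F h2
  have hn : Fintype.card (Unit ⊕ (Fin 4 ⊕ Fin 4)) = 9 := by simp
  have ho : Odd (Fintype.card (Unit ⊕ (Fin 4 ⊕ Fin 4))) := by rw [hn]; decide
  have hp : ∀ a b : ℕ, 2 ≤ a → 2 ≤ b → a * b = 9 → a = 3 ∧ b = 3 := fun a b ha hb h => by
    have : a ≤ 4 := by nlinarith
    interval_cases a <;> omega
  rcases Asch.orthCase (Form.quadPQ_nondeg hQ) (by omega) (Asch.max_le_iso hQ hH) with ⟨W, h1, h3, h⟩ |
    ⟨W, h1, h3, h4, -, h⟩ | ⟨v, h1, -⟩ | ⟨t, k, D, -, h1, h3, h⟩ | ⟨k, D, -, h1, -⟩ | ⟨r, K, -, h1, h3, h4, h5, -, h⟩ |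
    ⟨K, -, h1, -⟩ | ⟨n₁, n₂, e, P, f₁, f₂, -, -, -, h1, h3, h4, -⟩ | ⟨n₁, n₂, e, P, f₁, f₂, -, h1, h3, -, h4, -⟩ |
    ⟨F₀, r, P, ζ, -, h1, h3, h4, h5, h⟩ | ⟨k, t, h1, h3, h4, h5, -⟩ | ⟨k, t, e, P, f₁, -, -, h1, h3, h4, h5, h6, h⟩ | h
  · exact .inl ⟨W, h1, h3, H7.eq_inf_of_max hH h
      (H8.omega_not_le_subspaceStabilizer hQ (by omega) h1 (Asch.ts_ne_top hQ h3))⟩
  · exact .inr (.inl (Asch.exists_even_nondeg hQ (by omega) ho hH h1 h3 h4 h))
  · exact absurd h1 h2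
  · have h4 := (Asch.mul_eq_card_of_decomp h3.decomp.decomp).trans hn
    have h5 := H7.eq_inf_of_max hH h (H8.omega_not_le_decompositionStabilizer hQ (by omega) h3.decomp.decomp)
    rcases h1 with h1 | ⟨rfl, h1, -⟩
    · obtain ⟨rfl, rfl⟩ := hp _ _ h3.decomp.decomp.two_le h1 h4
      exact .inr (.inr (.inr (.inl ⟨H2.Cases.five_le_of_odd hodd
        ((Asch.decomp_excl hQ (by omega) (h5 ▸ hH) h3).2.1 rfl), D, h3, h5⟩)))
    obtain rfl : t = 9 := by omega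
    exact .inr (.inr (.inl ⟨h1, D, h3, h5⟩))
  · have := Asch.mul_eq_card_of_decomp h1; omega
  · obtain rfl : r = 3 := (Nat.prime_dvd_prime_iff_eq h1 Nat.prime_three).1
      (h1.dvd_of_dvd_pow (n := 2) (by simpa using Asch.dvd_card_of_field h4))
    exact .inr (.inr (.inr (.inr (.inl ⟨K, h4, h5, H7.eq_inf_of_max hH h
      (H8.omega_not_le_subalgebraNormalizer hQ (by omega) h4 (by omega))⟩))))
  · have := Asch.dvd_card_of_field h1; omega
  · obtain ⟨rfl, rfl⟩ := hp n₁ n₂ (by omega) (by omega) (by simpa using (Fintype.card_congr e).symm.trans hn)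
    exact absurd (h4 rfl) (by decide)
  · obtain ⟨rfl, rfl⟩ := hp n₁ n₂ (by omega) (by omega) (by simpa using (Fintype.card_congr e).symm.trans hn)
    exact absurd (Asch.even_card_of_symplectic h4) (by simp; decide)
  · obtain ⟨P', h6, h7⟩ := Asch.exists_rational_one (Form.quadPQ_nondeg hQ) ho h1 h3
      (Asch.over_gram_quadFormOdd 4 F₀) h4 h5
    exact .inr (.inr (.inr (.inr (.inr (.inl ⟨F₀, r, P', h1, h3, h6, H7.eq_inf_of_max hH (h7 ▸ h)
      (H8.omega_not_le_subfieldSubgroup hQ (by omega) (Asch.ne_top_of_card h1.one_lt h3) _)⟩)))))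
  · exact absurd (h5 ▸ h4.pow_of_ne_zero (by omega)) (Nat.not_even_iff_odd.2 ho)
  · obtain ⟨rfl, rfl⟩ := H7.pow_eq_small h1 h3 (by simpa using (Fintype.card_congr e).symm.trans hn : k ^ t = 9)
      (by omega)
    exact .inr (.inr (.inr (.inr (.inr (.inr (.inl ⟨H2.Cases.five_le_of_odd hodd fun h0 => h4 ⟨h0, rfl⟩, e, P, f₁,
      h5, h6, H7.eq_inf_of_max hH h (H8.omega_not_le_tensorWreathSubgroup hQ (by omega) (by omega) h3 e P)⟩))))))
  · exact .inr (.inr (.inr (.inr (.inr (.inr (.inr h))))))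

end Cfsg.Agent.S5835
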