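import Cfsg.Statements.S5858
import Cfsg.Agent.H4.Fr5
import Cfsg.Agent.H8.Plane
import Cfsg.Agent.H8.Subfield

set_option autoImplicit false
open Cfsg

namespace Cfsg.Agent.S5858

/-- Maximal subgroups of Ω_11(q) of geometric type, q odd. Let F be a finite field of odd order q, Q the standard quadratic form x₀² + Σ x_i y_i on F^11 (coordinates Unit ⊕ (Fin 5 ⊕ Fin 5)), and Ω = Ω_11(q) the commutator subgroup of its isometry group, inside GL_11(F). Each of the following, intersected with Ω, is a maximal subgroup of Ω: (1) the stabiliser of any non-zero subspace on which Q vanishes identically (totally singular 1- to 5-spaces); (2) the stabiliser of any non-zero even-dimensional subspace W (dimension 2 to 10) on which the polar form of Q is non-degenerate (equivalently of its odd-dimensional orthogonal complement), except when q = 3 and W is a 2-space containing a non-zero singular vector (a plus-type plane); (3) for q = p prime, the stabiliser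 of any decomposition of F^11 into eleven pairwise orthogonal, pairwise Q-isometric non-degenerate 1-spaces; (4) every subfield group for a subfield F₀ with |F| = |F₀|^r, r prime, whose F₀-structure carries Q. -/
theorem result {F : Type*} [Field F] [Fintype F] (hodd : Odd (Fintype.card F)) :
    (∀ W : Submodule F (Unit ⊕ (Fin 5 ⊕ Fin 5) → F), W ≠ ⊥ → Cfsg.Geo.IsTotallySingularQuad (Cfsg.quadFormOdd 5 F) W → Cfsg.Geo.IsMaximalIn (Cfsg.Geo.omegaGL (Cfsg.quadFormOdd 5 F)) (Cfsg.Geo.subspaceStabilizer W ⊓ Cfsg.Geo.omegaGL (Cfsg.quadFormOdd 5 F))) ∧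
    (∀ W : Submodule F (Unit ⊕ (Fin 5 ⊕ Fin 5) → F), W ≠ ⊥ → Even (Module.finrank F W) → Cfsg.Geo.IsNondegenerateOn (QuadraticMap.polar (Cfsg.quadFormOdd 5 F)) W → ¬ (Fintype.card F = 3 ∧ Module.finrank F W = 2 ∧ Cfsg.Geo.IsPlusTypeOn (Cfsg.quadFormOdd 5 F) W) → Cfsg.Geo.IsMaximalIn (Cfsg.Geo.omegaGL (Cfsg.quadFormOdd 5 F)) (Cfsg.Geo.subspaceStabilizer W ⊓ Cfsg.Geo.omegaGL (Cfsg.quadFormOdd 5 F))) ∧
    ((Fintype.card F).Prime → ∀ D : Fin 11 → Submodule F (Unit ⊕ (Fin 5 ⊕ Fin 5) → F), Cfsg.Geo.IsOrthogonalMDecomposition (Cfsg.quadFormOdd 5 F) 1 D → Cfsg.Geo.IsMaximalIn (Cfsg.Geo.omegaGL (Cfsg.quadFormOdd 5 F)) (Cfsg.Geo.decompositionStabilizer D ⊓ Cfsg.Geo.omegaGL (Cfsg.quadFormOdd 5 F))) ∧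
    (∀ (F₀ : Subfield F) (r : ℕ) (P : Matrix.GeneralLinearGroup (Unit ⊕ (Fin 5 ⊕ Fin 5)) F), r.Prime → Fintype.card F = Nat.card F₀ ^ r → Cfsg.Geo.IsQuadFormRationalStructure (Cfsg.quadFormOdd 5 F) F₀ P → Cfsg.Geo.IsMaximalIn (Cfsg.Geo.omegaGL (Cfsg.quadFormOdd 5 F)) (Cfsg.Geo.subfieldSubgroup F₀ P ⊓ Cfsg.Geo.omegaGL (Cfsg.quadFormOdd 5 F))) := by
  have h2 := H8.two_ne_zero_of_odd hodd
  refine ⟨?_, ?_, ?_, fun F₀ r P hr hcard hP => H8.subfield_max (H8.quadFormOdd_nondeg 5 h2) (by simp) hr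
    hcard P one_ne_zero (by simpa using hP)⟩
  all_goals
    obtain ⟨Q, hQ, hN⟩ := H8.exists_quadraticForm (H8.quadFormOdd_nondeg (F := F) 5 h2)
    rw [← hQ]
    have hd := H8.finrank_odd_space (F := F) 5
  · intro W hW0 hW
    rw [H8.omegaGL_eq, H8.subspaceStabilizer_eq, ← H8.pull_inf]
    exact H8.isMaximalIn_pull (H8.parabolic_max hN (by omega) hW0 hW fun h => by omega)
  · intro W hW0 hev hW hex
    rw [H8.omegaGL_eq, H8.subspaceStabilizer_eq, ← H8.pull_inf]
    have hp := hN.finrank_perp W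
    obtain ⟨k, hk⟩ := hev
    obtain ⟨j, hj⟩ := hodd
    have h1 : 1 < Fintype.card F := Fintype.one_lt_card
    refine H8.isMaximalIn_pull (H8.nondeg_max' hN (by omega) (H8.ndOn_of_isNondegenerateOn hW) hW0
      ?_ (fun g _ h => ?_) ?_ ?_)
    · rintro rfl
      rw [finrank_top] at hk; omega
    · rw [← h, LinearEquiv.finrank_map_eq] at hp; omega
    · rintro ⟨h1, h2, h3⟩
      rw [Nat.card_eq_fintype_card] at h1
      exact hex ⟨by omega, h2, (H8.isPlusTypeOn_plane h2).2 h3⟩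
    · rintro ⟨-, h2, -⟩
      omega
  · intro hp D hD
    exact H4.Fr.geo_frame hD (by rwa [Nat.card_eq_fintype_card]) h2 (by simp) (Or.inr (by simp))

end Cfsg.Agent.S5858
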