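import Cfsg.Statements.S5859
import Cfsg.Agent.Asch.OMax0

set_option autoImplicit false
open Cfsg

namespace Cfsg.Agent.S5859

/-- Every maximal subgroup of Ω_11(q), q odd, is of one of the listed geometric types or lies in the residual class. Let F be a finite field of odd order q, Q the standard quadratic form x₀² + Σ x_i y_i on F^11 (coordinates Unit ⊕ (Fin 5 ⊕ Fin 5)), Ω the commutator subgroup of its isometry group, and H a maximal subgroup of Ω (inside GL_11(F)). Then H is the intersection with Ω of one of: the stabiliser of a non-zero totally singular subspace; the stabiliser of a non-zero non-degenerate subspace of even dimension (not a plus-type plane when q = 3); for q prime, the stabiliser of a decomposition into eleven pairwise orthogonal, pairwise isometric non-degenerate 1-spaces; a subfield group (|F| = |F₀|^r, r prime) whose F₀-structure carries Q — or else H lies in the residual class of the orthogonal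 case (modulo scalars H is almost simple, with absolutely irreducible perfect socle preimage realisable over no proper subfield and fixing no non-degenerate unitary form). -/
theorem result {F : Type*} [Field F] [Fintype F] (hodd : Odd (Fintype.card F)) (H : Subgroup (Matrix.GeneralLinearGroup (Unit ⊕ (Fin 5 ⊕ Fin 5)) F)) (hH : Cfsg.Geo.IsMaximalIn (Cfsg.Geo.omegaGL (Cfsg.quadFormOdd 5 F)) H) :
    (∃ W : Submodule F (Unit ⊕ (Fin 5 ⊕ Fin 5) → F), W ≠ ⊥ ∧ Cfsg.Geo.IsTotallySingularQuad (Cfsg.quadFormOdd 5 F) W ∧ H = Cfsg.Geo.subspaceStabilizer W ⊓ Cfsg.Geo.omegaGL (Cfsg.quadFormOdd 5 F)) ∨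
    (∃ W : Submodule F (Unit ⊕ (Fin 5 ⊕ Fin 5) → F), W ≠ ⊥ ∧ Even (Module.finrank F W) ∧ Cfsg.Geo.IsNondegenerateOn (QuadraticMap.polar (Cfsg.quadFormOdd 5 F)) W ∧ ¬ (Fintype.card F = 3 ∧ Module.finrank F W = 2 ∧ Cfsg.Geo.IsPlusTypeOn (Cfsg.quadFormOdd 5 F) W) ∧ H = Cfsg.Geo.subspaceStabilizer W ⊓ Cfsg.Geo.omegaGL (Cfsg.quadFormOdd 5 F)) ∨
    ((Fintype.card F).Prime ∧ ∃ D : Fin 11 → Submodule F (Unit ⊕ (Fin 5 ⊕ Fin 5) → F), Cfsg.Geo.IsOrthogonalMDecomposition (Cfsg.quadFormOdd 5 F) 1 D ∧ H = Cfsg.Geo.decompositionStabilizer D ⊓ Cfsg.Geo.omegaGL (Cfsg.quadFormOdd 5 F)) ∨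
    (∃ (F₀ : Subfield F) (r : ℕ) (P : Matrix.GeneralLinearGroup (Unit ⊕ (Fin 5 ⊕ Fin 5)) F), r.Prime ∧ Fintype.card F = Nat.card F₀ ^ r ∧ Cfsg.Geo.IsQuadFormRationalStructure (Cfsg.quadFormOdd 5 F) F₀ P ∧ H = Cfsg.Geo.subfieldSubgroup F₀ P ⊓ Cfsg.Geo.omegaGL (Cfsg.quadFormOdd 5 F)) ∨
    Cfsg.Geo.InOrthogonalResidualClass H := by
  have h2 := Asch.odd_card_iff.1 hodd
  have hQ := Form.isNondeg_quadFormOdd 5 F h2
  have hn : Fintype.card (Unit ⊕ (Fin 5 ⊕ Fin 5)) = 11 := by simp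
  have ho : Odd (Fintype.card (Unit ⊕ (Fin 5 ⊕ Fin 5))) := by rw [hn]; decide
  have hp : ∀ a b : ℕ, 2 ≤ a → 2 ≤ b → a * b ≠ 11 := fun a b ha hb h =>
    Nat.not_prime_mul (by omega) (by omega) (h ▸ by norm_num : (a * b).Prime)
  rcases Asch.orthCase (Form.quadPQ_nondeg hQ) (by omega) (Asch.max_le_iso hQ hH) with ⟨W, h1, h3, h⟩ |
    ⟨W, h1, h3, h4, -, h⟩ | ⟨v, h1, -⟩ | ⟨t, k, D, -, h1, h3, h⟩ | ⟨k, D, -, h1, -⟩ | ⟨r, K, -, h1, h3, h4, -⟩ |
    ⟨K, -, h1, -⟩ | ⟨n₁, n₂, e, P, f₁, f₂, -, -, -, h1, h3, -⟩ | ⟨n₁, n₂, e, P, f₁, f₂, -, h1, h3, -⟩ |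
    ⟨F₀, r, P, ζ, -, h1, h3, h4, h5, h⟩ | ⟨k, t, h1, h3, -, h4, -⟩ | ⟨k, t, e, P, f₁, -, -, h1, h3, -⟩ | h
  · exact .inl ⟨W, h1, h3, H7.eq_inf_of_max hH h
      (H8.omega_not_le_subspaceStabilizer hQ (by omega) h1 (Asch.ts_ne_top hQ h3))⟩
  · exact .inr (.inl (Asch.exists_even_nondeg hQ (by omega) ho hH h1 h3 h4 h))
  · exact absurd h1 h2
  · have h4 := (Asch.mul_eq_card_of_decomp h3.decomp.decomp).trans hn
    rcases h1 with h1 | ⟨rfl, h1, -⟩
    · exact absurd h4 (hp _ _ h3.decomp.decomp.two_le h1)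
    obtain rfl : t = 11 := by omega
    exact .inr (.inr (.inl ⟨h1, D, h3, H7.eq_inf_of_max hH h
      (H8.omega_not_le_decompositionStabilizer hQ (by omega) h3.decomp.decomp)⟩))
  · have := Asch.mul_eq_card_of_decomp h1; omega
  · exact absurd ((Nat.prime_dvd_prime_iff_eq h1 (by rw [hn]; norm_num)).1 (Asch.dvd_card_of_field h4)) h3
  · have := Asch.dvd_card_of_field h1; omega
  · exact absurd (by simpa using (Fintype.card_congr e).symm.trans hn) (hp n₁ n₂ (by omega) (by omega))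
  · exact absurd (by simpa using (Fintype.card_congr e).symm.trans hn) (hp n₁ n₂ (by omega) (by omega))
  · obtain ⟨P', h6, h7⟩ := Asch.exists_rational_one (Form.quadPQ_nondeg hQ) ho h1 h3
      (Asch.over_gram_quadFormOdd 5 F₀) h4 h5
    exact .inr (.inr (.inr (.inl ⟨F₀, r, P', h1, h3, h6, H7.eq_inf_of_max hH (h7 ▸ h)
      (H8.omega_not_le_subfieldSubgroup hQ (by omega) (Asch.ne_top_of_card h1.one_lt h3) _)⟩)))
  · exact absurd (h4.symm.trans hn) fun h => Nat.Prime.not_prime_pow h3 (h ▸ by norm_num : (k ^ t).Prime)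
  · exact absurd (by simpa using (Fintype.card_congr e).symm.trans hn : k ^ t = 11)
      fun h => Nat.Prime.not_prime_pow h3 (h ▸ by norm_num : (k ^ t).Prime)
  · exact .inr (.inr (.inr (.inr h)))

end Cfsg.Agent.S5859
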