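import Cfsg.Statements.S5876
import Cfsg.Agent.H2.NormalField
import Cfsg.Agent.H2.SolvClass2

set_option autoImplicit false
open Cfsg

namespace Cfsg.Agent.S5876

/-- Fixed-point spaces in primitive soluble linear groups. Let F be a finite field and G a soluble subgroup of GL_n(F) that acts irreducibly on F^n and primitively (G preserves no decomposition of F^n into two or more independent subspaces of equal dimension). Then every non-identity element g of G has fixed-point space {v : g v = v} of dimension at most 3n/4. -/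
theorem result {F : Type*} [Field F] [Fintype F] {n : ℕ} (G : Subgroup (Matrix.GeneralLinearGroup (Fin n) F)) (hsol : IsSolvable G) (hirr : Cfsg.Geo.ActsIrreducibly (Cfsg.Geo.matrixSet G)) (hprim : ∀ (m t : ℕ) (D : Fin t → Submodule F (Fin n → F)), 2 ≤ t → Cfsg.Geo.IsMDecomposition m D → ¬ G ≤ Cfsg.Geo.decompositionStabilizer D) (g : Matrix.GeneralLinearGroup (Fin n) F) (hg : g ∈ G) (hg1 : g ≠ 1) :
    4 * Module.finrank F (Module.End.eigenspace (Matrix.toLin' (g : Matrix (Fin n) (Fin n) F)) 1) ≤ 3 * n := by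
  classical
  open Cfsg.Agent.H2.NormalField Cfsg.Agent.H2.SolvClass2 in
  have : Group.IsSolvable G := hsol
  let ρ : G →* Module.End F (Fin n → F) :=
    ((Matrix.toLinAlgEquiv' : Matrix (Fin n) (Fin n) F ≃ₐ[F] Module.End F (Fin n → F)) :
      Matrix (Fin n) (Fin n) F →* Module.End F (Fin n → F)).comp
      ((Units.coeHom _).comp G.subtype)
  have hρ : ∀ x : G, ρ x = Matrix.toLin' ((x : Matrix.GeneralLinearGroup (Fin n) F) :
    Matrix (Fin n) (Fin n) F) := fun x => rfl
  have hρinj : Function.Injective ρ := by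
    intro x y hxy
    rw [hρ, hρ] at hxy
    exact Subtype.ext (Units.ext (Matrix.toLin'.injective hxy))
  obtain ⟨A, N, hAn, hAc, hNn, hAN, hNC, hNN, hCN⟩ := exists_class_two (G := G)
  have hfield : ∀ b ∈ (alg ρ A).toSubmonoid, ∀ v, b v = 0 → b = 0 ∨ v = 0 := by
    rcases injective_or_decomp ρ (alg ρ A).toSubmonoid (alg_comm ρ hAc) (alg_norm ρ hAn)
      (fun W hW => hirr W (by rintro _ ⟨x, hx, rfl⟩; exact hW ⟨x, hx⟩)) with h | h
    · exact h
    · obtain ⟨t, m, D, ht, hm, hfr, hind, htop, hperm⟩ := h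
      exact absurd (fun x hx => hperm ⟨x, hx⟩) (hprim m t D ht ⟨ht, hm, hfr, hind, htop⟩)
  have hA : ∀ a ∈ A, a ≠ 1 → Module.finrank F (Module.End.eigenspace (ρ a) 1) = 0 := by
    intro a ha ha1
    rw [Submodule.finrank_eq_zero, eq_bot_iff]
    intro v hv
    rw [Module.End.mem_eigenspace_iff, one_smul] at hv
    rcases hfield (ρ a - 1) ((alg ρ A).sub_mem (mem_alg ρ ha) (alg ρ A).one_mem) v (by simp [hv]) with h | h
    · exact absurd (hρinj (by rw [map_one]; exact sub_eq_zero.mp h)) ha1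
    · exact h
  have hn : Module.finrank F (Fin n → F) = n := by simp
  have hstep : ∀ x : G, x ∉ A → ∃ w ∈ N, x⁻¹ * (w * x * w⁻¹) ≠ 1 := by
    intro x hx
    by_contra h
    push Not at h
    apply hx
    apply hCN
    intro w hw
    have := h w hw
    rw [inv_mul_eq_one] at this
    exact mul_inv_eq_iff_eq_mul.mp this.symm
  have hN : ∀ y ∈ N, y ≠ 1 → 2 * Module.finrank F (Module.End.eigenspace (ρ y) 1) ≤ n := by
    intro y hy hy1
    by_cases hyA : y ∈ A
    · rw [hA y hyA hy1]; omega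
    obtain ⟨w, hw, hw1⟩ := hstep y hyA
    have := two_mul_finrank_fix_le' ρ 1 y w
    rw [hA _ ?_ hw1, hn] at this
    · exact this
    · have := hNN (Subgroup.commutator_mem_commutator (inv_mem hy) hw)
      rw [commutatorElement_def, inv_inv] at this
      simpa [mul_assoc] using this
  rw [← hρ ⟨g, hg⟩]
  have hg1' : (⟨g, hg⟩ : G) ≠ 1 := fun h => hg1 (congrArg Subtype.val h)
  by_cases hgA : (⟨g, hg⟩ : G) ∈ A
  · rw [hA _ hgA hg1']; omega
  obtain ⟨w, hw, hw1⟩ := hstep _ hgA
  have h1 := two_mul_finrank_fix_le' ρ 1 ⟨g, hg⟩ w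
  have h2 := hN _ ?_ hw1
  · rw [hn] at h1; omega
  · have := mul_mem (hNn.conj_mem w hw (⟨g, hg⟩ : G)⁻¹) (inv_mem hw)
    simpa [mul_assoc] using this

end Cfsg.Agent.S5876
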