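import Cfsg.Statements.S5877
import Cfsg.Agent.H2.ElA

set_option autoImplicit false
open Cfsg

namespace Cfsg.Agent.S5877

/-- Eigenspaces of elements normalising an absolutely irreducible extraspecial group. Let F be a finite field, r a prime, and R ≤ GL_n(F) an absolutely irreducible extraspecial r-group (an r-group whose centre equals its derived subgroup and has order r) of exponent r or 4. Let g ∈ GL_n(F) normalise the product of R with the scalar matrices, have prime order ϖ and not be scalar, and let W be the eigenspace of g for any c ∈ F (W may be the zero subspace). Then dim W ≤ 3n/4 if ϖ = 2, dim W ≤ 2n/3 if ϖ = 3, and dim W ≤ n/2 if ϖ > 3; moreover if ϖ = 3 and 3 does not divide n then dim W ≤ n/2. -/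
theorem result {F : Type*} [Field F] [Fintype F] {n r ϖ : ℕ} (R : Subgroup (Matrix.GeneralLinearGroup (Fin n) F)) (hr : r.Prime) (hR : IsPGroup r R) (hZ : Nat.card (Subgroup.center R) = r) (hext : commutator R = Subgroup.center R) (hexp : Monoid.exponent R = r ∨ Monoid.exponent R = 4) (hirr : Cfsg.Geo.ActsAbsolutelyIrreducibly (Cfsg.Geo.matrixSet R)) (g : Matrix.GeneralLinearGroup (Fin n) F) (hg : g ∈ Cfsg.Geo.subgroupNormalizer (R ⊔ Cfsg.Geo.scalars (Fin n) F)) (hϖ : ϖ.Prime) (hord : orderOf g = ϖ) (hns : g ∉ Cfsg.Geo.scalars (Fin n) F) (c : F) :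
    (ϖ = 2 → 4 * Module.finrank F (Module.End.eigenspace (Matrix.toLin' (g : Matrix (Fin n) (Fin n) F)) c) ≤ 3 * n) ∧
    (ϖ = 3 → 3 * Module.finrank F (Module.End.eigenspace (Matrix.toLin' (g : Matrix (Fin n) (Fin n) F)) c) ≤ 2 * n) ∧
    (3 < ϖ → 2 * Module.finrank F (Module.End.eigenspace (Matrix.toLin' (g : Matrix (Fin n) (Fin n) F)) c) ≤ n) ∧
    (ϖ = 3 → ¬ 3 ∣ n → 2 * Module.finrank F (Module.End.eigenspace (Matrix.toLin' (g : Matrix (Fin n) (Fin n) F)) c) ≤ n) := by
  rcases n with _ | n
  · exact absurd (by rw [Subsingleton.elim g 1]; exact one_mem _) hns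
  have hf := Asch.full_iff_absIrr.2 hirr
  have hc : Asch.NCore R r := H2.El.ncore_of_comm hr hf hext.le (fun x hx => by
    rw [hext] at hx
    simpa [hZ] using congrArg Subtype.val (pow_card_eq_one' (x := (⟨x, hx⟩ : Subgroup.center R)))) fun h => by
      rw [← hext, (commutator_eq_bot_iff R).2 h, Subgroup.card_bot] at hZ
      exact hr.ne_one hZ.symm
  have h := H2.El.nc_sup hc hf
  have h1 := h.eig_bound hg hns c
  have h2 := fun h2 h3 => h.half_bound hg hns hϖ h2 (by rw [← hord, pow_orderOf_eq_one]; exact one_mem _) h3 c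
  have h3 := hr.two_le
  simp only [Fintype.card_fin, H2.El.eig] at h1 h2
  refine ⟨fun _ => by nlinarith, fun e => ?_, fun e => h2 (by omega) (by omega), fun e e' => h2 (by omega) fun e'' _ => ?_⟩
  · by_cases e' : r = 3
    · subst e'; omega
    · have := h2 (by omega) (by omega); omega
  · obtain ⟨m, h4, h5⟩ := hc.exists_card hf
    rw [Fintype.card_fin] at h5
    exact e' (by rw [h5, ← e'', e]; exact dvd_pow_self 3 (by omega))

end Cfsg.Agent.S5877
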