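import Cfsg.Statements.S5942
import Cfsg.Agent.H4.Max2

set_option autoImplicit false
open Cfsg

namespace Cfsg.Agent.S5942

/-- Let K and F be finite fields of odd characteristic with #F = (#K)^r for an odd prime r. Then PSL_2(F) has a maximal subgroup isomorphic to PSL_2(K). -/
theorem result {F K : Type*} [Field F] [Fintype F] [Field K] [Fintype K] (q r : ℕ) (hK : Fintype.card K = q) (hF : Fintype.card F = q ^ r) (hq : Odd q) (hr : r.Prime) (hr2 : r ≠ 2) : ∃ H : Subgroup (Matrix.ProjectiveSpecialLinearGroup (Fin 2) F), IsCoatom H ∧ Nonempty (H ≃* Matrix.ProjectiveSpecialLinearGroup (Fin 2) K) := by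
  open Cfsg.Agent.H4 Cfsg.Agent.H4.Mob Cfsg.Agent.H4.MobCard Cfsg.Agent.H4.Bar Cfsg.Agent.H4.Pair Cfsg.Agent.H4.Dick Cfsg.Agent.H4.Quat Cfsg.Agent.H4.Subf Cfsg.Agent.H4.Max in
  rw [← Nat.card_eq_fintype_card] at hF hK
  have h2 : (2 : F) ≠ 0 := two_ne_of_odd (hF ▸ hq.pow)
  obtain ⟨E, hE, -⟩ := exists_subfield hF
  have := Finite.one_lt_card (α := K)
  have ho := Nat.odd_iff.1 hq
  rw [← hE] at hF
  have h := mx_sub hr hF (by omega)
  rw [LS_inf_PGsub h2 (hr.odd_of_ne_two hr2) hF] at h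
  obtain ⟨e⟩ := nonempty_ringEquiv (hE.trans hK.symm)
  exact h.exists_coatom ⟨(psSubEquiv E).symm.trans (psCongr e)⟩

end Cfsg.Agent.S5942
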