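import Cfsg.Statements.S5943
import Cfsg.Agent.H4.Max2

set_option autoImplicit false
open Cfsg

namespace Cfsg.Agent.S5943

/-- Let K and F be finite fields of characteristic 2 with #K = q > 2 and #F = q^r for a prime r. Then PSL_2(F) has a maximal subgroup isomorphic to PSL_2(K) (which equals PGL_2(K) in characteristic 2). -/
theorem result {F K : Type*} [Field F] [Fintype F] [Field K] [Fintype K] (q r : ℕ) (hK : Fintype.card K = q) (hF : Fintype.card F = q ^ r) (hq : Even q) (hq2 : q ≠ 2) (hr : r.Prime) : ∃ H : Subgroup (Matrix.ProjectiveSpecialLinearGroup (Fin 2) F), IsCoatom H ∧ Nonempty (H ≃* Matrix.ProjectiveSpecialLinearGroup (Fin 2) K) := by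
  open Cfsg.Agent.H4 Cfsg.Agent.H4.Mob Cfsg.Agent.H4.MobCard Cfsg.Agent.H4.Bar Cfsg.Agent.H4.Pair Cfsg.Agent.H4.Dick Cfsg.Agent.H4.Quat Cfsg.Agent.H4.Subf Cfsg.Agent.H4.Max in
  rw [← Nat.card_eq_fintype_card] at hF hK
  obtain ⟨E, hE, -⟩ := exists_subfield hF
  have := Finite.one_lt_card (α := K)
  have h1 := LS_eq_top F (hF ▸ hq.pow_of_ne_zero hr.ne_zero)
  have h3 := LS_eq_top K (hK ▸ hq)
  rw [← hE] at hF
  have h := mx_sub hr hF (by omega)
  obtain ⟨e⟩ := nonempty_ringEquiv (hE.trans hK.symm)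
  exact h.exists_coatom ⟨(MulEquiv.subgroupCongr (by rw [h1, top_inf_eq])).trans
    (((pgSubEquiv E).symm.trans (pgCongr e)).trans
      ((psEquiv K).trans ((MulEquiv.subgroupCongr h3).trans Subgroup.topEquiv)).symm)⟩

end Cfsg.Agent.S5943
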