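import Cfsg.Statements.S5945
import Cfsg.Agent.H3.SymSix

set_option autoImplicit false
open Cfsg

namespace Cfsg.Agent.S5945


/-- The symmetric group S_6 has exactly 12 subgroups of index 6; each of them is isomorphic to S_5, and at least one of them is not the stabilizer of any point. -/
theorem result : Nat.card {H : Subgroup (Equiv.Perm (Fin 6)) // H.index = 6} = 12 ∧ (∀ H : Subgroup (Equiv.Perm (Fin 6)), H.index = 6 → Nonempty (H ≃* Equiv.Perm (Fin 5))) ∧ ∃ H : Subgroup (Equiv.Perm (Fin 6)), H.index = 6 ∧ ∀ a : Fin 6, H ≠ MulAction.stabilizer (Equiv.Perm (Fin 6)) a := by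
  have h6 : Nat.card (Fin 6) = 6 := by simp
  obtain ⟨φ, h1, h2⟩ := H3.SymSix.exists_outer h6
  have hidx : ∀ a : Fin 6, (MulAction.stabilizer (Equiv.Perm (Fin 6)) a).index = 6 := fun a => by
    rw [MulAction.index_stabilizer_of_transitive, h6]
  have hidx' : ∀ a : Fin 6,
      ((MulAction.stabilizer (Equiv.Perm (Fin 6)) a).comap φ.toMonoidHom).index = 6 := fun a => by
    rw [Subgroup.index_comap_of_surjective _ φ.surjective, hidx]
  have hne : ∀ a b : Fin 6, (MulAction.stabilizer (Equiv.Perm (Fin 6)) a).comap φ.toMonoidHom ≠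
      MulAction.stabilizer (Equiv.Perm (Fin 6)) b := fun a b e =>
    H3.SymSix.stabilizer_not_transitive (by simp) _ (e ▸ h1 a)
  refine ⟨?_, H3.SymSix.nonempty_mulEquiv h6, _, hidx' 0, hne 0⟩
  let f : Fin 6 ⊕ Fin 6 → {H : Subgroup (Equiv.Perm (Fin 6)) // H.index = 6} :=
    Sum.elim (fun a => ⟨_, hidx a⟩) (fun a => ⟨_, hidx' a⟩)
  have hinj := H3.SymSix.stabilizer_injective (α := Fin 6) (by simp)
  have hf : Function.Bijective f := by
    constructor
    · rintro (a | a) (b | b) e
      · rw [hinj (congrArg Subtype.val e)]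
      · exact absurd (congrArg Subtype.val e).symm (hne b a)
      · exact absurd (congrArg Subtype.val e) (hne a b)
      · rw [hinj (Subgroup.comap_injective φ.surjective (congrArg Subtype.val e))]
    · rintro ⟨H, hH⟩
      by_cases ht : MulAction.IsPretransitive H (Fin 6)
      · obtain ⟨b, rfl⟩ := h2 H hH ht
        exact ⟨Sum.inr b, rfl⟩
      · obtain ⟨b, rfl⟩ := H3.SymIndex.eq_stabilizer_of_not_transitive H (hH.trans h6.symm) ht
        exact ⟨Sum.inl b, rfl⟩
  rw [← Nat.card_eq_of_bijective f hf]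
  simp

end Cfsg.Agent.S5945
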