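import Cfsg.Statements.S5949
import Cfsg.Agent.H9.Subsp

set_option autoImplicit false
set_option linter.unusedVariables false
open scoped MatrixGroups
open Cfsg

namespace Cfsg.Agent.S5949

open Module Cfsg.Agent.H9 Cfsg.Agent.H9.OrdR Cfsg.Agent.H9.Subsp Cfsg.Agent.H9.Arith

/-- Elements of prime order of PSL_n(q) with no fixed `m`-space. Here `T = PSL_n(F)` for a field `F` with `q = p^f` elements (`n ≥ 2`, `(n, q) ≠ (2, 2), (2, 3)`); an element of `T` of prime order `r` is represented by a matrix `x` of determinant 1 with `x^r` scalar and `x` not scalar; `i` denotes the multiplicative order of `q` modulo `r` (when `r ≠ p`), and `(a)_r` the `r`-part of `a`. Let `1 ≤ m ≤ n/2` and let `r` be a prime dividing the number of `m`-dimensional subspaces of `F^n`. Then every element of `T` of order `r` fixes some `m`-dimensional subspace (the action on `m`-spaces is `r`-elusive) if and only if `r ≠ p` and either (i) `i = 1` and (`r ∣ m`, or `(q−1)_r ≥ (n)_r`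 where in addition `q ≡ 1 (mod 4)` is required when `r = 2` and `n` is even), or (ii) `2 ≤ i ≤ m` and `n mod i ≥ m mod i`. -/
theorem result {F : Type*} [Field F] [Fintype F] {p : ℕ} [Fact p.Prime] [CharP F p] {q : ℕ} (hq : Fintype.card F = q)
    (n m : ℕ) (hn : 2 ≤ n) (hT : (n, q) ≠ (2, 2) ∧ (n, q) ≠ (2, 3)) (hm : 1 ≤ m) (hmn : 2 * m ≤ n)
    (r : ℕ) [Fact r.Prime] (hrΩ : r ∣ Nat.card {W : Submodule F (Fin n → F) // Module.finrank F ↥W = m}) :
    (∀ x : Matrix.SpecialLinearGroup (Fin n) F,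
      (∃ c : F, ((x ^ r : Matrix.SpecialLinearGroup (Fin n) F) : Matrix (Fin n) (Fin n) F) = c • (1 : Matrix (Fin n) (Fin n) F)) →
      (∀ c : F, (x : Matrix (Fin n) (Fin n) F) ≠ c • (1 : Matrix (Fin n) (Fin n) F)) →
      ∃ W : Submodule F (Fin n → F), Module.finrank F ↥W = m ∧ W.map (Matrix.toLin' (x : Matrix (Fin n) (Fin n) F)) ≤ W) ↔
    (r ≠ p ∧
      ((orderOf (q : ZMod r) = 1 ∧ (r ∣ m ∨ (padicValNat r n ≤ padicValNat r (q - 1) ∧ (r = 2 → Even n → q % 4 = 1)))) ∨
       (2 ≤ orderOf (q : ZMod r) ∧ orderOf (q : ZMod r) ≤ m ∧ m % orderOf (q : ZMod r) ≤ n % orderOf (q : ZMod r)))) := by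
  have hfr : finrank F (Fin n → F) = n := by simp
  rw [forall_sl_iff r fun f => ∃ W : Submodule F (Fin n → F), finrank F ↥W = m ∧ W.map f ≤ W]
  simp only [map_le_iff]
  have hΩ := Count.exists_dvd_of_dvd_card_subspaces hq (by omega) Fact.out hrΩ
  rw [hfr] at hΩ
  have hrp : r ≠ p := by
    rintro rfl
    obtain ⟨j, hj, h⟩ := hΩ
    exact p_not_dvd_pow_sub_one hq (by omega) h
  constructor
  · intro H
    exact ⟨hrp, nec_sub hq hrp hfr (by omega) hΩ H⟩
  · rintro ⟨-, h⟩ f hd ⟨c, hc⟩ -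
    obtain ⟨U, W, -, h1, h2, -⟩ := suff_compl hq hrp hfr (by omega) (by omega) h f hd hc
    exact ⟨U, h1, h2⟩

end Cfsg.Agent.S5949
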