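import Cfsg.Statements.S5950
import Cfsg.Agent.H9.Subsp
import Cfsg.Agent.H9.Unip

set_option autoImplicit false
set_option linter.unusedVariables false
open scoped MatrixGroups
open Cfsg

namespace Cfsg.Agent.S5950

open Module Cfsg.Agent.H9 Cfsg.Agent.H9.OrdR Cfsg.Agent.H9.Subsp Cfsg.Agent.H9.Arith
  Cfsg.Agent.H9.Unip Cfsg.Agent.H9.Types

/-- Elements of prime order of PSL_n(q) fixing no decomposition `F^n = U ⊕ W` with `dim U = m`. Here `T = PSL_n(F)` for a field `F` with `q = p^f` elements (`n ≥ 2`, `(n, q) ≠ (2, 2), (2, 3)`); an element of `T` of prime order `r` is represented by a matrix `x` of determinant 1 with `x^r` scalar and `x` not scalar; `i` denotes the multiplicative order of `q` modulo `r` (when `r ≠ p`), and `(a)_r` the `r`-part of `a`. Let `n ≥ 3`, `1 ≤ m < n/2`, and let `r` be a prime dividing the number of such decompositions (unordered pairs `{U, W}` of complementary subspaces with `dim U = m`; since `m ≠ n − m` these are the ordered pairs with `dim U = m`). Then every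 element of `T` of order `r` fixes such a pair (fixes both `U` and `W` for some complementary `U, W` with `dim U = m`) if and only if one of: (i) `r = p > 2` and every partition of `n` into parts of size at most `p` contains, as a sub-multiset, a partition of `m`; (ii) `r = p = 2` and `n` is odd or `m` is even; (iii) `r ≠ p`, `i = 1`, and `r ∣ m` or `(q−1)_r ≥ (n)_r` (with `q ≡ 1 (mod 4)` required when `r = 2` and `n` is even); (iv) `r ≠ p`, `2 ≤ i ≤ m` and `n mod i ≥ m mod i`. -/
theorem result {F : Type*} [Field F] [Fintype F] {p : ℕ} [Fact p.Prime] [CharP F p] {q : ℕ} (hq : Fintype.card F = q)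
    (n m : ℕ) (hn : 3 ≤ n) (hm : 1 ≤ m) (hmn : 2 * m < n)
    (r : ℕ) [Fact r.Prime]
    (hrΩ : r ∣ Nat.card {P : Submodule F (Fin n → F) × Submodule F (Fin n → F) // IsCompl P.1 P.2 ∧ Module.finrank F ↥P.1 = m}) :
    (∀ x : Matrix.SpecialLinearGroup (Fin n) F,
      (∃ c : F, ((x ^ r : Matrix.SpecialLinearGroup (Fin n) F) : Matrix (Fin n) (Fin n) F) = c • (1 : Matrix (Fin n) (Fin n) F)) →
      (∀ c : F, (x : Matrix (Fin n) (Fin n) F) ≠ c • (1 : Matrix (Fin n) (Fin n) F)) →
      ∃ U W : Submodule F (Fin n → F), IsCompl U W ∧ Module.finrank F ↥U = m ∧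
        U.map (Matrix.toLin' (x : Matrix (Fin n) (Fin n) F)) ≤ U ∧ W.map (Matrix.toLin' (x : Matrix (Fin n) (Fin n) F)) ≤ W) ↔
    ((r = p ∧ 2 < p ∧ (∀ μ : Multiset ℕ, (∀ a ∈ μ, 0 < a ∧ a ≤ p) → μ.sum = n → ∃ ν : Multiset ℕ, ν ≤ μ ∧ ν.sum = m)) ∨
     (r = p ∧ p = 2 ∧ (Odd n ∨ Even m)) ∨
     (r ≠ p ∧
      ((orderOf (q : ZMod r) = 1 ∧ (r ∣ m ∨ (padicValNat r n ≤ padicValNat r (q - 1) ∧ (r = 2 → Even n → q % 4 = 1)))) ∨
       (2 ≤ orderOf (q : ZMod r) ∧ orderOf (q : ZMod r) ≤ m ∧ m % orderOf (q : ZMod r) ≤ n % orderOf (q : ZMod r))))) := by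
  have hfr : finrank F (Fin n → F) = n := by simp
  rw [forall_sl_iff r fun f => ∃ U W : Submodule F (Fin n → F), IsCompl U W ∧ finrank F ↥U = m ∧
    U.map f ≤ U ∧ W.map f ≤ W]
  simp only [map_le_iff]
  by_cases hrp : r = p
  · subst hrp
    have key : (∀ f : End F (Fin n → F), LinearMap.det f = 1 → (∃ c : F, f ^ r = c • 1) →
        (∀ c : F, f ≠ c • 1) → ∃ U W : Submodule F (Fin n → F), IsCompl U W ∧ finrank F ↥U = m ∧
        (∀ x ∈ U, f x ∈ U) ∧ ∀ x ∈ W, f x ∈ W) ↔
        (∀ μ : Multiset ℕ, (∀ a ∈ μ, 0 < a ∧ a ≤ r) → μ.sum = n →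
          ∃ ν : Multiset ℕ, ν ≤ μ ∧ ν.sum = m) := by
      constructor
      · intro H μ h1 h2
        by_cases h3 : ∀ e ∈ μ, e = 1
        · exact exists_le_sum_of_ones h3 (by omega)
        push Not at h3
        obtain ⟨e, he, he1⟩ := h3
        obtain ⟨f, h4, h5, h6⟩ := exists_unipotent (F := F) (V := Fin n → F) (p := r)
          (fun e he => (h1 e he).2) (h2.trans hfr.symm)
        obtain ⟨U, W, h7, h8, h9, h10⟩ := H f h5 ⟨1, by simpa using h6⟩
          (not_scalar_of_jordan h4 he (by have := (h1 e he).1; omega))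
        rw [← h8]
        exact exists_le_sum_of_isCompl h4 (fun e he => (h1 e he).1) h7 h9 h10
      · rintro H f - ⟨c, hc⟩ -
        obtain ⟨b, -, hb⟩ := exists_sub_pow_eq_zero hc
        obtain ⟨μ, h1, h2⟩ := exists_hasType_jordan f b hb
        obtain ⟨ν, h3, rfl⟩ := H μ h1 (h2.finrank_jordan.symm.trans hfr)
        exact exists_isCompl_of_le h2 h3
    rw [key]
    have h2r : 2 ≤ r := Nat.Prime.two_le Fact.out
    rcases h2r.eq_or_lt with rfl | h2r
    · simp only [lt_irrefl, false_and, and_false, false_or, true_and, ne_eq, not_true_eq_false,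
        or_false]
      constructor
      · intro H
        by_contra hcon
        push Not at hcon
        obtain ⟨k, hk⟩ := Nat.not_odd_iff_even.mp hcon.1
        obtain ⟨ν, h1, h2⟩ := H (Multiset.replicate k 2)
          (fun a ha => by rw [Multiset.eq_of_mem_replicate ha]; omega) (by simp; omega)
        obtain ⟨j, -, rfl⟩ := Multiset.le_replicate_iff.mp h1
        exact hcon.2 ⟨j, by simp at h2; omega⟩
      · intro H μ h1 h2
        obtain ⟨a, b, rfl⟩ := eq_replicate_add_of_le_two h1
        obtain ⟨d, j, h3, h4, h5⟩ := num1 (i := 2) (n := n) (e := a) (s := b) (m := m) (by omega)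
          (by simp at h2; omega) (by omega) (by
            rcases H with H | H
            · rw [Nat.odd_iff.mp H]; omega
            · rw [Nat.even_iff.mp H]; omega)
        exact ⟨Multiset.replicate d 1 + Multiset.replicate j 2,
          add_le_add ((Multiset.replicate_le_replicate _).mpr h3)
            ((Multiset.replicate_le_replicate _).mpr h4), by simp; omega⟩
    · simp only [h2r, true_and, h2r.ne', false_and, ne_eq, not_true_eq_false, or_false]
  · have hΩ : ∃ j < m, r ∣ q ^ (n - j) - 1 := by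
      rw [Count.card_compl_pairs hq] at hrΩ
      rcases (Nat.Prime.dvd_mul Fact.out).mp hrΩ with h | h
      · have := Count.exists_dvd_of_dvd_card_subspaces hq (by omega) Fact.out h
        rwa [hfr] at this
      · exact absurd (Nat.Prime.dvd_of_dvd_pow Fact.out h) (not_dvd_q hq hrp)
    simp only [hrp, false_and, false_or, ne_eq, not_false_eq_true, true_and]
    constructor
    · intro H
      refine nec_sub hq hrp hfr (by omega) hΩ fun f h1 h2 h3 => ?_
      obtain ⟨U, W, -, h4, h5, -⟩ := H f h1 h2 h3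
      exact ⟨U, h4, h5⟩
    · rintro h f hd ⟨c, hc⟩ -
      exact suff_compl hq hrp hfr (by omega) (by omega) h f hd hc

end Cfsg.Agent.S5950
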