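import Cfsg.Statements.S5952
import Cfsg.Agent.H9.LinBasic

set_option autoImplicit false
open Cfsg

namespace Cfsg.Agent.S5952

open Module Cfsg.Agent.H9.LinBasic

theorem finrank_sup_biSup_modEq {F V : Type*} [Field F] [AddCommGroup V] [Module F V]
    [FiniteDimensional F V] (f : V →ₗ[F] V) {s a : ℕ} (U : Fin s → Submodule F V)
    (hUinv : ∀ j, (U j).map f ≤ U j) (hUdim : ∀ j, Module.finrank F ↥(U j) = a)
    (hUirr : ∀ j, ∀ W : Submodule F V, W ≤ U j → W.map f ≤ W → W = ⊥ ∨ W = U j)
    (W : Submodule F V) (hW : W.map f ≤ W) (S : Finset (Fin s)) :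
    (W ⊔ ⨆ j ∈ S, U j).map f ≤ (W ⊔ ⨆ j ∈ S, U j) ∧
      finrank F ↥(W ⊔ ⨆ j ∈ S, U j) ≡ finrank F W [MOD a] := by
  classical
  induction S using Finset.induction_on with
  | empty =>
    have e : (W ⊔ ⨆ j ∈ (∅ : Finset (Fin s)), U j) = W := by simp
    rw [e]
    exact ⟨hW, Nat.ModEq.refl _⟩
  | insert b S hb ih =>
    have e : (W ⊔ ⨆ j ∈ insert b S, U j) = (W ⊔ ⨆ j ∈ S, U j) ⊔ U b := by
      rw [Finset.iSup_insert]; ac_rfl
    rw [e]
    set T := (W ⊔ ⨆ j ∈ S, U j) with hT
    obtain ⟨ih1, ih2⟩ := ih
    refine ⟨?_, ?_⟩
    · rw [Submodule.map_sup]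
      exact sup_le_sup ih1 (hUinv b)
    · have hinv : (T ⊓ U b).map f ≤ T ⊓ U b :=
        (Submodule.map_inf_le f).trans (inf_le_inf ih1 (hUinv b))
      have hfr := Submodule.finrank_sup_add_finrank_inf_eq T (U b)
      rcases hUirr b _ inf_le_right hinv with h | h
      · rw [h, finrank_bot, add_zero, hUdim] at hfr
        rw [hfr]
        exact (Nat.add_modulus_modEq_iff.mpr ih2)
      · rw [h] at hfr
        rw [Nat.add_right_cancel hfr]
        exact ih2

/-- Which dimensions of invariant subspaces a semisimple linear map has. Let `V` be a finite-dimensional vector space over a field `F` and `f` an invertible semisimple linear map of `V`. Suppose `V` is the internal direct sum of the fixed space `C_V(f)` (the eigenspace for 1) and subspaces `U_1, …, U_s`, each `f`-invariant of dimension `a ≥ 1` on which `f` acts irreducibly (no `f`-invariant subspaces other than 0 and `U_j`). Let `0 < m < dim V` and `ℓ = m mod a`. Then `f` leaves some `m`-dimensional subspace invariant if and only if `dim C_V(f) ≥ m`, or `a ≤ m` and `dim C_V(f) ≥ ℓ`. -/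
theorem result {F V : Type*} [Field F] [AddCommGroup V] [Module F V]
    [FiniteDimensional F V] (f : V →ₗ[F] V) (hf : Function.Bijective f) (hss : Module.End.IsSemisimple f)
    {s a : ℕ} (ha : 1 ≤ a) (U : Fin s → Submodule F V)
    (hUinv : ∀ j, (U j).map f ≤ U j) (hUdim : ∀ j, Module.finrank F ↥(U j) = a)
    (hUirr : ∀ j, ∀ W : Submodule F V, W ≤ U j → W.map f ≤ W → W = ⊥ ∨ W = U j)
    (hdec : DirectSum.IsInternal (fun o : Option (Fin s) => o.elim (Module.End.eigenspace f 1) U))
    (m : ℕ) (hm : 0 < m) (hmV : m < Module.finrank F V) :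
    (∃ W : Submodule F V, Module.finrank F ↥W = m ∧ W.map f ≤ W) ↔
    (m ≤ Module.finrank F ↥(Module.End.eigenspace f 1) ∨
      (a ≤ m ∧ m % a ≤ Module.finrank F ↥(Module.End.eigenspace f 1))) := by
  classical
  set C := Module.End.eigenspace f 1 with hC
  obtain ⟨hind, htop⟩ := (DirectSum.isInternal_submodule_iff_iSupIndep_and_iSup_eq_top _).mp hdec
  have hCfix : ∀ v ∈ C, f v = v := by
    intro v hv
    simpa using Module.End.mem_eigenspace_iff.mp hv
  have hdim : finrank F V = finrank F C + s * a := by
    have := finrank_iSup_of_iSupIndep _ hind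
    rw [htop, finrank_top, Fintype.sum_option] at this
    rw [this]
    congr 1
    exact (Finset.sum_congr rfl (g := fun _ => a) (fun i _ => hUdim i)).trans (by simp)
  constructor
  · rintro ⟨W, hWm, hW⟩
    set g : V →ₗ[F] V := f - LinearMap.id with hg
    have hker : LinearMap.ker g = C := by
      ext v
      rw [LinearMap.mem_ker, hC, Module.End.mem_eigenspace_iff]
      simp [hg, sub_eq_zero]
    set A : Submodule F V := ⨆ j ∈ (Finset.univ : Finset (Fin s)), U j with hA
    have hAinv := (finrank_sup_biSup_modEq f U hUinv hUdim hUirr ⊥ (by simp) Finset.univ)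
    rw [bot_sup_eq, ← hA] at hAinv
    have hrange : ∀ v, g v ∈ A := by
      intro v
      have hv : v ∈ (⊤ : Submodule F V) := trivial
      rw [← htop] at hv
      have hle : (⨆ o : Option (Fin s), o.elim C U) ≤ A.comap g := by
        refine iSup_le fun o => ?_
        cases o with
        | none =>
          intro w hw
          have : g w = 0 := by
            rw [← LinearMap.mem_ker, hker]; exact hw
          simp [this]
        | some j =>
          intro w hw
          have hUA : U j ≤ A := le_iSup₂_of_le (f := fun j (_ : j ∈ Finset.univ) => U j) j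
            (Finset.mem_univ j) le_rfl
          have h1 : f w ∈ U j := hUinv j ⟨w, hw, rfl⟩
          simp only [Submodule.mem_comap, hg, LinearMap.sub_apply, LinearMap.id_apply]
          exact A.sub_mem (hUA h1) (hUA hw)
      exact hle hv
    have hW'inv : (W.map g).map f ≤ W.map g := by
      rintro _ ⟨_, ⟨w, hw, rfl⟩, rfl⟩
      exact ⟨f w, hW ⟨w, hw, rfl⟩, by simp [hg]⟩
    have hW'le : W.map g ≤ A := by
      rintro _ ⟨w, hw, rfl⟩
      exact hrange w
    have h2 := (finrank_sup_biSup_modEq f U hUinv hUdim hUirr (W.map g) hW'inv Finset.univ).2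
    rw [← hA, sup_eq_right.mpr hW'le] at h2
    have h3 : finrank F (W.map g) ≡ 0 [MOD a] := by
      have := hAinv.2
      rw [finrank_bot] at this
      exact h2.symm.trans this
    obtain ⟨j, hj⟩ := (Nat.modEq_zero_iff_dvd).mp h3
    have h4 := finrank_map_add_finrank_inf_ker g W
    rw [hker, hWm, hj] at h4
    have h5 : finrank F ↥(W ⊓ C) ≤ finrank F C := Submodule.finrank_mono inf_le_right
    rcases Nat.eq_zero_or_pos j with rfl | hj0
    · left; omega
    · right
      refine ⟨by nlinarith, ?_⟩
      rw [← h4, Nat.mul_add_mod]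
      exact (Nat.mod_le _ _).trans h5
  · intro h
    have key : ∀ j l : ℕ, j ≤ s → l ≤ finrank F C →
        ∃ W : Submodule F V, finrank F W = l + j * a ∧ W.map f ≤ W := by
      intro j l hj hl
      obtain ⟨C', hC'le, hC'⟩ := exists_le_finrank_eq C hl
      obtain ⟨S, -, hS⟩ := Finset.exists_subset_card_eq (s := (Finset.univ : Finset (Fin s)))
        (n := j) (by simpa using hj)
      let D : Option (Fin s) → Submodule F V :=
        fun o => o.elim C' (fun i => if i ∈ S then U i else ⊥)
      have hD : iSupIndep D := by
        refine hind.mono fun o => ?_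
        cases o with
        | none => exact hC'le
        | some i =>
          simp only [D, Option.elim_some]
          split_ifs
          · exact le_rfl
          · exact bot_le
      refine ⟨⨆ o, D o, ?_, ?_⟩
      · rw [finrank_iSup_of_iSupIndep _ hD, Fintype.sum_option]
        have : ∀ i, finrank F (D (some i)) = if i ∈ S then a else 0 := by
          intro i
          split_ifs with hi
          · have e : D (some i) = U i := if_pos hi
            rw [e]; exact hUdim i
          · have e : D (some i) = ⊥ := if_neg hi
            rw [e]; simp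
        rw [Finset.sum_congr rfl fun i _ => this i]
        have e : D none = C' := rfl
        rw [e, hC', Finset.sum_ite_mem]
        simp [hS]
      · rw [Submodule.map_iSup]
        refine iSup_mono fun o => ?_
        cases o with
        | none =>
          rintro _ ⟨w, hw, rfl⟩
          rw [hCfix w (hC'le hw)]
          exact hw
        | some i =>
          simp only [D, Option.elim_some]
          split_ifs
          · exact hUinv i
          · simp
    rcases h with h | ⟨h1, h2⟩
    · simpa using key 0 m (Nat.zero_le _) h
    · by_cases hjs : m / a ≤ s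
      · have := key (m / a) (m % a) hjs h2
        rwa [Nat.mod_add_div'] at this
      · have h3 : s * a ≤ m := by
          have : s ≤ m / a := by omega
          exact (Nat.le_div_iff_mul_le ha).mp this
        have := key s (m - s * a) le_rfl (by omega)
        rwa [Nat.sub_add_cancel h3] at this

end Cfsg.Agent.S5952
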