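import Cfsg.Statements.S5953
import Cfsg.Agent.H9.FUni

set_option autoImplicit false
set_option linter.unusedVariables false
open scoped MatrixGroups
open Cfsg

namespace Cfsg.Agent.S5953

open Module Polynomial Cfsg.Agent.H9 Cfsg.Agent.Form Cfsg.Agent.Form.PQ Cfsg.Agent.H9.FIdx
  Cfsg.Agent.H9.FCount Cfsg.Agent.H9.FClass Cfsg.Agent.H9.FOrd Cfsg.Agent.H9.Types
  Cfsg.Agent.H9.FInv Cfsg.Agent.H9.FSS Cfsg.Agent.H9.FModel Cfsg.Agent.H9.FNum
  Cfsg.Agent.H9.FAdapt Cfsg.Agent.H9.FSemi Cfsg.Agent.H9.FInvol Cfsg.Agent.H9.FTrP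
  Cfsg.Agent.H9.FUni

/-- Elements of prime order of PSU_n(q) with no fixed totally isotropic `m`-space. Here `T = PSU_n(q)` (`n ≥ 3`, `(n, q) ≠ (3, 2)`), realised through the matrices of determinant 1 over the field `F` with `q²` elements preserving the Hermitian form `h(u, v) = Σ u_i v_i^q`; an element of `T` of prime order `r` is such a matrix `x` with `x^r` scalar and `x` not scalar. For `r ≠ p` let `i` be the multiplicative order of `q` modulo `r`, `b = i/2` for `i` even and `b = i` for `i` odd, `c = i, i/2, 2i` according as `i ≡ 0, 2 (mod 4)` or `i` odd, and write `k = n mod c`, `ℓ = m mod b`, `ℓ' = m mod c`, `n' = ⌊n/b⌋`, `m' = ⌊m/b⌋`, `s = (r−1)/b`; `(a)_r` is the `r`-part of `a`. Let `1 ≤ m ≤ n/2` and let `r` be a prime dividing the number of totally isotropic `m`-spaces. Then every element of `T` of order `r` fixes a totally isotropic `m`-space if and only if either (i) `r = 2`, `p ≠ 2`, and (`m < n/2`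 or `(q+1)_2 ≤ (n)_2`); or (ii) `r ≠ p`, `r > 2`, `b ≤ m`, `k ≥ 2ℓ`, and either `i ≢ 2 (mod 4)`, or `i ≡ 2 (mod 4)`, `n' − 2m' ≥ s` and (`i > 2`, or `i = 2` and (`r ∣ m` or `(q+1)_r ≥ (n)_r`)). -/
theorem result {F : Type*} [Field F] [Fintype F] {p : ℕ} [Fact p.Prime] [CharP F p] {q : ℕ} (hq : Fintype.card F = q ^ 2)
    (n m : ℕ) (hn : 3 ≤ n) (hT : (n, q) ≠ (3, 2)) (hm : 1 ≤ m) (hmn : 2 * m ≤ n)
    (r : ℕ) [Fact r.Prime]
    (hrΩ : r ∣ Nat.card {W : Submodule F (Fin n → F) // Module.finrank F ↥W = m ∧ (∀ u ∈ W, ∀ v ∈ W, Cfsg.hermForm n F q u v = 0)})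
    (i b c : ℕ) (hi : i = orderOf (q : ZMod r)) (hb : b = if Even i then i / 2 else i)
    (hc : c = if i % 4 = 0 then i else if i % 4 = 2 then i / 2 else 2 * i) :
    (∀ x : Matrix.SpecialLinearGroup (Fin n) F, x ∈ Cfsg.SU n F q →
      (∃ z : F, ((x ^ r : Matrix.SpecialLinearGroup (Fin n) F) : Matrix (Fin n) (Fin n) F) = z • (1 : Matrix (Fin n) (Fin n) F)) →
      (∀ z : F, (x : Matrix (Fin n) (Fin n) F) ≠ z • (1 : Matrix (Fin n) (Fin n) F)) →
      ∃ W : Submodule F (Fin n → F), Module.finrank F ↥W = m ∧ (∀ u ∈ W, ∀ v ∈ W, Cfsg.hermForm n F q u v = 0) ∧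
        W.map (Matrix.toLin' (x : Matrix (Fin n) (Fin n) F)) ≤ W) ↔
    ((r = 2 ∧ p ≠ 2 ∧ (2 * m < n ∨ padicValNat 2 (q + 1) ≤ padicValNat 2 n)) ∨
     (r ≠ p ∧ 2 < r ∧ b ≤ m ∧ 2 * (m % b) ≤ n % c ∧
       (i % 4 ≠ 2 ∨ (i % 4 = 2 ∧ (r - 1) / b + 2 * (m / b) ≤ n / b ∧
         (2 < i ∨ (i = 2 ∧ (r ∣ m ∨ padicValNat r n ≤ padicValNat r (q + 1)))))))) := by
  have hS := uS_nondeg hq n
  have hn' : finrank F (Fin n → F) = n := by simp
  have hσq : ∀ a, (frobQ hq : F →+* F) a = a ^ q := fun _ => rfl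
  have hne := hne_of hq hσq
  have hP := H7.trP_unit _ (unit_invol (isUnitaryForm_hermForm hq n)) hne
  have e : ∀ W : Submodule F (Fin n → F),
      (∀ u ∈ W, ∀ v ∈ W, hermForm n F q u v = 0) ↔ (uS hq n).TS W :=
    fun W => (unit_ts (uS hq n) W).symm
  have : Nontrivial (Fin n → F) := nontrivial_of_finrank_pos (R := F) (by omega)
  refine Iff.trans (Iff.trans ?_ (forall_su_iff hq n r
    (FAdapt.Fix fun W => finrank F W = m ∧ (uS hq n).TS W))) ?_
  · simp only [FAdapt.Fix, e, OrdR.map_le_iff, and_assoc]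
  simp only [e] at hrΩ
  obtain ⟨j, a1, a2, a3⟩ := hΩ_ts_unit hne hq hS hn' hmn hrΩ
  have hq2 := two_le_of_card_sq hq
  have hrp : r ≠ p := by
    rintro rfl
    exact p_not_dvd_uf hq (by omega) a3
  have hr2 := (Fact.out : r.Prime).two_le
  by_cases h2 : r = 2
  · subst h2
    refine Iff.trans ?_ (show (2 * m < n ∨ padicValNat 2 (q + 1) ≤ padicValNat 2 n) ↔ _ by
      simp [hrp.symm])
    constructor
    · intro H
      by_contra h
      push Not at h
      obtain ⟨g, b, b1, b2, b3, b4, b5, b6, b7, b8⟩ := exists_unit_refl hq hσq hS hrp (by omega)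
        (hn'.symm ▸ h.2)
      have c1 := (invol_ts_iff hrp b2 b3).1 (Fix.of_smul g b b1 (H _ ⟨b5, b6⟩ b7 b8))
      rw [widx_of_trP hP (nondegOn_Cx hrp hS b2 b3), widx_of_trP hP (nondegOn_Dx hrp hS b2 b3)] at c1
      have c3 := finrank_cd_top hrp b3
      omega
    · rintro h f ⟨b1, b0⟩ ⟨z, b2⟩ -
      obtain ⟨b, c1, c2, ⟨c3, c4⟩ | c3⟩ := unit_sq_cases hq hσq hS hrp b1 b2
      · have c5 := inv_smul_sq c1 c2
        refine Fix.of_smul f b⁻¹ (inv_ne_zero c1) ((invol_ts_iff hrp c4 c5).2 ?_)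
        rw [widx_of_trP hP (nondegOn_Cx hrp hS c4 c5), widx_of_trP hP (nondegOn_Dx hrp hS c4 c5)]
        have c6 := finrank_cd_top hrp c5
        rcases h with h | h
        · omega
        · have := unit_even_Dx hrp c3 c5 b0 (by omega) (hn'.symm ▸ h)
          rw [Nat.even_iff] at this
          omega
      · exact anti_ts hrp hS b1 c1 (by rw [norm_eq hσq, c3]; exact neg_one_ne_one' hrp) c2
          (by omega)
  have hi0 : 0 < i := hi ▸ orderOf_pos_of_sq hq hrp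
  obtain ⟨a, ha⟩ := (dvd_uf_iff h2 (by omega) hi hi0 hc j).1 a3
  have hb' : b = orderOf ((q ^ 2 : ℕ) : ZMod r) := by rw [orderOf_sq, ← hi, hb]
  by_cases h3 : i = 2
  · have h4 : r ∣ q + 1 := (orderOf_eq_two_iff h2).1 (hi ▸ h3)
    have hb1 : b = 1 := by simp [hb, h3]
    have hc1 : c = 1 := by simp [hc, h3]
    refine Iff.trans ?_ (show (r - 1 + 2 * m ≤ n ∧
      (r ∣ m ∨ padicValNat r n ≤ padicValNat r (q + 1))) ↔ _ by
        simp [h2, hrp, h3, hb1, hc1, hm, Nat.mod_one, show 2 < r by omega])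
    constructor
    · intro H
      refine ⟨?_, ?_⟩
      · by_contra h
        have hodd := Nat.odd_iff.1 ((Fact.out : r.Prime).odd_of_ne_two h2)
        obtain ⟨f, b1, b2, b3, b4, b5, b6⟩ := exists_unit_sym hq hσq hS hrp h2 h4
          (u := (n - 2 * m + 2) / 2) (by omega) (by omega) (by omega)
        obtain ⟨W, ⟨c1, c2⟩, c3⟩ := H f ⟨b1, b2⟩ ⟨1, by rw [b3, one_smul]⟩ b4
        have c4 := le_widx (b6 W c2 c3) c2
        rw [widx_of_trP hP (nondegOn_Cx hrp hS b1 b3)] at c4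
        omega
      · by_contra h
        push Not at h
        obtain ⟨f, z, b1, b2, b3, b4, b5⟩ := exists_unit_np hq hσq hS hrp h2 h4 (hn'.symm ▸ h.2)
        obtain ⟨W, ⟨c1, -⟩, c3⟩ := H f ⟨b1, b2⟩ ⟨z, b3⟩ b5
        exact h.1 (c1 ▸ OrdR.dvd_finrank_of_not_pow b3 b4 c3)
    · rintro ⟨h5, h6⟩ f ⟨b1, b0⟩ ⟨z, b2⟩ b3
      rcases unit_cases hq hσq hS h2 h4 b1 b2 with ⟨u, c1, c2, c3⟩ | ⟨c1, c2⟩
      · refine Fix.of_smul f u⁻¹ (inv_ne_zero c1) ((ts_sd_trP hP (sd_unit hq h2 hσq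
          (by rw [← hi, h3])) hq hrp h2 hS (hb1 ▸ hb') hn' (models_unit hne hq hrp hS) hmn
          ⟨n, by omega, by omega⟩).2 (by simp [hm, Nat.mod_one, h5]) _ c2 c3 fun h => b3 u ?_)
        rw [← h, smul_inv_smul₀ c1]
      · refine unit_np_ts hq hσq hS hrp h2 b1 b2 c1 c2 (h6.resolve_right ?_) (by omega)
        have := unit_np_lt hq h2 h4 b2 c1 b0
        rw [hn'] at this
        omega
  rw [forall_unit_iff hq hσq hS (fun h => h3 (hi ▸ (orderOf_eq_two_iff h2).2 h)) Fix.of_smul]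
  by_cases h4 : i % 4 = 2
  · obtain rfl : c = b := by
      rw [hc, hb, if_neg (by omega), if_pos h4, if_pos (by rw [Nat.even_iff]; omega)]
    rw [ts_sd_trP hP (sd_unit hq h2 hσq (hi ▸ h4)) hq hrp h2 hS hb' hn'
      (models_unit hne hq hrp hS) hmn ⟨a, by omega, by omega⟩]
    simp [h2, hrp, h4, show 2 < r by omega, show 2 < i by omega]
  · obtain rfl : c = 2 * b := by
      simp only [hc, hb, Nat.even_iff]
      split_ifs <;> omega
    rw [ts_nsd_trP hP (nsd_unit hq hrp h2 hσq (hi ▸ h4)) hq hrp h2 hS hb' hn'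
      (models_unit hne hq hrp hS) hmn ⟨a, by omega, by omega⟩]
    simp [h2, hrp, h4, show 2 < r by omega]

end Cfsg.Agent.S5953
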