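import Cfsg.Statements.S5954
import Cfsg.Agent.H9.FUnipO
import Cfsg.Agent.H9.FUni

set_option autoImplicit false
set_option linter.unusedVariables false
open scoped MatrixGroups
open Cfsg

namespace Cfsg.Agent.S5954

open Module Polynomial Cfsg.Agent.H9 Cfsg.Agent.Form Cfsg.Agent.Form.PQ Cfsg.Agent.H9.FIdx
  Cfsg.Agent.H9.FCount Cfsg.Agent.H9.FClass Cfsg.Agent.H9.FOrd Cfsg.Agent.H9.Types
  Cfsg.Agent.H9.FInv Cfsg.Agent.H9.FSS Cfsg.Agent.H9.FModel Cfsg.Agent.H9.FNum
  Cfsg.Agent.H9.FAdapt Cfsg.Agent.H9.FSemi Cfsg.Agent.H9.FInvol Cfsg.Agent.H9.FTrP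
  Cfsg.Agent.H9.FSpin Cfsg.Agent.H9.FOArith Cfsg.Agent.H9.FOrth
  Cfsg.Agent.H9.FUnip
  Cfsg.Agent.H9.FUni

/-- Elements of prime order of PSU_n(q) with no fixed nondegenerate `m`-space. Here `T = PSU_n(q)` (`n ≥ 3`, `(n, q) ≠ (3, 2)`), realised through the matrices of determinant 1 over the field `F` with `q²` elements preserving the Hermitian form `h(u, v) = Σ u_i v_i^q`; an element of `T` of prime order `r` is such a matrix `x` with `x^r` scalar and `x` not scalar. For `r ≠ p` let `i` be the multiplicative order of `q` modulo `r`, `b = i/2` for `i` even and `b = i` for `i` odd, `c = i, i/2, 2i` according as `i ≡ 0, 2 (mod 4)` or `i` odd, and write `k = n mod c`, `ℓ = m mod b`, `ℓ' = m mod c`, `n' = ⌊n/b⌋`, `m' = ⌊m/b⌋`, `s = (r−1)/b`; `(a)_r` is the `r`-part of `a`. Let `1 ≤ m < n/2` and let `r` be a prime dividing the number of nondegenerate `m`-spaces. Then every element of `T` of order `r` fixes a nondegenerate `m`-space if and only if one of: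 (i) `r = p > 2` and every partition of `n` into parts of size at most `p` contains (as a sub-multiset) a partition of `m`; (ii) `r = p = 2` and (`n` is odd or `m` is even); (iii) `r = 2 ≠ p` and (`n` is odd, or `m` is even, or `(q+1)_2 ≥ (n)_2` and `q ≡ 3 (mod 4)`); (iv) `r ≠ p`, `r > 2`, and either `i ≠ 2`, `c ≤ m` and `k ≥ ℓ'`, or `i = 2` and (`r ∣ m` or `(q+1)_r ≥ (n)_r`). -/
theorem result {F : Type*} [Field F] [Fintype F] {p : ℕ} [Fact p.Prime] [CharP F p] {q : ℕ} (hq : Fintype.card F = q ^ 2)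
    (n m : ℕ) (hn : 3 ≤ n) (hT : (n, q) ≠ (3, 2)) (hm : 1 ≤ m) (hmn : 2 * m < n)
    (r : ℕ) [Fact r.Prime]
    (hrΩ : r ∣ Nat.card {W : Submodule F (Fin n → F) // Module.finrank F ↥W = m ∧ (∀ u ∈ W, u ≠ 0 → ∃ v ∈ W, Cfsg.hermForm n F q u v ≠ 0)})
    (i b c : ℕ) (hi : i = orderOf (q : ZMod r)) (hb : b = if Even i then i / 2 else i)
    (hc : c = if i % 4 = 0 then i else if i % 4 = 2 then i / 2 else 2 * i) :
    (∀ x : Matrix.SpecialLinearGroup (Fin n) F, x ∈ Cfsg.SU n F q →
      (∃ z : F, ((x ^ r : Matrix.SpecialLinearGroup (Fin n) F) : Matrix (Fin n) (Fin n) F) = z • (1 : Matrix (Fin n) (Fin n) F)) →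
      (∀ z : F, (x : Matrix (Fin n) (Fin n) F) ≠ z • (1 : Matrix (Fin n) (Fin n) F)) →
      ∃ W : Submodule F (Fin n → F), Module.finrank F ↥W = m ∧ (∀ u ∈ W, u ≠ 0 → ∃ v ∈ W, Cfsg.hermForm n F q u v ≠ 0) ∧
        W.map (Matrix.toLin' (x : Matrix (Fin n) (Fin n) F)) ≤ W) ↔
    ((r = p ∧ 2 < p ∧ (∀ μ : Multiset ℕ, (∀ a ∈ μ, 0 < a ∧ a ≤ p) → μ.sum = n → ∃ ν : Multiset ℕ, ν ≤ μ ∧ ν.sum = m)) ∨
     (r = p ∧ p = 2 ∧ (Odd n ∨ Even m)) ∨
     (r = 2 ∧ p ≠ 2 ∧ (Odd n ∨ Even m ∨ (padicValNat 2 n ≤ padicValNat 2 (q + 1) ∧ q % 4 = 3))) ∨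
     (r ≠ p ∧ 2 < r ∧ ((i ≠ 2 ∧ c ≤ m ∧ m % c ≤ n % c) ∨ (i = 2 ∧ (r ∣ m ∨ padicValNat r n ≤ padicValNat r (q + 1)))))) := by
  have hS := uS_nondeg hq n
  have hn' : finrank F (Fin n → F) = n := by simp
  have hσq : ∀ a, (frobQ hq : F →+* F) a = a ^ q := fun _ => rfl
  have hne := hne_of hq hσq
  have hP := H7.trP_unit _ (unit_invol (isUnitaryForm_hermForm hq n)) hne
  have e : ∀ W : Submodule F (Fin n → F),
      (∀ u ∈ W, u ≠ 0 → ∃ v ∈ W, hermForm n F q u v ≠ 0) ↔ (uS hq n).NondegOn W :=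
    fun W => (nondegOn_iff' (S := uS hq n)).symm
  have : Nontrivial (Fin n → F) := nontrivial_of_finrank_pos (R := F) (by omega)
  refine Iff.trans (Iff.trans ?_ (forall_su_iff hq n r
    (FAdapt.Fix fun W => finrank F W = m ∧ (uS hq n).NondegOn W))) ?_
  · simp only [FAdapt.Fix, e, OrdR.map_le_iff, and_assoc]
  simp only [e] at hrΩ
  have hq2 := two_le_of_card_sq hq
  have hr2 := (Fact.out : r.Prime).two_le
  by_cases hrp : r = p
  · subst hrp
    rw [forall_p_iff hS (fun _ h => h.1) fun f a b => ⟨a, det_of_unip b⟩,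
      unip_nd_iff hS (fun a h => absurd h (not_sk_of_σ hne a)) (K := fun _ => False)
        (fun a => iff_of_false (not_sk_of_σ hne a) not_false)
        (fun μ => exists_of_real_unit hne hS) hn' (by omega) False.elim]
    simp only [false_imp_iff, implies_true, and_true, true_imp_iff, true_and, ne_eq, not_true,
      false_and, or_false]
    by_cases h2 : r = 2
    · subst h2
      simp only [lt_irrefl, false_and, false_or, true_and, not_true, or_false, Nat.odd_iff,
        Nat.even_iff]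
      constructor
      · intro H
        by_contra h
        obtain ⟨ν, h1, h2⟩ := H (Multiset.replicate (n / 2) 2)
          (fun a ha => by rw [Multiset.eq_of_mem_replicate ha]; omega) (by simp; omega)
        obtain ⟨j, -, rfl⟩ := Multiset.le_replicate_iff.mp h1
        simp at h2; omega
      · intro H μ h1 h2
        obtain ⟨a, b, rfl⟩ := Unip.eq_replicate_add_of_le_two h1
        simp at h2
        exact ⟨Multiset.replicate (m - 2 * min b (m / 2)) 1 + Multiset.replicate (min b (m / 2)) 2,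
          add_le_add ((Multiset.replicate_le_replicate _).mpr (by omega))
            ((Multiset.replicate_le_replicate _).mpr (by omega)), by simp; omega⟩
    · simp [h2, show 2 < r by omega]
  by_cases h2 : r = 2
  · subst h2
    refine Iff.trans ?_ (show (Odd n ∨ Even m ∨ (padicValNat 2 n ≤ padicValNat 2 (q + 1) ∧
      q % 4 = 3)) ↔ _ by simp [hrp, Ne.symm hrp])
    have h3 := odd_q hq hrp
    have h4 := neg_one_ne_one' (F := F) hrp
    have h5 : ∀ b : F, b ^ (q + 1) = -1 → b * (FP.unit _ (unit_invol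
      (isUnitaryForm_hermForm hq n))).σ b ≠ 1 := fun b h => by rwa [norm_eq hσq, h]
    constructor
    · intro H
      by_contra h
      simp only [not_or, Nat.not_odd_iff_even, not_and_or, not_le] at h
      obtain ⟨⟨k, rfl⟩, h6, h7⟩ := h
      obtain ⟨b, hb⟩ := exists_primitive (k := 2 ^ (padicValNat 2 (q + 1) + 1)) hq (by
        rw [sq_sub_one, pow_succ]
        exact mul_dvd_mul pow_padicValNat_dvd (by omega))
      obtain ⟨b1, b2⟩ := pow_of_primitive (by omega) hb
      have b3 := (sq_eq_one_iff.1 b1).resolve_left b2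
      have b4 : b ≠ 0 := hb.ne_zero (by positivity)
      obtain ⟨f, c1, c2⟩ := exists_anti hS (by rw [Plus, widx_top_of_trP hP hS, finrank_top]; omega)
        (b := b) (by rw [norm_eq hσq, b3])
      refine (H f ⟨c1, ?_⟩ ⟨_, c2⟩ (not_scalar_of_anti hS c1 (h5 b b3) c2)).elim
        fun W ⟨⟨c3, c4⟩, c5⟩ => h6 (c3 ▸ (anti_plus hrp c1 b4 (h5 b b3) c2 c4 c5).even)
      rw [anti_det hrp hS c1 b4 (h5 b b3) c2, hn', show (k + k) / 2 = k by omega]
      have c3 : 1 ≤ padicValNat 2 (q + 1) := (padicValNat_dvd_iff_le (by omega)).1 (by omega)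
      rcases h7 with h7 | h7
      · have c4 := (padicValNat_dvd_iff_le (p := 2) (by omega)).2 (Nat.succ_le_of_lt h7)
        have c5 := (padicValNat_dvd_iff_le (p := 2) (n := 2) (a := k + k) (by omega)).2 (by omega)
        rw [(show Even k by rw [Nat.even_iff]; omega).neg_pow, ← pow_mul, two_mul]
        exact (hb.pow_eq_one_iff_dvd _).2 c4
      · have c4 : padicValNat 2 (q + 1) = 1 := le_antisymm (not_lt.1 fun h => by
          have := (padicValNat_dvd_iff_le (p := 2) (n := 2) (a := q + 1) (by omega)).2 h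
          omega) c3
        rw [c4] at hb
        rw [show q + 1 = 2 ^ (1 + 1) * (q / 4) + 2 by omega, pow_add, pow_mul, hb.pow_eq_one] at b3
        rw [show -b ^ 2 = 1 by linear_combination -b3, one_pow]
    · rintro h f ⟨b1, b0⟩ ⟨z, b2⟩ -
      obtain ⟨b, c1, c2, ⟨c3, c4⟩ | c3⟩ := unit_sq_cases hq hσq hS hrp b1 b2
      · have c5 := inv_smul_sq c1 c2
        have c6 := finrank_cd_top hrp c5
        obtain ⟨E, d1, d2, d3⟩ := exists_nondeg_of_aniso (fun U => exists_aniso_of_σ hne)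
          (nondegOn_Cx hrp hS c4 c5) (e := m - finrank F (Dx 2 (b⁻¹ • f))) (by omega)
        obtain ⟨H, d4, d5, d6⟩ := exists_nondeg_of_aniso (fun U => exists_aniso_of_σ hne)
          (nondegOn_Dx hrp hS c4 c5) (e := m - (m - finrank F (Dx 2 (b⁻¹ • f)))) (by omega)
        obtain ⟨-, d7, d8, d9⟩ := invol_sup hrp c4 d1 d4 d2 d5
        exact Fix.of_smul f b⁻¹ (inv_ne_zero c1) ⟨_, ⟨by omega, d7⟩, d8⟩
      · have c4 := (anti_plus hrp b1 c1 (h5 b c3) c2 ((uS hq n).nondegOn_top.2 hS)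
          fun _ _ => trivial).even
        rw [finrank_top, hn'] at c4
        obtain ⟨k, hk⟩ : Even m := by
          refine (h.resolve_left (Nat.not_odd_iff_even.2 c4)).resolve_right fun h => ?_
          have c5 := anti_det hrp hS b1 c1 (h5 b c3) c2
          obtain ⟨k, rfl⟩ := c4
          rw [b0, hn', show (k + k) / 2 = k by omega, neg_pow, ← pow_mul] at c5
          have c6 : (b ^ (q + 1)) ^ 2 = 1 := by rw [c3]; simp
          rcases Nat.even_or_odd k with c7 | c7
          · rw [c7.neg_one_pow, one_mul, two_mul] at c5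
            exact (lt_of_pow_eq (r := 2) (by omega) (by omega) c5.symm c6 (c3 ▸ h4)).not_ge h.1
          · have c8 := lt_of_pow_eq (r := 2) (N := 2 * k * 2) (by omega) (by omega) (by
              rw [pow_mul, show b ^ (2 * k) = -1 by
                rw [c7.neg_one_pow] at c5; linear_combination c5]; simp) c6 (c3 ▸ h4)
            have c9 : 2 ≤ padicValNat 2 (q + 1) := (padicValNat_dvd_iff_le (by omega)).1 (by omega)
            have c10 := (padicValNat_dvd_iff_le (p := 2) (n := 3) (a := 2 * k * 2) (by omega)).2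
              (by omega)
            rw [Nat.odd_iff] at c7
            omega
        obtain ⟨H, -, d1, d2, d3⟩ := anti_nd_sub hrp hS b1 c1 (h5 b c3) c2
          ((uS hq n).nondegOn_top.2 hS) (fun _ _ => trivial) (m := k) (by rw [finrank_top]; omega)
        exact ⟨H, ⟨by omega, d1⟩, d2⟩
  have hb' := blk_unit (P := FP.unit _ (unit_invol (isUnitaryForm_hermForm hq n))) hq hrp h2 hσq hi hc
  have key := (nd_iff_unit hne hb' hq hrp h2 hS (m := m)).trans (hn'.symm ▸ arith_nd (hb'.pos hq hrp)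
    (by omega) (hΩ_nd_unit hne hq hrp h2 hi hc hS hn' (by omega) hrΩ))
  by_cases h3 : i = 2
  · have h4 : r ∣ q + 1 := (orderOf_eq_two_iff h2).1 (hi ▸ h3)
    have hc1 : c = 1 := by simp [hc, h3]
    refine Iff.trans ?_ (show (r ∣ m ∨ padicValNat r n ≤ padicValNat r (q + 1)) ↔ _ by
        simp [h2, hrp, h3, show 2 < r by omega])
    constructor
    · intro H
      by_contra h
      push Not at h
      obtain ⟨f, z, b1, b2, b3, b4, b5⟩ := exists_unit_np hq hσq hS hrp h2 h4 (hn'.symm ▸ h.2)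
      obtain ⟨W, ⟨c1, -⟩, c3⟩ := H f ⟨b1, b2⟩ ⟨z, b3⟩ b5
      exact h.1 (c1 ▸ OrdR.dvd_finrank_of_not_pow b3 b4 c3)
    · rintro h6 f ⟨b1, b0⟩ ⟨z, b2⟩ b3
      rcases unit_cases hq hσq hS h2 h4 b1 b2 with ⟨u, c1, c2, c3⟩ | ⟨c1, c2⟩
      · refine Fix.of_smul f u⁻¹ (inv_ne_zero c1) (key.2 (by simp [hc1, hm, Nat.mod_one]) _ c2 c3
          fun h => b3 u ?_)
        rw [← h, smul_inv_smul₀ c1]
      · obtain ⟨j, rfl⟩ := h6.resolve_right (by
          have := unit_np_lt hq h2 h4 b2 c1 b0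
          rw [hn'] at this
          omega)
        obtain ⟨H, -, d1, d2, d3⟩ := np_nd hS b1 c1 b2 ((uS hq n).nondegOn_top.2 hS)
          (fun _ _ => trivial) (j := j) (by rw [finrank_top]; omega)
        exact ⟨H, ⟨d3, d1⟩, d2⟩
  rw [forall_unit_iff hq hσq hS (fun h => h3 (hi ▸ (orderOf_eq_two_iff h2).2 h)) Fix.of_smul, key]
  simp [h2, hrp, h3, show 2 < r by omega]

end Cfsg.Agent.S5954
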