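import Cfsg.Statements.S5955
import Cfsg.Agent.H9.FTrP

set_option autoImplicit false
set_option linter.unusedVariables false
open scoped MatrixGroups
open Cfsg

namespace Cfsg.Agent.S5955

open Module Polynomial Cfsg.Agent.H9 Cfsg.Agent.Form Cfsg.Agent.Form.PQ Cfsg.Agent.H9.FIdx
  Cfsg.Agent.H9.FCount Cfsg.Agent.H9.FClass Cfsg.Agent.H9.FOrd Cfsg.Agent.H9.Types
  Cfsg.Agent.H9.FInv Cfsg.Agent.H9.FSS Cfsg.Agent.H9.FModel Cfsg.Agent.H9.FNum
  Cfsg.Agent.H9.FAdapt Cfsg.Agent.H9.FSemi Cfsg.Agent.H9.FInvol Cfsg.Agent.H9.FTrP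

/-- Elements of prime order of PSp_n(q) with no fixed totally isotropic `m`-space. Here `T = PSp_n(q)` with `n = 2d ≥ 4`, `(n, q) ≠ (4, 2)`, realised through the symplectic matrices over the field `F` with `q` elements (preserving the standard alternating form); an element of `T` of prime order `r` is such a matrix `x` with `x^r` scalar and `x` not scalar. For `r ≠ p` let `i` be the multiplicative order of `q` modulo `r`, `c = i` for `i` even and `c = 2i` for `i` odd, and write `k = n mod c`, `ℓ = m mod i`, `ℓ' = m mod c`, `n' = ⌊n/i⌋`, `m' = ⌊m/i⌋`, `t = (r−1)/i`. Let `1 ≤ m ≤ n/2` and let `r` be a prime dividing the number of totally isotropic `m`-spaces. Then every element of `T` of order `r` fixes a totally isotropic `m`-space if and only if either (i) `r = 2 ≠ p` and (`m` is even or `q ≡ 1 (mod 4)`); or (ii) `r ≠ p`, `r > 2`, `i ≤ m`, `k ≥ 2ℓ`, and (`i` is odd or `n' − 2m' ≥ t`). -/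
theorem result {F : Type*} [Field F] [Fintype F] {p : ℕ} [Fact p.Prime] [CharP F p] {q : ℕ} (hq : Fintype.card F = q)
    (d m : ℕ) (hd : 2 ≤ d) (hT : (d, q) ≠ (2, 2)) (hm : 1 ≤ m) (hmd : m ≤ d)
    (r : ℕ) [Fact r.Prime]
    (hrΩ : r ∣ Nat.card {W : Submodule F (Fin d ⊕ Fin d → F) // Module.finrank F ↥W = m ∧ (∀ u ∈ W, ∀ v ∈ W, Cfsg.sympForm d F u v = 0)})
    (i c : ℕ) (hi : i = orderOf (q : ZMod r)) (hc : c = if Even i then i else 2 * i) :
    (∀ x : ↥(Matrix.symplecticGroup (Fin d) F),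
      (∃ z : F, ((x ^ r : ↥(Matrix.symplecticGroup (Fin d) F)) : Matrix (Fin d ⊕ Fin d) (Fin d ⊕ Fin d) F) = z • (1 : Matrix (Fin d ⊕ Fin d) (Fin d ⊕ Fin d) F)) →
      (∀ z : F, (x : Matrix (Fin d ⊕ Fin d) (Fin d ⊕ Fin d) F) ≠ z • (1 : Matrix (Fin d ⊕ Fin d) (Fin d ⊕ Fin d) F)) →
      ∃ W : Submodule F (Fin d ⊕ Fin d → F), Module.finrank F ↥W = m ∧ (∀ u ∈ W, ∀ v ∈ W, Cfsg.sympForm d F u v = 0) ∧
        W.map (Matrix.toLin' (x : Matrix (Fin d ⊕ Fin d) (Fin d ⊕ Fin d) F)) ≤ W) ↔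
    ((r = 2 ∧ p ≠ 2 ∧ (Even m ∨ q % 4 = 1)) ∨
     (r ≠ p ∧ 2 < r ∧ i ≤ m ∧ 2 * (m % i) ≤ (2 * d) % c ∧ (Odd i ∨ (r - 1) / i + 2 * (m / i) ≤ (2 * d) / i))) := by
  have hS := spS_nondeg (F := F) d
  have hn := finrank_sum (F := F) d
  have e : ∀ W : Submodule F (Fin d ⊕ Fin d → F),
      (∀ u ∈ W, ∀ v ∈ W, sympForm d F u v = 0) ↔ (spS d F).TS W := fun W => (symp_ts (spS d F) W).symm
  have : Nontrivial (Fin d ⊕ Fin d → F) := nontrivial_of_finrank_pos (R := F) (by omega)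
  refine Iff.trans (Iff.trans ?_ (forall_sp_iff d r
    (FAdapt.Fix fun W => finrank F W = m ∧ (spS d F).TS W))) ?_
  · simp only [FAdapt.Fix, e, OrdR.map_le_iff, and_assoc]
  simp only [e] at hrΩ
  obtain ⟨j, a1, a2, a3⟩ := hΩ_ts_symp hq hS hn hmd hrΩ
  have hq2 := Arith.two_le_q hq
  have hrp : r ≠ p := by
    rintro rfl
    rw [← pow_mul] at a3
    exact Arith.p_not_dvd_pow_sub_one hq (by omega) a3
  have hr2 := (Fact.out : r.Prime).two_le
  by_cases h2 : r = 2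
  · subst h2
    refine Iff.trans ?_ (show (Even m ∨ q % 4 = 1) ↔ _ by simp [hrp.symm])
    constructor
    · intro H
      by_contra h
      push Not at h
      obtain ⟨f, b1, b2⟩ := exists_neg_symp hS
      obtain ⟨W, ⟨c1, -⟩, c2⟩ := H f b1 ⟨_, b2⟩ (not_scalar_of_neg hrp (fun _ => rfl) hS b1 b2)
      exact h.1 (c1 ▸ neg_even' hq hrp h.2 b2 c2)
    · rintro h f b1 ⟨z, b2⟩ -
      rcases sq_cases (fun _ => rfl) hS b1 b2 with b3 | b3
      · have c1 := even_finrank_symp (nondegOn_Cx hrp hS b1 b3)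
        have c2 := even_finrank_symp (nondegOn_Dx hrp hS b1 b3)
        have c3 := finrank_cd_top hrp b3
        exact (invol_ts_iff hrp b1 b3).2 (by omega)
      · exact neg_ts hq hrp (fun _ => rfl) hS b1 b3 (by omega) h
  rw [forall_odd_iff (fun _ => rfl) hS ((Fact.out : r.Prime).odd_of_ne_two h2) (fun _ h => h)
    (fun _ h _ => h) Fix.of_smul]
  obtain ⟨a, ha⟩ := of_dvd_sq_sub (by omega) hi hc a3
  split_ifs at hc with h3
  · subst hc
    rw [ts_sd_trP H7.trP_symp (sd_id hq hrp h2 (fun _ => rfl) (hi ▸ h3)) hq hrp h2 hS hi hn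
      (models_symp hq hrp hS) (by omega) ⟨a, by omega, by omega⟩]
    simp [h2, hrp, Nat.not_odd_iff_even.2 h3, show 2 < r by omega]
  · subst hc
    rw [ts_nsd_trP H7.trP_symp (nsd_id hq hrp h2 (fun _ => rfl) (hi ▸ h3)) hq hrp h2 hS hi hn
      (models_symp hq hrp hS) (by omega) ⟨a, by omega, by omega⟩]
    simp [h2, hrp, Nat.not_even_iff_odd.1 h3, show 2 < r by omega]

end Cfsg.Agent.S5955
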