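import Cfsg.Statements.S5956
import Cfsg.Agent.H9.FUnip2
import Cfsg.Agent.H9.FTrP

set_option autoImplicit false
set_option linter.unusedVariables false
open scoped MatrixGroups
open Cfsg

namespace Cfsg.Agent.S5956

open Module Polynomial Cfsg.Agent.H9 Cfsg.Agent.Form Cfsg.Agent.Form.PQ Cfsg.Agent.H9.FIdx
  Cfsg.Agent.H9.FCount Cfsg.Agent.H9.FClass Cfsg.Agent.H9.FOrd Cfsg.Agent.H9.Types
  Cfsg.Agent.H9.FInv Cfsg.Agent.H9.FSS Cfsg.Agent.H9.FModel Cfsg.Agent.H9.FNum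
  Cfsg.Agent.H9.FAdapt Cfsg.Agent.H9.FSemi Cfsg.Agent.H9.FInvol Cfsg.Agent.H9.FTrP
  Cfsg.Agent.H9.FSpin Cfsg.Agent.H9.FOArith Cfsg.Agent.H9.FOrth
  Cfsg.Agent.H9.FUnip

/-- Elements of prime order of PSp_n(q) with no fixed nondegenerate `m`-space. Here `T = PSp_n(q)` with `n = 2d ≥ 4`, `(n, q) ≠ (4, 2)`, realised through the symplectic matrices over the field `F` with `q` elements (preserving the standard alternating form); an element of `T` of prime order `r` is such a matrix `x` with `x^r` scalar and `x` not scalar. For `r ≠ p` let `i` be the multiplicative order of `q` modulo `r`, `c = i` for `i` even and `c = 2i` for `i` odd, and write `k = n mod c`, `ℓ = m mod i`, `ℓ' = m mod c`, `n' = ⌊n/i⌋`, `m' = ⌊m/i⌋`, `t = (r−1)/i`. Let `m` be even with `2 ≤ m < n/2` and let `r` be a prime dividing the number of nondegenerate `m`-spaces. Then every element of `T` of order `r` fixes a nondegenerate `m`-space if and only if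 one of: (i) `r = p > 2` and every partition of `n` into parts of size at most `p` in which every odd part has even multiplicity contains (as a sub-multiset) a partition of `m` in which every odd part has even multiplicity; (ii) `r = p = 2` and (`n ≡ 2 (mod 4)` or `m ≡ 0 (mod 4)`); (iii) `r = 2 ≠ p`; (iv) `r ≠ p`, `r > 2`, `c ≤ m` and `k ≥ ℓ'`. -/
theorem result {F : Type*} [Field F] [Fintype F] {p : ℕ} [Fact p.Prime] [CharP F p] {q : ℕ} (hq : Fintype.card F = q)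
    (d m : ℕ) (hd : 2 ≤ d) (hT : (d, q) ≠ (2, 2)) (hm : 2 ≤ m) (hme : Even m) (hmd : m < d)
    (r : ℕ) [Fact r.Prime]
    (hrΩ : r ∣ Nat.card {W : Submodule F (Fin d ⊕ Fin d → F) // Module.finrank F ↥W = m ∧ (∀ u ∈ W, u ≠ 0 → ∃ v ∈ W, Cfsg.sympForm d F u v ≠ 0)})
    (i c : ℕ) (hi : i = orderOf (q : ZMod r)) (hc : c = if Even i then i else 2 * i) :
    (∀ x : ↥(Matrix.symplecticGroup (Fin d) F),
      (∃ z : F, ((x ^ r : ↥(Matrix.symplecticGroup (Fin d) F)) : Matrix (Fin d ⊕ Fin d) (Fin d ⊕ Fin d) F) = z • (1 : Matrix (Fin d ⊕ Fin d) (Fin d ⊕ Fin d) F)) →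
      (∀ z : F, (x : Matrix (Fin d ⊕ Fin d) (Fin d ⊕ Fin d) F) ≠ z • (1 : Matrix (Fin d ⊕ Fin d) (Fin d ⊕ Fin d) F)) →
      ∃ W : Submodule F (Fin d ⊕ Fin d → F), Module.finrank F ↥W = m ∧ (∀ u ∈ W, u ≠ 0 → ∃ v ∈ W, Cfsg.sympForm d F u v ≠ 0) ∧
        W.map (Matrix.toLin' (x : Matrix (Fin d ⊕ Fin d) (Fin d ⊕ Fin d) F)) ≤ W) ↔
    ((r = p ∧ 2 < p ∧ (∀ μ : Multiset ℕ, (∀ a ∈ μ, 0 < a ∧ a ≤ p) → (∀ a : ℕ, Odd a → Even (μ.count a)) → μ.sum = 2 * d →
        ∃ ν : Multiset ℕ, ν ≤ μ ∧ ν.sum = m ∧ ∀ a : ℕ, Odd a → Even (ν.count a))) ∨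
     (r = p ∧ p = 2 ∧ ((2 * d) % 4 = 2 ∨ m % 4 = 0)) ∨
     (r = 2 ∧ p ≠ 2) ∨
     (r ≠ p ∧ 2 < r ∧ c ≤ m ∧ m % c ≤ (2 * d) % c)) := by
  have hS := spS_nondeg (F := F) d
  have hn := finrank_sum (F := F) d
  have e : ∀ W : Submodule F (Fin d ⊕ Fin d → F),
      (∀ u ∈ W, u ≠ 0 → ∃ v ∈ W, sympForm d F u v ≠ 0) ↔ (spS d F).NondegOn W :=
    fun W => (nondegOn_iff' (S := spS d F)).symm
  have : Nontrivial (Fin d ⊕ Fin d → F) := nontrivial_of_finrank_pos (R := F) (by omega)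
  refine Iff.trans (Iff.trans ?_ (forall_sp_iff d r
    (FAdapt.Fix fun W => finrank F W = m ∧ (spS d F).NondegOn W))) ?_
  · simp only [FAdapt.Fix, e, OrdR.map_le_iff, and_assoc]
  simp only [e] at hrΩ
  have hr2 := (Fact.out : r.Prime).two_le
  have hT := (spS d F).nondegOn_top.2 hS
  by_cases hrp : r = p
  · subst hrp
    rw [forall_p_iff hS (fun _ h => h) fun f a b => a]
    by_cases h2 : r = 2
    · subst h2
      refine Iff.trans ?_ (show ((2 * d) % 4 = 2 ∨ m % 4 = 0) ↔ _ by simp)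
      rw [Nat.even_iff] at hme
      constructor
      · intro H
        by_contra h
        have h1 := even_finrank_symp hT
        rw [finrank_top] at h1
        obtain ⟨f, a1, a2, a3, -, -, a4⟩ := two_counter (fun _ => rfl) hS (k := d / 2) (by omega)
          (by omega)
        obtain ⟨W, ⟨b1, b2⟩, b3⟩ := H f a1 a2 a3
        obtain ⟨e, y, e', c1, c2, -⟩ := a4 W b2 b3
        omega
      · intro h f a1 a2 _
        obtain ⟨U, -, b1, b2, b3⟩ := (two_sub (fun _ => rfl) hS a1 a2 hT fun _ _ => trivial).2 m hme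
          (by rw [finrank_top]; omega) (by rw [finrank_top]; omega)
        exact ⟨U, ⟨b3, b1⟩, b2⟩
    have t := two_ne_zero' (F := F) (Ne.symm h2)
    rw [unip_nd_iff hS (fun _ _ => t) (K := Odd) (sk_symp t) (fun μ => exists_of_real_symp hS) hn
      (by omega) fun _ => hme]
    simp [h2, show 2 < r by omega]
  by_cases h2 : r = 2
  · subst h2
    refine iff_of_true ?_ (by simp [Ne.symm hrp])
    obtain ⟨k, rfl⟩ := hme
    rintro f b1 ⟨z, b2⟩ -
    rcases sq_cases (fun _ => rfl) hS b1 b2 with b3 | b3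
    · have c1 := even_finrank_symp (nondegOn_Cx hrp hS b1 b3)
      have c2 := even_finrank_symp (nondegOn_Dx hrp hS b1 b3)
      have c3 := finrank_cd_top hrp b3
      obtain ⟨E, d1, d2, d3, -⟩ := exists_nondeg_even (nondegOn_Cx hrp hS b1 b3)
        (j := k - widx (spS d F) (Dx 2 f)) (by omega)
      obtain ⟨H, d4, d5, d6, -⟩ := exists_nondeg_even (nondegOn_Dx hrp hS b1 b3)
        (j := k - (k - widx (spS d F) (Dx 2 f))) (by omega)
      obtain ⟨-, d7, d8, d9⟩ := invol_sup hrp b1 d1 d4 d2 d5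
      exact ⟨_, ⟨by omega, d7⟩, d8⟩
    · obtain ⟨H, -, d1, d2, d3⟩ := neg_nd hq hrp (fun _ => rfl) hS b1 b3 hT (fun _ _ => trivial)
        (m := k) (by rw [finrank_top]; omega)
      exact ⟨H, ⟨by omega, d1⟩, d2⟩
  rw [forall_odd_iff (fun _ => rfl) hS ((Fact.out : r.Prime).odd_of_ne_two h2) (fun _ h => h)
    (fun _ h _ => h) Fix.of_smul, nd_iff_symp hq hrp h2 hi hc hS hme, hn,
    arith_nd ((blk_id (P := FP.symp F) hq hrp h2 (fun _ => rfl) hi hc).pos hq hrp) (by omega)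
      (hΩ_nd_symp hq (Arith.not_dvd_q hq hrp) hi hc hS hn hme (by omega) hrΩ)]
  simp [h2, hrp, show 2 < r by omega]

end Cfsg.Agent.S5956
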