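import Cfsg.Statements.S5957
import Cfsg.Agent.H9.Imprim

set_option autoImplicit false
set_option linter.unusedVariables false
open scoped MatrixGroups
open Cfsg

namespace Cfsg.Agent.S5957

open Module Polynomial Cfsg.Agent.H9 Cfsg.Agent.H9.OrdR Cfsg.Agent.H9.Subsp Cfsg.Agent.H9.Arith
  Cfsg.Agent.H9.Unip Cfsg.Agent.H9.Types Cfsg.Agent.H9.Imprim

/-- Involutions of PSL_n(q) and imprimitive subgroups. Here `T = PSL_n(F)` for a field `F` with `q = p^f` elements (`n ≥ 2`, `(n, q) ≠ (2, 2), (2, 3)`), `n = a·t` with `t ≥ 2`, and Ω is the set of direct-sum decompositions of `F^n` into `t` subspaces of dimension `a` (unordered; their number is the number of ordered ones divided by `t!`), whose stabilizers are the imprimitive subgroups of type GL_a(q) ≀ S_t (maximal except in some small cases; maximality is not assumed); an element of `T` of prime order `r` (a matrix `x` of determinant 1 with `x^r` scalar, `x` not scalar) fixes a point of Ω when it permutes the summands of some such decomposition. If the number of such decompositions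 is even, then every involution of `T` stabilizes one of them (the action is 2-elusive). -/
theorem result {F : Type*} [Field F] [Fintype F] {p : ℕ} [Fact p.Prime] [CharP F p] {q : ℕ} (hq : Fintype.card F = q)
    (n a t : ℕ) (hn : 2 ≤ n) (hT : (n, q) ≠ (2, 2) ∧ (n, q) ≠ (2, 3)) (hat : n = a * t) (ha : 1 ≤ a) (ht : 2 ≤ t)
    (hΩ : 2 ∣ Nat.card {D : Fin t → Submodule F (Fin n → F) // Cfsg.Geo.IsMDecomposition a D} / Nat.factorial t)
    (x : Matrix.SpecialLinearGroup (Fin n) F)
    (hx1 : ∃ z : F, ((x ^ 2 : Matrix.SpecialLinearGroup (Fin n) F) : Matrix (Fin n) (Fin n) F) = z • (1 : Matrix (Fin n) (Fin n) F))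
    (hx2 : ∀ z : F, (x : Matrix (Fin n) (Fin n) F) ≠ z • (1 : Matrix (Fin n) (Fin n) F)) :
    ∃ D : Fin t → Submodule F (Fin n → F), Cfsg.Geo.IsMDecomposition a D ∧
        ∃ σ : Equiv.Perm (Fin t), ∀ j, (D j).map (Matrix.toLin' (x : Matrix (Fin n) (Fin n) F)) = D (σ j) := by
  have hfr : finrank F (Fin n → F) = n := by simp
  set f : End F (Fin n → F) := Matrix.toLin' (x : Matrix (Fin n) (Fin n) F) with hf
  have hd : LinearMap.det f = 1 := by rw [hf, LinearMap.det_toLin', x.det_coe]
  obtain ⟨z, hz⟩ := hx1
  rw [Matrix.SpecialLinearGroup.coe_pow, ← toLin'_pow_eq_smul_one_iff, ← hf] at hz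
  have : Nontrivial (Fin n → F) := Module.nontrivial_of_finrank_pos (R := F) (by omega)
  have hz0 : z ≠ 0 := scalar_ne_zero (by simp [hd]) hz
  have key : ∀ (A : Multiset F[X]) (β : ℕ), HasType f (A + Multiset.replicate β (X ^ 2 - C z)) →
      (∀ g ∈ A, g.natDegree = 1) → Imprim f a t := by
    intro A β h hA
    have h1 := h.finrank_eq
    rw [Multiset.map_add, Multiset.sum_add, sum_natDegree_of_forall_eq hA,
      sum_natDegree_of_forall_eq (natDegree_replicate_pow β z), Multiset.card_replicate, hfr,
      hat] at h1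
    rcases Nat.even_or_odd a with ha2 | ha2
    · exact imprim_fixed (i := 2) (by omega) t h hA (natDegree_replicate_pow β z) (hfr.trans hat)
        (by rw [Nat.even_iff.mp ha2]; omega)
    · have h2 := Nat.mod_add_div β a
      have h3 := Nat.mod_lt β ha
      have h4 : 2 * (β / a) ≤ t := by
        refine Nat.le_of_mul_le_mul_left ?_ ha
        rw [mul_left_comm]
        omega
      obtain ⟨t', rfl⟩ := Nat.exists_eq_add_of_le' h4
      rw [← h2, Multiset.replicate_add, ← add_assoc] at h
      refine imprim_mixed (i := 2) (by omega) (by omega) h hA (natDegree_replicate_pow _ z)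
        (hfr.trans hat) ?_
      rw [Nat.odd_iff.mp ha2, mul_one]
      have h5 : a * t' = Multiset.card A + 2 * (β % a) := by nlinarith
      obtain ⟨k, rfl⟩ := ha2
      rcases t' with _ | _ | t'
      · omega
      · omega
      · nlinarith
  have himp : Imprim f a t := by
    by_cases hp : 2 = p
    · subst hp
      obtain ⟨b, hb, h1⟩ := exists_sub_pow_eq_zero hz
      obtain ⟨ν, h2, h3⟩ := exists_hasType_jordan f b h1
      obtain ⟨α, β, rfl⟩ := eq_replicate_add_of_le_two h2
      rw [jordan_add, jordan, jordan, Multiset.map_replicate, Multiset.map_replicate,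
        sub_pow_char (p := 2), ← C_pow, hb] at h3
      exact key _ β h3 fun g hg => by rw [Multiset.eq_of_mem_replicate hg]; simp
    · rcases dichotomy hq hp hz0 hz with ⟨-, -, s, h, -⟩ | ⟨b, hb, -, -, e, B, h1, h2, h3⟩
      · exact key 0 s (by simpa using h) (by simp)
      · refine Imprim.of_smul (inv_ne_zero hb) (imprim_fixed (i := 1) one_pos t h1
          (natDegree_replicate_one e) (fun g hg => ?_) (hfr.trans hat) (by simp [Nat.mod_one]))
        rw [natDegree_of_dvd_cyclotomic hq hp (h2 g hg).1 (h2 g hg).2]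
        exact Nat.dvd_one.mp (orderOf_dvd_sub_one hq hp)
  obtain ⟨D, h1, h2, h3, h4⟩ := himp.out (bijective_of_det_ne_zero (by simp [hd])).1
    (hfr.trans hat)
  exact ⟨D, ⟨ht, ha, h1, h2, h3⟩, h4⟩

end Cfsg.Agent.S5957
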