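import Cfsg.Statements.S5958
import Cfsg.Agent.H9.Imprim

set_option autoImplicit false
set_option linter.unusedVariables false
open scoped MatrixGroups
open Cfsg

namespace Cfsg.Agent.S5958

open Module Polynomial Cfsg.Agent.H9 Cfsg.Agent.H9.OrdR Cfsg.Agent.H9.Subsp Cfsg.Agent.H9.Arith
  Cfsg.Agent.H9.Unip Cfsg.Agent.H9.Types Cfsg.Agent.H9.Imprim

theorem card_dvd {F : Type*} [Field F] [Fintype F] {n a t : ℕ}
    [Nonempty {D : Fin t → Submodule F (Fin n → F) // Cfsg.Geo.IsMDecomposition a D}] :
    Nat.card {D : Fin t → Submodule F (Fin n → F) // Cfsg.Geo.IsMDecomposition a D} ∣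
      Nat.card (⊤ : Subgroup ((Fin n → F) ≃ₗ[F] (Fin n → F))) := by
  rw [Subgroup.card_top]
  let _ : MulAction ((Fin n → F) ≃ₗ[F] (Fin n → F))
      {D : Fin t → Submodule F (Fin n → F) // Cfsg.Geo.IsMDecomposition a D} :=
    { smul := fun g D => ⟨fun j => (D.1 j).map (g : (Fin n → F) →ₗ[F] (Fin n → F)),
        D.2.two_le, D.2.pos, fun j => by rw [LinearEquiv.finrank_map_eq, D.2.finrank_eq],
        D.2.indep.map_orderIso (Submodule.orderIsoMapComap g), by
          rw [← Submodule.map_iSup, D.2.iSup_eq_top, Submodule.map_top, LinearEquiv.range]⟩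
      one_smul := fun D => Subtype.ext (funext fun j => Submodule.map_id _)
      mul_smul := fun g h D => Subtype.ext (funext fun j => Submodule.map_comp _ _ _) }
  refine card_dvd_of_trans fun D D' => ?_
  have e : ∀ j, D.1 j ≃ₗ[F] D'.1 j := fun j =>
    (FiniteDimensional.nonempty_linearEquiv_of_finrank_eq
      ((D.2.finrank_eq j).trans (D'.2.finrank_eq j).symm)).some
  obtain ⟨g, hg⟩ := exists_equiv_of_decomp D.2.indep D.2.iSup_eq_top D'.2.indep D'.2.iSup_eq_top e
  refine ⟨g, Subtype.ext (funext fun j => ?_)⟩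
  exact map_eq_of_maps (f := (g : End F (Fin n → F))) g.injective
    (fun x hx => by rw [LinearEquiv.coe_coe, hg j ⟨x, hx⟩]; exact (e j _).2)
    ((D.2.finrank_eq j).trans (D'.2.finrank_eq j).symm)

/-- Elements of odd prime order of PSL_n(q) and imprimitive subgroups. Here `T = PSL_n(F)` for a field `F` with `q = p^f` elements (`n ≥ 2`, `(n, q) ≠ (2, 2), (2, 3)`), `n = a·t` with `t ≥ 2`, and Ω is the set of direct-sum decompositions of `F^n` into `t` subspaces of dimension `a` (unordered; their number is the number of ordered ones divided by `t!`), whose stabilizers are the imprimitive subgroups of type GL_a(q) ≀ S_t (maximal except in some small cases; maximality is not assumed); an element of `T` of prime order `r` (a matrix `x` of determinant 1 with `x^r` scalar, `x` not scalar) fixes a point of Ω when it permutes the summands of some such decomposition. Let `r ≠ p` be an odd prime dividing the number of such decompositions, let `c` be the multiplicative order of `q` modulo `r`, and write `k = n mod c`, `ℓ = a mod c`.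 Then every element of `T` of order `r` stabilizes such a decomposition if and only if either `a = 1`, `c = r − 1 > 1` and `n ≤ k·r`, or `c ≤ a` and `k = t·ℓ`. -/
theorem result {F : Type*} [Field F] [Fintype F] {p : ℕ} [Fact p.Prime] [CharP F p] {q : ℕ} (hq : Fintype.card F = q)
    (n a t : ℕ) (hn : 2 ≤ n) (hT : (n, q) ≠ (2, 2) ∧ (n, q) ≠ (2, 3)) (hat : n = a * t) (ha : 1 ≤ a) (ht : 2 ≤ t)
    (r : ℕ) [Fact r.Prime] (hr2 : r ≠ 2) (hrp : r ≠ p) (hΩ : r ∣ Nat.card {D : Fin t → Submodule F (Fin n → F) // Cfsg.Geo.IsMDecomposition a D} / Nat.factorial t)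
    (c : ℕ) (hc : c = orderOf (q : ZMod r)) :
    (∀ x : Matrix.SpecialLinearGroup (Fin n) F,
      (∃ z : F, ((x ^ r : Matrix.SpecialLinearGroup (Fin n) F) : Matrix (Fin n) (Fin n) F) = z • (1 : Matrix (Fin n) (Fin n) F)) →
      (∀ z : F, (x : Matrix (Fin n) (Fin n) F) ≠ z • (1 : Matrix (Fin n) (Fin n) F)) →
      ∃ D : Fin t → Submodule F (Fin n → F), Cfsg.Geo.IsMDecomposition a D ∧
        ∃ σ : Equiv.Perm (Fin t), ∀ j, (D j).map (Matrix.toLin' (x : Matrix (Fin n) (Fin n) F)) = D (σ j)) ↔
    ((a = 1 ∧ 1 < c ∧ c = r - 1 ∧ n ≤ (n % c) * r) ∨ (c ≤ a ∧ n % c = t * (a % c))) := by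
  have hfr : finrank F (Fin n → F) = n := by simp
  have hr : r.Prime := Fact.out
  have hq2 := two_le_q hq
  rw [forall_sl_iff r fun f => ∃ D : Fin t → Submodule F (Fin n → F),
    Cfsg.Geo.IsMDecomposition a D ∧ ∃ σ : Equiv.Perm (Fin t), ∀ j, (D j).map f = D (σ j)]
  have hne : ∀ D : Fin t → Submodule F (Fin n → F), Cfsg.Geo.IsMDecomposition a D →
      ∀ j, D j ≠ ⊥ := fun D hD j hj => by
    have := hD.finrank_eq j
    rw [hj, finrank_bot] at this
    omega
  have hc0 : 0 < c := hc ▸ orderOf_pos' hq hrp
  have hcr : c ≤ r - 1 :=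
    Nat.le_of_dvd (by have := hr.two_le; omega) (hc ▸ orderOf_dvd_sub_one hq hrp)
  constructor
  · intro H
    have hcn : c ≤ n := by
      obtain ⟨D₀, h1, h2, h3, -⟩ := (imprim_fixed (i := 1) one_pos t
        (f := (1 : End F (Fin n → F))) (A := Multiset.replicate n (X - 1)) (B := 0)
        (hasType_of_prod_eq (P := X - 1) irreducible_X_sub_one.squarefree (by simp)
          (fun g hg => by
            rw [add_zero] at hg; rw [Multiset.eq_of_mem_replicate hg]; exact monic_X_sub_one)
          (fun g hg => by
            rw [add_zero] at hg; rw [Multiset.eq_of_mem_replicate hg])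
          (by simp [LinearMap.charpoly_one]))
        (natDegree_replicate_one n) (by simp) (hfr.trans hat) (by simp [Nat.mod_one])).out
        Function.injective_id (hfr.trans hat)
      have : Nonempty {D : Fin t → Submodule F (Fin n → F) // Cfsg.Geo.IsMDecomposition a D} :=
        ⟨⟨D₀, ht, ha, h1, h2, h3⟩⟩
      have h4 := factorial_dvd_card
        (fun D : Fin t → Submodule F (Fin n → F) => Cfsg.Geo.IsMDecomposition a D)
        (fun D σ hD => ⟨ht, ha, fun j => hD.finrank_eq _, hD.indep.comp σ.injective,
          σ.iSup_comp.trans hD.iSup_eq_top⟩)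
        (fun D hD => hD.indep.injective (hne D hD))
      obtain ⟨g, -, h5, h6⟩ := exists_pow_eq_one_of_dvd_card ⊤
        ((hΩ.trans (Nat.div_dvd_of_dvd h4)).trans card_dvd)
      have := orderOf_le_of_pow_eq_one hq hrp h5 h6
      rwa [hfr, ← hc] at this
    rcases Nat.eq_or_lt_of_le hc0 with hc1 | hc1
    · right
      rw [← hc1]
      exact ⟨ha, by simp [Nat.mod_one]⟩
    have key : ∀ e s : ℕ, s ≠ 0 → n = e + c * s →
        (t * (a % c) ≤ e ∨ (a ≤ e ∧ e + a * (r - 1) ≤ n)) ∧ (a = 1 → n ≤ r * e) := by
      intro e s hs hes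
      obtain ⟨f, h1, h2, h3, h4⟩ := exists_fixed_dim (V := Fin n → F) hq hrp (hc ▸ hc1) hs
        (by rw [hfr, ← hc, ← hes])
      obtain ⟨D, hD, σ, hσ⟩ := H f h1 ⟨1, by simpa using h2⟩ h3
      have hσr : σ ^ r = 1 := perm_pow_eq_one hD.indep (hne D hD) hσ one_ne_zero (by simpa using h2)
      have hdvd : ∀ j, σ j = j → c ∣ finrank F ((D j).map (f - 1)) := fun j hj =>
        hc ▸ orderOf_dvd_finrank_map hq hrp h2 fun x hx => by
          have : f x ∈ D (σ j) := by rw [← hσ]; exact ⟨x, hx, rfl⟩
          rwa [hj] at this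
      refine ⟨?_, fun ha1 => ?_⟩
      · by_cases hfix : ∀ j, σ j = j
        · left
          have := mul_mod_le_finrank_ker hD.indep hD.finrank_eq fun j => hdvd j (hfix j)
          rwa [Fintype.card_fin, h4] at this
        · right
          push Not at hfix
          obtain ⟨j, hj⟩ := hfix
          have h5 := le_finrank_ker hD.indep hσ hr hσr h2 hj
          have h6 := finrank_ker_add_le hD.indep hσ hD.finrank_eq hr hσr hj
          rw [h4, hD.finrank_eq] at h5
          rw [h4, hfr] at h6
          exact ⟨h5, h6⟩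
      · have := card_le_mul_finrank_ker hD.indep hσ hr hσr h2 (hne D hD) fun j hj => by
          have h5 : finrank F ((D j).map (f - 1)) ≤ 1 :=
            (Submodule.finrank_map_le _ _).trans (by rw [hD.finrank_eq, ha1])
          have h6 := Nat.eq_zero_of_dvd_of_lt (hdvd j hj) (by omega)
          rw [Submodule.finrank_eq_zero] at h6
          exact LinearMap.le_ker_iff_map.mpr h6
        rw [Fintype.card_fin, h4] at this
        rw [hat, ha1, one_mul]
        exact this
    have hk := key (n % c) (n / c) (Nat.div_pos hcn hc0).ne' (Nat.mod_add_div n c).symm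
    have hlt := Nat.mod_lt n hc0
    by_cases hca : c ≤ a
    · right
      refine ⟨hca, le_antisymm ?_ (hk.1.resolve_right (by omega))⟩
      rw [hat, mul_comm a t, ← Nat.mul_mod_mod]
      exact Nat.mod_le _ _
    · left
      have h1 := (key (n - c) 1 one_ne_zero (by omega)).1
      rw [Nat.mod_eq_of_lt (by omega), mul_comm t a, ← hat] at h1
      obtain ⟨-, h2⟩ := h1.resolve_left (by omega)
      have h3 : a * (r - 1) ≤ 1 * (r - 1) := by omega
      have h4 : a = 1 := le_antisymm (Nat.le_of_mul_le_mul_right h3 (by omega)) ha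
      refine ⟨h4, hc1, ?_, mul_comm r _ ▸ hk.2 h4⟩
      rw [h4] at h2
      omega
  · rintro H f hd ⟨z, hz⟩ -
    have : Nontrivial (Fin n → F) := Module.nontrivial_of_finrank_pos (R := F) (by omega)
    have hz0 : z ≠ 0 := scalar_ne_zero (by simp [hd]) hz
    have himp : Imprim f a t := by
      rcases dichotomy hq hrp hz0 hz with ⟨-, -, s, h, h1⟩ | ⟨b, hb, -, h0, e, B, h1, h2, h3⟩
      · rw [hfr, hat] at h1
        rcases (Nat.Prime.dvd_mul hr).mp ⟨s, h1⟩ with h2 | ⟨k, rfl⟩
        · exact imprim_fixed (A := 0) hr.pos t (by simpa using h) (by simp)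
            (natDegree_replicate_pow s z) (hfr.trans hat) (by simp [Nat.mod_eq_zero_of_dvd h2])
        · obtain rfl : a * k = s := Nat.eq_of_mul_eq_mul_left hr.pos (by rw [← h1]; ring)
          exact imprim_free hr.one_lt k h
      · refine Imprim.of_smul (inv_ne_zero hb) ?_
        have hB : ∀ g ∈ B, g.natDegree = c := fun g hg =>
          hc ▸ natDegree_of_dvd_cyclotomic hq hrp (h2 g hg).1 (h2 g hg).2
        rw [hfr, ← hc] at h3
        have hk : n % c ≤ e := by rw [h3, Nat.add_mul_mod_self_left]; exact Nat.mod_le _ _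
        rcases H with ⟨rfl, h4, h5, h6⟩ | ⟨h4, h5⟩
        · set s := Multiset.card B with hs
          obtain ⟨r', rfl⟩ : ∃ r', r = r' + 1 := ⟨r - 1, by have := hr.pos; omega⟩
          rw [Nat.add_sub_cancel] at h5
          subst h5
          have h7 : s ≤ e := by
            have : n ≤ e * (c + 1) := h6.trans (Nat.mul_le_mul_right _ hk)
            refine Nat.le_of_mul_le_mul_left ?_ hc0
            nlinarith
          obtain ⟨e', rfl⟩ := Nat.exists_eq_add_of_le' h7
          have hBeq : B = Multiset.replicate s (cyclotomic (c + 1) F) :=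
            Multiset.eq_replicate.mpr ⟨rfl, fun g hg => (eq_of_monic_of_dvd_of_natDegree_le
              (h1.monic g (by simp [hg])) (cyclotomic.monic _ _) (h2 g hg).2 (by
                rw [natDegree_cyclotomic, Nat.totient_prime hr, hB g hg]; simp)).symm⟩
          have h8 : HasType (b⁻¹ • f) (Multiset.replicate e' (X - 1) + 0 +
              Multiset.replicate (1 * s) (X ^ (c + 1) - C 1)) := by
            refine hasType_of_prod_eq (squarefree_X_pow_sub_one hrp)
              ((aeval_X_pow_sub_one_eq_zero_iff _ _).mpr h0) ?_ ?_ ?_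
            · intro g hg
              rw [add_zero] at hg
              rcases Multiset.mem_add.mp hg with hg | hg <;> rw [Multiset.eq_of_mem_replicate hg]
              exacts [monic_X_sub_one, monic_X_pow_sub_C _ (by omega)]
            · intro g hg
              rw [add_zero] at hg
              rcases Multiset.mem_add.mp hg with hg | hg <;> rw [Multiset.eq_of_mem_replicate hg]
              · rw [← cyclotomic_prime_mul_X_sub_one]; exact dvd_mul_left _ _
              · simp
            · rw [h1.charpoly, hBeq, C_1, ← cyclotomic_prime_mul_X_sub_one]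
              simp [pow_add, mul_pow]
              ring
          have h9 : t = e' + (c + 1) * s := by rw [one_mul] at hat; rw [← hat, h3]; ring
          rw [h9]
          exact imprim_mixed (i := 1) hr.one_lt one_pos h8 (natDegree_replicate_one e') (by simp)
            (by rw [hfr, hat, h9]) (by simp)
        · exact imprim_fixed hc0 t h1 (natDegree_replicate_one e) hB (hfr.trans hat)
            (by simpa [← h5] using hk)
    obtain ⟨D, h1, h2, h3, h4⟩ := himp.out (bijective_of_det_ne_zero (by simp [hd])).1
      (hfr.trans hat)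
    exact ⟨D, ⟨ht, ha, h1, h2, h3⟩, h4⟩

end Cfsg.Agent.S5958
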