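import Cfsg.Statements.S5959
import Cfsg.Agent.H9.Imprim

set_option autoImplicit false
set_option linter.unusedVariables false
open scoped MatrixGroups
open Cfsg

namespace Cfsg.Agent.S5959

open Module Polynomial Cfsg.Agent.H9 Cfsg.Agent.H9.OrdR Cfsg.Agent.H9.Subsp Cfsg.Agent.H9.Arith
  Cfsg.Agent.H9.Unip Cfsg.Agent.H9.Types Cfsg.Agent.H9.Imprim

/-- Elements of order `p` of PSL_n(q) and imprimitive subgroups: a necessary condition. Here `T = PSL_n(F)` for a field `F` with `q = p^f` elements (`n ≥ 2`, `(n, q) ≠ (2, 2), (2, 3)`), `n = a·t` with `t ≥ 2`, and Ω is the set of direct-sum decompositions of `F^n` into `t` subspaces of dimension `a` (unordered; their number is the number of ordered ones divided by `t!`), whose stabilizers are the imprimitive subgroups of type GL_a(q) ≀ S_t (maximal except in some small cases; maximality is not assumed); an element of `T` of prime order `r` (a matrix `x` of determinant 1 with `x^r` scalar, `x` not scalar) fixes a point of Ω when it permutes the summands of some such decomposition.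 Suppose `p > 2` divides the number of such decompositions. If every element of `T` of order `p` stabilizes such a decomposition, then every partition of `n` into parts of size at most `p` in which the part `p` occurs fewer than `a` times contains (as a sub-multiset) a partition of `a`. -/
theorem result {F : Type*} [Field F] [Fintype F] {p : ℕ} [Fact p.Prime] [CharP F p] {q : ℕ} (hq : Fintype.card F = q)
    (n a t : ℕ) (hn : 2 ≤ n) (hT : (n, q) ≠ (2, 2) ∧ (n, q) ≠ (2, 3)) (hat : n = a * t) (ha : 1 ≤ a) (ht : 2 ≤ t)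
    (hp : 2 < p) (hΩ : p ∣ Nat.card {D : Fin t → Submodule F (Fin n → F) // Cfsg.Geo.IsMDecomposition a D} / Nat.factorial t)
    (h : ∀ x : Matrix.SpecialLinearGroup (Fin n) F,
      (∃ z : F, ((x ^ p : Matrix.SpecialLinearGroup (Fin n) F) : Matrix (Fin n) (Fin n) F) = z • (1 : Matrix (Fin n) (Fin n) F)) →
      (∀ z : F, (x : Matrix (Fin n) (Fin n) F) ≠ z • (1 : Matrix (Fin n) (Fin n) F)) →
      ∃ D : Fin t → Submodule F (Fin n → F), Cfsg.Geo.IsMDecomposition a D ∧
        ∃ σ : Equiv.Perm (Fin t), ∀ j, (D j).map (Matrix.toLin' (x : Matrix (Fin n) (Fin n) F)) = D (σ j)) :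
    (∀ μ : Multiset ℕ, (∀ b ∈ μ, 0 < b ∧ b ≤ p) → μ.sum = n → μ.count p < a → ∃ ν : Multiset ℕ, ν ≤ μ ∧ ν.sum = a) := by
  have hfr : finrank F (Fin n → F) = n := by simp
  rw [forall_sl_iff p fun f => ∃ D : Fin t → Submodule F (Fin n → F),
    Cfsg.Geo.IsMDecomposition a D ∧ ∃ σ : Equiv.Perm (Fin t), ∀ j, (D j).map f = D (σ j)] at h
  intro μ h1 h2 h3
  by_cases h4 : ∀ e ∈ μ, e = 1
  · exact exists_le_sum_of_ones h4 (by rw [h2, hat]; exact Nat.le_mul_of_pos_right _ (by omega))
  push Not at h4
  obtain ⟨e, he, he1⟩ := h4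
  obtain ⟨f, h4, h5, h6⟩ := exists_unipotent (F := F) (V := Fin n → F) (p := p)
    (fun e he => (h1 e he).2) (h2.trans hfr.symm)
  obtain ⟨D, hD, σ, hσ⟩ := h f h5 ⟨1, by simpa using h6⟩
    (not_scalar_of_jordan h4 he (by have := (h1 e he).1; omega))
  have h0 : ∀ j, D j ≠ ⊥ := fun j hj => by
    have := hD.finrank_eq j
    rw [hj, finrank_bot] at this
    omega
  have hσp : σ ^ p = 1 := perm_pow_eq_one hD.indep h0 hσ one_ne_zero (by simpa using h6)
  have hfix : ∀ j, σ j = j := by
    intro j
    by_contra hj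
    have h7 := le_finrank_range_sum hD.indep hσ Fact.out hσp hj
    have h8 : (∑ k ∈ Finset.range p, f ^ k) = (f - (1 : F) • 1) ^ (p - 1) := by
      have h9 : (∑ k ∈ Finset.range p, X ^ k : F[X]) = (X - C 1) ^ (p - 1) := by
        apply mul_right_cancel₀ (X_sub_C_ne_zero (1 : F))
        rw [← pow_succ, Nat.sub_add_cancel (by omega), sub_pow_char, C_1, geom_sum_mul, one_pow]
      rw [← aeval_X_sub_C_pow, ← h9]
      simp
    have h9 := h4.finrank_ker_jordan (p - 1)
    have h10 := LinearMap.finrank_range_add_finrank_ker ((f - (1 : F) • 1) ^ (p - 1))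
    have h11 : finrank F ((D j).map ((f - (1 : F) • 1) ^ (p - 1))) ≤
        finrank F (LinearMap.range ((f - (1 : F) • 1) ^ (p - 1))) :=
      Submodule.finrank_mono LinearMap.map_le_range
    have h12 : ∀ s : Multiset ℕ, (∀ b ∈ s, b ≤ p) →
        (s.map fun e => min e (p - 1)).sum + s.count p = s.sum := by
      intro s
      induction s using Multiset.induction_on with
      | empty => simp
      | cons b s ih =>
        intro hs
        have := ih fun c hc => hs c (Multiset.mem_cons_of_mem hc)
        have := hs b (Multiset.mem_cons_self _ _)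
        simp only [Multiset.map_cons, Multiset.sum_cons, Multiset.count_cons]
        split_ifs <;> omega
    have h13 := h12 μ fun b hb => (h1 b hb).2
    rw [h8, hD.finrank_eq] at h7
    omega
  let j : Fin t := ⟨0, by omega⟩
  have hinv : ∀ k, ∀ x ∈ D k, f x ∈ D k := fun k x hx => by
    rw [← hfix k, ← hσ]; exact ⟨x, hx, rfl⟩
  rw [← hD.finrank_eq j]
  refine exists_le_sum_of_isCompl h4 (fun e he => (h1 e he).1)
    (W := ⨆ k, ⨆ (_ : k ≠ j), D k) ⟨hD.indep j, codisjoint_iff.mpr ?_⟩ (hinv j) ?_
  · rw [← hD.iSup_eq_top]; exact (iSup_split_single D j).symm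
  · rw [← map_le_iff, Submodule.map_iSup]
    refine iSup_mono fun k => ?_
    rw [Submodule.map_iSup]
    exact iSup_mono fun _ => map_le_iff.mpr (hinv k)

end Cfsg.Agent.S5959
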