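import Cfsg.Statements.S5961
import Cfsg.Agent.H9.FDec
import Cfsg.Agent.H9.FEven

set_option autoImplicit false
set_option linter.unusedVariables false
open scoped MatrixGroups
open Cfsg

namespace Cfsg.Agent.S5961

open Module Polynomial Cfsg.Agent.H9 Cfsg.Agent.Form Cfsg.Agent.Form.PQ Cfsg.Agent.H9.FIdx
  Cfsg.Agent.H9.FCount Cfsg.Agent.H9.FClass Cfsg.Agent.H9.FOrd Cfsg.Agent.H9.Types
  Cfsg.Agent.H9.FInv Cfsg.Agent.H9.FSS Cfsg.Agent.H9.FModel Cfsg.Agent.H9.FNum
  Cfsg.Agent.H9.FAdapt Cfsg.Agent.H9.FSemi Cfsg.Agent.H9.FInvol Cfsg.Agent.H9.FTrP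
  Cfsg.Agent.H9.FSpin Cfsg.Agent.H9.FOArith Cfsg.Agent.H9.FOrth
  Cfsg.Agent.H9.FUnip
open Cfsg.Agent.H9.FDec Cfsg.Agent.H9.Imprim

/-- Elements of odd prime order of PSp_n(q) and imprimitive subgroups. Here `T = PSp_n(q)`, `n = 2d ≥ 4`, `(n, q) ≠ (4, 2)`, realised through the symplectic matrices over the field `F` with `q` elements and the standard alternating form; `n = a·t` with `a` even and `t ≥ 2`, and Ω is the (nonempty) set of orthogonal decompositions of `F^n` into `t` nondegenerate subspaces of dimension `a` (unordered; counted as ordered ones divided by `t!`), whose stabilizers are the imprimitive subgroups of type Sp_a(q) ≀ S_t (maximality is not assumed); an element of `T` of prime order `r` (a symplectic matrix `x` with `x^r` scalar, `x` not scalar) fixes a point of Ω when it permutes the summands of some such decomposition. Let `r ≠ p` be an odd prime dividing the number of such decompositions, let `i` be the multiplicative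 order of `q` modulo `r`, `c = i` if `i` is even and `c = 2i` if `i` is odd, and write `k = n mod c`, `ℓ = a mod c`. Then every element of `T` of order `r` stabilizes such a decomposition if and only if `c ≤ a` and `k = t·ℓ`. -/
theorem result {F : Type*} [Field F] [Fintype F] {p : ℕ} [Fact p.Prime] [CharP F p] {q : ℕ} (hq : Fintype.card F = q)
    (d : ℕ) (hd : 2 ≤ d) (hT : (d, q) ≠ (2, 2))
    (a t : ℕ) (hat : 2 * d = a * t) (ha : 2 ≤ a) (hae : Even a) (ht : 2 ≤ t)
    (r : ℕ) [Fact r.Prime] (hr2 : r ≠ 2) (hrp : r ≠ p) (hΩ : r ∣ Nat.card {D : Fin t → Submodule F (Fin d ⊕ Fin d → F) // (Cfsg.Geo.IsMDecomposition a D ∧ (∀ j, ∀ u ∈ D j, u ≠ 0 → ∃ v ∈ D j, Cfsg.sympForm d F u v ≠ 0) ∧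
          (∀ j j', j ≠ j' → ∀ u ∈ D j, ∀ v ∈ D j', Cfsg.sympForm d F u v = 0))} / Nat.factorial t)
    (i c : ℕ) (hi : i = orderOf (q : ZMod r)) (hc : c = if Even i then i else 2 * i) :
    (∀ x : ↥(Matrix.symplecticGroup (Fin d) F),
      (∃ z : F, ((x ^ r : ↥(Matrix.symplecticGroup (Fin d) F)) : Matrix (Fin d ⊕ Fin d) (Fin d ⊕ Fin d) F) = z • (1 : Matrix (Fin d ⊕ Fin d) (Fin d ⊕ Fin d) F)) →
      (∀ z : F, (x : Matrix (Fin d ⊕ Fin d) (Fin d ⊕ Fin d) F) ≠ z • (1 : Matrix (Fin d ⊕ Fin d) (Fin d ⊕ Fin d) F)) →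
      ∃ D : Fin t → Submodule F (Fin d ⊕ Fin d → F), (Cfsg.Geo.IsMDecomposition a D ∧ (∀ j, ∀ u ∈ D j, u ≠ 0 → ∃ v ∈ D j, Cfsg.sympForm d F u v ≠ 0) ∧
          (∀ j j', j ≠ j' → ∀ u ∈ D j, ∀ v ∈ D j', Cfsg.sympForm d F u v = 0)) ∧
        ∃ σ : Equiv.Perm (Fin t), ∀ j, (D j).map (Matrix.toLin' (x : Matrix (Fin d ⊕ Fin d) (Fin d ⊕ Fin d) F)) = D (σ j)) ↔
    (c ≤ a ∧ (2 * d) % c = t * (a % c)) := by
  have hn := finrank_sum (F := F) d
  have : Nontrivial (Fin d ⊕ Fin d → F) := nontrivial_of_finrank_pos (R := F) (by omega)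
  have hr : r.Prime := Fact.out
  have hS := spS_nondeg (F := F) d
  have hb : Blk (FP.symp F) q r p c := blk_id hq hrp hr2 (fun _ => rfl) hi hc
  have hc0 := hb.pos hq hrp
  have hce := Nat.even_iff.1 (even_c hc)
  have ha2 := Nat.even_iff.1 hae
  simp only [geo_iff (by omega : 0 < a) ht] at hΩ ⊢
  set R : (Fin t → Submodule F (Fin d ⊕ Fin d → F)) → Prop := fun D =>
    (∀ j, finrank F (D j) = a) ∧ iSupIndep D ∧ iSup D = ⊤ ∧
      (∀ j, (spS d F).NondegOn (D j)) ∧ ∀ j j', j ≠ j' → D j ≤ (spS d F).perp (D j') with hR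
  refine (forall_sp_iff d r fun f => ∃ D, R D ∧
    ∃ σ : Equiv.Perm (Fin t), ∀ j, (D j).map f = D (σ j)).trans ?_
  rw [forall_odd_iff (A := fun f => (spS d F).IsIso (spS d F) f) (fun _ => rfl) hS
    (hr.odd_of_ne_two hr2) (fun _ h => h) (fun _ h _ => h) fun f b hb0 ⟨D, h1, σ, h2⟩ =>
      ⟨D, h1, σ, fun j => by rw [← h2, Submodule.map_smul _ _ _ hb0]⟩]
  have hne : ∀ D, R D → ∀ j, D j ≠ ⊥ := fun D hD j hj => by
    have := hD.1 j
    rw [hj, finrank_bot] at this
    omega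
  have hcr : c ≤ r - 1 := by
    obtain ⟨k, h1⟩ : i ∣ r - 1 := hi ▸ Arith.orderOf_dvd_sub_one hq hrp
    have h2 := Nat.odd_iff.1 (hr.odd_of_ne_two hr2)
    have h3 := hr.two_le
    rcases k with _ | _ | k
    · omega
    · rw [if_pos (Nat.even_iff.2 (by omega))] at hc; omega
    · split_ifs at hc <;> nlinarith
  constructor
  · intro H
    have hcn : c ≤ 2 * d := by
      obtain ⟨D, h1, h2, h3, h4, h5, -⟩ := (symp_two_odec p hS (IsIso.id _) (f := 1) (z := 1)
        (by simp) ha2 (hn.trans hat)).out Function.injective_id (hn.trans hat)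
      have : Nonempty {D // R D} := ⟨⟨D, h1, h2, h3, h4, h5⟩⟩
      have h4 := factorial_dvd_card R (fun D σ ⟨a1, a2, a3, a4, a5⟩ => ⟨fun j => a1 _,
        a2.comp σ.injective, σ.iSup_comp.trans a3, fun j => a4 _,
          fun j j' h => a5 _ _ (σ.injective.ne h)⟩) (fun D hD => hD.2.1.injective (hne D hD))
      obtain ⟨g, h5, h6, h7⟩ := exists_pow_eq_one_of_dvd_card _
        ((hΩ.trans (Nat.div_dvd_of_dvd h4)).trans
          (card_odec_dvd (S := spS d F) H7.trP_symp R fun _ => Iff.rfl))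
      obtain ⟨s, a1, -, a2⟩ := hb.data hq hrp hS h5 h6 h7
      nlinarith
    have key : ∀ e s : ℕ, 0 < s → 2 * d = e + c * s →
        t * (a % c) ≤ e ∨ (a ≤ e ∧ e + a * (r - 1) ≤ 2 * d) := by
      intro e s hs hes
      obtain ⟨f, h1, h2, h3, h4⟩ := (models_symp (c := c) hq hrp hS).exists hb hq hrp hr2 hs
        (by omega)
      have h5 := finrank_cd_top hrp h2
      obtain rfl : finrank F (Cx f) = e := by omega
      obtain ⟨D, hD, σ, hσ⟩ := H f h1 h2 h3
      have hσr : σ ^ r = 1 := perm_pow_eq_one hD.2.1 (hne D hD) hσ one_ne_zero (by simpa using h2)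
      by_cases hfix : ∀ j, σ j = j
      · left
        rw [← Fintype.card_fin t]
        refine mul_mod_le_finrank_ker hD.2.1 hD.1 fun j => ?_
        have a1 : ∀ x ∈ D j, f x ∈ D j := fun x hx => by
          rw [← hfix j, ← hσ]; exact ⟨x, hx, rfl⟩
        have a2 := finrank_cd hrp h2 a1
        rw [add_comm, ← LinBasic.finrank_map_add_finrank_inf_ker (f - 1) (D j)] at a2
        rw [Nat.add_right_cancel a2]
        exact hb.dvd hq hrp hS h1 h2 (nondegOn_inf_Dx hrp h1 h2 (hD.2.2.2.1 j) a1)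
          (inv_inf a1 (inv_Dx r)) inf_le_right
      · right
        push Not at hfix
        obtain ⟨j, hj⟩ := hfix
        exact ⟨hD.1 j ▸ le_finrank_ker hD.2.1 hσ hr hσr h2 hj,
          hn ▸ finrank_ker_add_le hD.2.1 hσ hD.1 hr hσr hj⟩
    have hk := key (2 * d % c) (2 * d / c) (Nat.div_pos hcn hc0) (Nat.mod_add_div _ c).symm
    have hlt := Nat.mod_lt (2 * d) hc0
    have hca : c ≤ a := by
      by_contra hca
      have h1 := key (2 * d - c) 1 one_pos (by omega)
      rw [Nat.mod_eq_of_lt (by omega), mul_comm t a, ← hat] at h1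
      obtain ⟨-, h2⟩ := h1.resolve_left (by omega)
      nlinarith [Nat.sub_add_cancel hcn]
    refine ⟨hca, le_antisymm ?_ (hk.resolve_right (by omega))⟩
    rw [hat, mul_comm a t, ← Nat.mul_mod_mod]
    exact Nat.mod_le _ _
  · rintro ⟨-, H⟩ f h1 h2 h3
    obtain ⟨s, -, -, a2⟩ := hb.data hq hrp hS h1 h2 h3
    obtain ⟨D, b1, b2, b3, b4, b5, b6⟩ := (symp_odec hb hq hrp hr2 hS h1 h2 ha2 hce (hn.trans hat)
      (by rw [← H, ← hn, a2, Nat.add_mul_mod_self_left]; exact Nat.mod_le _ _)).out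
      (h1.injective hS) (hn.trans hat)
    exact ⟨D, ⟨b1, b2, b3, b4, b5⟩, b6⟩

end Cfsg.Agent.S5961
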