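import Cfsg.Statements.S5963
import Cfsg.Agent.H9.FPair

set_option autoImplicit false
set_option linter.unusedVariables false
open scoped MatrixGroups
open Cfsg

namespace Cfsg.Agent.S5963

open Module Polynomial Cfsg.Agent.H9 Cfsg.Agent.Form Cfsg.Agent.Form.PQ Cfsg.Agent.H9.FIdx
  Cfsg.Agent.H9.FCount Cfsg.Agent.H9.FClass Cfsg.Agent.H9.FOrd Cfsg.Agent.H9.Types
  Cfsg.Agent.H9.FInv Cfsg.Agent.H9.FSS Cfsg.Agent.H9.FModel Cfsg.Agent.H9.FNum
  Cfsg.Agent.H9.FAdapt Cfsg.Agent.H9.FSemi Cfsg.Agent.H9.FInvol Cfsg.Agent.H9.FTrP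
  Cfsg.Agent.H9.FUni Cfsg.Agent.H9.Cj Cfsg.Agent.H9.FPair

/-- Derangements of odd prime order of PSp_n(q), q odd, on pairs of complementary totally isotropic subspaces. Here `T = PSp_n(q)`, `n = 2d ≥ 4`, `q` odd, realised through the symplectic matrices over the field `F` with `q` elements; Ω is the set of unordered pairs `{U, W}` of complementary totally isotropic `d`-spaces (`F^n = U ⊕ W`), whose stabilizers are the subgroups of type GL_d(q).2 (maximal except in some small cases; maximality is not assumed); an element of `T` of prime order `r` (a symplectic matrix `x` with `x^r` scalar, `x` not scalar) fixes such a pair when it fixes or interchanges `U` and `W`. For every odd prime `r ≠ p` dividing the number of such pairs, some element of `T` of order `r` fixes no such pair (the action is never `r`-elusive for odd `r ≠ p`). -/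
theorem result {F : Type*} [Field F] [Fintype F] {p : ℕ} [Fact p.Prime] [CharP F p] {q : ℕ} (hq : Fintype.card F = q)
    (d : ℕ) (hd : 2 ≤ d) (hT : (d, q) ≠ (2, 2)) (hodd : Odd q)
    (r : ℕ) [Fact r.Prime] (hr2 : r ≠ 2) (hrp : r ≠ p) (hΩ : r ∣ Nat.card {P : Submodule F (Fin d ⊕ Fin d → F) × Submodule F (Fin d ⊕ Fin d → F) // IsCompl P.1 P.2 ∧ (∀ u ∈ P.1, ∀ v ∈ P.1, Cfsg.sympForm d F u v = 0) ∧ (∀ u ∈ P.2, ∀ v ∈ P.2, Cfsg.sympForm d F u v = 0)} / 2) :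
    ∃ x : ↥(Matrix.symplecticGroup (Fin d) F),
      (∃ z : F, ((x ^ r : ↥(Matrix.symplecticGroup (Fin d) F)) : Matrix (Fin d ⊕ Fin d) (Fin d ⊕ Fin d) F) = z • (1 : Matrix (Fin d ⊕ Fin d) (Fin d ⊕ Fin d) F)) ∧
      (∀ z : F, (x : Matrix (Fin d ⊕ Fin d) (Fin d ⊕ Fin d) F) ≠ z • (1 : Matrix (Fin d ⊕ Fin d) (Fin d ⊕ Fin d) F)) ∧
      ¬ (∃ U W : Submodule F (Fin d ⊕ Fin d → F), IsCompl U W ∧ (∀ u ∈ U, ∀ v ∈ U, Cfsg.sympForm d F u v = 0) ∧ (∀ u ∈ W, ∀ v ∈ W, Cfsg.sympForm d F u v = 0) ∧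
        ((U.map (Matrix.toLin' (x : Matrix (Fin d ⊕ Fin d) (Fin d ⊕ Fin d) F)) = U ∧ W.map (Matrix.toLin' (x : Matrix (Fin d ⊕ Fin d) (Fin d ⊕ Fin d) F)) = W) ∨
         (U.map (Matrix.toLin' (x : Matrix (Fin d ⊕ Fin d) (Fin d ⊕ Fin d) F)) = W ∧ W.map (Matrix.toLin' (x : Matrix (Fin d ⊕ Fin d) (Fin d ⊕ Fin d) F)) = U))) := by
  have hn := finrank_sum (F := F) d
  have : Nontrivial (Fin d ⊕ Fin d → F) := nontrivial_of_finrank_pos (R := F) (by omega)
  have hS := spS_nondeg (F := F) d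
  have hr : r.Prime := Fact.out
  have hw : widx (spS d F) ⊤ = d := by rw [widx_top_of_trP H7.trP_symp hS]; omega
  have e : ∀ U : Submodule F (Fin d ⊕ Fin d → F),
    (∀ u ∈ U, ∀ v ∈ U, sympForm d F u v = 0) ↔ (spS d F).TS U := fun U => (symp_ts (spS d F) U).symm
  simp only [e] at hΩ ⊢
  obtain ⟨j, h1, h2⟩ := dvd_of_dvd_card hq hS hn hw hrp (hΩ.trans (Nat.div_dvd_of_dvd (by
    obtain ⟨k, hk⟩ := card_pairs p hq hS hn hw
    refine hk ▸ Dvd.dvd.mul_right ((even_iff_two_dvd.1 ?_).trans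
      (Finset.dvd_prod_of_mem _ (Finset.mem_range.2 (by omega : 0 < d)))) _
    rw [card_Λ_symp hq]
    exact (hodd.pow.mul hodd).add_one)))
  rw [card_Λ_symp hq, ← pow_succ, dvd_pow_add_one_iff hr2] at h2
  have h3 := Arith.orderOf_pos' hq hrp
  have h4 := Nat.le_of_dvd (by omega) h2.1
  obtain ⟨f, a1, a2, a3, a4⟩ := exists_no_lag H7.trP_symp (sd_id hq hrp hr2 (fun _ => rfl)
    ((dvd_two_mul_not_dvd_iff h3).1 h2).1) hq hrp hr2 hS rfl (models_symp hq hrp hS) (by omega)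
  by_contra! H
  exact a4 ((forall_sp_iff d r (FixPair (spS d F))).1 (fun x b1 b2 =>
    let ⟨U, W, c1, c2, c3, c4⟩ := H x b1 b2; ⟨U, W, ⟨c1, c2, c3⟩, c4⟩) f a1 ⟨1, by simpa using a2⟩
    (not_scalar_of_odd (fun _ => rfl) hS a1 (hr.odd_of_ne_two hr2) a2 a3))

end Cfsg.Agent.S5963
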