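import Cfsg.Statements.S5964
import Cfsg.Agent.H9.Rat

set_option autoImplicit false
set_option linter.unusedVariables false
open scoped MatrixGroups
open Cfsg

namespace Cfsg.Agent.S5964

open Module Polynomial Cfsg.Agent.H9 Cfsg.Agent.Form Cfsg.Agent.H9.Types Cfsg.Agent.H9.FSS
  Cfsg.Agent.H9.FInvol Cfsg.Agent.H9.Cj Cfsg.Agent.H9.Der Cfsg.Agent.H9.Rat Cfsg.Agent.H9.Arith
  Cfsg.Agent.H9.OrdR

/-- Involutions of PSL_n(q) and subfield subgroups. Here `T = PSL_n(F)` for a field `F` with `q = p^f` elements (`n ≥ 2`, `(n, q) ≠ (2, 2), (2, 3)`), `F₀` is the subfield with `q₀` elements where `q = q₀^k` for a prime `k`, and `H` is the subgroup of matrices of determinant 1 lying in the subfield group of `F₀` (invertible matrices over `F₀` times scalars) — a maximal subgroup of type GL_n(q₀) (the case `n = 2`, `q₀ = 2` is excluded); Ω is the set of `T`-conjugates of `H` (cosets of `H`), so an element of `T` of prime order `r` (a matrix `x` of determinant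 1 with `x^r` scalar, `x` not scalar) fixes a point of Ω when some conjugate of `x` by a matrix of determinant 1 lies in `H`. Suppose the index of `H` is even. Then every involution of `T` is conjugate in `T` into `H` if and only if either `q` is even, or `k = 2` and `(n)_2 ≤ (q − 1)_2`. (For `q` odd and `k` odd the index of `H` is odd, so that case does not arise.) -/
theorem result {F : Type*} [Field F] [Fintype F] {p : ℕ} [Fact p.Prime] [CharP F p] {q : ℕ} (hq : Fintype.card F = q)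
    (n : ℕ) (hn : 2 ≤ n) (hT : (n, q) ≠ (2, 2) ∧ (n, q) ≠ (2, 3))
    (F₀ : Subfield F) (k q₀ : ℕ) (hk : k.Prime) (hF₀ : Nat.card ↥F₀ = q₀) (hqk : q = q₀ ^ k) (hC5 : ¬ (n = 2 ∧ q₀ = 2)) (hΩ : 2 ∣ ((Cfsg.Geo.subfieldSubgroup F₀ 1).comap (Matrix.SpecialLinearGroup.toGL : Matrix.SpecialLinearGroup (Fin n) F →* GL (Fin n) F)).index) :
    (∀ x : Matrix.SpecialLinearGroup (Fin n) F,
      (∃ z : F, ((x ^ 2 : Matrix.SpecialLinearGroup (Fin n) F) : Matrix (Fin n) (Fin n) F) = z • (1 : Matrix (Fin n) (Fin n) F)) →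
      (∀ z : F, (x : Matrix (Fin n) (Fin n) F) ≠ z • (1 : Matrix (Fin n) (Fin n) F)) →
      ∃ P : Matrix.SpecialLinearGroup (Fin n) F, P⁻¹ * x * P ∈ ((Cfsg.Geo.subfieldSubgroup F₀ 1).comap (Matrix.SpecialLinearGroup.toGL : Matrix.SpecialLinearGroup (Fin n) F →* GL (Fin n) F))) ↔
    (Odd q → (k = 2 ∧ padicValNat 2 n ≤ padicValNat 2 (q - 1))) := by
  have hfr : finrank F (Fin n → F) = n := by simp
  have : Nontrivial (Fin n → F) := nontrivial_of_finrank_pos (R := F) (by omega)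
  have : Nonempty (Fin n) := ⟨⟨0, by omega⟩⟩
  rw [forall_cj_sl' _ _ (mem_iff F₀)]
  change El _ 2 ↔ _
  by_cases hp2 : 2 = p
  · subst hp2
    have h3 : ¬ Odd q := by have := p_dvd_q (p := 2) hq; rw [Nat.odd_iff]; omega
    exact iff_of_true (el_char_two Rt.smul fun μ c1 c2 _ =>
      let ⟨g, _, h⟩ := exists_jordan_rt (K := F₀) (fun e he => (c1 e he).1) c2; ⟨_, rt_bc g, h⟩)
      fun h => absurd h h3
  have h3 := odd_card hq hp2
  have h4 : q₀ % 2 = 1 := Nat.odd_iff.1 ((Nat.odd_pow_iff hk.ne_zero).1 (hqk ▸ Nat.odd_iff.2 h3))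
  obtain rfl : k = 2 := by
    by_contra h
    rw [index_comap_toGL] at hΩ
    obtain ⟨j, -, -, a⟩ := exists_of_dvd_index F₀ hF₀ (hq.trans hqk) (by omega) hΩ
    rw [← even_iff_two_dvd, Finset.even_sum_iff_even_card_odd, Finset.filter_true_of_mem fun _ _ =>
      (Nat.odd_iff.2 h4).pow.pow, Finset.card_range] at a
    exact h (hk.even_iff.1 a)
  have := Fintype.ofFinite F₀
  rw [Nat.card_eq_fintype_card] at hF₀
  have h5 : finrank F₀ F = 2 := Nat.pow_right_injective (two_le_q hF₀)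
    ((Ext.card_ext hF₀).symm.trans (hq.trans hqk))
  have h6 : q % 4 = 1 := by
    obtain ⟨a, rfl⟩ : ∃ a, q₀ = 2 * a + 1 := ⟨q₀ / 2, by omega⟩
    rw [hqk, show (2 * a + 1) ^ 2 = 4 * (a * a + a) + 1 by ring]; omega
  simp only [Nat.odd_iff, h3, true_and, forall_const]
  refine ⟨fun H => not_lt.1 fun h => ?_, fun h => el_two hp2 Rt.smul (fun f b _ _ _ _ => ?_)
    fun f c a1 a2 a3 => absurd (lt_of_not_pow hq a1 a2 a3 fun _ => h6) (by rwa [hfr, not_lt])⟩
  · obtain ⟨f, c, a1, a2, a3, a4⟩ := exists_not_split (V := Fin n → F) (r := 2) hq (by omega)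
      (by omega) (Or.inl (by rwa [hfr]))
    obtain ⟨g, b1, -, b2⟩ := H.elim a1 a2 a4
    obtain ⟨d, g, y, -, -, -, b3⟩ := b1.pow b2
    obtain ⟨z, hz⟩ := Ext.exists_sqrt (K := F) hF₀ h4 h5 (c := y) (by
      rintro rfl; exact a3 0 (by simp [← b3]))
    exact a3 (d * z) (by rw [mul_pow, hz, b3])
  · obtain ⟨g, a1, a2⟩ := Ext.exists_invol_dim (F := F₀) (V := Fin n → F₀)
      (two_ne_zero' hp2)
      (m := finrank F (Dx 2 (b • f))) (by simpa using Submodule.finrank_le (Dx 2 (b • f)))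
    exact ⟨_, rt_bc g, by rw [← map_pow, a1, map_one], by rw [finrank_Dx_bc, a2]⟩

end Cfsg.Agent.S5964
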