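import Cfsg.Statements.S5965
import Cfsg.Agent.H9.Rat

set_option autoImplicit false
set_option linter.unusedVariables false
open scoped MatrixGroups
open Cfsg

namespace Cfsg.Agent.S5965

open Module Polynomial Cfsg.Agent.H9 Cfsg.Agent.Form Cfsg.Agent.H9.Types Cfsg.Agent.H9.FSS
  Cfsg.Agent.H9.FInvol Cfsg.Agent.H9.Cj Cfsg.Agent.H9.Der Cfsg.Agent.H9.Rat Cfsg.Agent.H9.Arith
  Cfsg.Agent.H9.OrdR

/-- Elements of odd prime order r ≠ p of PSL_n(q) and subfield subgroups. Here `T = PSL_n(F)` for a field `F` with `q = p^f` elements (`n ≥ 2`, `(n, q) ≠ (2, 2), (2, 3)`), `F₀` is the subfield with `q₀` elements where `q = q₀^k` for a prime `k`, and `H` is the subgroup of matrices of determinant 1 lying in the subfield group of `F₀` (invertible matrices over `F₀` times scalars) — a maximal subgroup of type GL_n(q₀) (the case `n = 2`, `q₀ = 2` is excluded); Ω is the set of `T`-conjugates of `H` (cosets of `H`), so an element of `T` of prime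 order `r` (a matrix `x` of determinant 1 with `x^r` scalar, `x` not scalar) fixes a point of Ω when some conjugate of `x` by a matrix of determinant 1 lies in `H`. Let `r ≠ p` be an odd prime dividing the index of `H`, with `(n, r) ≠ (6, 3)` and, when `r = k` divides `q₀ − 1`, with `(n)_r ≤ (q − 1)_r`. Then every element of `T` of order `r` is conjugate in `T` into `H` if and only if `r = k`, or `k = 2`, `r = n ∈ {3, 5}` and `(q₀ + 1)_r = r`. The two excluded cases, `(n, r) = (6, 3)` and `r = k ∣ q₀ − 1` with `(n)_r > (q − 1)_r`, are ones where this criterion can fail, so they are left out. -/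
theorem result {F : Type*} [Field F] [Fintype F] {p : ℕ} [Fact p.Prime] [CharP F p] {q : ℕ} (hq : Fintype.card F = q)
    (n : ℕ) (hn : 2 ≤ n) (hT : (n, q) ≠ (2, 2) ∧ (n, q) ≠ (2, 3))
    (F₀ : Subfield F) (k q₀ : ℕ) (hk : k.Prime) (hF₀ : Nat.card ↥F₀ = q₀) (hqk : q = q₀ ^ k) (hC5 : ¬ (n = 2 ∧ q₀ = 2)) (r : ℕ) [Fact r.Prime] (hr2 : r ≠ 2) (hrp : r ≠ p) (hgap : ¬ (n = 6 ∧ r = 3)) (hgapk : r = k → r ∣ q₀ - 1 → padicValNat r n ≤ padicValNat r (q - 1)) (hΩ : r ∣ ((Cfsg.Geo.subfieldSubgroup F₀ 1).comap (Matrix.SpecialLinearGroup.toGL : Matrix.SpecialLinearGroup (Fin n) F →* GL (Fin n) F)).index) :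
    (∀ x : Matrix.SpecialLinearGroup (Fin n) F,
      (∃ z : F, ((x ^ r : Matrix.SpecialLinearGroup (Fin n) F) : Matrix (Fin n) (Fin n) F) = z • (1 : Matrix (Fin n) (Fin n) F)) →
      (∀ z : F, (x : Matrix (Fin n) (Fin n) F) ≠ z • (1 : Matrix (Fin n) (Fin n) F)) →
      ∃ P : Matrix.SpecialLinearGroup (Fin n) F, P⁻¹ * x * P ∈ ((Cfsg.Geo.subfieldSubgroup F₀ 1).comap (Matrix.SpecialLinearGroup.toGL : Matrix.SpecialLinearGroup (Fin n) F →* GL (Fin n) F))) ↔
    (r = k ∨ (k = 2 ∧ r = n ∧ (n = 3 ∨ n = 5) ∧ padicValNat r (q₀ + 1) = 1)) := by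
  have hr : r.Prime := Fact.out
  have hfr : finrank F (Fin n → F) = n := by simp
  have : Nontrivial (Fin n → F) := nontrivial_of_finrank_pos (R := F) (by omega)
  have : Nonempty (Fin n) := ⟨⟨0, by omega⟩⟩
  rw [forall_cj_sl' _ _ (mem_iff F₀)]
  change El _ r ↔ _
  rw [index_comap_toGL] at hΩ
  have := Fintype.ofFinite F₀
  have h0 := hF₀
  rw [Nat.card_eq_fintype_card] at hF₀
  have h1 := two_le_q hF₀
  have h2 := not_dvd_q hF₀ hrp
  have h3 : ¬ r ∣ q₀ - 1 → padicValNat r (q₀ ^ 2 - 1) = padicValNat r (q₀ + 1) := fun h => by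
    rw [FUni.sq_sub_one, padicValNat.mul (by omega) (by omega), padicValNat.eq_zero_of_not_dvd h,
      add_zero]
  refine ⟨fun H => or_iff_not_imp_left.2 fun h => ?_, ?_⟩
  · obtain ⟨j, a1, a2, a3⟩ := exists_of_dvd_index F₀ h0 (hq.trans hqk) h2 hΩ
    have a4 := Nat.one_le_pow j q₀ (by omega)
    have a5 : r ∣ q ^ j - 1 := by
      rw [hqk, pow_right_comm, ← geom_sum_mul_of_one_le a4]; exact a3.mul_right _
    have a6 : ¬ r ∣ q₀ ^ j - 1 := fun e => h ((Nat.prime_dvd_prime_iff_eq hr hk).1 (by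
      rw [← ZMod.natCast_eq_zero_iff] at a3 e ⊢
      rw [Nat.cast_sub a4, sub_eq_zero] at e
      simpa [-Nat.cast_pow, Nat.cast_pow (q₀ ^ j), e] using a3))
    have a7 : ¬ r ∣ q₀ - 1 := fun e => a6 (e.trans (Nat.sub_one_dvd_pow_sub_one _ _))
    rw [Fintype.card_fin] at a2
    by_cases h4 : r ∣ q - 1
    · obtain ⟨ω, hω⟩ := exists_root_of_dvd hq h4
      have h5 : (r = 3 ∨ r = 5) ∧ n = r ∧ padicValNat r (q - 1) = 1 := by
        by_contra h5
        obtain ⟨f, b1, ⟨c, b2⟩, b3, b4⟩ := exists_derange hq hr2 hω hfr hn hgap h5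
          (τ := (FiniteField.frobeniusAlgHom F₀ F : F →+* F)) (map_mul _) (map_one _)
          (fun e => h2 (hω.dvd_of_pow_eq_one _ (by simpa [hF₀] using e)))
          (fun e => a7 (hω.dvd_of_pow_eq_one _ (mul_right_cancel₀ (hω.ne_zero hr.ne_zero) (by
            rw [← pow_succ, Nat.sub_add_cancel (by omega)]; simpa [hF₀] using e))))
          (fun e e' => a6 (by
            rw [show j = 2 by omega, FUni.sq_sub_one]
            exact (hω.dvd_of_pow_eq_one _ (by rw [pow_succ']; simpa [hF₀] using e')).mul_right _))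
        obtain ⟨g, c1, c2, -⟩ := H.elim b1 b2 b3
        exact b4 ((c1.sym _ fun y => AlgHom.commutes _ y).of_conj c2)
      obtain rfl : k = 2 := by
        have : Fact k.Prime := ⟨hk⟩
        have h6 := orderOf_dvd_sub_one hF₀ hrp
        rw [((Nat.dvd_prime hk).1 ((orderOf_dvd_iff (by omega)).2 (hqk ▸ h4))).resolve_left
          (mt (orderOf_eq_one_iff' (by omega)).1 a7)] at h6
        refine (Nat.prime_dvd_prime_iff_eq hk Nat.prime_two).1 (hk.dvd_of_dvd_pow (n := 2) ?_)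
        rcases h5.1 with rfl | rfl
        exacts [h6.trans (by norm_num), h6]
      exact ⟨rfl, h5.2.1.symm, h5.2.1 ▸ h5.1, by rw [← h3 a7, ← hqk, h5.2.2]⟩
    have h5 := (orderOf_dvd_iff (Nat.le_of_succ_le (two_le_q hq))).2 a5
    obtain ⟨g, b1, b2, b3⟩ := H.fixed hq hrp h4 one_ne_zero
      (by have := Nat.le_of_dvd (by omega) h5; omega)
    obtain ⟨c, g, y, c1, rfl, -, c2⟩ := b1.pow (z := 1) (by rwa [one_smul])
    obtain ⟨y, -, rfl⟩ := exists_pow_eq_of_not_dvd hF₀ a7 (c := y) (by rintro rfl; simp at c2)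
    have c3 : c = algebraMap F₀ F y⁻¹ := by
      rw [map_inv₀]
      exact eq_inv_of_mul_eq_one_left (by_contra fun e =>
        h4 (dvd_of_root hq (by rw [mul_pow, ← map_pow, c2]) e))
    rw [c3, ← bc_smul, finrank_Dx_bc, mul_one] at b3
    exact absurd ((orderOf_dvd_iff (by omega)).1
      ((b3 ▸ dvd_finrank_of_le_Dx hF₀ hrp (inv_Dx r) le_rfl).trans h5)) a6
  rintro (rfl | ⟨rfl, rfl, h4, h5⟩)
  · have h4 : (q : ZMod r) = q₀ := by rw [hqk, Nat.cast_pow, ZMod.pow_card]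
    refine el_of hrp Rt.smul (fun f b _ _ h _ => rt_of_order hF₀ hq hrp (h4 ▸ le_rfl) h)
      fun f c a1 a2 a3 => absurd (lt_of_not_pow hq a1 a2 a3 fun e => absurd e hr2) ?_
    rw [hfr, not_lt]
    refine hgapk rfl ((orderOf_eq_one_iff' (by omega)).1 (h4 ▸ (orderOf_eq_one_iff'
      (Nat.le_of_succ_le (two_le_q hq))).2 (by_contra fun e => ?_)))
    obtain ⟨b, -, hb⟩ := exists_pow_eq_of_not_dvd hq e (c := c) fun e =>
      a3 0 (by simp [e, hr.ne_zero])
    exact a3 b hb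
  obtain ⟨m, hm⟩ : r ∣ q₀ + 1 := dvd_of_one_le_padicValNat h5.ge
  rintro f hd ⟨c, h⟩ -
  obtain ⟨b, A, a1, a2, a3, a4⟩ := split_sym hq hrp h4 hfr
    (by rw [hqk, h3 (FUni.not_dvd_sub_one (by omega) hr2 ⟨m, hm⟩), h5]) hd h
  have a5 : ∀ a ∈ A, a ^ q₀ = a⁻¹ := fun a ha =>
    eq_inv_of_mul_eq_one_left (by rw [← pow_succ, hm, pow_mul, a3 a ha, one_pow])
  obtain ⟨g, b1, b2⟩ := rt_of_roots hF₀ hrp a2 a4 (by
    rw [Multiset.map_cons, one_pow, Multiset.map_add, Multiset.map_map, add_comm,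
      Multiset.map_congr rfl a5, Multiset.map_congr rfl (g := id) fun a ha => by
        simp [a5 a ha], Multiset.map_id])
  exact CjIn.of_smul Rt.smul f b a1 (cj_of_ne hrp (by simp [hd, a1]) (c := 1) (by simpa using a2)
    b1 b2)

end Cfsg.Agent.S5965
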