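import Cfsg.Statements.S5966
import Cfsg.Agent.H9.Rat

set_option autoImplicit false
set_option linter.unusedVariables false
open scoped MatrixGroups
open Cfsg

namespace Cfsg.Agent.S5966

open Module Polynomial Cfsg.Agent.H9 Cfsg.Agent.Form Cfsg.Agent.H9.Types Cfsg.Agent.H9.FSS
  Cfsg.Agent.H9.FInvol Cfsg.Agent.H9.Cj Cfsg.Agent.H9.Der Cfsg.Agent.H9.Rat Cfsg.Agent.H9.Arith
  Cfsg.Agent.H9.OrdR

/-- Elements of order 3 of PSL_n(q) in characteristic 3 and subfield subgroups. Here `T = PSL_n(F)` for a field `F` with `q` elements, `q` a power of 3 (`n ≥ 2`, `(n, q) ≠ (2, 2), (2, 3)`), `F₀` is the subfield with `q₀` elements where `q = q₀^k` for a prime `k`, and `H` is the subgroup of matrices of determinant 1 lying in the subfield group of `F₀` (invertible matrices over `F₀` times scalars) — a maximal subgroup of type GL_n(q₀) (the case `n = 2`, `q₀ = 2` is excluded); Ω is the set of `T`-conjugates of `H` (cosets of `H`), so an element of `T` of prime order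 `r` (a matrix `x` of determinant 1 with `x^r` scalar, `x` not scalar) fixes a point of Ω when some conjugate of `x` by a matrix of determinant 1 lies in `H`. Suppose 3 divides the index of `H`. Then every element of `T` of order 3 is conjugate in `T` into `H` if and only if `n` is odd, or `n` is even and `k > 2`. -/
theorem result {F : Type*} [Field F] [Fintype F] [CharP F 3] {q : ℕ} (hq : Fintype.card F = q)
    (n : ℕ) (hn : 2 ≤ n) (hT : (n, q) ≠ (2, 3))
    (F₀ : Subfield F) (k q₀ : ℕ) (hk : k.Prime) (hF₀ : Nat.card ↥F₀ = q₀) (hqk : q = q₀ ^ k) (hC5 : ¬ (n = 2 ∧ q₀ = 2)) (hΩ : 3 ∣ ((Cfsg.Geo.subfieldSubgroup F₀ 1).comap (Matrix.SpecialLinearGroup.toGL : Matrix.SpecialLinearGroup (Fin n) F →* GL (Fin n) F)).index) :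
    (∀ x : Matrix.SpecialLinearGroup (Fin n) F,
      (∃ z : F, ((x ^ 3 : Matrix.SpecialLinearGroup (Fin n) F) : Matrix (Fin n) (Fin n) F) = z • (1 : Matrix (Fin n) (Fin n) F)) →
      (∀ z : F, (x : Matrix (Fin n) (Fin n) F) ≠ z • (1 : Matrix (Fin n) (Fin n) F)) →
      ∃ P : Matrix.SpecialLinearGroup (Fin n) F, P⁻¹ * x * P ∈ ((Cfsg.Geo.subfieldSubgroup F₀ 1).comap (Matrix.SpecialLinearGroup.toGL : Matrix.SpecialLinearGroup (Fin n) F →* GL (Fin n) F))) ↔
    (Odd n ∨ (Even n ∧ 2 < k)) := by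
  have hfr : finrank F (Fin n → F) = n := by simp
  have : Nontrivial (Fin n → F) := nontrivial_of_finrank_pos (R := F) (by omega)
  have : Nonempty (Fin n) := ⟨⟨0, by omega⟩⟩
  have : Fact (Nat.Prime 3) := ⟨Nat.prime_three⟩
  rw [forall_cj_sl' _ _ (mem_iff F₀)]
  change El _ 3 ↔ _
  have := Fintype.ofFinite F₀
  have h0 := hF₀
  rw [Nat.card_eq_fintype_card] at hF₀
  have h4 := odd_card (p := 3) hF₀ (by omega)
  refine ⟨fun H => by_contra fun h => ?_, fun h f a1 ⟨c, a2⟩ a3 => ?_⟩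
  · rw [← Nat.not_even_iff_odd, not_or, not_not, not_and, not_lt] at h
    obtain rfl : k = 2 := le_antisymm (h.2 h.1) hk.two_le
    obtain ⟨s, hs⟩ := h.1.two_dvd
    have h5 : finrank F₀ F = 2 := Nat.pow_right_injective (two_le_q hF₀)
      ((Ext.card_ext hF₀).symm.trans (hq.trans hqk))
    have b0 : ∀ e ∈ Multiset.replicate s 2, 0 < e := fun e he => by
      rw [Multiset.eq_of_mem_replicate he]; omega
    obtain ⟨g, b1, b2⟩ := exists_jordan_rt (K := F₀) (F := F) (ι := Fin n) b0 (by simp; omega)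
    obtain ⟨d, d0, -, d1⟩ := exists_not_pow (r := 2) hq
      (by have := odd_card (p := 3) hq (by omega); omega) dvd_rfl
    obtain ⟨D, hD⟩ := Matrix.GeneralLinearGroup.det_surjective (n := Fin n) (Units.mk0 d d0)
    have b3 : Conj (bc F g) ((glEquiv D).conj (bc F g)) := ⟨glEquiv D, fun x => by
      simp only [LinearEquiv.conj_apply_apply, LinearEquiv.symm_apply_apply]⟩
    have b4 := b2.of_conj b3.symm
    have b5 : ((bc F g - (1 : F) • 1) ^ 2 : End F (Fin n → F)) = 0 :=
      (b2.pow_eq_zero_iff_jordan 2).2 fun e he => (Multiset.eq_of_mem_replicate he).le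
    have b6 : (glEquiv D).conj (bc F g) ^ 3 = (1 : F) • 1 := by
      rw [pow_eq_of_sub_pow_eq_zero (p := 3) ((b4.pow_eq_zero_iff_jordan 3).2 fun e he => by
        rw [Multiset.eq_of_mem_replicate he]; omega), one_pow]
    obtain ⟨P, c1, f', c2, c3⟩ := H _ (by rw [b4.det_jordan, one_pow]) ⟨1, b6⟩
      (Unip.not_scalar_of_jordan b4 (Multiset.mem_replicate.2 ⟨by omega, rfl⟩) le_rfl)
    have c4 : Conj f' ((glEquiv D).conj (bc F g)) := ⟨P, c3⟩
    obtain ⟨c, g₁, y, c5, rfl, -, c6⟩ := c2.pow ((c4.symm.pow 3).eq_smul_one b6)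
    obtain ⟨y, rfl⟩ := exists_pow_p_eq (p := 3) y
    have c7 : c = algebraMap F₀ F y⁻¹ := by
      rw [map_inv₀]
      exact eq_inv_of_mul_eq_one_left (frobenius_inj F 3 (by
        rw [frobenius_def, mul_pow, ← map_pow, c6, map_one]))
    rw [c7, ← bc_smul] at c3 c4
    generalize y⁻¹ • g₁ = g₂ at c3 c4
    have c8 := b4.of_conj c4
    obtain ⟨ν, e1, e2⟩ := exists_hasType_jordan g₂ 1 (k := 2) (bc_injective (F := F) (by
      simpa using (c8.pow_eq_zero_iff_jordan 2).2 fun e he => (Multiset.eq_of_mem_replicate he).le))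
    rw [(hasType_bc e2 fun e he => (e1 e he).1).jordan_unique c8 (fun e he => (e1 e he).1) b0] at e2
    obtain ⟨Q, hQ⟩ := b1.conj e2
    obtain ⟨Q', hQ'⟩ := conj_bc (F := F) Q
    have e3 : ∀ x, Q' (bc F g x) = bc F g₂ (Q' x) := fun x => by
      change ((Q' : End F (Fin n → F)) * _) x = (bc F g₂ * (Q' : End F (Fin n → F))) x
      rw [hQ', ← map_mul, ← map_mul, show (Q : End F₀ (Fin n → F₀)) * g = g₂ * Q from
        LinearMap.ext hQ]
    obtain ⟨z, hz⟩ := det_sq (N := bc F g - (1 : F) • 1)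
      (k := ((glEquiv D)⁻¹ * P * Q' : (Fin n → F) ≃ₗ[F] (Fin n → F))) (by
        have e4 := b2.finrank_ker_jordan 1
        rw [pow_one] at e4
        generalize (bc F g - (1 : F) • 1 : End F (Fin n → F)) = N at b5 e4
        refine (Submodule.eq_of_le_of_finrank_eq
          (LinearMap.range_le_ker_iff.2 (by rwa [_root_.sq] at b5)) ?_).symm
        have := N.finrank_range_add_finrank_ker
        simp at e4; omega)
      fun x => by
        simp only [LinearEquiv.coe_coe, LinearMap.sub_apply, map_sub, one_smul, Module.End.one_apply,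
          LinearEquiv.mul_apply, e3, c3, LinearEquiv.conj_apply_apply, LinearEquiv.coe_inv,
          LinearEquiv.symm_apply_apply]
    have e4 := (LinearEquiv.isUnit_det' Q).ne_zero
    obtain ⟨w, hw⟩ := Ext.exists_sqrt (K := F) hF₀ h4 h5 e4
    have e5 : d * z ^ 2 = w ^ 2 := by
      rw [← hz, hw, ← det_bc, ← hQ', show d = LinearMap.det (glEquiv D : End F (Fin n → F)) by
        rw [glEquiv_coe, LinearMap.det_toLin']; exact (congrArg Units.val hD).symm, ← map_mul,
        ← LinearEquiv.coe_toLinearMap_mul, mul_assoc, mul_inv_cancel_left,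
        LinearEquiv.coe_toLinearMap_mul, map_mul, mem_SLV.1 c1, one_mul]
    have e6 : z ≠ 0 := by
      rintro rfl; exact e4 (by simpa [hw] using e5.symm)
    exact d1 (w / z) (by rw [div_pow, ← e5, mul_div_cancel_right₀ _ (pow_ne_zero _ e6)])
  obtain ⟨b, μ, b1, b2, b3⟩ := exists_unip_type (p := 3) (a1 ▸ one_ne_zero) a2
  obtain ⟨g, -, b4⟩ := exists_jordan_rt (K := F₀) (fun e he => (b2 e he).1) b3.finrank_jordan.symm
  refine CjIn.of_smul Rt.smul f b b1 ?_
  by_cases h1 : 1 ∈ μ ∨ 3 ∈ μ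
  · exact cj_of_block b3 h1 (rt_bc g) (b4.conj b3)
  have h2 : μ = Multiset.replicate (Multiset.card μ) 2 := Multiset.eq_replicate_card.2 fun e he => by
    have := b2 e he
    have : e ≠ 1 := fun e' => h1 (Or.inl (e' ▸ he))
    have : e ≠ 3 := fun e' => h1 (Or.inr (e' ▸ he))
    omega
  have h3 := b3.finrank_jordan
  rw [h2, Multiset.sum_replicate, hfr, smul_eq_mul] at h3
  have h5 : Odd k := hk.odd_of_ne_two (h.elim (fun ⟨a, h⟩ => by omega) fun h => h.2.ne')
  obtain ⟨m, hm⟩ : Odd ((q - 1) / (q₀ - 1)) := by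
    rw [hqk, ← Nat.geomSum_eq (two_le_q hF₀), Finset.odd_sum_iff_odd_card_odd,
      Finset.filter_true_of_mem fun _ _ => (Nat.odd_iff.2 h4).pow, Finset.card_range]
    exact h5
  refine cj_rt (b4.conj b3) fun d hd => ?_
  obtain ⟨k, c1, c2⟩ := b3.exists_comm_det_pow (g := (X - C 1) ^ 2) (Multiset.mem_map.2
    ⟨2, h2 ▸ Multiset.mem_replicate.2 ⟨by omega, rfl⟩, rfl⟩) (d ^ (m + 1))⁻¹
  refine ⟨Algebra.norm F₀ d, k, c1, ?_⟩
  rw [c2, FiniteField.algebraMap_norm_eq_pow, h0, Nat.card_eq_fintype_card, hq, hm, natDegree_pow,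
    natDegree_X_sub_C, mul_assoc, ← pow_succ', show 2 * m + 1 + 1 = (m + 1) * (2 * 1) by ring,
    pow_mul d (m + 1), ← mul_pow, inv_mul_cancel₀ (pow_ne_zero _ hd), one_pow]

end Cfsg.Agent.S5966
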