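import Cfsg.Statements.S5967
import Cfsg.Agent.H9.Sim

set_option autoImplicit false
set_option linter.unusedVariables false
open scoped MatrixGroups
open Cfsg

namespace Cfsg.Agent.S5967

open Module Polynomial Cfsg.Agent.H9 Cfsg.Agent.Form Cfsg.Agent.Form.PQ Cfsg.Agent.H9.FIdx
  Cfsg.Agent.H9.FCount Cfsg.Agent.H9.FClass Cfsg.Agent.H9.FOrd Cfsg.Agent.H9.Types
  Cfsg.Agent.H9.FInv Cfsg.Agent.H9.FSS Cfsg.Agent.H9.FModel Cfsg.Agent.H9.FNum
  Cfsg.Agent.H9.FAdapt Cfsg.Agent.H9.FSemi Cfsg.Agent.H9.FInvol Cfsg.Agent.H9.FUnip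
  Cfsg.Agent.H9.FOrth Cfsg.Agent.H9.Cj Cfsg.Agent.H9.Der Cfsg.Agent.H9.Glue Cfsg.Agent.H9.SimG

/-- Involutions of PSL_n(q) and the symplectic-type subgroups. Here `T = PSL_n(F)` for a field `F` with `q` elements, `n ≥ 4` even, `f` is a nondegenerate alternating form on `F^n`, and `H` is the subgroup of matrices of determinant 1 preserving `f` up to a scalar — a maximal subgroup of type Sp_n(q); Ω is the set of `T`-conjugates of `H` (cosets of `H`), so an element of `T` of prime order `r` (a matrix `x` of determinant 1 with `x^r` scalar, `x` not scalar) fixes a point of Ω when some conjugate of `x` by a matrix of determinant 1 preserves `f` up to a scalar. Suppose the index of `H` is even. Then every involution of `T` is conjugate in `T` into `H` if and only if `(q − 1)_2 ≤ (n)_2`. -/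
theorem result {F : Type*} [Field F] [Fintype F] {p : ℕ} [Fact p.Prime] [CharP F p] {q : ℕ} (hq : Fintype.card F = q)
    (n : ℕ) (hn : 4 ≤ n) (he : Even n) (f : (Fin n → F) → (Fin n → F) → F) (hf : Cfsg.Geo.IsSymplecticForm f)
    (hΩ : 2 ∣ ((Cfsg.Geo.similarityGroup f).comap (Matrix.SpecialLinearGroup.toGL : Matrix.SpecialLinearGroup (Fin n) F →* GL (Fin n) F)).index) :
    (∀ x : Matrix.SpecialLinearGroup (Fin n) F,
      (∃ z : F, ((x ^ 2 : Matrix.SpecialLinearGroup (Fin n) F) : Matrix (Fin n) (Fin n) F) = z • (1 : Matrix (Fin n) (Fin n) F)) →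
      (∀ z : F, (x : Matrix (Fin n) (Fin n) F) ≠ z • (1 : Matrix (Fin n) (Fin n) F)) →
      ∃ P : Matrix.SpecialLinearGroup (Fin n) F, P⁻¹ * x * P ∈ ((Cfsg.Geo.similarityGroup f).comap (Matrix.SpecialLinearGroup.toGL : Matrix.SpecialLinearGroup (Fin n) F →* GL (Fin n) F))) ↔
    padicValNat 2 (q - 1) ≤ padicValNat 2 n := by
  have hS := sympPQ_nondeg hf
  have hfr : finrank F (Fin n → F) = n := by simp
  have : Nontrivial (Fin n → F) := nontrivial_of_finrank_pos (R := F) (by omega)
  rw [forall_cj_sl' _ (Sim (sympPQ hf)) fun _ => Iff.rfl]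
  change El _ 2 ↔ _
  by_cases hp2 : 2 = p
  · subst hp2
    exact iff_of_true (el_char_two_sim real_transv fun _ => exists_of_real_symp hS) (by
      rw [← pow_one q, padicValNat.eq_zero_of_not_dvd
        (Arith.p_not_dvd_pow_sub_one (p := 2) hq one_ne_zero)]; simp)
  refine ⟨fun H => by_contra fun hv => ?_, fun hv => el_two_sim hp2 hS (fun f b a1 a2 => ?_)
    fun f c _ _ h => exists_sim_symp hS fun e => h 0 (by simp [e])⟩
  · obtain ⟨g, ⟨c, a1⟩, a2, a3, a4⟩ := H.refl Sim.smul hq hp2 (by omega) (by rw [hfr]; omega)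
    rcases sq_eq_one_iff.1 ((mult_eq hS a1 (z := 1) (by simpa using a2)).trans (by simp))
      with e | e
    · have := even_finrank_symp (nondegOn_Dx hp2 hS (maxP_symp.isIso (by simpa [e] using a1)) a2)
      rw [← ed_neg_one] at this
      omega
    · have := ed_le_of_mult hS a1 one_ne_zero
      simp only [e, FP.symp_σ, inv_one, mul_one] at this
      omega
  · obtain ⟨k, hk⟩ := even_Dx hq hp2 a1 a2 (by rwa [hfr])
    have h1 := (sympPQ hf).nondegOn_top.2 hS
    have h2 := even_finrank_symp h1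
    have h3 := Submodule.finrank_le (Dx 2 (b • f))
    rw [finrank_top] at h2
    obtain ⟨U, -, b1, b2, -⟩ := exists_nondeg_even h1 (j := k) (by omega)
    exact ⟨U, b1, by omega⟩

end Cfsg.Agent.S5967
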