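import Cfsg.Statements.S5968
import Cfsg.Agent.H9.Sim

set_option autoImplicit false
set_option linter.unusedVariables false
open scoped MatrixGroups
open Cfsg

namespace Cfsg.Agent.S5968

open Module Polynomial Cfsg.Agent.H9 Cfsg.Agent.Form Cfsg.Agent.Form.PQ Cfsg.Agent.H9.FIdx
  Cfsg.Agent.H9.FCount Cfsg.Agent.H9.FClass Cfsg.Agent.H9.FOrd Cfsg.Agent.H9.Types
  Cfsg.Agent.H9.FInv Cfsg.Agent.H9.FSS Cfsg.Agent.H9.FModel Cfsg.Agent.H9.FNum
  Cfsg.Agent.H9.FAdapt Cfsg.Agent.H9.FSemi Cfsg.Agent.H9.FInvol Cfsg.Agent.H9.FUnip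
  Cfsg.Agent.H9.FOrth Cfsg.Agent.H9.Cj Cfsg.Agent.H9.Der Cfsg.Agent.H9.Glue Cfsg.Agent.H9.SimG

/-- Derangements of odd prime order of PSL_n(q) on the cosets of a symplectic-type subgroup. Here `T = PSL_n(F)` for a field `F` with `q` elements, `n ≥ 4` even, `f` is a nondegenerate alternating form on `F^n`, and `H` is the subgroup of matrices of determinant 1 preserving `f` up to a scalar — a maximal subgroup of type Sp_n(q); Ω is the set of `T`-conjugates of `H` (cosets of `H`), so an element of `T` of prime order `r` (a matrix `x` of determinant 1 with `x^r` scalar, `x` not scalar) fixes a point of Ω when some conjugate of `x` by a matrix of determinant 1 preserves `f` up to a scalar. For every odd prime `r` dividing the index of `H`, with `(n, r) ≠ (6, 3)`, there is an element of `T` of order `r` with no conjugate in `H`. (For `n = 6`, `r = 3` this can fail: when `(q − 1)_3 = 3` every element of order 3 is conjugate into `H`.) -/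
theorem result {F : Type*} [Field F] [Fintype F] {p : ℕ} [Fact p.Prime] [CharP F p] {q : ℕ} (hq : Fintype.card F = q)
    (n : ℕ) (hn : 4 ≤ n) (he : Even n) (f : (Fin n → F) → (Fin n → F) → F) (hf : Cfsg.Geo.IsSymplecticForm f)
    (r : ℕ) [Fact r.Prime] (hr2 : r ≠ 2) (hgap : ¬ (n = 6 ∧ r = 3)) (hΩ : r ∣ ((Cfsg.Geo.similarityGroup f).comap (Matrix.SpecialLinearGroup.toGL : Matrix.SpecialLinearGroup (Fin n) F →* GL (Fin n) F)).index) :
    ∃ x : Matrix.SpecialLinearGroup (Fin n) F,
      (∃ z : F, ((x ^ r : Matrix.SpecialLinearGroup (Fin n) F) : Matrix (Fin n) (Fin n) F) = z • (1 : Matrix (Fin n) (Fin n) F)) ∧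
      (∀ z : F, (x : Matrix (Fin n) (Fin n) F) ≠ z • (1 : Matrix (Fin n) (Fin n) F)) ∧
      ∀ P : Matrix.SpecialLinearGroup (Fin n) F, P⁻¹ * x * P ∉ ((Cfsg.Geo.similarityGroup f).comap (Matrix.SpecialLinearGroup.toGL : Matrix.SpecialLinearGroup (Fin n) F →* GL (Fin n) F)) := by
  have hS := sympPQ_nondeg hf
  have hfr : finrank F (Fin n → F) = n := by simp
  have : Nontrivial (Fin n → F) := nontrivial_of_finrank_pos (R := F) (by omega)
  have hr : r.Prime := Fact.out
  by_contra! H
  replace H : El (Sim (sympPQ hf)) r := (forall_cj_sl' _ _ (fun _ => Iff.rfl) r).1 H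
  obtain ⟨d, rfl⟩ := he.two_dvd
  by_cases hrp : r = p
  · subst hrp
    have h2 := two_ne_zero' (F := F) (Ne.symm hr2)
    exact el_unip maxP_symp hS h2 H two_pos (lt_of_le_of_ne hr.two_le (Ne.symm hr2)) (by omega)
      ((sk_symp h2 2).2 (by decide))
  by_cases h1 : r ∣ q - 1
  · have := el_derange hS hq hr2 h1 (fun _ _ => rfl) hfr (by omega) hgap H
    omega
  rw [index_comap_toGL] at hΩ
  exact not_el_odd (fun _ => rfl) maxP_symp hS hq hrp hr2 h1 (d := d) (by omega) (by
    simpa using dvd_of_index hq (Arith.not_dvd_q hq hrp) _ (hΩ.trans (relIndex_sl_dvd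
      (sympPQ hf).isom fun x hx => sim_of_isIso (S := sympPQ hf) (f := glEquiv x) hx)) (A := 1)
      (Count.P_pos (Nat.one_lt_pow two_ne_zero (Arith.two_le_q hq)) d)
      (by simp [card_isom_symp hq d hS hfr]) (by rw [hfr, P_two_mul])) H

end Cfsg.Agent.S5968
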