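import Cfsg.Statements.S5969
import Cfsg.Agent.H9.Ext

set_option autoImplicit false
set_option linter.unusedVariables false
open scoped MatrixGroups
open Cfsg

namespace Cfsg.Agent.S5969

open Module Polynomial Cfsg.Agent.H9 Cfsg.Agent.Form Cfsg.Agent.H9.Types Cfsg.Agent.H9.FSS
  Cfsg.Agent.H9.FInvol Cfsg.Agent.H9.Cj Cfsg.Agent.H9.Der Cfsg.Agent.H9.Ext

/-- Involutions of PSL_n(q) and extension-field subgroups of degree 2. Here `T = PSL_n(F)` for a field `F` with `q = p^f` elements (`n ≥ 2`, `(n, q) ≠ (2, 2), (2, 3)`), `k` is a prime dividing `n`, `K` is a subalgebra of the `n × n` matrices that is a field of degree `k` over `F` (an extension-field structure F_{q^k} on `F^n`), and `H` is the subgroup of matrices of determinant 1 normalizing `K` — a subgroup of type GL_{n/k}(q^k) (maximal except in some small cases; maximality is not assumed); Ω is the set of cosets of `H` in `T`, so an element of `T` of prime order `r` (a matrix `x` of determinant 1 with `x^r`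 scalar, `x` not scalar) fixes a point of Ω when some conjugate of `x` by a matrix of determinant 1 normalizes `K`. Take `k = 2` and suppose the index of `H` is even. Then every involution of `T` is conjugate in `T` into `H` if and only if `n = 2`, or `q` is odd and `(q − 1)_2 ≤ (n)_2`. -/
theorem result {F : Type*} [Field F] [Fintype F] {p : ℕ} [Fact p.Prime] [CharP F p] {q : ℕ} (hq : Fintype.card F = q)
    (n : ℕ) (hn : 2 ≤ n) (hT : (n, q) ≠ (2, 2) ∧ (n, q) ≠ (2, 3))
    (k : ℕ) (hk : k.Prime) (hkn : k ∣ n) (K : Subalgebra F (Matrix (Fin n) (Fin n) F)) (hK : Cfsg.Geo.IsFieldSubalgebra k K) (hk2 : k = 2) (hΩ : 2 ∣ ((Cfsg.Geo.subalgebraNormalizer K).comap (Matrix.SpecialLinearGroup.toGL : Matrix.SpecialLinearGroup (Fin n) F →* GL (Fin n) F)).index) :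
    (∀ x : Matrix.SpecialLinearGroup (Fin n) F,
      (∃ z : F, ((x ^ 2 : Matrix.SpecialLinearGroup (Fin n) F) : Matrix (Fin n) (Fin n) F) = z • (1 : Matrix (Fin n) (Fin n) F)) →
      (∀ z : F, (x : Matrix (Fin n) (Fin n) F) ≠ z • (1 : Matrix (Fin n) (Fin n) F)) →
      ∃ P : Matrix.SpecialLinearGroup (Fin n) F, P⁻¹ * x * P ∈ ((Cfsg.Geo.subalgebraNormalizer K).comap (Matrix.SpecialLinearGroup.toGL : Matrix.SpecialLinearGroup (Fin n) F →* GL (Fin n) F))) ↔
    (n = 2 ∨ (Odd q ∧ padicValNat 2 (q - 1) ≤ padicValNat 2 n)) := by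
  subst hk2
  have hfr : finrank F (Fin n → F) = n := by simp
  have : Nontrivial (Fin n → F) := nontrivial_of_finrank_pos (R := F) (by omega)
  have : Nonempty (Fin n) := ⟨⟨0, by omega⟩⟩
  obtain ⟨L, _, _, _, _, _, h1, h2, -⟩ := exists_ext hK
  rw [forall_cj_sl' _ _ h2]
  change El _ 2 ↔ _
  have key : ∀ g : End F (Fin n → F), KS L g → ∀ b, b ≠ 0 → ed g b + 1 = n → n = 2 :=
    fun g a1 b a2 a3 => by have := a1.ed_cases a2; rw [h1] at this; omega
  by_cases hp2 : 2 = p
  · subst hp2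
    have h3 : ¬ Odd q := by have := Arith.p_dvd_q (p := 2) hq; rw [Nat.odd_iff]; omega
    simp only [h3, false_and, or_false]
    refine ⟨fun H => let ⟨g, a1, _, a2⟩ := H.transv (by omega); key g a1 1 one_ne_zero (by omega), ?_⟩
    rintro rfl
    obtain ⟨σ, a1, a2, -, a3⟩ := exists_frob (F := F) (K := L) (V := Fin 2 → F) (by omega) (by omega)
    obtain ⟨ν, b1, b2⟩ := exists_hasType_jordan σ 1 (k := 2)
      (by rw [one_smul]; exact FUnip.pow_eq_one_iff_N.1 (by rwa [h1] at a2))
    have b3 : ∀ μ : Multiset ℕ, (∀ e ∈ μ, 0 < e ∧ e ≤ 2) → μ.sum = 2 → (∃ e ∈ μ, ¬ e ≤ 1) →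
        μ = {2} := fun μ c1 c2 ⟨e, c3, c4⟩ => by
      obtain ⟨μ, rfl⟩ := Multiset.exists_cons_of_mem c3
      obtain rfl : e = 2 := by have := c1 e c3; omega
      rw [Multiset.eq_zero_of_forall_notMem (s := μ) fun k hk => by
        have := Multiset.le_sum_of_mem hk
        have := c1 k (Multiset.mem_cons_of_mem hk)
        simp at c2; omega]; rfl
    refine el_char_two KS.smul fun μ c1 c2 c3 => ⟨σ, a1, ?_⟩
    rwa [b3 μ c1 (by omega) ⟨2, c3, by omega⟩, ← b3 ν b1 (by rw [← b2.finrank_jordan, hfr]) (by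
      simpa [sub_eq_zero] using (b2.pow_eq_zero_iff_jordan 1).not.1
        (by simpa [sub_eq_zero] using a3 1))]
  have h3 := odd_card hq hp2
  have h4 := two_ne_zero' (F := F) hp2
  simp only [Nat.odd_iff, h3, true_and]
  refine ⟨fun H => by_contra fun h => ?_, fun h => el_two hp2 KS.smul (fun f b _ a2 a3 a4 => ?_)
    fun f c _ _ h => exists_kl_sq hq h3 h1 fun e => h 0 (by simp [e])⟩
  · obtain ⟨g, a1, -, -, a2⟩ := H.refl KS.smul hq hp2 (by omega) (by rw [hfr]; omega)
    exact h (Or.inl (key g a1 1 one_ne_zero (by omega)))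
  rcases h with rfl | h
  · obtain ⟨σ, b1, b2, -, b3⟩ := exists_frob (F := F) (K := L) (V := Fin 2 → F) (by omega) (by omega)
    have b4 : ∀ g : End F (Fin 2 → F), g ^ 2 = 1 → (∀ c : F, g ≠ c • 1) → finrank F (Dx 2 g) = 1 :=
      fun g c1 c2 => by
        have := finrank_cd_top hp2 c1
        have := Submodule.finrank_eq_zero.not.2 (Dx_ne_bot hp2 c1 (by simpa using c2 1))
        have := Submodule.finrank_eq_zero.not.2 (Cx_ne_bot_of_invol hp2 c1 (c2 _))
        omega
    rw [h1] at b2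
    exact ⟨σ, b1, b2, by rw [b4 _ b2 b3, b4 _ a3 a4]⟩
  · obtain ⟨m, hm⟩ := (even_Dx hq hp2 a2 a3 (by rwa [hfr])).two_dvd
    have := exists_kl_invol (K := L) (V := Fin n → F) (m := m) h4 (by rw [h1, ← hm]; exact Submodule.finrank_le _)
    rwa [h1, ← hm] at this

end Cfsg.Agent.S5969
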