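import Cfsg.Statements.S5970
import Cfsg.Agent.H9.Ext

set_option autoImplicit false
set_option linter.unusedVariables false
open scoped MatrixGroups
open Cfsg

namespace Cfsg.Agent.S5970

open Module Polynomial Cfsg.Agent.H9 Cfsg.Agent.Form Cfsg.Agent.H9.Types Cfsg.Agent.H9.FSS
  Cfsg.Agent.H9.FInvol Cfsg.Agent.H9.Cj Cfsg.Agent.H9.Der Cfsg.Agent.H9.Ext

/-- Elements of order `n` of PSL_n(q), `n` prime, and the normalizer of a Singer cycle. Here `T = PSL_n(F)` for a field `F` with `q = p^f` elements (`n ≥ 2`, `(n, q) ≠ (2, 2), (2, 3)`), `k` is a prime dividing `n`, `K` is a subalgebra of the `n × n` matrices that is a field of degree `k` over `F` (an extension-field structure F_{q^k} on `F^n`), and `H` is the subgroup of matrices of determinant 1 normalizing `K` — a subgroup of type GL_{n/k}(q^k) (maximal except in some small cases; maximality is not assumed); Ω is the set of cosets of `H` in `T`, so an element of `T` of prime order `r` (a matrix `x` of determinant 1 with `x^r` scalar, `x` not scalar)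 fixes a point of Ω when some conjugate of `x` by a matrix of determinant 1 normalizes `K`. Take `k = n > 3` prime with `n ≠ p` (so `H` is the normalizer of a Singer cycle), and suppose `n` divides the index of `H`. Then every element of `T` of order `n` is conjugate in `T` into `H` if and only if the multiplicative order of `q` modulo `n` is `n − 1`. -/
theorem result {F : Type*} [Field F] [Fintype F] {p : ℕ} [Fact p.Prime] [CharP F p] {q : ℕ} (hq : Fintype.card F = q)
    (n : ℕ) (hn : 2 ≤ n) (hT : (n, q) ≠ (2, 2) ∧ (n, q) ≠ (2, 3))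
    (k : ℕ) (hk : k.Prime) (hkn : k ∣ n) (K : Subalgebra F (Matrix (Fin n) (Fin n) F)) (hK : Cfsg.Geo.IsFieldSubalgebra k K) (hkn' : k = n) (hn3 : 3 < n) (hnp : n ≠ p) (hΩ : n ∣ ((Cfsg.Geo.subalgebraNormalizer K).comap (Matrix.SpecialLinearGroup.toGL : Matrix.SpecialLinearGroup (Fin n) F →* GL (Fin n) F)).index) :
    (∀ x : Matrix.SpecialLinearGroup (Fin n) F,
      (∃ z : F, ((x ^ n : Matrix.SpecialLinearGroup (Fin n) F) : Matrix (Fin n) (Fin n) F) = z • (1 : Matrix (Fin n) (Fin n) F)) →
      (∀ z : F, (x : Matrix (Fin n) (Fin n) F) ≠ z • (1 : Matrix (Fin n) (Fin n) F)) →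
      ∃ P : Matrix.SpecialLinearGroup (Fin n) F, P⁻¹ * x * P ∈ ((Cfsg.Geo.subalgebraNormalizer K).comap (Matrix.SpecialLinearGroup.toGL : Matrix.SpecialLinearGroup (Fin n) F →* GL (Fin n) F))) ↔
    orderOf (q : ZMod n) = n - 1 := by
  classical
  subst hkn'
  have hfr : finrank F (Fin k → F) = k := by simp
  have : Nonempty (Fin k) := ⟨⟨0, by omega⟩⟩
  have : Fact k.Prime := ⟨hk⟩
  obtain ⟨L, _, _, _, _, _, h1, h2, -⟩ := exists_ext hK
  rw [forall_cj_sl' _ _ h2]
  change El _ k ↔ _
  refine ⟨fun H => by_contra fun h => ?_, fun h => el_singer hq hnp (by omega) h hfr h1⟩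
  have key : ∀ g : End F (Fin k → F), KS L g → 0 < ed g 1 → ed g 1 < k → 2 * ed g 1 ≤ k :=
    fun g a1 a2 a3 => ((a1.ed_cases one_ne_zero).resolve_left fun e => by
      have := Nat.le_of_dvd a2 e; omega).trans hfr.le
  have h5 := hk.five_le_of_ne_two_of_ne_three (by omega) (by omega)
  by_cases h3 : k ∣ q - 1
  · obtain ⟨ω, hω⟩ := Arith.exists_root_of_dvd hq h3
    have h4 := hω.ne_one hk.one_lt
    obtain ⟨g, a1, a2⟩ := el_pair H hω.pow_eq_one h4 (by omega)
    have a3 : ed g 1 = k - 2 := by simp [a2, h4.symm, Multiset.count_cons, h4]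
    have := key g a1
    omega
  obtain ⟨s, hs⟩ := Arith.orderOf_dvd_sub_one hq hnp
  have h4 := Arith.orderOf_pos' hq hnp
  have h6 : 2 * orderOf (q : ZMod k) ≤ k - 1 := by
    rcases s with _ | _ | s
    · omega
    · omega
    · nlinarith
  obtain ⟨g, a1, a2, a3⟩ := H.fixed hq hnp h3 one_ne_zero (by omega)
  have := finrank_cd_top hnp a2
  have := key g a1
  rw [ed_one] at this
  omega

end Cfsg.Agent.S5970
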