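import Cfsg.Statements.S5971
import Cfsg.Agent.H9.Ext

set_option autoImplicit false
set_option linter.unusedVariables false
open scoped MatrixGroups
open Cfsg

namespace Cfsg.Agent.S5971

open Module Polynomial Cfsg.Agent.H9 Cfsg.Agent.Form Cfsg.Agent.H9.Types Cfsg.Agent.H9.FSS
  Cfsg.Agent.H9.FInvol Cfsg.Agent.H9.Cj Cfsg.Agent.H9.Der Cfsg.Agent.H9.Ext

/-- Elements of order 3 of PSL_3(q) and the normalizer of a Singer cycle. Here `T = PSL_n(F)` for a field `F` with `q = p^f` elements (`n ≥ 2`, `(n, q) ≠ (2, 2), (2, 3)`), `k` is a prime dividing `n`, `K` is a subalgebra of the `n × n` matrices that is a field of degree `k` over `F` (an extension-field structure F_{q^k} on `F^n`), and `H` is the subgroup of matrices of determinant 1 normalizing `K` — a subgroup of type GL_{n/k}(q^k) (maximal except in some small cases; maximality is not assumed); Ω is the set of cosets of `H` in `T`, so an element of `T` of prime order `r` (a matrix `x` of determinant 1 with `x^r` scalar, `x` not scalar)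 fixes a point of Ω when some conjugate of `x` by a matrix of determinant 1 normalizes `K`. Take `n = k = 3` and suppose 3 divides the index of `H`. Then every element of `T` of order 3 is conjugate in `T` into `H` if and only if `q ≡ 4, 7` or `8 (mod 9)`. -/
theorem result {F : Type*} [Field F] [Fintype F] {p : ℕ} [Fact p.Prime] [CharP F p] {q : ℕ} (hq : Fintype.card F = q)
    (n : ℕ) (hn : n = 3) (k : ℕ) (hk : k.Prime) (hkn : k ∣ n) (K : Subalgebra F (Matrix (Fin n) (Fin n) F)) (hK : Cfsg.Geo.IsFieldSubalgebra k K) (hk3 : k = 3) (hΩ : 3 ∣ ((Cfsg.Geo.subalgebraNormalizer K).comap (Matrix.SpecialLinearGroup.toGL : Matrix.SpecialLinearGroup (Fin n) F →* GL (Fin n) F)).index) :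
    (∀ x : Matrix.SpecialLinearGroup (Fin n) F,
      (∃ z : F, ((x ^ 3 : Matrix.SpecialLinearGroup (Fin n) F) : Matrix (Fin n) (Fin n) F) = z • (1 : Matrix (Fin n) (Fin n) F)) →
      (∀ z : F, (x : Matrix (Fin n) (Fin n) F) ≠ z • (1 : Matrix (Fin n) (Fin n) F)) →
      ∃ P : Matrix.SpecialLinearGroup (Fin n) F, P⁻¹ * x * P ∈ ((Cfsg.Geo.subalgebraNormalizer K).comap (Matrix.SpecialLinearGroup.toGL : Matrix.SpecialLinearGroup (Fin n) F →* GL (Fin n) F))) ↔
    (q % 9 = 4 ∨ q % 9 = 7 ∨ q % 9 = 8) := by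
  subst hn hk3
  have hfr : finrank F (Fin 3 → F) = 3 := by simp
  have : Fact (Nat.Prime 3) := ⟨hk⟩
  obtain ⟨L, _, _, _, _, _, h1, h2, -⟩ := exists_ext hK
  rw [forall_cj_sl' _ _ h2]
  change El _ 3 ↔ _
  have key : ∀ g : End F (Fin 3 → F), KS L g → ∀ b, b ≠ 0 → ed g b + 1 ≠ 3 :=
    fun g a1 b a2 a3 => by have := a1.ed_cases a2; rw [h1] at this; omega
  have hq2 := Arith.two_le_q hq
  by_cases hrp : 3 = p
  · subst hrp
    have h3 := Arith.p_dvd_q (p := 3) hq
    exact iff_of_false (fun H => let ⟨g, a1, _, a2⟩ := H.transv (by omega)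
      key g a1 1 one_ne_zero (by omega)) (by omega)
  have h3 := Arith.not_dvd_q hq hrp
  obtain ⟨σ, a1, a2, a3, a4⟩ := exists_frob (F := F) (K := L) (V := Fin 3 → F) (by omega) (by omega)
  rw [h1] at a2 a3
  have h4 : ¬ (q % 9 = 2 ∨ q % 9 = 5) := fun h => by
    rw [index_comap_toGL] at hΩ
    have := Imprim.finite_linearEquiv (F := F) (V := Fin 3 → F)
    let e := LinearEquiv.ofBijective σ (OrdR.bijective_of_pow_eq (c := 1) three_ne_zero
      one_ne_zero (by simpa using a2))
    have b1 := hΩ.trans (relIndex_sl_dvd ((Geo.subalgebraNormalizer K).map glEquiv.toMonoidHom)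
      (by simp))
    have b2 := Subgroup.orderOf_dvd_natCard ((Geo.subalgebraNormalizer K).map glEquiv.toMonoidHom)
      (x := e) ⟨glEquiv.symm e, (h2 _).2 (by rw [← glEquiv_coe, MulEquiv.apply_symm_apply]; exact a1), by simp⟩
    rw [orderOf_eq_prime (p := 3) (LinearEquiv.ext fun x => LinearMap.congr_fun a2 x) fun e' =>
      a4 1 (by rw [one_smul]; exact congrArg LinearEquiv.toLinearMap e')] at b2
    have b3 := (ZMod.natCast_eq_zero_iff _ 9).2 ((Nat.mul_dvd_mul b2 b1).trans
      ((Subgroup.card_mul_index _).trans (card_equiv (V := Fin 3 → F) hq)).dvd)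
    simp only [hfr, Count.P, Finset.prod_range_succ, Finset.prod_range_zero] at b3
    push_cast [Nat.cast_sub (Nat.one_le_pow _ q (show 0 < q by omega))] at b3
    rw [← ZMod.natCast_mod q 9] at b3
    rcases h with h | h <;> rw [h] at b3 <;> exact absurd b3 (by decide)
  refine ⟨fun H => by_contra fun h => ?_, fun h => ?_⟩
  · obtain ⟨g, b, b1, b2, b3⟩ := el_famA H hq (by omega) (by
      rw [hfr, padicValNat_self]
      exact (padicValNat_dvd_iff_le (by omega)).1 (show 3 ^ 2 ∣ q - 1 by omega))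
    exact key g b2 b b1 (by omega)
  by_cases h5 : q % 9 = 8
  · exact el_singer hq hrp (by omega) ((FUni.orderOf_eq_two_iff (by omega)).2 (by omega)) hfr h1
  rintro f hd ⟨c, b1⟩ b2
  obtain ⟨b, A, c1, c2, c3, c4⟩ := split_sym hq hrp (Or.inl rfl) hfr (le_antisymm (by
    by_contra e
    have := (padicValNat_dvd_iff_le (p := 3) (n := 2) (a := q - 1) (by omega)).2 (by omega)
    omega) (one_le_padicValNat_of_dvd (by omega) (by omega))) hd b1
  obtain ⟨a, rfl⟩ := Multiset.card_eq_one.1 (show Multiset.card A = 1 by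
    have := card_of_roots c4
    simp at this; omega)
  have c5 := c3 a (by simp)
  have c6 : a ≠ 1 := by
    rintro rfl
    exact b2 b⁻¹ (by rw [← inv_smul_smul₀ c1 f, ← pow_one (b • f),
      pow_of_roots c4 (c := 1) (by simp), one_smul])
  have c7 : a ^ 2 + a + 1 = 0 := mul_left_cancel₀ (sub_ne_zero.2 c6) (by linear_combination c5)
  have c8 : a⁻¹ = a ^ 2 := inv_eq_of_mul_eq_one_right (by linear_combination c5)
  have c9 := Arith.squarefree_X_pow_sub_one (F := F) hrp
  refine CjIn.of_smul KS.smul f b c1 (cj_of_ne hrp (by simp [hd, c1]) (c := 1) (by simpa using c2) a1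
    (conj_of_charpoly_eq c9 ((OrdR.aeval_X_pow_sub_one_eq_zero_iff _ _).2 a2) c9
      ((OrdR.aeval_X_pow_sub_one_eq_zero_iff _ _).2 c2) ?_))
  have d1 := congrArg C c7
  have d2 := congrArg C c5
  simp only [map_add, map_pow, map_one, map_zero] at d1 d2
  simp [a3, c4.charpoly, c8]
  linear_combination (X ^ 2 - X) * d1 - (X - 1) * d2

end Cfsg.Agent.S5971
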