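import Cfsg.Statements.S5972
import Cfsg.Agent.H9.FOrth

set_option autoImplicit false
set_option linter.unusedVariables false
open scoped MatrixGroups
open Cfsg

namespace Cfsg.Agent.S5972

open Module Polynomial Cfsg.Agent.H9 Cfsg.Agent.Form Cfsg.Agent.Form.PQ Cfsg.Agent.H9.FIdx
  Cfsg.Agent.H9.FCount Cfsg.Agent.H9.FClass Cfsg.Agent.H9.FOrd Cfsg.Agent.H9.Types
  Cfsg.Agent.H9.FInv Cfsg.Agent.H9.FSS Cfsg.Agent.H9.FModel Cfsg.Agent.H9.FNum
  Cfsg.Agent.H9.FAdapt Cfsg.Agent.H9.FSemi Cfsg.Agent.H9.FInvol Cfsg.Agent.H9.FTrP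
  Cfsg.Agent.H9.FSpin Cfsg.Agent.H9.FOArith Cfsg.Agent.H9.FOrth

/-- Elements of prime order of Ω_n(q), n = 2d+1 ≥ 7, q odd, with no fixed totally singular `m`-space. Here `T = Ω_n(q)` is realised as the commutator subgroup of the isometry group of the quadratic form `x₀² + Σ xᵢyᵢ` over the field `F` with `q` elements (it has trivial centre, so its elements of prime order `r` are used directly); let `1 ≤ m ≤ d` and let `r` be a prime dividing the number of totally singular `m`-spaces. For `r ≠ p` let `i` be the multiplicative order of `q` modulo `r`, `c = i` for `i` even and `c = 2i` for `i` odd, and write `k = n mod c`, `ℓ = m mod i`, `n' = ⌊n/i⌋`, `m' = ⌊m/i⌋`, `t = (r−1)/i`. Then every element of `T` of order `r` fixes some totally singular `m`-space if and only if either (i) `r = 2` and (`m < (n−1)/2` or `q ≡ 1 (mod 4)`); or (ii) `r ≠ p` is odd, `i ≤ m`, `k > 2ℓ`, and (`i` is odd or `n' − 2m' ≥ t`). -/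
theorem result {F : Type*} [Field F] [Fintype F] {p : ℕ} [Fact p.Prime] [CharP F p] {q : ℕ} (hq : Fintype.card F = q) (hqodd : Odd q)
    (d m : ℕ) (hd : 3 ≤ d) (hm : 1 ≤ m) (hmd : m ≤ d)
    (r : ℕ) [Fact r.Prime]
    (hrΩ : r ∣ Nat.card {W : Submodule F (Unit ⊕ (Fin d ⊕ Fin d) → F) // Module.finrank F ↥W = m ∧ (∀ w ∈ W, Cfsg.quadFormOdd d F w = 0)})
    (i c : ℕ) (hi : i = orderOf (q : ZMod r)) (hc : c = if Even i then i else 2 * i) :
    (∀ x : GL (Unit ⊕ (Fin d ⊕ Fin d)) F, x ∈ Cfsg.Geo.omegaGL (Cfsg.quadFormOdd d F) → orderOf x = r →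
      ∃ W : Submodule F (Unit ⊕ (Fin d ⊕ Fin d) → F), Module.finrank F ↥W = m ∧ (∀ w ∈ W, Cfsg.quadFormOdd d F w = 0) ∧
        W.map (Matrix.toLin' (x : Matrix (Unit ⊕ (Fin d ⊕ Fin d)) (Unit ⊕ (Fin d ⊕ Fin d)) F)) ≤ W) ↔
    ((r = 2 ∧ (m < d ∨ q % 4 = 1)) ∨
     (r ≠ p ∧ 2 < r ∧ i ≤ m ∧ 2 * (m % i) < (2 * d + 1) % c ∧ (Odd i ∨ (r - 1) / i + 2 * (m / i) ≤ (2 * d + 1) / i))) := by
  have hp2 := two_ne_p hq hqodd
  have t : (2 : F) ≠ 0 := two_ne_zero' hp2
  have hS : (oO d t).Nondeg := quadPQ_nondeg _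
  have hn := finrank_odd (F := F) d
  have e : ∀ W : Submodule F (Unit ⊕ (Fin d ⊕ Fin d) → F),
      (∀ w ∈ W, quadFormOdd d F w = 0) ↔ (oO d t).TS W := fun W => (orth_ts (oO d t) W).symm
  refine Iff.trans (Iff.trans ?_ (forall_omega_orderOf_iff (isNondeg_quadFormOdd d F t) r
    (FAdapt.Fix fun W => finrank F W = m ∧ (oO d t).TS W))) ?_
  · simp only [FAdapt.Fix, e, OrdR.map_le_iff, and_assoc]
  simp only [e] at hrΩ
  have hw := widx_odd ((oO d t).nondegOn_top.2 hS) (by rw [finrank_top, hn]; simp)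
  rw [finrank_top] at hw
  obtain ⟨hrp, hΩ⟩ := hΩ_ts hq hS hn (w := d) (by omega) hmd (by omega) hrΩ
  have hr2 := (Fact.out : r.Prime).two_le
  have key : ∀ (f : End F (Unit ⊕ (Fin d ⊕ Fin d) → F)) s, (oO d t).IsIso (oO d t) f → f ^ 2 = 1 → finrank F (Dx 2 f) = 2 * s →
      widx (oO d t) (Cx f) + s = d := fun f s a1 a2 a3 => by
    have c1 := finrank_cd_top hp2 a2
    have c2 := widx_odd (nondegOn_Cx hp2 hS a1 a2) (by rw [Nat.odd_iff]; omega)
    omega
  by_cases h2 : r = 2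
  · subst h2
    refine Iff.trans ?_ (show (m < d ∨ q % 4 = 1) ↔ _ by simp)
    constructor
    · intro H
      obtain ⟨f, b1, b2, b3, b4, b5⟩ := exists_invol_om hq hp2 hS (by omega) one_pos (by omega)
      have c1 := (invol_ts_iff hp2 b1.isIso b2).1 (H f b1 b2 (by simpa using b3 1))
      have c2 := key f 1 b1.isIso b2 b4
      have c3 := two_mul_widx_le (nondegOn_Dx hp2 hS b1.isIso b2)
      unfold Plus at b5
      omega
    · rintro h f (b1 : InOm (oO d t) f) b2 -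
      obtain ⟨s, c1, c2⟩ := (inOm_invol_iff hq hp2 hS (by omega) b1.isIso b2).1 b1
      have c3 := key f s b1.isIso b2 c1
      have c4 := finrank_le_orth (nondegOn_Dx hp2 hS b1.isIso b2)
      unfold Plus at c2
      exact (invol_ts_iff hp2 b1.isIso b2).2 (by omega)
  rw [forall_om_iff' hS (by omega) h2, ts_odd_iff hq hrp h2 hi hc hS hn hmd hΩ]
  simp [h2, hrp, show 2 < r by omega]

end Cfsg.Agent.S5972
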