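import Cfsg.Statements.S5973
import Cfsg.Agent.H9.FOrth

set_option autoImplicit false
set_option linter.unusedVariables false
open scoped MatrixGroups
open Cfsg

namespace Cfsg.Agent.S5973

open Module Polynomial Cfsg.Agent.H9 Cfsg.Agent.Form Cfsg.Agent.Form.PQ Cfsg.Agent.H9.FIdx
  Cfsg.Agent.H9.FCount Cfsg.Agent.H9.FClass Cfsg.Agent.H9.FOrd Cfsg.Agent.H9.Types
  Cfsg.Agent.H9.FInv Cfsg.Agent.H9.FSS Cfsg.Agent.H9.FModel Cfsg.Agent.H9.FNum
  Cfsg.Agent.H9.FAdapt Cfsg.Agent.H9.FSemi Cfsg.Agent.H9.FInvol Cfsg.Agent.H9.FTrP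
  Cfsg.Agent.H9.FSpin Cfsg.Agent.H9.FOArith Cfsg.Agent.H9.FOrth

/-- Elements of prime order of PΩ⁺_n(q), n = 2d ≥ 8, with no fixed totally singular `m`-space, `m < n/2`. Here `T = PΩ⁺_n(q)` is realised through `Ω⁺_n(q)`, the commutator subgroup of the isometry group of the quadratic form `Σ xᵢyᵢ` over the field `F` with `q` elements; an element of `T` of prime order `r` is an element `x` of `Ω⁺_n(q)` with `x^r` scalar and `x` not scalar. Let `1 ≤ m < d` and let `r` be a prime dividing the number of totally singular `m`-spaces. For `r ≠ p` let `i` be the multiplicative order of `q` modulo `r`, `c = i` for `i` even and `c = 2i` for `i` odd, and write `k = n mod c`, `ℓ = m mod i`, `n' = ⌊n/i⌋`, `m' = ⌊m/i⌋`, `t = (r−1)/i`. Then every element of `T` of order `r` fixes some totally singular `m`-space if and only if one of: (i) `r = 2 ≠ p` and either `q ≡ 1 (mod 4)`, or `q ≡ 3 (mod 4)`, `m ≤ n/2 − 2` and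 (`m` even or `n ≡ 2 (mod 4)`); (ii) `r ≠ p` odd, `i` odd, `i ≤ m` and `k ≥ 2ℓ`; (iii) `r ≠ p` odd, `i` even, `i ≤ m`, `n' − 2m' ≥ t`, and one of: `i ≥ 2ℓ`, `k = 0`, `n/i` odd and `n' − 2m' > t`; or `k ≥ 2ℓ` and `n'` even; or `k > 2ℓ` and `n'` odd. -/
theorem result {F : Type*} [Field F] [Fintype F] {p : ℕ} [Fact p.Prime] [CharP F p] {q : ℕ} (hq : Fintype.card F = q)
    (d m : ℕ) (hd : 4 ≤ d) (hm : 1 ≤ m) (hmd : m < d)
    (r : ℕ) [Fact r.Prime]
    (hrΩ : r ∣ Nat.card {W : Submodule F (Fin d ⊕ Fin d → F) // Module.finrank F ↥W = m ∧ (∀ w ∈ W, Cfsg.quadFormPlus d F w = 0)})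
    (i c : ℕ) (hi : i = orderOf (q : ZMod r)) (hc : c = if Even i then i else 2 * i) :
    (∀ x : GL (Fin d ⊕ Fin d) F, x ∈ Cfsg.Geo.omegaGL (Cfsg.quadFormPlus d F) →
      (∃ z : F, ((x ^ r : GL (Fin d ⊕ Fin d) F) : Matrix (Fin d ⊕ Fin d) (Fin d ⊕ Fin d) F) = z • (1 : Matrix (Fin d ⊕ Fin d) (Fin d ⊕ Fin d) F)) →
      (∀ z : F, (x : Matrix (Fin d ⊕ Fin d) (Fin d ⊕ Fin d) F) ≠ z • (1 : Matrix (Fin d ⊕ Fin d) (Fin d ⊕ Fin d) F)) →
      ∃ W : Submodule F (Fin d ⊕ Fin d → F), Module.finrank F ↥W = m ∧ (∀ w ∈ W, Cfsg.quadFormPlus d F w = 0) ∧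
        W.map (Matrix.toLin' (x : Matrix (Fin d ⊕ Fin d) (Fin d ⊕ Fin d) F)) ≤ W) ↔
    ((r = 2 ∧ p ≠ 2 ∧ (q % 4 = 1 ∨ (q % 4 = 3 ∧ m + 2 ≤ d ∧ (Even m ∨ (2 * d) % 4 = 2)))) ∨
     (r ≠ p ∧ 2 < r ∧ Odd i ∧ i ≤ m ∧ 2 * (m % i) ≤ (2 * d) % c) ∨
     (r ≠ p ∧ 2 < r ∧ Even i ∧ i ≤ m ∧ (r - 1) / i + 2 * (m / i) ≤ (2 * d) / i ∧
       ((2 * (m % i) ≤ i ∧ (2 * d) % c = 0 ∧ Odd ((2 * d) / i) ∧ (r - 1) / i + 2 * (m / i) < (2 * d) / i) ∨
        (2 * (m % i) ≤ (2 * d) % c ∧ Even ((2 * d) / i)) ∨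
        (2 * (m % i) < (2 * d) % c ∧ Odd ((2 * d) / i))))) := by
  have hS := quadPQ_nondeg (isNondeg_quadFormPlus d F)
  have hn := finrank_sum (F := F) d
  have e : ∀ W : Submodule F (Fin d ⊕ Fin d → F),
      (∀ w ∈ W, quadFormPlus d F w = 0) ↔ (oP d F).TS W := fun W => (orth_ts (oP d F) W).symm
  have : Nontrivial (Fin d ⊕ Fin d → F) := nontrivial_of_finrank_pos (R := F) (by omega)
  refine Iff.trans (Iff.trans ?_ (forall_omega_iff (isNondeg_quadFormPlus d F) r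
    (FAdapt.Fix fun W => finrank F W = m ∧ (oP d F).TS W))) ?_
  · simp only [FAdapt.Fix, e, OrdR.map_le_iff, and_assoc]
  simp only [e] at hrΩ
  have hε := plus_oP (F := F) d
  have hw : widx (oP d F) ⊤ = d := by rw [Plus, finrank_top] at hε; omega
  obtain ⟨hrp, hΩ⟩ := hΩ_ts hq hS hn hw hmd.le (by omega) hrΩ
  have hr2 := (Fact.out : r.Prime).two_le
  by_cases h2 : r = 2
  · subst h2
    refine Iff.trans ?_ (show (q % 4 = 1 ∨ (q % 4 = 3 ∧ m + 2 ≤ d ∧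
      (Even m ∨ (2 * d) % 4 = 2))) ↔ _ by simp [hrp.symm])
    have h3 := odd_card hq hrp
    constructor
    · intro H
      obtain ⟨f, b1, b2, b3, b4, b5⟩ := exists_invol_om hq hrp hS (by omega) one_pos (by omega)
      have c1 := (invol_ts_iff hrp b1.isIso b2).1 (H f b1 ⟨1, by simpa using b2⟩ b3)
      have c2 := invol_widx hrp hS b1.isIso b2 hn b4
      simp only [hε, b5, not_true, true_and, false_and, or_false] at c2
      by_contra h
      obtain ⟨g, d1, d2, d3⟩ := exists_neg_om hq hrp hS hn (by omega)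
        (iff_of_true hε (by omega)) (by omega)
      obtain ⟨W, ⟨d4, -⟩, d5⟩ := H g d1 ⟨_, d2⟩ d3
      have d6 := neg_even' hq hrp (by omega) d2 d5
      rw [d4] at d6
      simp only [d6, true_or, and_true] at h
      omega
    · rintro h f b1 ⟨z, b2⟩ -
      rcases sq_cases (fun _ => rfl) hS b1.isIso b2 with b3 | b3
      · obtain ⟨s, c1, c2⟩ := (inOm_invol_iff hq hrp hS (by omega) b1.isIso b3).1 b1
        have c3 := invol_widx hrp hS b1.isIso b3 hn c1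
        simp only [hε, c2, not_true, true_and, false_and, or_false] at c3
        exact (invol_ts_iff hrp b1.isIso b3).2 (by omega)
      · have c1 := (neg_om_data hq hrp hS hn (by omega) b1 b3).1.1 hε
        exact neg_ts hq hrp (fun _ => rfl) hS b1.isIso b3 (by omega)
          (by rw [Nat.even_iff] at *; omega)
  rw [forall_om_iff hS (by omega) h2, ts_even_iff hq hrp h2 hi hc hS hn hmd (e := 0) (by omega) hw hΩ]
  simp [h2, hrp, show 2 < r by omega, Nat.even_iff, Nat.odd_iff]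

end Cfsg.Agent.S5973
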