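import Cfsg.Statements.S5974
import Cfsg.Agent.H9.FEven
import Cfsg.Agent.H9.FTrP

set_option autoImplicit false
set_option linter.unusedVariables false
open scoped MatrixGroups
open Cfsg

namespace Cfsg.Agent.S5974

open Module Polynomial Cfsg.Agent.H9 Cfsg.Agent.Form Cfsg.Agent.Form.PQ Cfsg.Agent.H9.FIdx
  Cfsg.Agent.H9.FCount Cfsg.Agent.H9.FClass Cfsg.Agent.H9.FOrd Cfsg.Agent.H9.Types
  Cfsg.Agent.H9.FInv Cfsg.Agent.H9.FSS Cfsg.Agent.H9.FModel Cfsg.Agent.H9.FNum
  Cfsg.Agent.H9.FAdapt Cfsg.Agent.H9.FSemi Cfsg.Agent.H9.FInvol Cfsg.Agent.H9.FTrP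
  Cfsg.Agent.H9.FSpin Cfsg.Agent.H9.FOArith Cfsg.Agent.H9.FOrth
  Cfsg.Agent.H9.FUnip

/-- Elements of prime order of PΩ⁺_n(q), n = 2d ≥ 8, with no fixed nondegenerate hyperbolic `m`-space. Here `T = PΩ⁺_n(q)` is realised through `Ω⁺_n(q)`, the commutator subgroup of the isometry group of `Q = Σ xᵢyᵢ` over the field `F` with `q` elements; an element of `T` of prime order `r` is an element `x` of `Ω⁺_n(q)` with `x^r` scalar and `x` not scalar. A hyperbolic `m`-space is a subspace `W` of even dimension `m` on which the polar form of `Q` is nondegenerate and which contains a totally singular subspace of dimension `m/2`. Let `m` be even with `2 ≤ m < n/2`, and let `r` be a prime dividing the number of hyperbolic `m`-spaces, with `r = 2` or `r ≠ p`. For `r ≠ p` let `i` be the multiplicative order of `q` modulo `r`, `c = i` for `i` even and `c = 2i` for `i` odd, and write `k = n mod c`, `ℓ' = m mod c`. Then every element of `T` of order `r` fixes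 some hyperbolic `m`-space if and only if one of: (i) `r = 2` and (`n ≡ 2 (mod 4)`, or `m ≡ 0 (mod 4)`, or `q ≡ 1 (mod 4)`); (ii) `r ≠ p` odd, `i` odd, `c ≤ m` and `k ≥ ℓ'`; (iii) `r ≠ p` odd, `i` even, and either `k = 0` and (`n/i` odd, or `ℓ' = 0` and `m/i` even), or `i ≤ m` and (`k > ℓ' > 0`, or `k = ℓ' > 0` and `(n + m − 2k)/i` even, or `k > ℓ' = 0` and `m/i` even). -/
theorem result {F : Type*} [Field F] [Fintype F] {p : ℕ} [Fact p.Prime] [CharP F p] {q : ℕ} (hq : Fintype.card F = q)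
    (d m : ℕ) (hd : 4 ≤ d) (hm : 2 ≤ m) (hme : Even m) (hmd : m < d)
    (r : ℕ) [Fact r.Prime] (hr : r = 2 ∨ r ≠ p)
    (hrΩ : r ∣ Nat.card {W : Submodule F (Fin d ⊕ Fin d → F) // (Module.finrank F ↥W = m ∧ (∀ u ∈ W, u ≠ 0 → ∃ v ∈ W, QuadraticMap.polar (Cfsg.quadFormPlus d F) u v ≠ 0) ∧
          ∃ U : Submodule F (Fin d ⊕ Fin d → F), U ≤ W ∧ 2 * Module.finrank F ↥U = m ∧ ∀ u ∈ U, Cfsg.quadFormPlus d F u = 0)})
    (i c : ℕ) (hi : i = orderOf (q : ZMod r)) (hc : c = if Even i then i else 2 * i) :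
    (∀ x : GL (Fin d ⊕ Fin d) F, x ∈ Cfsg.Geo.omegaGL (Cfsg.quadFormPlus d F) →
      (∃ z : F, ((x ^ r : GL (Fin d ⊕ Fin d) F) : Matrix (Fin d ⊕ Fin d) (Fin d ⊕ Fin d) F) = z • (1 : Matrix (Fin d ⊕ Fin d) (Fin d ⊕ Fin d) F)) →
      (∀ z : F, (x : Matrix (Fin d ⊕ Fin d) (Fin d ⊕ Fin d) F) ≠ z • (1 : Matrix (Fin d ⊕ Fin d) (Fin d ⊕ Fin d) F)) →
      ∃ W : Submodule F (Fin d ⊕ Fin d → F), (Module.finrank F ↥W = m ∧ (∀ u ∈ W, u ≠ 0 → ∃ v ∈ W, QuadraticMap.polar (Cfsg.quadFormPlus d F) u v ≠ 0) ∧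
          ∃ U : Submodule F (Fin d ⊕ Fin d → F), U ≤ W ∧ 2 * Module.finrank F ↥U = m ∧ ∀ u ∈ U, Cfsg.quadFormPlus d F u = 0) ∧
        W.map (Matrix.toLin' (x : Matrix (Fin d ⊕ Fin d) (Fin d ⊕ Fin d) F)) ≤ W) ↔
    ((r = 2 ∧ ((2 * d) % 4 = 2 ∨ m % 4 = 0 ∨ q % 4 = 1)) ∨
     (r ≠ p ∧ 2 < r ∧ Odd i ∧ c ≤ m ∧ m % c ≤ (2 * d) % c) ∨
     (r ≠ p ∧ 2 < r ∧ Even i ∧
       (((2 * d) % c = 0 ∧ (Odd ((2 * d) / i) ∨ (m % c = 0 ∧ Even (m / i)))) ∨
        (i ≤ m ∧ ((m % c < (2 * d) % c ∧ 0 < m % c) ∨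
                  ((2 * d) % c = m % c ∧ 0 < m % c ∧ Even ((2 * d + m - 2 * ((2 * d) % c)) / i)) ∨
                  (0 < (2 * d) % c ∧ m % c = 0 ∧ Even (m / i))))))) := by
  have hS : (oP d F).Nondeg := quadPQ_nondeg _
  have hn := finrank_sum (F := F) d
  have : Nontrivial (Fin d ⊕ Fin d → F) := nontrivial_of_finrank_pos (R := F) (by omega)
  have e : ∀ W : Submodule F (Fin d ⊕ Fin d → F), (finrank F W = m ∧
      (∀ u ∈ W, u ≠ 0 → ∃ v ∈ W, QuadraticMap.polar (quadFormPlus d F) u v ≠ 0) ∧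
        ∃ U ≤ W, 2 * finrank F U = m ∧ ∀ u ∈ U, quadFormPlus d F u = 0) ↔
      finrank F W = m ∧ (oP d F).NondegOn W ∧ (Plus (oP d F) W ↔ True) := fun W => by
    refine and_congr_right fun h1 => ((and_congr_right fun h => ?_).trans
      (and_congr_left' (nondegOn_iff' (S := oP d F)))).symm
    rw [iff_true, plus_iff h, h1]
    exact exists_congr fun U => and_congr_right fun _ =>
      and_comm.trans (and_congr_right' (orth_ts (oP d F) U))
  refine Iff.trans (Iff.trans ?_ (forall_omega_iff (isNondeg_quadFormPlus d F) r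
    (FAdapt.Fix fun W => finrank F W = m ∧ (oP d F).NondegOn W ∧ (Plus (oP d F) W ↔ True)))) ?_
  · simp only [FAdapt.Fix, e, OrdR.map_le_iff]
  simp only [e] at hrΩ
  have hr2 := (Fact.out : r.Prime).two_le
  have hP := plus_oP (F := F) d
  have hε : Plus (oP d F) ⊤ ↔ True := iff_of_true hP trivial
  by_cases h2 : r = 2
  · subst h2
    by_cases hp2 : p = 2
    · subst hp2
      rw [forall_two_iff hS]
      have h4 := Arith.p_dvd_q (p := 2) hq
      refine Iff.trans ?_ (show (2 * d % 4 = 2 ∨ m % 4 = 0) ↔ _ by simp; omega)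
      have h3 := Nat.even_iff.1 hme
      constructor
      · intro H
        by_contra h
        rw [Plus, finrank_top] at hP
        obtain ⟨f, a1, a2, a3, -, a4⟩ := two_counter_om hS (by omega) (k := d / 2) (by omega)
          (by omega)
        obtain ⟨W, ⟨b1, b2, -⟩, b3⟩ := H f a1 a2 a3
        obtain ⟨e, y, e', c1, c2, -⟩ := a4 W b2 b3
        omega
      · intro h f a1 a2 _
        refine two_fix hS (by omega) a1 a2 hn (by omega) hme (by omega) hε fun c y b1 _ =>
          ⟨min y (m / 4), min_le_left _ _, ?_⟩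
        simp only [iff_self, and_true]
        omega
    rw [even_two_iff hq (Ne.symm hp2) hS hn (by omega) (by omega) hme (by omega) hε]
    have h3 := odd_card hq (Ne.symm hp2)
    simp only [Nat.even_iff, Nat.odd_iff, true_iff, lt_irrefl, false_and, and_false,
      or_false, true_and] at hme ⊢
    omega
  have hr3 : 2 < r := by omega
  have hrp := hr.resolve_left h2
  rw [forall_om_iff hS (by omega) h2]
  obtain ⟨hΩ, H⟩ := orth_even_iff hq hrp h2 hi hc hS hn hme (by omega) (by omega)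
    (Or.inr (even_two_mul d)) True hε hrΩ
  rw [H]
  have c0 := (blk_id (P := FP.orth F) hq hrp h2 (fun _ => rfl) hi hc).pos hq hrp
  have c1 := nf_facts c0 (even_c hc) (show m < 2 * d by omega)
  have c2 := nf_even c0 hΩ
  have c3 := div_eq_add (n := 2 * d) (m := m) c0
  simp only [Nat.even_iff, Nat.odd_iff, true_iff, h2, false_or, false_and,
    hr3, true_and, ne_eq, hrp, not_false_iff] at c1 c2 hme hc ⊢
  clear * - c1 c2 c3 hme hc hm hmd
  obtain ⟨a1, a2, a3, a4, a5, a6, a7, a8, a9⟩ := c1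
  split_ifs at hc with h3
  · subst hc
    simp only [h3, zero_ne_one, false_and, false_or, true_and] at c2 ⊢
    generalize (2 * d + m - 2 * (2 * d % c)) / c = T at *
    generalize (2 * d) / c = N, (2 * d) % c = ρ, m / c = M, m % c = μ at *
    rw [show (ρ = μ ∧ 0 < μ ∧ T % 2 = 0) ↔ (ρ = μ ∧ 0 < μ ∧ (N + M) % 2 = 0) from
      and_congr_right fun h => by rw [c3 h.symm]]
    clear c3
    obtain hN | hN := Nat.mod_two_eq_zero_or_one N <;>
      obtain hM | hM := Nat.mod_two_eq_zero_or_one M <;>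
      simp only [Nat.add_mod N M, hN, hM, Nat.reduceAdd, Nat.reduceMod, zero_ne_one, one_ne_zero,
        not_true, not_false_iff, and_true, and_false, or_false, false_or, true_or, or_true,
        implies_true, imp_false, true_imp_iff] at c2 ⊢ <;>
      rcases a8 with a8 | a8 | a8 <;> constructor <;> intro h <;> omega
  · simp only [Nat.mod_two_ne_zero.1 h3, one_ne_zero, false_and, or_false, true_and, true_or,
      or_true, and_true, and_false, false_or, not_true, implies_true, true_imp_iff] at c2 ⊢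
    generalize (2 * d) / c = N, (2 * d) % c = ρ, m / c = M, m % c = μ at *
    rcases a8 with a8 | a8 | a8 <;> constructor <;> intro h <;> omega

end Cfsg.Agent.S5974
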