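import Cfsg.Statements.S5975
import Cfsg.Agent.H9.KF

set_option autoImplicit false
set_option linter.unusedVariables false
open scoped MatrixGroups
open scoped Matrix
open Cfsg

namespace Cfsg.Agent.S5975

open Module Polynomial Cfsg.Agent.H9 Cfsg.Agent.Form Cfsg.Agent.H9.Types Cfsg.Agent.H9.FSS
  Cfsg.Agent.H9.FInvol Cfsg.Agent.H9.Cj Cfsg.Agent.H9.Der Cfsg.Agent.H9.Ext Cfsg.Agent.H9.EIs
  Cfsg.Agent.H9.KF Cfsg.Agent.H9.FAdapt Cfsg.Agent.H9.Glue Cfsg.Agent.H9.FNum
  Cfsg.Agent.H9.FClass Cfsg.Agent.H9.FOrd Cfsg.Agent.H9.FIdx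

/-- Elements of prime order of PSp_n(q) and the field-extension subgroups of type Sp_{n/k}(q^k). Here `T = PSp_{2d}(F)` for a field `F` with `q` elements (`d ≥ 2`, `(d, q) ≠ (2, 2)`), realised through the matrices preserving the standard alternating form `f`; `k` is a prime and `K` is a subalgebra of the `2d × 2d` matrices that is a field of degree `k` over `F` whose elements are self-adjoint for `f` and satisfy `f(a v, v) = 0` (so `F^{2d}` becomes a vector space over `K ≅ F_{q^k}` on which `f` is the trace of a `K`-bilinear alternating form); `H` is the subgroup of `T` normalizing `K` — the symplectic maps that are `K`-linear or `K`-semilinear, a subgroup of type Sp_{2d/k}(q^k) (maximality is not assumed). Ω is the set of cosets of `H` in `T`, so an element of `T` of prime order `r` (`x ∈ T` with `x^r` scalar, `x` not scalar) fixes a point of Ω exactly when some `T`-conjugate of `x` normalizes `K`. Let `r` be a prime dividing the index of `H`. Then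 every element of `T` of order `r` fixes a point of Ω if and only if `r = 2`, `d = 2`, `k = 2` and `q` is odd. -/
theorem result {F : Type*} [Field F] [Fintype F] {p : ℕ} [Fact p.Prime] [CharP F p] {q : ℕ} (hq : Fintype.card F = q)
    (d : ℕ) (hd : 2 ≤ d) (hT : (d, q) ≠ (2, 2)) (k : ℕ) (hk : k.Prime)
    (K : Subalgebra F (Matrix (Fin d ⊕ Fin d) (Fin d ⊕ Fin d) F)) (hK : Cfsg.Geo.IsFieldSubalgebra k K)
    (hKf : Cfsg.Geo.IsSelfAdjointFor (Cfsg.sympForm d F) K) (hKalt : ∀ a ∈ K, ∀ v : Fin d ⊕ Fin d → F, Cfsg.sympForm d F (a *ᵥ v) v = 0)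
    (r : ℕ) [Fact r.Prime]
    (hΩ : r ∣ (Cfsg.Geo.subalgebraNormalizer K).relIndex (Cfsg.spGL d F)) :
    (∀ x ∈ Cfsg.spGL d F, (∃ z : F, ((x ^ r : GL (Fin d ⊕ Fin d) F) : Matrix (Fin d ⊕ Fin d) (Fin d ⊕ Fin d) F) = z • (1 : Matrix (Fin d ⊕ Fin d) (Fin d ⊕ Fin d) F)) →
      (∀ z : F, (x : Matrix (Fin d ⊕ Fin d) (Fin d ⊕ Fin d) F) ≠ z • (1 : Matrix (Fin d ⊕ Fin d) (Fin d ⊕ Fin d) F)) →
      ∃ g ∈ Cfsg.spGL d F, g⁻¹ * x * g ∈ Cfsg.Geo.subalgebraNormalizer K) ↔
    (r = 2 ∧ d = 2 ∧ k = 2 ∧ Odd q) := by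
  have hr : r.Prime := Fact.out
  have hn := finrank_sum (F := F) d
  have hS := spS_nondeg (F := F) d
  have hq2 := Arith.two_le_q hq
  have : Nonempty (Fin d ⊕ Fin d) := ⟨.inl ⟨0, by omega⟩⟩
  obtain ⟨L, _, _, _, _, _, h1, h2, h3, -⟩ := exists_ext hK
  have := charP_of_injective_algebraMap (algebraMap F L).injective p
  have := Module.finite_of_finite F (M := L)
  have := Fintype.ofFinite L
  have : FiniteDimensional L (Fin d ⊕ Fin d → F) := Module.Finite.right F L _
  obtain ⟨τ, hτ⟩ := FModel.exists_dual_eq_one (F := F) (one_ne_zero (α := L))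
  have h4 : ∀ (c : L) x, (spS d F).B (c • x) x = 0 := fun c x => by
    obtain ⟨a, b1, b2⟩ := h3 c
    rw [b2]; exact hKalt a b1 x
  obtain ⟨T, hL⟩ := exists_lift (PK := FP.symp L) (τ := τ) maxP_symp (by rintro rfl; simp at hτ) hS
    (fun c x y => by
      obtain ⟨a, b1, b2⟩ := h3 c
      rw [FP.symp_σ, b2, b2]; exact hKf a b1 x y) (by simp) (Or.inr h4)
  have h5 := even_finrank_symp (T.nondegOn_top.2 hL.nd)
  have h6 := Module.finrank_mul_finrank F L (Fin d ⊕ Fin d → F)
  rw [finrank_top] at h5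
  generalize widx T ⊤ = m at h5
  have h7 : d = k * m := by rw [← h5, h1, mul_left_comm] at h6; omega
  have h8 : k ≤ d := h7 ▸ Nat.le_mul_of_pos_right k (Nat.pos_of_ne_zero (by rintro rfl; omega))
  have hk2 := hk.two_le
  rw [forall_cj_iff _ _ _ (mem_spGL_iff d) _ _ h2 (fun _ => Iff.rfl)]
  change EI (spS d F).isom (KS L) r ↔ _
  have key : ∀ g : End F (Fin d ⊕ Fin d → F), KL L g → (spS d F).IsIso (spS d F) g → g ^ r = 1 →
      r ≠ p → 2 * k ∣ finrank F (Dx r g) := fun g a1 a2 a3 a4 => by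
    obtain ⟨G, b1, b2, b3⟩ := hL.of_kl maxP_symp a1 a2 a3
    rw [b3, ← even_finrank_symp (nondegOn_Dx a4 hL.nd b1 b2), h1, ← mul_assoc, mul_comm k]
    exact dvd_mul_right _ _
  refine ⟨fun H => ?_, ?_⟩
  · by_cases hrp : r = p
    · subst hrp
      obtain ⟨g, a1, a2⟩ := H.transv hS
      have a3 := (a1.ed_cases one_ne_zero).resolve_right (by omega)
      have := Nat.le_of_dvd one_pos ((Nat.dvd_add_right a3).1 ⟨_, a2.trans h6.symm⟩)
      omega
    by_cases hr2 : r = 2
    · subst hr2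
      have b1 := (spS d F).nondegOn_top.2 hS
      have b2 := even_finrank_symp b1
      rw [finrank_top] at b2
      obtain ⟨U, -, b3, b4, -⟩ := exists_nondeg_even b1 (j := 1) (by omega)
      obtain ⟨g, a1, a2, a3, a4⟩ := H.invol hrp hS b3 (by omega) (by omega)
      have a5 := finrank_cd_top hrp a3
      rcases a1.cases with a6 | ⟨_, _, a6, a7⟩
      · have := Nat.le_of_dvd (by omega) (key g a6 a2 a3 hrp)
        omega
      have := two_mul_ed_le a6 a7 one_ne_zero
      rw [ed_one] at this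
      exact ⟨rfl, by omega, by omega, Nat.odd_iff.2 (odd_card hq hrp)⟩
    obtain ⟨N, b1, b2, b3⟩ := hL.exists_sub maxP_symp
    obtain ⟨k, rfl⟩ := Nat.exists_eq_add_one.2 hk.pos
    obtain ⟨D, b4, b5⟩ := P_mul (q ^ 2) k m
    obtain ⟨j, j1, j2, j3, j4⟩ := b5 r hr (exists_dvd_symp hS hq (Arith.not_dvd_q hq hrp) b1
      (hΩ.trans (relIndex_dvd (mem_spGL_iff d) N fun x hx => (h2 x).2 (glEquiv_coe x ▸ b3 _ hx))) hn
      (Count.P_pos (Nat.one_lt_pow (by omega) (by nlinarith)) m) (by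
        rw [b2, card_isom_symp (card_ext hq) m hL.nd h5.symm, h1, pow_right_comm]
        exact dvd_mul_left _ _) (h7 ▸ b4))
    obtain ⟨s, j5⟩ := FSemi.of_dvd_sq_sub (by omega) rfl rfl j4
    have c1 := blk_id (P := FP.symp F) hq hrp hr2 (fun _ => rfl) rfl rfl
    have c2 : (if Even (orderOf (q : ZMod r)) then orderOf (q : ZMod r)
        else 2 * orderOf (q : ZMod r)) ≤ r - 1 := Nat.le_of_dvd (by have := hr.two_le; omega) (by
      have := Arith.orderOf_dvd_sub_one hq hrp
      split_ifs with e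
      exacts [this, (Nat.coprime_two_left.2 (Nat.not_even_iff_odd.1 e)).mul_dvd_of_dvd_of_dvd
        (hr.even_sub_one hr2).two_dvd this])
    generalize (if Even (orderOf (q : ZMod r)) then _ else _) = c at *
    have c3 : c ≤ c * s := Nat.le_mul_of_pos_right _ (Nat.pos_of_ne_zero (by rintro rfl; omega))
    obtain ⟨g, a1, a2, a3, a4⟩ := H.blk le_rfl (fun f a _ => (isIso_iff_exists hS f).1 a)
      (fun _ => rfl) hS (FSemi.models_symp hq hrp hS) c1 hq hrp hr2 one_pos (by omega)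
    have a5 : ¬ KL L g := fun e => j3 (Nat.dvd_of_mul_dvd_mul_left two_pos
      ((key g e a2 a3 hrp).trans ⟨s, by rw [a4, mul_one, j5]⟩))
    obtain ⟨_, _, a6, a7⟩ := a1.cases.resolve_left a5
    have := two_mul_ed_le a6 a7 one_ne_zero
    have := (a1.eq_of_pow (h1 ▸ hk) hr a3).resolve_left a5
    have := finrank_cd_top hrp a3
    rw [ed_one] at *
    omega
  rintro ⟨rfl, rfl, rfl, h9⟩
  have hp2 := two_ne_p hq h9
  obtain ⟨θ, c, hθ⟩ := exists_quad hq (Nat.odd_iff.1 h9) h1
  refine ei_two_symp hp2 hS (fun s b1 b2 => ?_) ?_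
  · obtain ⟨u, hu⟩ := exists_ne (0 : Fin 2 ⊕ Fin 2 → F)
    obtain ⟨w, c1, -, c2⟩ := hS.exists_hyperbolic_perp (X := F ∙ θ • u) (u := u) trivial (fun e => by
      obtain ⟨a, e⟩ := Submodule.mem_span_singleton.1 e
      have e1 : a • θ = 1 := smul_left_injective L hu (by simpa using e)
      have e2 : a * a * c = 1 := (algebraMap F L).injective (by
        rw [map_mul, ← hθ.sq, ← Algebra.smul_def, ← smul_mul_smul_comm, e1, mul_one, map_one])
      exact hθ.ns a⁻¹ (by
        have : a ≠ 0 := by rintro rfl; simp at e2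
        field_simp; linear_combination -e2))
      ((spS 2 F).mem_perp_span_singleton.2 ((spS 2 F).B_comm_zero (h4 θ u)))
    have c3 := (spS 2 F).mem_perp_span_singleton.1 c1
    have c4 := (spS 2 F).finrank_span_pair_of_hyperbolic (u := u) (w := w) trivial (by simp [c2])
    obtain ⟨g, d1, d2, d3, d4⟩ := anti_invol (J := mulK _ θ) hp2 hS hθ.ne hθ.smul_smul
      ((spS 2 F).nondegOn_span_pair (u := u) (w := w) trivial trivial (by simp [c2])) (by
        rw [Submodule.map_span, Submodule.span_le, Set.image_pair]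
        rintro _ (rfl | rfl) <;> refine (spS 2 F).mem_perp_span.2 ?_ <;> rintro _ (rfl | rfl)
        exacts [h4 _ _, (spS 2 F).B_comm_zero c3, by simpa [hL.B] using c3, h4 _ _]) (by omega)
    exact ⟨g, hθ.ks d1, d2, d3, by rw [d4]; omega⟩
  · obtain ⟨y, b1, b2⟩ := exists_neg_symp hL.nd
    exact ⟨_, (kl_res y).ks, hL.res maxP_symp b1, by rw [res_pow, b2]; ext; simp⟩

end Cfsg.Agent.S5975
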