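import Cfsg.Statements.S5976
import Cfsg.Agent.H9.KF

set_option autoImplicit false
set_option linter.unusedVariables false
open scoped MatrixGroups
open Cfsg

namespace Cfsg.Agent.S5976

open Module Polynomial Cfsg.Agent.H9 Cfsg.Agent.Form Cfsg.Agent.H9.Types Cfsg.Agent.H9.FSS
  Cfsg.Agent.H9.FInvol Cfsg.Agent.H9.Cj Cfsg.Agent.H9.Der Cfsg.Agent.H9.Ext Cfsg.Agent.H9.EIs
  Cfsg.Agent.H9.KF Cfsg.Agent.H9.FAdapt Cfsg.Agent.H9.Glue Cfsg.Agent.H9.FNum
  Cfsg.Agent.H9.FClass Cfsg.Agent.H9.FOrd Cfsg.Agent.H9.FIdx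

/-- Elements of prime order of PSp_n(q), q odd, and the subgroups of type GU_{n/2}(q). Here `T = PSp_{2d}(F)` for a field `F` with `q` elements, `q` odd, `d ≥ 2`, realised through the matrices preserving the standard alternating form `f`; `K` is a subalgebra of the `2d × 2d` matrices that is a field of degree 2 over `F`, closed under taking adjoints for `f` but not consisting of self-adjoint elements (so `F^{2d}` becomes a `d`-dimensional space over `K ≅ F_{q²}` on which `f` is the trace of a multiple of a non-degenerate hermitian form); `H` is the subgroup of `T` normalizing `K` — the symplectic maps that are `K`-linear or `K`-semilinear, a subgroup of type GU_d(q) (maximality is not assumed). Ω is the set of cosets of `H` in `T`, so an element of `T` of prime order `r` (`x ∈ T` with `x^r` scalar, `x` not scalar) fixes a point of Ω exactly when some `T`-conjugate of `x` normalizes `K`. Let `r` be a prime dividing the index of `H`. Then every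 element of `T` of order `r` fixes a point of Ω if and only if `r = 2`. -/
theorem result {F : Type*} [Field F] [Fintype F] {p : ℕ} [Fact p.Prime] [CharP F p] {q : ℕ} (hq : Fintype.card F = q)
    (hodd : Odd q) (d : ℕ) (hd : 2 ≤ d)
    (K : Subalgebra F (Matrix (Fin d ⊕ Fin d) (Fin d ⊕ Fin d) F)) (hK : Cfsg.Geo.IsFieldSubalgebra 2 K)
    (hKf : Cfsg.Geo.IsAdjointClosedFor (Cfsg.sympForm d F) K) (hKns : ¬ Cfsg.Geo.IsSelfAdjointFor (Cfsg.sympForm d F) K)
    (r : ℕ) [Fact r.Prime]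
    (hΩ : r ∣ (Cfsg.Geo.subalgebraNormalizer K).relIndex (Cfsg.spGL d F)) :
    (∀ x ∈ Cfsg.spGL d F, (∃ z : F, ((x ^ r : GL (Fin d ⊕ Fin d) F) : Matrix (Fin d ⊕ Fin d) (Fin d ⊕ Fin d) F) = z • (1 : Matrix (Fin d ⊕ Fin d) (Fin d ⊕ Fin d) F)) →
      (∀ z : F, (x : Matrix (Fin d ⊕ Fin d) (Fin d ⊕ Fin d) F) ≠ z • (1 : Matrix (Fin d ⊕ Fin d) (Fin d ⊕ Fin d) F)) →
      ∃ g ∈ Cfsg.spGL d F, g⁻¹ * x * g ∈ Cfsg.Geo.subalgebraNormalizer K) ↔ r = 2 := by
  have hr : r.Prime := Fact.out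
  have hn := finrank_sum (F := F) d
  have hS := spS_nondeg (F := F) d
  have hq2 := Arith.two_le_q hq
  have hp2 := two_ne_p hq hodd
  have hF := two_ne_zero' (F := F) hp2
  have : Nonempty (Fin d ⊕ Fin d) := ⟨.inl ⟨0, by omega⟩⟩
  obtain ⟨L, _, _, _, _, _, h1, h2, h3, h4⟩ := exists_ext hK
  have := charP_of_injective_algebraMap (algebraMap F L).injective p
  have := Module.finite_of_finite F (M := L)
  have := Fintype.ofFinite L
  have : FiniteDimensional L (Fin d ⊕ Fin d → F) := Module.Finite.right F L _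
  have hQ : Fintype.card L = q ^ 2 := h1 ▸ card_ext hq
  obtain ⟨θ, c, hθ⟩ := exists_quad hq (Nat.odd_iff.1 hodd) h1
  obtain ⟨f1, f2⟩ := hθ.frob hq hQ
  have hJ : Skew (spS d F) c (mulK _ θ) := by
    obtain ⟨a, b1, b2⟩ := h3 θ
    obtain ⟨a', b3, b4⟩ := hKf a b1
    obtain ⟨θ', b5⟩ := h4 a' b3
    have b6 : ∀ x y, (spS d F).B (θ • x) y = (spS d F).B x (θ' • y) := fun x y => by
      rw [b2, b5]; exact b4 x y
    obtain ⟨u, hu⟩ := exists_ne (0 : Fin d ⊕ Fin d → F)
    rcases mul_self_eq_mul_self_iff.1 (show θ' * θ' = θ * θ from smul_left_injective L hu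
      (hS.ext_right fun x => by
        simp only [mul_smul, ← b6, hθ.smul_smul, PQ.B_smul_left, PQ.B_smul_right, FP.symp_σ]))
      with rfl | rfl
    · refine absurd (fun a b1 x y => ?_) hKns
      obtain ⟨k, b2⟩ := h4 a b1
      obtain ⟨s, t, rfl⟩ := hθ.dec k
      rw [← b2, ← b2]
      change (spS d F).B _ _ = (spS d F).B _ _
      simp only [add_smul, algebraMap_smul, smul_assoc, PQ.B_add_left, PQ.B_add_right,
        PQ.B_smul_left, PQ.B_smul_right, b6, FP.symp_σ]
    · exact ⟨hθ.smul_smul, fun x y => by rw [mulK_apply, b6, neg_smul, PQ.B_neg_right, mulK_apply]⟩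
  have hσ : ∀ a, (frobQ hQ : L →+* L) ((frobQ hQ : L →+* L) a) = a := pow_q_pow_q hQ
  have hne := FUni.hne_of (σ := (frobQ hQ : L →+* L)) hQ fun _ => rfl
  have f3 : ∀ s t : F, (frobQ hQ : L →+* L) (algebraMap F L s + t • θ) =
      algebraMap F L s - t • θ := fun s t => by
    simp only [RingHom.coe_coe, map_add, Algebra.smul_def, map_mul, f1, f2]; ring
  obtain ⟨τ, t1, t2⟩ := H7.exists_dual_one (W := F ∙ (1 : L)) (x := θ) fun e => by
    obtain ⟨a, rfl⟩ := Submodule.mem_span_singleton.1 e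
    exact hθ.ns a ((algebraMap F L).injective (by
      rw [← hθ.sq, ← Algebra.algebraMap_eq_smul_one, sq, map_mul]))
  have t3 := t2 1 (Submodule.mem_span_singleton_self _)
  obtain ⟨T, hL⟩ := exists_lift (PK := FP.unit _ hσ) (τ := τ) (maxP_unit _ _)
    (by rintro rfl; simp at t1) hS (fun k x y => by
      obtain ⟨s, t, rfl⟩ := hθ.dec k
      have := hJ.2 x y
      simp only [mulK_apply] at this
      simp only [FP.unit_σ, f3, add_smul, sub_smul, algebraMap_smul, smul_assoc, PQ.B_add_left,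
        PQ.B_sub_right, PQ.B_smul_left, PQ.B_smul_right, this, FP.symp_σ]
      ring) (fun k => by
      obtain ⟨s, t, rfl⟩ := hθ.dec k
      rw [FP.unit_σ, f3]
      simp [Algebra.algebraMap_eq_smul_one, t3]) (Or.inl (two_ne_zero' hp2))
  have h6 := Module.finrank_mul_finrank F L (Fin d ⊕ Fin d → F)
  rw [h1] at h6
  rw [forall_cj_iff _ _ _ (mem_spGL_iff d) _ _ h2 (fun _ => Iff.rfl)]
  change EI (spS d F).isom (KS L) r ↔ _
  refine ⟨fun H => by_contra fun hr2 => ?_, ?_⟩
  · by_cases hrp : r = p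
    · subst hrp
      obtain ⟨g, a1, a2⟩ := H.transv hS
      have := a1.ed_cases one_ne_zero
      rw [h1] at this
      omega
    obtain ⟨N, b1, b2, b3⟩ := hL.exists_sub maxP_symp
    obtain ⟨j, j1, j2⟩ := (hr.prime.dvd_finsetProd_iff _).1 (exists_dvd_symp hS hq
      (Arith.not_dvd_q hq hrp) b1 (hΩ.trans (relIndex_dvd (mem_spGL_iff d) N fun x hx =>
        (h2 x).2 (glEquiv_coe x ▸ b3 _ hx))) hn (PU_pos hq2 d) (by
        rw [b2, card_isom_unit hQ hσ hne d hL.nd (by omega)]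
        exact dvd_mul_left _ _) (SimG.P_sq q d))
    rw [Finset.mem_range] at j1
    obtain ⟨g, a1, a2, a3, a4⟩ := H.blk_symp hS hq hrp hr2 (j := j + 1) (by omega) (by omega)
      (SimG.uf_mul q (j + 1) ▸ j2.mul_left _)
    obtain ⟨G, c1, c2, c3⟩ := hL.of_kl (maxP_unit _ _) ((a1.eq_of_pow (h1 ▸ Nat.prime_two) hr
      a3).resolve_right (h1 ▸ hr2)) a2 a3
    have c4 := (blk_unit hQ hrp hr2 (fun _ => rfl) rfl rfl).dvd_Dx hQ hrp hL.nd c1 c2
    rw [show finrank L (Dx r G) = j + 1 by rw [h1] at c3; omega] at c4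
    exact SimG.not_dvd_uf hr2 (by omega) j2 ((dvd_uf_iff hr2 (by omega) rfl
      (Arith.orderOf_pos' hq hrp) rfl _).2 c4)
  rintro rfl
  refine ei_two_symp hp2 hS (fun m _ b1 => ?_) ?_
  · obtain ⟨U, -, b2, b3⟩ := exists_nondeg_of_aniso (fun U => exists_aniso_of_σ hne)
      (T.nondegOn_top.2 hL.nd) (e := m) (by rw [finrank_top]; omega)
    obtain ⟨g, b4, b5, b6, -⟩ := exists_invol hp2 hL.nd b2
    exact ⟨_, (kl_res g).ks, hL.res maxP_symp b4, res_pow_eq_one.2 b5,
      by rw [Dx_res, finrank_res, h1, b6, b3]⟩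
  · obtain ⟨g, b1, b2⟩ := exists_anti_symp hq (Nat.odd_iff.1 hodd) hF hS hθ.ne hJ
    exact ⟨g, hθ.ks b1, b2⟩

end Cfsg.Agent.S5976
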