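import Cfsg.Statements.S5979
import Cfsg.Agent.H9.Ten

set_option autoImplicit false
set_option linter.unusedVariables false
open scoped MatrixGroups
open Cfsg

namespace Cfsg.Agent.S5979

open Module Polynomial Cfsg.Agent.H9 Cfsg.Agent.Form Cfsg.Agent.H9.Types Cfsg.Agent.H9.FSS
  Cfsg.Agent.H9.FInvol Cfsg.Agent.H9.Cj Cfsg.Agent.H9.Der Cfsg.Agent.H9.Ext Cfsg.Agent.H9.Ten
  Cfsg.Agent.H7 Cfsg.Agent.H9.FAdapt Cfsg.Agent.H9.Glue Cfsg.Agent.H9.FNum Cfsg.Agent.H9.FClass

/-- Elements of prime order of PSL_n(q) and the stabilizers of tensor decompositions with factors of different dimensions. Here `T = PSL_n(F)` for a field `F` with `q` elements and `n = a·b` with `2 ≤ a < b`; a tensor decomposition `F^n ≅ F^a ⊗ F^b` is given by a bijection `e` of index sets and a change of basis `P`, and `H` is the subgroup of matrices of determinant 1 in its stabilizer (the conjugate by `P` of the group of Kronecker products `g₁ ⊗ g₂`) — a subgroup of type GL_a(q) ⊗ GL_b(q)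 (maximality is not assumed); Ω is the set of cosets of `H` in `T`, so an element of `T` of prime order `r` (a matrix `x` of determinant 1 with `x^r` scalar, `x` not scalar) fixes a point of Ω exactly when some conjugate of `x` by a matrix of determinant 1 lies in `H`. Let `r` be a prime dividing the index of `H`. Then every element of `T` of order `r` fixes a point of Ω if and only if `r = 2`, `a = 2`, `q` is odd and `(q − 1)_2 ≤ (n)_2` (2-parts). -/
theorem result {F : Type*} [Field F] [Fintype F] {p : ℕ} [Fact p.Prime] [CharP F p] {q : ℕ} (hq : Fintype.card F = q)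
    (n a b : ℕ) (hab : n = a * b) (ha : 2 ≤ a) (hlt : a < b) (e : Fin n ≃ Fin a × Fin b) (P : GL (Fin n) F)
    (r : ℕ) [Fact r.Prime]
    (hΩ : r ∣ (Cfsg.Geo.tensorProductSubgroup a b e P).relIndex (Cfsg.Geo.specialLinear (Fin n) F)) :
    (∀ x ∈ Cfsg.Geo.specialLinear (Fin n) F, (∃ z : F, ((x ^ r : GL (Fin n) F) : Matrix (Fin n) (Fin n) F) = z • (1 : Matrix (Fin n) (Fin n) F)) →
      (∀ z : F, (x : Matrix (Fin n) (Fin n) F) ≠ z • (1 : Matrix (Fin n) (Fin n) F)) →
      ∃ g ∈ Cfsg.Geo.specialLinear (Fin n) F, g⁻¹ * x * g ∈ Cfsg.Geo.tensorProductSubgroup a b e P) ↔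
    (r = 2 ∧ a = 2 ∧ Odd q ∧ padicValNat 2 (q - 1) ≤ padicValNat 2 n) := by
  classical
  have h := isTens_tensOf e P
  have hr : r.Prime := Fact.out
  have hfr : finrank F (Fin n → F) = n := by simp
  have hn : a + a + 2 ≤ n := by rw [hab]; nlinarith
  have : Nontrivial (Fin n → F) := nontrivial_of_finrank_pos (R := F) (by omega)
  have : Nonempty (Fin a) := ⟨⟨0, by omega⟩⟩
  have : Nonempty (Fin b) := ⟨⟨0, by omega⟩⟩
  rw [forall_cj_sl _ _ (Ten.mem_iff (by omega) (by omega) e P)]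
  change El (TP h) r ↔ _
  have k1 : ∀ g θ k, TP h g → θ ≠ 0 → ed g θ + k = n → 0 < k → k < n → a ≤ k :=
    fun g θ k a1 a2 a3 a4 a5 => by
      have := a1.ed_le h (θ := θ) (by omega) (by omega) a2
      simp only [finrank_fin_fun] at this
      omega
  have k2 : ∀ g k, TP h g → ed g 1 + k = n → k < b →
      ∃ g₂ : End F (Fin b → F), g = h.tmap (1 : End F (Fin a → F)) g₂ := by
    rintro _ k ⟨g₁, g₂, rfl⟩ a1 a2
    by_cases a3 : ∀ c : F, g₁ ≠ c • 1
    · have := ed_tmap_le h.flip g₂ a3 one_ne_zero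
      simp only [tmap_flip h, finrank_fin_fun] at this
      omega
    push Not at a3
    obtain ⟨c, rfl⟩ := a3
    exact ⟨c • g₂, by rw [tmap_smul, tmap_smul']⟩
  refine ⟨fun H => ?_, ?_⟩
  · by_cases hrp : r = p
    · subst hrp
      obtain ⟨g, a1, -, a2⟩ := H.transv (by omega)
      have := k1 g 1 1 a1 one_ne_zero (by omega) one_pos (by omega)
      omega
    by_cases h1 : r ∣ q - 1
    · obtain ⟨ω, hω⟩ := Arith.exists_root_of_dvd hq h1
      have h2 := hω.ne_one hr.one_lt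
      obtain ⟨g, a1, a2⟩ := el_pair H hω.pow_eq_one h2 (by omega)
      have a3 : ed g 1 + 2 = n := by simp [a2, h2.symm, h2, eq_comm (a := (1 : F))]; omega
      by_cases hr2 : r = 2
      · subst hr2
        refine ⟨rfl, by have := k1 g 1 2 a1 one_ne_zero a3 two_pos (by omega); omega,
          Nat.odd_iff.2 (odd_card hq hrp), by_contra fun hv => ?_⟩
        obtain ⟨g, b1, -, -, b2⟩ := H.refl (TP.smul h) hq hrp (by omega) (by rw [hfr]; omega)
        have := k1 g 1 1 b1 one_ne_zero (by omega) one_pos (by omega)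
        omega
      obtain ⟨g₂, rfl⟩ := k2 g 2 a1 a3 (by omega)
      have a4 : ω ≠ ω⁻¹ := fun e => hr2 ((Nat.prime_dvd_prime_iff_eq hr Nat.prime_two).1
        (hω.dvd_of_pow_eq_one 2 (by
          rw [sq]; exact (mul_eq_one_iff_eq_inv₀ (hω.ne_zero hr.ne_zero)).2 e)))
      have a5 := a2 ω
      rw [ed_aeval, finrank_ker_tmap] at a5
      simp [a4, Multiset.count_replicate, h2.symm] at a5
      omega
    have h2 := hΩ.trans (relIndex_sl_dvd ⊥ fun x hx => by
      rw [Subgroup.mem_bot, MulEquiv.map_eq_one_iff] at hx; exact hx ▸ one_mem _)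
    rw [Subgroup.index_bot, card_equiv hq, hfr] at h2
    obtain ⟨j, j1, j2, j3⟩ := dvd_of_dvd_P ((hr.dvd_mul.1 h2).resolve_left fun e =>
      Arith.not_dvd_q hq hrp (hr.dvd_of_dvd_pow e))
    have j4 := Nat.le_of_dvd j1 ((Arith.orderOf_dvd_iff (one_le_two.trans (Arith.two_le_q hq))).2 j3)
    have j5 := Arith.orderOf_pos' hq hrp
    obtain ⟨_, ⟨g₁, g₂, rfl⟩, a1, a2⟩ := H.fixed hq hrp h1 one_ne_zero (by omega)
    have a3 := finrank_cd_top hrp a1
    have a4 : ed (h.tmap g₁ g₂) 1 + orderOf (q : ZMod r) = n := by rw [ed_one]; omega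
    obtain ⟨g, a5⟩ : ∃ g : End F (Fin b → F), h.tmap g₁ g₂ = h.tmap (1 : End F (Fin a → F)) g := by
      by_cases a5 : orderOf (q : ZMod r) < b
      · exact k2 _ _ ⟨_, _, rfl⟩ a4 a5
      obtain ⟨z, b1, b2⟩ := scalar_left h (c := 1) one_ne_zero (by rw [← tmap_pow, a1, one_smul])
      obtain ⟨y, b3, rfl⟩ := Arith.exists_pow_eq_of_not_dvd hq h1 b1
      refine ⟨y • g₂, ?_⟩
      rw [tmap_smul', ← tmap_smul, ← show y⁻¹ • g₁ = 1 from by_contra fun e => by
        have := Imprim.orderOf_le_of_pow_eq_one hq hrp (OrdR.inv_smul_pow_eq_one b3 rfl b2) e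
        simp only [finrank_fin_fun] at this
        omega, smul_inv_smul₀ b3]
    rw [a5, finrank_ker_tmap, finrank_fin_fun] at a2
    obtain ⟨t, ht⟩ := dvd_finrank_of_le_Dx hq hrp (inv_Dx (f := g) r) le_rfl
    rw [ht, mul_left_comm] at a2
    have := Nat.eq_one_of_mul_eq_one_right (Nat.eq_of_mul_eq_mul_left j5 a2)
    omega
  rintro ⟨rfl, rfl, h1, h2⟩
  have hp2 := two_ne_p hq h1
  refine el_two hp2 (TP.smul h) (fun f c _ a1 a2 _ => ?_) fun f c _ _ _ => ?_
  · obtain ⟨m, hm⟩ := (even_Dx hq hp2 a1 a2 (by rwa [hfr])).two_dvd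
    have := Submodule.finrank_le (Dx 2 (c • f))
    obtain ⟨g, b1, b2⟩ := exists_invol_dim (V := Fin b → F) (two_ne_zero' hp2) (m := m)
      (by rw [finrank_fin_fun]; omega)
    exact ⟨_, ⟨1, g, rfl⟩, by rw [tmap_pow, one_pow, b1, tmap_one],
      by rw [finrank_ker_tmap, finrank_fin_fun, b2, hm]⟩
  · obtain ⟨y, b1⟩ := exists_hasType (V := Fin 2 → F) {X ^ 2 - C c} (by
      simpa using monic_X_pow_sub_C c two_ne_zero) (by simp)
    exact ⟨_, ⟨y, 1, rfl⟩, by rw [tmap_pow, one_pow, (OrdR.aeval_X_pow_sub_C_eq_zero_iff y 2 c).1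
      ((b1.aeval_eq_zero_iff _).2 (by simp)), tmap_smul, tmap_one]⟩

end Cfsg.Agent.S5979
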