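import Cfsg.Statements.S5980
import Cfsg.Agent.H9.Ten
import Cfsg.Agent.H9.EI

set_option autoImplicit false
set_option linter.unusedVariables false
open scoped MatrixGroups
open Cfsg

namespace Cfsg.Agent.S5980

open Module Polynomial Cfsg.Agent.H9 Cfsg.Agent.Form Cfsg.Agent.H9.Types Cfsg.Agent.H9.FSS
  Cfsg.Agent.H9.FInvol Cfsg.Agent.H9.Cj Cfsg.Agent.H9.Der Cfsg.Agent.H9.Ten Cfsg.Agent.H9.EIs
  Cfsg.Agent.H7 Cfsg.Agent.H9.FAdapt Cfsg.Agent.H9.Glue Cfsg.Agent.H9.FNum Cfsg.Agent.H9.FClass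

/-- Elements of prime order of PSp_n(q), q odd, and the stabilizers of tensor decompositions Sp_a(q) ⊗ O_b(q). Here `T = PSp_{2d}(F)` for a field `F` with `q` elements, `q` odd, `d ≥ 2`, realised through the matrices preserving the standard alternating form `f`; `2d = a·b` with `a` even, `b ≥ 3`, and the bijection `e` and change of basis `P` exhibit `f` as a non-zero scalar multiple of the tensor product of a non-degenerate alternating form `f₁` on `F^a` and a non-degenerate symmetric bilinear form `f₂` on `F^b`; `H` is the subgroup of `T` stabilizing this tensor decomposition (the elements of `T` in the conjugate by `P` of the group of Kronecker products) — a subgroup of type Sp_a(q) ⊗ O^ε_b(q) (maximality is not assumed). Ω is the set of cosets of `H` in `T`, so an element of `T` of prime order `r` (`x ∈ T` with `x^r` scalar, `x` not scalar) fixes a point of Ω exactly when some `T`-conjugate of `x` lies in `H`. Let `r` be a prime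 dividing the index of `H`. Then every element of `T` of order `r` fixes a point of Ω if and only if `r = 2` and `a = 2`. -/
theorem result {F : Type*} [Field F] [Fintype F] {p : ℕ} [Fact p.Prime] [CharP F p] {q : ℕ} (hq : Fintype.card F = q)
    (hodd : Odd q) (d : ℕ) (hd : 2 ≤ d) (a b : ℕ) (hab : 2 * d = a * b) (ha : Even a) (ha2 : 2 ≤ a) (hb : 3 ≤ b)
    (e : (Fin d ⊕ Fin d) ≃ Fin a × Fin b) (P : GL (Fin d ⊕ Fin d) F)
    (f₁ : (Fin a → F) → (Fin a → F) → F) (f₂ : (Fin b → F) → (Fin b → F) → F)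
    (hf₁ : Cfsg.Geo.IsSymplecticForm f₁) (hf₂ : Cfsg.Geo.IsSymmetricForm f₂)
    (hS : Cfsg.Geo.IsTensorFormStructure id (Cfsg.sympForm d F) f₁ f₂ e P)
    (r : ℕ) [Fact r.Prime]
    (hΩ : r ∣ (Cfsg.Geo.tensorProductSubgroup a b e P).relIndex (Cfsg.spGL d F)) :
    (∀ x ∈ Cfsg.spGL d F, (∃ z : F, ((x ^ r : GL (Fin d ⊕ Fin d) F) : Matrix (Fin d ⊕ Fin d) (Fin d ⊕ Fin d) F) = z • (1 : Matrix (Fin d ⊕ Fin d) (Fin d ⊕ Fin d) F)) →
      (∀ z : F, (x : Matrix (Fin d ⊕ Fin d) (Fin d ⊕ Fin d) F) ≠ z • (1 : Matrix (Fin d ⊕ Fin d) (Fin d ⊕ Fin d) F)) →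
      ∃ g ∈ Cfsg.spGL d F, g⁻¹ * x * g ∈ Cfsg.Geo.tensorProductSubgroup a b e P) ↔ (r = 2 ∧ a = 2) := by
  have h := isTens_tensOf e P
  have hr : r.Prime := Fact.out
  have hp2 := two_ne_p hq hodd
  have h2 := two_ne_zero' (F := F) hp2
  have hn := finrank_sum (F := F) d
  have hT := FAdapt.spS_nondeg (F := F) d
  have s1 := sympPQ_nondeg hf₁
  have s2 := symmPQ_nondeg h2 hf₂
  obtain ⟨κ, hκ, hB⟩ := tensorForm_apply (sympPQ hf₁) (symmPQ h2 hf₂) (fun _ => rfl) (fun _ => rfl) hS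
  have h6 : 6 ≤ 2 * d := by rw [hab]; nlinarith
  have : Nontrivial (Fin d ⊕ Fin d → F) := nontrivial_of_finrank_pos (R := F) (by omega)
  have : Nonempty (Fin a) := ⟨⟨0, by omega⟩⟩
  have : Nonempty (Fin b) := ⟨⟨0, by omega⟩⟩
  rw [forall_cj_iff _ _ _ (mem_spGL_iff d) _ _ (Ten.mem_iff (by omega) (by omega) e P)
    (fun _ => Iff.rfl)]
  change EI (FAdapt.spS d F).isom (TP h) r ↔ _
  have k1 : ∀ g k, TP h g → ed g 1 + k = 2 * d → 0 < k → k ≤ 2 → a ≤ k := fun g k a1 a2 a3 a4 => by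
    have := a1.ed_le h (θ := 1) (by omega) (by omega) one_ne_zero
    simp only [finrank_fin_fun] at this
    omega
  refine ⟨fun H => ?_, ?_⟩
  · by_cases hrp : r = p
    · subst hrp
      obtain ⟨g, a1, a2⟩ := H.transv hT
      have := k1 g 1 a1 (by omega) one_pos one_le_two
      omega
    by_cases hr2 : r = 2
    · subst hr2
      have b1 := (FAdapt.spS d F).nondegOn_top.2 hT
      have b2 := even_finrank_symp b1
      rw [finrank_top] at b2
      obtain ⟨U, -, b3, b4, -⟩ := exists_nondeg_even b1 (j := 1) (by omega)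
      obtain ⟨g, a1, -, a2, a3⟩ := H.invol hp2 hT b3 (by omega) (by omega)
      have := finrank_cd_top hp2 a2
      have := k1 g 2 a1 (by rw [ed_one]; omega) two_pos le_rfl
      omega
    obtain ⟨j, j1, j2, j3⟩ := dvd_of_dvd_P (exists_dvd_symp hT hq (Arith.not_dvd_q hq hrp) bot_le
      (hΩ.trans (relIndex_dvd (mem_spGL_iff d) ⊥ fun x hx => by
        rw [Subgroup.mem_bot, MulEquiv.map_eq_one_iff] at hx; exact hx ▸ one_mem _)) hn one_pos
      (one_dvd _) (one_mul _).symm)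
    obtain ⟨s, j4⟩ := FSemi.of_dvd_sq_sub (one_le_two.trans (Arith.two_le_q hq)) rfl rfl j3
    have b1 := blk_id (P := FP.symp F) hq hrp hr2 (fun _ => rfl) rfl rfl
    have b2 := blk_id (P := FP.orth F) hq hrp hr2 (fun _ => rfl) rfl rfl
    have b3 := b1.pos hq hrp
    generalize (if Even (orderOf (q : ZMod r)) then _ else _) = c at *
    have b4 : c ≤ c * s := Nat.le_mul_of_pos_right _ (Nat.pos_of_ne_zero (by rintro rfl; omega))
    obtain ⟨g, a1, a2, a3, a4⟩ := H.blk le_rfl (fun f a _ => (isIso_iff_exists hT f).1 a)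
      (fun _ => rfl) hT (FSemi.models_symp hq hrp hT) b1 hq hrp hr2 one_pos (by omega)
    obtain ⟨g₁, g₂, rfl, c1, c2, c3, c4⟩ := exists_norm h hB hκ s1 s2 maxP_symp (maxP_orth h2)
      (fun _ => rfl) a1 a2 (hr.odd_of_ne_two hr2) a3
    by_cases e1 : g₁ = 1
    · obtain ⟨t, ht⟩ := b2.dvd_Dx hq hrp s2 c2 c4
      rw [e1, finrank_ker_tmap, finrank_fin_fun, ht, mul_left_comm] at a4
      have := Nat.eq_one_of_mul_eq_one_right (Nat.eq_of_mul_eq_mul_left b3 a4)
      omega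
    by_cases e2 : g₂ = 1
    · obtain ⟨t, ht⟩ := b1.dvd_Dx hq hrp s1 c1 c3
      rw [e2, ← tmap_flip, finrank_ker_tmap, finrank_fin_fun, ht, mul_left_comm] at a4
      have := Nat.eq_one_of_mul_eq_one_right (Nat.eq_of_mul_eq_mul_left b3 a4)
      omega
    have d1 := ed_tmap_lt h (not_scalar_of_odd (fun _ => rfl) s1 c1 (hr.odd_of_ne_two hr2) c3 e1)
      (not_scalar_of_odd (fun _ => rfl) s2 c2 (hr.odd_of_ne_two hr2) c4 e2) one_ne_zero (by simpa)
    obtain ⟨t, d2, -, d3⟩ := b1.data hq hrp s1 c1 c3 e1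
    have := Nat.le_mul_of_pos_right c d2
    have := finrank_cd_top hrp a3
    rw [ed_one] at d1
    omega
  rintro ⟨rfl, rfl⟩
  refine ei_two_symp hp2 hT (fun m _ hm => ?_) ?_
  · obtain ⟨U, -, b1, b2⟩ := FOrth.exists_nondeg_orth hp2 ((symmPQ h2 hf₂).nondegOn_top.2 s2)
      (e := m) (by simp; omega)
    obtain ⟨g, b3, b4, b5, -⟩ := exists_invol hp2 s2 b1
    exact ⟨_, ⟨1, g, rfl⟩, isIso_tmap h hB maxP_symp (PQ.IsIso.id _) b3,
      by rw [tmap_pow, one_pow, b4, tmap_one],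
      by rw [finrank_ker_tmap, finrank_fin_fun, ← b2, ← b5]⟩
  · obtain ⟨y, b1, b2⟩ := exists_neg_symp s1
    exact ⟨_, ⟨y, 1, rfl⟩, isIso_tmap h hB maxP_symp b1 (PQ.IsIso.id _),
      by rw [tmap_pow, one_pow, b2, tmap_smul, tmap_one]⟩

end Cfsg.Agent.S5980
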