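import Cfsg.Statements.S5981
import Cfsg.Agent.H9.Sim

set_option autoImplicit false
set_option linter.unusedVariables false
open scoped MatrixGroups
open Cfsg

namespace Cfsg.Agent.S5981

open Module Polynomial Cfsg.Agent.H9 Cfsg.Agent.Form Cfsg.Agent.Form.PQ Cfsg.Agent.H9.FIdx
  Cfsg.Agent.H9.FCount Cfsg.Agent.H9.FClass Cfsg.Agent.H9.FOrd Cfsg.Agent.H9.Types
  Cfsg.Agent.H9.FInv Cfsg.Agent.H9.FSS Cfsg.Agent.H9.FModel Cfsg.Agent.H9.FNum
  Cfsg.Agent.H9.FAdapt Cfsg.Agent.H9.FSemi Cfsg.Agent.H9.FInvol Cfsg.Agent.H9.FUnip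
  Cfsg.Agent.H9.FOrth Cfsg.Agent.H9.Cj Cfsg.Agent.H9.Der Cfsg.Agent.H9.Glue Cfsg.Agent.H9.SimG

/-- Elements of prime order of PSL_n(q), q odd, and the subgroups of orthogonal type. Here `T = PSL_n(F)` for a field `F` with `q` elements, `q` odd, `n ≥ 3`; `Q` is a non-degenerate quadratic form on `F^n` (of either type when `n` is even) and `H` is the subgroup of matrices of determinant 1 that preserve `Q` up to a scalar — a subgroup of type O^ε_n(q) (maximality is not assumed); Ω is the set of cosets of `H` in `T`, so an element of `T` of prime order `r` (a matrix `x` of determinant 1 with `x^r` scalar, `x` not scalar) fixes a point of Ω exactly when some conjugate of `x` by a matrix of determinant 1 preserves `Q` up to a scalar. Let `r` be a prime dividing the index of `H`, with `(n, r) ≠ (6, 3)`. Then every element of `T` of order `r` fixes a point of Ω if and only if `r = 2`, or `r ∈ {3, 5}`, `n = r` and `(q − 1)_r = r` (the `r`-part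 of `q − 1` is exactly `r`). The case `(n, r) = (6, 3)` is not covered by this statement. -/
theorem result {F : Type*} [Field F] [Fintype F] {p : ℕ} [Fact p.Prime] [CharP F p] {q : ℕ} (hq : Fintype.card F = q)
    (hodd : Odd q) (n : ℕ) (hn : 3 ≤ n) (Q : (Fin n → F) → F) (hQ : Cfsg.Geo.IsNondegenerateQuadraticForm Q)
    (r : ℕ) [Fact r.Prime] (hgap : ¬ (n = 6 ∧ r = 3))
    (hΩ : r ∣ (Cfsg.Geo.quadSimilarityGroup Q).relIndex (Cfsg.Geo.specialLinear (Fin n) F)) :
    (∀ x ∈ Cfsg.Geo.specialLinear (Fin n) F, (∃ z : F, ((x ^ r : GL (Fin n) F) : Matrix (Fin n) (Fin n) F) = z • (1 : Matrix (Fin n) (Fin n) F)) →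
      (∀ z : F, (x : Matrix (Fin n) (Fin n) F) ≠ z • (1 : Matrix (Fin n) (Fin n) F)) →
      ∃ g ∈ Cfsg.Geo.specialLinear (Fin n) F, g⁻¹ * x * g ∈ Cfsg.Geo.quadSimilarityGroup Q) ↔
    (r = 2 ∨ ((r = 3 ∨ r = 5) ∧ n = r ∧ padicValNat r (q - 1) = 1)) := by
  have hS := quadPQ_nondeg hQ
  have hfr : finrank F (Fin n → F) = n := by simp
  have : Nontrivial (Fin n → F) := nontrivial_of_finrank_pos (R := F) (by omega)
  have hr : r.Prime := Fact.out
  have hp2 : 2 ≠ p := two_ne_p hq hodd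
  have h2 := two_ne_zero' (F := F) hp2
  have hT := (quadPQ hQ).nondegOn_top.2 hS
  rw [forall_cj_sl _ (Sim (quadPQ hQ)) fun x =>
    sim_iff_quad (S := quadPQ hQ) (f := Matrix.toLin' x.1) h2]
  change El _ r ↔ _
  by_cases hr2 : r = 2
  · subst hr2
    refine iff_of_true (el_two_sim hp2 hS (fun f b _ _ => ?_) fun f c _ a1 a2 =>
      exists_sim_orth hS ?_ a2 h2) (Or.inl rfl)
    · obtain ⟨U, -, h⟩ := exists_nondeg_orth hp2 hT (Submodule.finrank_mono le_top)
      exact ⟨U, h⟩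
    · obtain ⟨s, -, h⟩ := OrdR.exists_type_of_not_pow a1 a2
      exact h ▸ even_two_mul s
  rw [or_iff_right hr2]
  have hσ : ∀ a : F, a ^ r = 1 → (FP.orth F).σ a = a := fun _ _ => rfl
  refine ⟨fun H => ?_, fun ⟨h3, h4, h5⟩ => ?_⟩
  swap
  · have hrp : r ≠ p := by
      rintro rfl
      exact Arith.p_not_dvd_pow_sub_one hq one_ne_zero
        (by simpa using dvd_of_one_le_padicValNat h5.ge)
    refine el_small hq hrp h3 (hfr.trans h4) h5 hσ fun μ a1 a2 => ?_
    simpa [jordan] using exists_unip_odd hp2 hS (by rw [hfr, Nat.odd_iff]; omega)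
      ((real_single (a := 0) (by simp [sk_orth h2])).add a1) (by rw [Multiset.map_add, Multiset.sum_add, jordan_natDegree, ← a2, add_comm]; simp)
  by_cases hrp : r = p
  · subst hrp
    exact (el_unip (maxP_orth h2) hS h2 H one_pos hr.one_lt (by omega)
      ((sk_orth h2 1).2 (by decide))).elim
  by_cases h1 : r ∣ q - 1
  · exact el_derange hS hq hr2 h1 hσ hfr hn hgap H
  exfalso
  have h3 := hΩ.trans (relIndex_sl_dvd (quadPQ hQ).isom fun x hx =>
    ⟨1, fun v => by simpa using ((quadPQ hQ).orth_mem_isom _).1 hx v⟩)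
  obtain ⟨k, A, h4, h5⟩ := card_isom_orth hq hS (Or.inl h2) rfl
  have h6 := fun D => dvd_of_index hq (Arith.not_dvd_q hq hrp) _ h3 (D := D)
    (Count.P_pos (Nat.one_lt_pow two_ne_zero (Arith.two_le_q hq)) _) (Dvd.intro_left _ h4.symm)
  have h7 := fun d hd h => not_el_odd (fun _ => rfl) (maxP_orth h2) hS hq hrp hr2 h1 (d := d) hd h H
  generalize finrank F (Fin n → F) / 2 = d at h5 h6
  have h8 : finrank F (Fin n → F) = 2 * d → ((Plus (quadPQ hQ) ⊤ ∧ r ∣ q ^ d + 1) ∨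
      (¬ Plus (quadPQ hQ) ⊤ ∧ r ∣ q ^ d - 1)) → False := fun e h => by
    obtain ⟨s, b1, b2⟩ := FSpO.type_of_dvd hq hrp hr2 rfl rfl h
    obtain ⟨t, b3⟩ : orderOf (q : ZMod r) ∣ 2 * d := b1 ▸ Dvd.dvd.mul_right (by split_ifs <;> simp) s
    obtain ⟨g, c1, c2, c3⟩ := el_fixed (maxP_orth h2) hS hq hrp h1 H (s := t)
      (by rintro rfl; omega) (by omega)
    exact b2 ((real_orth hq hrp hr2 rfl rfl hS c1 c2 (s := s) (by omega)).2 (by omega))
  rcases h5 with ⟨e, rfl⟩ | ⟨e, h5, rfl⟩ | ⟨e, h5, -, rfl⟩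
  · exact h7 (d + 1) (by omega) (by simpa using h6 _ (by rw [e, P_two_mul_add_one]))
  · exact (hr.dvd_mul.1 (h6 _ (by rw [e, P_two_mul]))).elim (h7 d (by omega))
      fun h => h8 e (Or.inl ⟨h5, h⟩)
  · exact (hr.dvd_mul.1 (h6 _ (by rw [e, P_two_mul]))).elim (h7 d (by omega))
      fun h => h8 e (Or.inr ⟨h5, h⟩)

end Cfsg.Agent.S5981
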