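import Cfsg.Statements.S5982
import Cfsg.Agent.H9.Sim

set_option autoImplicit false
set_option linter.unusedVariables false
open scoped MatrixGroups
open Cfsg

namespace Cfsg.Agent.S5982

open Module Polynomial Cfsg.Agent.H9 Cfsg.Agent.Form Cfsg.Agent.Form.PQ Cfsg.Agent.H9.FIdx
  Cfsg.Agent.H9.FCount Cfsg.Agent.H9.FClass Cfsg.Agent.H9.FOrd Cfsg.Agent.H9.Types
  Cfsg.Agent.H9.FInv Cfsg.Agent.H9.FSS Cfsg.Agent.H9.FModel Cfsg.Agent.H9.FNum
  Cfsg.Agent.H9.FAdapt Cfsg.Agent.H9.FSemi Cfsg.Agent.H9.FInvol Cfsg.Agent.H9.FUnip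
  Cfsg.Agent.H9.FOrth Cfsg.Agent.H9.Cj Cfsg.Agent.H9.Der Cfsg.Agent.H9.Glue Cfsg.Agent.H9.SimG

/-- Elements of prime order of PSL_n(q), q = q₀², and the subgroups of unitary type. Here `T = PSL_n(F)` for a field `F` with `q = q₀²` elements (`n ≥ 3`), `f` is a non-degenerate unitary form on `F^n` for the involutory automorphism `x ↦ x^{q₀}`, and `H` is the subgroup of matrices of determinant 1 that preserve `f` up to a scalar — a subgroup of type GU_n(q₀) (maximality is not assumed); Ω is the set of cosets of `H` in `T`, so an element of `T` of prime order `r` (a matrix `x` of determinant 1 with `x^r` scalar, `x` not scalar) fixes a point of Ω exactly when some conjugate of `x` by a matrix of determinant 1 preserves `f` up to a scalar. Let `r` be a prime dividing the index of `H`, with `r = 2` or `r` different from the characteristic `p`, and with `(n, r) ≠ (6, 3)`. Then every element of `T` of order `r` fixes a point of Ω if and only if either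 `r = 2` and (`p = 2` or `(n)_2 ≤ (q − 1)_2`), or `r ∈ {3, 5}`, `n = r` and `(q₀ − 1)_r = r`. (Odd `r = p` and the case `(n, r) = (6, 3)` are not covered by this statement.) -/
theorem result {F : Type*} [Field F] [Fintype F] {p : ℕ} [Fact p.Prime] [CharP F p] {q : ℕ} (hq : Fintype.card F = q)
    (q₀ : ℕ) (hq₀ : q = q₀ ^ 2) (n : ℕ) (hn : 3 ≤ n) (f : (Fin n → F) → (Fin n → F) → F) (hf : Cfsg.Geo.IsUnitaryFormPow q₀ f)
    (r : ℕ) [Fact r.Prime] (hr : r = 2 ∨ r ≠ p) (hgap : ¬ (n = 6 ∧ r = 3))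
    (hΩ : r ∣ (Cfsg.Geo.similarityGroup f).relIndex (Cfsg.Geo.specialLinear (Fin n) F)) :
    (∀ x ∈ Cfsg.Geo.specialLinear (Fin n) F, (∃ z : F, ((x ^ r : GL (Fin n) F) : Matrix (Fin n) (Fin n) F) = z • (1 : Matrix (Fin n) (Fin n) F)) →
      (∀ z : F, (x : Matrix (Fin n) (Fin n) F) ≠ z • (1 : Matrix (Fin n) (Fin n) F)) →
      ∃ g ∈ Cfsg.Geo.specialLinear (Fin n) F, g⁻¹ * x * g ∈ Cfsg.Geo.similarityGroup f) ↔
    ((r = 2 ∧ (p = 2 ∨ padicValNat 2 n ≤ padicValNat 2 (q - 1))) ∨ ((r = 3 ∨ r = 5) ∧ n = r ∧ padicValNat r (q₀ - 1) = 1)) := by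
  subst hq₀
  have hU := isUnitaryForm_of_pow hq hf
  have hS := unitPQ_nondeg hU
  have hfr : finrank F (Fin n → F) = n := by simp
  have : Nontrivial (Fin n → F) := nontrivial_of_finrank_pos (R := F) (by omega)
  have hr' : r.Prime := Fact.out
  have hσq : ∀ a, (frobQ hq : F →+* F) a = a ^ q₀ := fun _ => rfl
  have hne := unit_ne hU
  have hT := (unitPQ hU).nondegOn_top.2 hS
  have hq2 := two_le_of_card_sq hq
  have hM := maxP_unit _ (unit_invol hU)
  rw [forall_cj_sl _ (Sim (unitPQ hU)) fun _ => Iff.rfl]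
  change El _ r ↔ _
  by_cases hr2 : r = 2
  · subst hr2
    simp only [true_and, show ¬ (2 = 3 ∨ 2 = 5) by omega, false_and, or_false]
    by_cases hp2 : 2 = p
    · subst hp2
      exact iff_of_true (el_char_two_sim (real_single (a := 1) (not_sk_of_σ hne 1))
        fun _ => exists_of_real_unit hne hS) (Or.inl rfl)
    rw [or_iff_right (Ne.symm hp2)]
    obtain ⟨k, rfl⟩ : Odd q₀ := Nat.odd_iff.2 (FUni.odd_q hq hp2)
    have h1 : (2 * k + 1) ^ 2 = 4 * (k * k + k) + 1 := by ring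
    refine ⟨fun H => by_contra fun hv => ?_, fun hv => el_two_sim hp2 hS (fun f b _ _ => ?_)
      fun f c a1 a2 a3 => absurd (OrdR.lt_of_not_pow hq a1 a2 a3 fun _ => by omega)
        (by rw [hfr]; omega)⟩
    · obtain ⟨x, c, a1, a2, a3, a4⟩ := OrdR.exists_not_split (V := Fin n → F) (r := 2) hq
        (by omega) (by omega) (Or.inl (by rw [hfr]; omega))
      obtain ⟨g, ⟨μ, b1⟩, -, b2⟩ := H.elim a1 a2 a4
      have b3 := mult_eq hS b1 b2
      obtain ⟨v, -, b4⟩ := exists_aniso_of_σ hne hT top_ne_bot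
      have b5 : (μ : F) ^ (2 * k + 1) = μ := by
        have c1 := (unitPQ hU).unit_B_swap v v
        have c2 := (unitPQ hU).unit_B_swap (g v) (g v)
        rw [b1, map_mul, ← c1] at c2
        exact (mul_right_cancel₀ b4 c2).symm
      rw [pow_succ, mul_eq_right₀ μ.ne_zero] at b5
      rw [FUni.norm_eq hσq] at b3
      have b6 : c ≠ 0 := fun e => a3 0 (by simp [e])
      obtain ⟨s, b7⟩ := (FiniteField.isSquare_iff (fun e => hp2 (by
        rw [← e, ringChar.eq F p])) b6).2 (by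
          rw [hq, show (2 * k + 1) ^ 2 / 2 = (2 * k + 1 + 1) * k by
            rw [h1, show (2 * k + 1 + 1) * k = 2 * (k * k + k) by ring]; omega, pow_mul, ← b3,
            ← pow_mul, b5])
      exact a3 s (by rw [b7, sq])
    · obtain ⟨U, -, h⟩ := exists_nondeg_of_aniso (fun U => exists_aniso_of_σ hne) hT
        (Submodule.finrank_mono le_top)
      exact ⟨U, h⟩
  have hrp := hr.resolve_left hr2
  simp only [hr2, false_and, false_or]
  have hσ : r ∣ q₀ - 1 → ∀ a : F, a ^ r = 1 → (FP.unit _ (unit_invol hU)).σ a = a := by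
    rintro ⟨k, e⟩ a h
    change a ^ q₀ = a
    rw [show q₀ = r * k + 1 by omega, pow_succ, pow_mul, h, one_pow, one_mul]
  have hv : r ∣ q₀ - 1 → padicValNat r (q₀ ^ 2 - 1) = padicValNat r (q₀ - 1) := fun h => by
    rw [FUni.sq_sub_one, padicValNat.mul (by omega) (by omega), padicValNat.eq_zero_of_not_dvd
      fun e => FUni.not_dvd_sub_one (by omega) hr2 e h, zero_add]
  refine ⟨fun H => ?_, fun ⟨h3, h4, h5⟩ => ?_⟩
  swap
  · have h6 := dvd_of_one_le_padicValNat h5.ge
    refine el_small hq hrp h3 (hfr.trans h4) (by rw [hv h6, h5]) (hσ h6) fun μ a1 a2 => ?_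
    simpa [← a2] using exists_of_real_unit hne hS a1 (by omega)
  by_cases h1 : r ∣ q₀ - 1
  · rw [← hv h1]
    exact el_derange hS hq hr2 (FUni.sq_sub_one q₀ ▸ h1.mul_left _) (hσ h1) hfr hn hgap H
  exfalso
  have h3 := dvd_of_index hq (Arith.not_dvd_q hq hrp) _ (hΩ.trans (relIndex_sl_dvd (unitPQ hU).isom
    fun x hx => sim_of_isIso (S := unitPQ hU) (f := glEquiv x) hx)) (A := 1) (PU_pos hq2 n)
    (by simp [card_isom_unit hq _ hne n hS hfr]) (by rw [hfr, P_sq])
  rw [mul_one] at h3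
  obtain ⟨j, a1, a2⟩ := (hr'.prime.dvd_finsetProd_iff _).1 h3
  refine not_dvd_uf hr2 (by omega) a2 ((dvd_uf_iff hr2 (by omega) rfl
    (orderOf_pos_of_sq hq hrp) rfl _).2 ?_)
  by_cases h2 : r ∣ q₀ + 1
  · simp [(FUni.orderOf_eq_two_iff hr2).2 h2]
  · exact el_blk hM hS hq hrp (by rw [FUni.sq_sub_one, hr'.dvd_mul]; exact not_or.2 ⟨h2, h1⟩) H
      (blk_unit hq hrp hr2 hσq rfl rfl) (by omega) (by have := Finset.mem_range.1 a1; omega)
      (uf_mul q₀ _ ▸ a2.mul_left _)

end Cfsg.Agent.S5982
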