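import Cfsg.Statements.S5983
import Cfsg.Agent.H9.FSpO

set_option autoImplicit false
set_option linter.unusedVariables false
open scoped MatrixGroups
open Cfsg

namespace Cfsg.Agent.S5983

open Module Polynomial Cfsg.Agent.H9 Cfsg.Agent.Form Cfsg.Agent.Form.PQ Cfsg.Agent.H9.FIdx
  Cfsg.Agent.H9.FCount Cfsg.Agent.H9.FClass Cfsg.Agent.H9.FOrd Cfsg.Agent.H9.Types
  Cfsg.Agent.H9.FInv Cfsg.Agent.H9.FSS Cfsg.Agent.H9.FModel Cfsg.Agent.H9.FNum
  Cfsg.Agent.H9.FAdapt Cfsg.Agent.H9.FSemi Cfsg.Agent.H9.FInvol Cfsg.Agent.H9.FTrP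
  Cfsg.Agent.H9.FSpin Cfsg.Agent.H9.FOrth Cfsg.Agent.H9.FUnip Cfsg.Agent.H9.Cj
open Cfsg.Agent.H9.FSpO

/-- Elements of prime order of PSp_n(q), q even, and the subgroups of orthogonal type. Here `T = Sp_{2d}(F)` for a field `F` of characteristic 2 with `q` elements (`d ≥ 2`, `(d, q) ≠ (2, 2)`), realised as the invertible matrices preserving the standard alternating form; `Q` is a non-degenerate quadratic form on `F^{2d}` whose polar form is that alternating form, and `H` is the subgroup of `T` preserving `Q` up to a scalar (equivalently preserving `Q`) — a subgroup of type O^±_{2d}(q) (maximality is not assumed); `Q` is of plus type when `F^{2d}` contains a `d`-dimensional subspace on which `Q` vanishes, of minus type otherwise. Ω is the set of cosets of `H` in `T`, so an element of `T` of prime order `r` (`x ∈ T` with `x^r` scalar, `x` not scalar) fixes a point of Ω exactly when some `T`-conjugate of `x` preserves `Q`. Let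 `r` be a prime dividing the index of `H`. Then every element of `T` of order `r` fixes a point of Ω if and only if `r = 2` and either `Q` is of plus type or `d` is odd. -/
theorem result {F : Type*} [Field F] [Fintype F] {p : ℕ} [Fact p.Prime] [CharP F p] {q : ℕ} (hq : Fintype.card F = q)
    (hp : p = 2) (d : ℕ) (hd : 2 ≤ d) (hT : (d, q) ≠ (2, 2)) (Q : (Fin d ⊕ Fin d → F) → F) (hQ : Cfsg.Geo.IsNondegenerateQuadraticForm Q)
    (hQf : ∀ u v, QuadraticMap.polar Q u v = Cfsg.sympForm d F u v)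
    (r : ℕ) [Fact r.Prime]
    (hΩ : r ∣ (Cfsg.Geo.quadSimilarityGroup Q).relIndex (Cfsg.spGL d F)) :
    (∀ x ∈ Cfsg.spGL d F, (∃ z : F, ((x ^ r : GL (Fin d ⊕ Fin d) F) : Matrix (Fin d ⊕ Fin d) (Fin d ⊕ Fin d) F) = z • (1 : Matrix (Fin d ⊕ Fin d) (Fin d ⊕ Fin d) F)) →
      (∀ z : F, (x : Matrix (Fin d ⊕ Fin d) (Fin d ⊕ Fin d) F) ≠ z • (1 : Matrix (Fin d ⊕ Fin d) (Fin d ⊕ Fin d) F)) →
      ∃ g ∈ Cfsg.spGL d F, g⁻¹ * x * g ∈ Cfsg.Geo.quadSimilarityGroup Q) ↔
    (r = 2 ∧ (Cfsg.Geo.IsPlusTypeOn Q ⊤ ∨ Odd d)) := by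
  subst hp
  have hn := finrank_sum (F := F) d
  have : Nontrivial (Fin d ⊕ Fin d → F) := nontrivial_of_finrank_pos (R := F) (by omega)
  have hT := spS_nondeg (F := F) d
  have hS := quadPQ_nondeg hQ
  have hB : (spS d F).B = (quadPQ hQ).B := funext₂ fun u v => (hQf u v).symm
  have he : Even (finrank F (Fin d ⊕ Fin d → F)) := hn ▸ even_two_mul d
  have hr : r.Prime := Fact.out
  rw [forall_cj_iff _ _ _ (mem_spGL_iff d) (fun f => ∃ c : Fˣ, ∀ v, (quadPQ hQ).Q (f v) =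
    c * (quadPQ hQ).Q v) _ (fun _ => Iff.rfl) (isIso_iff_exists hT) r,
    ← plus_iff_geo hQ ((quadPQ hQ).nondegOn_top.2 hS)]
  simp +contextual only [cjIn_iff hB hS he]
  by_cases hr2 : r = 2
  · subst hr2
    refine ⟨fun H => ⟨rfl, by_contra fun h => ?_⟩, fun h f a1 ⟨c, a2⟩ _ => exists_type hB hS hn a1
      (by simpa [CharTwo.neg_eq] using sq_cases (fun _ => rfl) hT a1 a2) h.2⟩
    rw [not_or, Nat.odd_iff] at h
    obtain ⟨f, a1, a2, a3, a4⟩ := exists_atype (fun _ => rfl) hT (k := d / 2)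
      (by rw [widx_top_of_trP H7.trP_symp hT]; omega)
    obtain ⟨S', b1, b2, b3⟩ := H f a1 ⟨1, by simpa using a2⟩
      (not_scalar_of_unip a2 (ne_one_of_finrank_Cx (by omega)))
    have b4 : S'.Nondeg := fun x hx => hS x (b1 ▸ hx)
    obtain ⟨C, A, y, -, c2, c3, c4, -, c6, c7, c8, -⟩ := atype_struct (fun _ => rfl) b4 b3 a2
      (S'.nondegOn_top.2 b4) (fun _ _ => trivial) fun v _ => by rw [b1, ← hB, a4]
    have d1 := finrank_sup_of_le_perp c2 c3
    rw [c4, finrank_top] at d1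
    rw [top_inf_eq] at c8
    rw [Submodule.finrank_eq_zero.1 (show finrank F C = 0 by omega), bot_sup_eq] at c4
    exact h.1 (b2.1 (c4 ▸ c7))
  refine iff_of_false (fun H => ?_) fun h => hr2 h.1
  have := Imprim.finite_linearEquiv (F := F) (V := Fin d ⊕ Fin d → F)
  have h1 := hΩ.trans (relIndex_dvd (mem_spGL_iff d) (quadPQ hQ).isom fun x hx =>
    ⟨1, fun v => by simpa using ((quadPQ hQ).orth_mem_isom _).1 hx v⟩)
  have h2 := card_mul_relIndex (show (quadPQ hQ).isom ≤ (spS d F).isom from fun g hg =>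
    (symp_mem_isom _ g).2 (hB ▸ hg.1))
  obtain ⟨k, A, h3, h4⟩ := card_isom_orth hq hS (Or.inr he) (d := d) (by omega)
  have h5 : r ∣ A := by
    have h6 := congrArg (· * A) h2
    simp only [card_isom_symp hq d hT hn] at h6
    rw [mul_right_comm, h3, mul_right_comm, mul_right_comm _ _ A] at h6
    exact (hr.dvd_mul.1 (Nat.eq_of_mul_eq_mul_right (Count.P_pos (by
      nlinarith [Arith.two_le_q hq]) d) h6 ▸ h1.mul_left _)).resolve_left fun h =>
        Arith.not_dvd_q hq hr2 (hr.dvd_of_dvd_pow h)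
  obtain ⟨s, h6, h7⟩ := type_of_dvd hq hr2 hr2 rfl rfl (d := d) (ε := Plus (quadPQ hQ) ⊤) (by
    rcases h4 with h | ⟨-, h, rfl⟩ | ⟨-, h, -, rfl⟩
    exacts [by omega, Or.inl ⟨h, h5⟩, Or.inr ⟨h, h5⟩])
  obtain ⟨f, a1, a2, a3, a4⟩ := (models_symp hq hr2 hT).exists
    (blk_id hq hr2 hr2 (fun _ => rfl) rfl rfl) hq hr2 hr2 (s := s)
    (Nat.pos_of_ne_zero (by rintro rfl; omega)) (by omega)
  obtain ⟨S', b1, b2, b3⟩ := H f a1 ⟨1, by simpa using a2⟩
    (not_scalar_of_odd (fun _ => rfl) hT a1 (hr.odd_of_ne_two hr2) a2 a3)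
  exact h7 (b2.symm.trans ((real_orth hq hr2 hr2 rfl rfl (fun x hx => hS x (b1 ▸ hx)) b3 a2 a4).2
    (by omega)))

end Cfsg.Agent.S5983
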