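import Cfsg.Statements.S5984
import Cfsg.Agent.H9.FPair
import Cfsg.Agent.H9.FUnip

set_option autoImplicit false
set_option linter.unusedVariables false
open scoped MatrixGroups
open Cfsg

namespace Cfsg.Agent.S5984

open Module Polynomial Cfsg.Agent.H9 Cfsg.Agent.Form Cfsg.Agent.Form.PQ Cfsg.Agent.H9.FIdx
  Cfsg.Agent.H9.FCount Cfsg.Agent.H9.FClass Cfsg.Agent.H9.FOrd Cfsg.Agent.H9.Types
  Cfsg.Agent.H9.FInv Cfsg.Agent.H9.FSS Cfsg.Agent.H9.FModel Cfsg.Agent.H9.FNum
  Cfsg.Agent.H9.FAdapt Cfsg.Agent.H9.FSemi Cfsg.Agent.H9.FInvol Cfsg.Agent.H9.FTrP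
  Cfsg.Agent.H9.FUni Cfsg.Agent.H9.Cj Cfsg.Agent.H9.FPair

/-- Elements of prime order of PSU_n(q) and the stabilizers of pairs of complementary totally singular subspaces. Here `T = PSU_n(q)` is realised through `SU_n(q)`, the matrices of determinant 1 over the field `F` with `q²` elements preserving the hermitian form `Σ uᵢ vᵢ^q`, with `n ≥ 4` even; `D` is a pair of complementary subspaces of dimension `n/2` on each of which the form vanishes identically, and `H` is the subgroup of `SU_n(q)` fixing or interchanging the two members — a subgroup of type GL_{n/2}(q²).2 (maximality is not assumed). Ω is the set of cosets of `H`, so an element of `T` of prime order `r` (`x ∈ SU_n(q)` with `x^r` scalar, `x` not scalar) fixes a point of Ω exactly when some `SU_n(q)`-conjugate of `x` lies in `H`. Let `r` be a prime dividing the index of `H`. Then every element of `T` of order `r` fixes a point of Ω if and only if `r = 2`, `q` is odd and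 `(q + 1)_2 ≤ (n)_2` (2-parts). -/
theorem result {F : Type*} [Field F] [Fintype F] {p : ℕ} [Fact p.Prime] [CharP F p] {q : ℕ} (hq : Fintype.card F = q ^ 2)
    (n : ℕ) (hn : 4 ≤ n) (he : Even n) (D : Fin 2 → Submodule F (Fin n → F)) (hD : Cfsg.Geo.IsMDecomposition (n / 2) D)
    (hDs : ∀ i, Cfsg.Geo.IsTotallySingularFor (Cfsg.hermForm n F q) (D i))
    (r : ℕ) [Fact r.Prime]
    (hΩ : r ∣ (Cfsg.Geo.decompositionStabilizer D).relIndex (Cfsg.GU n F q ⊓ Cfsg.Geo.specialLinear (Fin n) F)) :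
    (∀ x ∈ Cfsg.GU n F q ⊓ Cfsg.Geo.specialLinear (Fin n) F, (∃ z : F, ((x ^ r : GL (Fin n) F) : Matrix (Fin n) (Fin n) F) = z • (1 : Matrix (Fin n) (Fin n) F)) →
      (∀ z : F, (x : Matrix (Fin n) (Fin n) F) ≠ z • (1 : Matrix (Fin n) (Fin n) F)) →
      ∃ g ∈ Cfsg.GU n F q ⊓ Cfsg.Geo.specialLinear (Fin n) F, g⁻¹ * x * g ∈ Cfsg.Geo.decompositionStabilizer D) ↔
    (r = 2 ∧ Odd q ∧ padicValNat 2 (q + 1) ≤ padicValNat 2 n) := by
  have hS := uS_nondeg hq n
  have hfr : finrank F (Fin n → F) = n := by simp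
  have : Nontrivial (Fin n → F) := nontrivial_of_finrank_pos (R := F) (by omega)
  have hσq : ∀ a, (frobQ hq : F →+* F) a = a ^ q := fun _ => rfl
  have hne := hne_of hq hσq
  have hP := H7.trP_unit _ (unit_invol (isUnitaryForm_hermForm hq n)) hne
  have hr : r.Prime := Fact.out
  obtain ⟨m, hm⟩ := he
  have hD' : Pair (uS hq n) (D 0) (D 1) := pair_of_sup hS ((unit_ts _ _).2 (hDs 0))
    ((unit_ts _ _).2 (hDs 1)) (top_le_iff.1 (hD.iSup_eq_top ▸ iSup_le
      (Fin.forall_fin_two.2 ⟨le_sup_left, le_sup_right⟩)))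
  have hK : ∀ x, x ∈ GU n F q ⊓ Geo.specialLinear (Fin n) F ↔ glEquiv x ∈ H7.sisom (uS hq n) :=
    fun x => and_congr (mem_GU_iff hq n x) (mem_specialLinear_iff x)
  have htr := hD'.trans_su hne hS
  have hΩ' := hΩ.trans ((relIndex_dvd hK _ fun x hx => (mem_stab_two D x).2
    (Or.inl (by rw [← glEquiv_coe]; exact hx))).trans (relIndex_pairStab inf_le_left hD' htr).dvd)
  rw [forall_cj_iff _ _ _ hK _ (fun f => (uS hq n).IsIso (uS hq n) f ∧ LinearMap.det f = 1)
    (mem_stab_two D) (fun f => ⟨fun h => ⟨toEquiv hS h.1, ⟨h.1, mem_SLV.2 h.2⟩, rfl⟩, by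
      rintro ⟨g, hg, rfl⟩; exact ⟨hg.1, mem_SLV.1 hg.2⟩⟩) r]
  simp only [cjIn_iff (K := H7.sisom (uS hq n)) inf_le_left hD' htr]
  by_cases hrp : r = p
  · subst hrp
    refine iff_of_false (fun H => ?_) fun ⟨h1, h2, _⟩ => two_ne_p hq h2.pow h1.symm
    obtain ⟨d, -, a1, a2⟩ := hP.exists_sing_of_two_le (uS hq n) ⊤ (by rw [finrank_top]; omega)
    have a3 := card_Λ_unit hq (unit_invol (isUnitaryForm_hermForm hq n)) hne
    have a4 := two_le_of_card_sq hq
    obtain ⟨⟨c, b1⟩, b2⟩ := @exists_ne _ (Finite.one_lt_card_iff_nontrivial.1 (a4.trans a3.ge)) 0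
    obtain ⟨f, c1, c2, c3, c4, c5⟩ := tau_data r hS a2 a1 b1 fun h => b2 (Subtype.ext h)
    exact not_fixPair_tau hS (by omega) a1 (fun h => b2 (Subtype.ext h)) c5
      (H f ⟨c1, c2⟩ ⟨1, by simpa using c3⟩ (FUnip.not_scalar_of_unip c3 c4))
  by_cases hr2 : r = 2
  · subst hr2
    simp only [Nat.odd_iff, odd_q hq hrp, true_and]
    constructor
    · intro H
      by_contra! hv
      obtain ⟨g, b, a1, a2, a3, a4, a5, a6, a7, a8⟩ := exists_unit_refl hq hσq hS hrp (by omega)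
        (by rwa [hfr])
      have b1 := finrank_cd_top hrp a3
      obtain ⟨U, W, b2, b3, b4⟩ := ((FixPair.of_smul g b a1 (H _ ⟨a5, a6⟩ a7 a8)).cases
        hS).resolve_right (by omega)
      have key : ∀ U : Submodule F (Fin n → F), (uS hq n).TS U → (∀ x ∈ U, g x ∈ U) → U ≤ Cx g :=
        fun U h1 h2 => by
          have c1 := two_mul_finrank_le (nondegOn_Dx hrp hS a2 a3) inf_le_right
            (h1.mono (inf_le_left : U ⊓ Dx 2 g ≤ U))
          rw [← cd_sup hrp a3 h2, Submodule.finrank_eq_zero.1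
            (show finrank F ↥(U ⊓ Dx 2 g) = 0 by omega), sup_bot_eq]
          exact inf_le_right
      have b5 := Submodule.finrank_mono
        (b2.1.sup_eq_top ▸ sup_le (key U b2.2.1 b3) (key W b2.2.2 b4))
      rw [finrank_top] at b5
      omega
    · rintro H f ⟨a1, a2⟩ ⟨c, a3⟩ -
      obtain ⟨b, b1, b2, ⟨b3, b4⟩ | b3⟩ := unit_sq_cases hq hσq hS hrp a1 a3
      · have c1 := inv_smul_sq b1 b2
        have c2 := Nat.even_iff.1 (unit_even_Dx hrp b3 c1 a2 (by omega) (by rwa [hfr]))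
        have c3 := finrank_cd_top hrp c1
        refine FixPair.of_smul f _ (inv_ne_zero b1) (fixPair_invol hrp hS b4 c1 ?_ ?_)
        · rw [Plus, widx_of_trP hP (nondegOn_Cx hrp hS b4 c1)]; omega
        · rw [Plus, widx_of_trP hP (nondegOn_Dx hrp hS b4 c1)]; omega
      · obtain ⟨c1, c2, c3, c4⟩ := anti_data a1 b1
          (by rw [norm_eq hσq, b3]; exact neg_one_ne_one' hrp)
        exact fixPair_of_inv hS a1 (pair_of_sup hS c1 c2 (cd_sup_top hrp (inv_smul_sq b1 b2)))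
          (inv_of_eig c3) (inv_of_eig c4)
  refine iff_of_false (fun H => ?_) fun h => hr2 h.1
  by_cases h1 : r ∣ q + 1
  · obtain ⟨f, a1, a2, a3, a4, a5, a6⟩ := exists_unit_sym hq hσq hS hrp hr2 h1 one_pos
      (by have := hr.two_le; omega) (by omega)
    obtain ⟨U, W, b1, b2, b3⟩ := (H f ⟨a1, a2⟩ ⟨1, by simpa using a3⟩ a4).fix_of_odd hS
      (hr.odd_of_ne_two hr2) a3
    have b5 := Submodule.finrank_mono
      (b1.1.sup_eq_top ▸ sup_le (a6 U b1.2.1 b2) (a6 W b1.2.2 b3))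
    rw [finrank_top] at b5
    omega
  obtain ⟨j, h2, h3⟩ := dvd_of_dvd_card hq hS (m := m) (by omega)
    (by rw [widx_top_of_trP hP hS]; omega) hrp hΩ'
  rw [card_Λ_unit hq _ hne, ← pow_mul, ← pow_succ, dvd_pow_add_one_iff hr2] at h3
  have h4 := orderOf_pos_of_sq hq hrp
  obtain ⟨k, h5⟩ := h3.1
  obtain ⟨i, h6⟩ := ((dvd_two_mul_not_dvd_iff h4).1 h3).1
  have h7 : 2 * j + 1 = i * k := by rw [h6] at h5; linarith
  have h8 := Nat.odd_iff.1 (Nat.odd_mul.1 (h7 ▸ odd_two_mul_add_one j)).1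
  have h9 := Nat.le_of_dvd (by omega) (Dvd.intro _ h7.symm)
  obtain ⟨f, a1, a2, a3, a4⟩ := exists_no_lag hP (sd_unit hq hr2 hσq (by omega)) hq hrp hr2 hS rfl
    (models_unit hne hq hrp hS) (by rw [orderOf_sq, if_pos ⟨i, h6⟩]; omega)
  exact a4 ((forall_unit_iff hq hσq hS h1 FixPair.of_smul).1 H f a1 a2 a3)

end Cfsg.Agent.S5984
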