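import Cfsg.Statements.S5987
import Cfsg.Agent.H9.FOrth

set_option autoImplicit false
set_option linter.unusedVariables false
open scoped MatrixGroups
open Cfsg

namespace Cfsg.Agent.S5987

open Module Polynomial Cfsg.Agent.H9 Cfsg.Agent.Form Cfsg.Agent.Form.PQ Cfsg.Agent.H9.FIdx
  Cfsg.Agent.H9.FCount Cfsg.Agent.H9.FClass Cfsg.Agent.H9.FOrd Cfsg.Agent.H9.Types
  Cfsg.Agent.H9.FInv Cfsg.Agent.H9.FSS Cfsg.Agent.H9.FModel Cfsg.Agent.H9.FNum
  Cfsg.Agent.H9.FAdapt Cfsg.Agent.H9.FSemi Cfsg.Agent.H9.FInvol Cfsg.Agent.H9.FTrP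
  Cfsg.Agent.H9.FSpin Cfsg.Agent.H9.FOArith Cfsg.Agent.H9.FOrth

/-- Elements of prime order of PΩ⁻_n(q) with no fixed totally singular `m`-space. Here `T = PΩ⁻_n(F)`, `n = 2d ≥ 8`, realised through `Ω⁻_n(q)`, the commutator subgroup of the isometry group of `Q = Σ_{i<d−1} xᵢyᵢ + z₁² + a z₁z₂ + b z₂²` with `z₁² + a z₁z₂ + b z₂²` anisotropic, over the field `F` with `q` elements; an element of `T` of prime order `r` is an element `x` of `Ω⁻_n(q)` with `x^r` scalar and `x` not scalar. Let `1 ≤ m ≤ d − 1` and let `r` be a prime dividing the number of totally singular `m`-spaces (subspaces of dimension `m` on which `Q` vanishes); for `r ≠ p` let `i` be the multiplicative order of `q` modulo `r`, `c = i` for `i` even and `c = 2i` for `i` odd, and write `k = n mod c`, `ℓ = m mod i`, `n' = ⌊n/i⌋`, `m' = ⌊m/i⌋`, `t = (r−1)/i`. Then every element of `T` of order `r` fixes some totally singular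 `m`-space if and only if one of: (i) `r = 2 ≠ p` and (`n ≡ 0 (mod 4)`, or `m` is even, or `q ≢ 7 (mod 8)`); (ii) `r ≠ p` odd, `i` odd, `i ≤ m` and (`k = 0` or `k > 2ℓ`); (iii) `r ≠ p` odd, `i` even, `i ≤ m`, `n' − 2m' ≥ t`, and one of: (a) `i ≥ 2ℓ`, `k = 0`, `n/i` even and `n' − 2m' > t` (all four); (b) `k ≥ 2ℓ` and `n'` odd; (c) `k > 2ℓ` and `n'` even. -/
theorem result {F : Type*} [Field F] [Fintype F] {p : ℕ} [Fact p.Prime] [CharP F p] {q : ℕ} (hq : Fintype.card F = q)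
    (d m : ℕ) (hd : 4 ≤ d) (hm : 1 ≤ m) (hmd : m + 1 ≤ d) (a b : F) (hab : ∀ x y : F, x ^ 2 + a * x * y + b * y ^ 2 = 0 → x = 0 ∧ y = 0)
    (r : ℕ) [Fact r.Prime]
    (hrΩ : r ∣ Nat.card {W : Submodule F ((Fin (d - 1) ⊕ Fin (d - 1)) ⊕ Fin 2 → F) // Module.finrank F ↥W = m ∧ Cfsg.Geo.IsTotallySingularQuad (Cfsg.quadFormMinus (d - 1) F a b) W})
    (i c : ℕ) (hi : i = orderOf (q : ZMod r)) (hc : c = if Even i then i else 2 * i) :
    (∀ x : GL ((Fin (d - 1) ⊕ Fin (d - 1)) ⊕ Fin 2) F, x ∈ Cfsg.Geo.omegaGL (Cfsg.quadFormMinus (d - 1) F a b) →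
      (∃ z : F, ((x ^ r : GL ((Fin (d - 1) ⊕ Fin (d - 1)) ⊕ Fin 2) F) : Matrix ((Fin (d - 1) ⊕ Fin (d - 1)) ⊕ Fin 2) ((Fin (d - 1) ⊕ Fin (d - 1)) ⊕ Fin 2) F) = z • (1 : Matrix ((Fin (d - 1) ⊕ Fin (d - 1)) ⊕ Fin 2) ((Fin (d - 1) ⊕ Fin (d - 1)) ⊕ Fin 2) F)) →
      (∀ z : F, (x : Matrix ((Fin (d - 1) ⊕ Fin (d - 1)) ⊕ Fin 2) ((Fin (d - 1) ⊕ Fin (d - 1)) ⊕ Fin 2) F) ≠ z • (1 : Matrix ((Fin (d - 1) ⊕ Fin (d - 1)) ⊕ Fin 2) ((Fin (d - 1) ⊕ Fin (d - 1)) ⊕ Fin 2) F)) →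
      ∃ W : Submodule F ((Fin (d - 1) ⊕ Fin (d - 1)) ⊕ Fin 2 → F), (Module.finrank F ↥W = m ∧ Cfsg.Geo.IsTotallySingularQuad (Cfsg.quadFormMinus (d - 1) F a b) W) ∧ W.map (Matrix.toLin' (x : Matrix ((Fin (d - 1) ⊕ Fin (d - 1)) ⊕ Fin 2) ((Fin (d - 1) ⊕ Fin (d - 1)) ⊕ Fin 2) F)) ≤ W) ↔
    ((r = 2 ∧ p ≠ 2 ∧ (Even d ∨ Even m ∨ q % 8 ≠ 7)) ∨
     (r ≠ p ∧ 2 < r ∧ Odd i ∧ i ≤ m ∧ ((2 * d) % c = 0 ∨ 2 * (m % i) < (2 * d) % c)) ∨
     (r ≠ p ∧ 2 < r ∧ Even i ∧ i ≤ m ∧ (r - 1) / i + 2 * (m / i) ≤ (2 * d) / i ∧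
       ((2 * (m % i) ≤ i ∧ (2 * d) % c = 0 ∧ Even ((2 * d) / i) ∧ (r - 1) / i + 2 * (m / i) < (2 * d) / i) ∨
        (2 * (m % i) ≤ (2 * d) % c ∧ Odd ((2 * d) / i)) ∨
        (2 * (m % i) < (2 * d) % c ∧ Even ((2 * d) / i))))) := by
  have hS : (oM (d - 1) hab).Nondeg := quadPQ_nondeg _
  have hn := finrank_minus (F := F) (d := d) (by omega)
  have e : ∀ W : Submodule F ((Fin (d - 1) ⊕ Fin (d - 1)) ⊕ Fin 2 → F),
      Geo.IsTotallySingularQuad (quadFormMinus (d - 1) F a b) W ↔ (oM (d - 1) hab).TS W :=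
    fun W => (orth_ts (oM (d - 1) hab) W).symm
  have : Nontrivial ((Fin (d - 1) ⊕ Fin (d - 1)) ⊕ Fin 2 → F) :=
    nontrivial_of_finrank_pos (R := F) (by omega)
  refine Iff.trans (Iff.trans ?_ (forall_omega_iff (isNondeg_quadFormMinus (d - 1) F hab) r
    (FAdapt.Fix fun W => finrank F W = m ∧ (oM (d - 1) hab).TS W))) ?_
  · simp only [FAdapt.Fix, e, OrdR.map_le_iff]
  simp only [e] at hrΩ
  have hε := not_plus_oM (d - 1) hab
  have hw := widx_oM (d - 1) hab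
  obtain ⟨hrp, hΩ⟩ := hΩ_ts hq hS hn hw (by omega) (by omega) hrΩ
  have hr2 := (Fact.out : r.Prime).two_le
  by_cases h2 : r = 2
  · subst h2
    refine Iff.trans ?_ (show (Even d ∨ Even m ∨ q % 8 ≠ 7) ↔ _ by simp [hrp.symm])
    have h3 := odd_card hq hrp
    simp only [Nat.even_iff]
    constructor
    · intro H
      by_contra h
      obtain ⟨g, d1, d2, d3⟩ := exists_neg_om hq hrp hS hn (by omega)
        (iff_of_false hε (by omega)) (by omega)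
      obtain ⟨W, ⟨d4, -⟩, d5⟩ := H g d1 ⟨_, d2⟩ d3
      have d6 := neg_even' hq hrp (by omega) d2 d5
      rw [d4, Nat.even_iff] at d6
      omega
    · rintro h f (b1 : InOm (oM (d - 1) hab) f) ⟨z, b2⟩ -
      rcases sq_cases (fun _ => rfl) hS b1.isIso b2 with b3 | b3
      · obtain ⟨s, c1, -⟩ := (inOm_invol_iff hq hrp hS (by omega) b1.isIso b3).1 b1
        have c3 := invol_widx hrp hS b1.isIso b3 hn c1
        simp only [hε, false_and, false_or] at c3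
        exact (invol_ts_iff hrp b1.isIso b3).2 (by omega)
      · obtain ⟨c1, c2⟩ := neg_om_data hq hrp hS hn (by omega) b1 b3
        have c3 := mt c1.2 hε
        exact neg_ts hq hrp (fun _ => rfl) hS b1.isIso b3 (by omega)
          (by rw [Nat.even_iff]; omega)
  rw [forall_om_iff hS (by omega) h2, ts_even_iff hq hrp h2 hi hc hS hn hmd (e := 1) le_rfl
    (by omega) hΩ]
  simp only [h2, hrp, show 2 < r by omega, false_and, false_or, true_and, ne_eq, not_false_iff]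
  refine or_congr (and_congr_right fun h3 => and_congr_right fun _ => ?_) ?_
  · rw [if_neg (Nat.not_even_iff_odd.2 h3)] at hc
    subst hc
    have h4 := Nat.mod_lt m h3.pos
    have h5 := Nat.mod_lt (d - 1) h3.pos
    have h6 : d % i = ((d - 1) % i + 1) % i := by rw [Nat.mod_add_mod]; congr 1; omega
    simp only [Nat.mul_mod_mul_left]
    rcases (Nat.succ_le_of_lt h5).lt_or_eq with h7 | h7
    · rw [Nat.mod_eq_of_lt h7] at h6; omega
    · rw [Nat.succ_eq_add_one] at h7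
      rw [h7, Nat.mod_self] at h6; omega
  · simp only [Nat.even_iff, Nat.odd_iff]
    omega

end Cfsg.Agent.S5987
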