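import Cfsg.Statements.S5988
import Cfsg.Agent.H9.FEven
import Cfsg.Agent.H9.FTrP

set_option autoImplicit false
set_option linter.unusedVariables false
open scoped MatrixGroups
open Cfsg

namespace Cfsg.Agent.S5988

open Module Polynomial Cfsg.Agent.H9 Cfsg.Agent.Form Cfsg.Agent.Form.PQ Cfsg.Agent.H9.FIdx
  Cfsg.Agent.H9.FCount Cfsg.Agent.H9.FClass Cfsg.Agent.H9.FOrd Cfsg.Agent.H9.Types
  Cfsg.Agent.H9.FInv Cfsg.Agent.H9.FSS Cfsg.Agent.H9.FModel Cfsg.Agent.H9.FNum
  Cfsg.Agent.H9.FAdapt Cfsg.Agent.H9.FSemi Cfsg.Agent.H9.FInvol Cfsg.Agent.H9.FTrP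
  Cfsg.Agent.H9.FSpin Cfsg.Agent.H9.FOArith Cfsg.Agent.H9.FOrth
  Cfsg.Agent.H9.FUnip

/-- Elements of prime order of PΩ⁺_n(q) with no fixed elliptic `m`-space. Here `T = PΩ⁺_n(F)`, `n = 2d ≥ 8`, realised through `Ω⁺_n(q)`, the commutator subgroup of the isometry group of `Q = Σ xᵢyᵢ` over the field `F` with `q` elements; an element of `T` of prime order `r` is an element `x` of `Ω⁺_n(q)` with `x^r` scalar and `x` not scalar; a nondegenerate `m`-space (even `m`) is a subspace on which the polar form of `Q` is nondegenerate; it is hyperbolic if it contains an `m/2`-dimensional subspace on which `Q` vanishes, elliptic otherwise. Let `m` be even with `2 ≤ m < n/2` and let `r` be a prime dividing the number of elliptic `m`-spaces; for `r ≠ p` let `i` be the multiplicative order of `q` modulo `r`, `c = i` for `i` even and `c = 2i` for `i` odd, and write `k = n mod c`, `ℓ = m mod i`, `ℓ' = m mod c`, `n' = ⌊n/i⌋`, `m' = ⌊m/i⌋`, `t = (r−1)/i`.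 Then every element of `T` of order `r` fixes some elliptic `m`-space if and only if one of: (i) `r = 2 ≠ p` and either `n ≡ 0 (mod 4)`, `q ≡ 3 (mod 4)` and `m ≡ 2 (mod 4)`, or `n ≡ 2 (mod 4)` and `q ≢ 1 (mod 8)`; (ii) `r ≠ p` odd, `i` odd, `c ≤ m` and `k > ℓ' > 0`; (iii) `r ≠ p` odd, `i` even, and either `k = 0` and (`n/i` odd, or `ℓ' = 0` and `m/i` odd), or `i ≤ m` and (`k > ℓ' > 0`, or `k = ℓ' > 0` and `(n + m − 2k)/i` odd, or `k > ℓ' = 0` and `m/i` odd). (For `r = p` there is always an element of order `p` fixing no elliptic `m`-space.) -/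
theorem result {F : Type*} [Field F] [Fintype F] {p : ℕ} [Fact p.Prime] [CharP F p] {q : ℕ} (hq : Fintype.card F = q)
    (d m : ℕ) (hd : 4 ≤ d) (hm : 2 ≤ m) (hme : Even m) (hmd : m < d)
    (r : ℕ) [Fact r.Prime]
    (hrΩ : r ∣ Nat.card {W : Submodule F (Fin d ⊕ Fin d → F) // Module.finrank F ↥W = m ∧ Cfsg.Geo.IsNondegenerateOn (QuadraticMap.polar (Cfsg.quadFormPlus d F)) W ∧ ¬ Cfsg.Geo.IsPlusTypeOn (Cfsg.quadFormPlus d F) W})
    (i c : ℕ) (hi : i = orderOf (q : ZMod r)) (hc : c = if Even i then i else 2 * i) :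
    (∀ x : GL (Fin d ⊕ Fin d) F, x ∈ Cfsg.Geo.omegaGL (Cfsg.quadFormPlus d F) →
      (∃ z : F, ((x ^ r : GL (Fin d ⊕ Fin d) F) : Matrix (Fin d ⊕ Fin d) (Fin d ⊕ Fin d) F) = z • (1 : Matrix (Fin d ⊕ Fin d) (Fin d ⊕ Fin d) F)) →
      (∀ z : F, (x : Matrix (Fin d ⊕ Fin d) (Fin d ⊕ Fin d) F) ≠ z • (1 : Matrix (Fin d ⊕ Fin d) (Fin d ⊕ Fin d) F)) →
      ∃ W : Submodule F (Fin d ⊕ Fin d → F), (Module.finrank F ↥W = m ∧ Cfsg.Geo.IsNondegenerateOn (QuadraticMap.polar (Cfsg.quadFormPlus d F)) W ∧ ¬ Cfsg.Geo.IsPlusTypeOn (Cfsg.quadFormPlus d F) W) ∧ W.map (Matrix.toLin' (x : Matrix (Fin d ⊕ Fin d) (Fin d ⊕ Fin d) F)) ≤ W) ↔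
    ((r = 2 ∧ p ≠ 2 ∧ ((Even d ∧ q % 4 = 3 ∧ m % 4 = 2) ∨ (Odd d ∧ q % 8 ≠ 1))) ∨
     (r ≠ p ∧ 2 < r ∧ Odd i ∧ c ≤ m ∧ 0 < m % c ∧ m % c < (2 * d) % c) ∨
     (r ≠ p ∧ 2 < r ∧ Even i ∧
       (((2 * d) % c = 0 ∧ (Odd ((2 * d) / i) ∨ (m % c = 0 ∧ Odd (m / i)))) ∨
        (i ≤ m ∧ ((0 < m % c ∧ m % c < (2 * d) % c) ∨
                  (0 < m % c ∧ m % c = (2 * d) % c ∧ Odd ((2 * d + m - 2 * ((2 * d) % c)) / i)) ∨
                  (m % c = 0 ∧ 0 < (2 * d) % c ∧ Odd (m / i))))))) := by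
  have hS : (oP d F).Nondeg := quadPQ_nondeg _
  have hn := finrank_sum (F := F) d
  have : Nontrivial (Fin d ⊕ Fin d → F) := nontrivial_of_finrank_pos (R := F) (by omega)
  have e : ∀ W : Submodule F (Fin d ⊕ Fin d → F),
      (Geo.IsNondegenerateOn (QuadraticMap.polar (quadFormPlus d F)) W ∧
        ¬ Geo.IsPlusTypeOn (quadFormPlus d F) W) ↔ (oP d F).NondegOn W ∧ (Plus (oP d F) W ↔ False) :=
    fun W => ((and_congr_right fun h => (iff_false _).to_iff.trans (plus_iff_geo _ h).not).trans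
      (and_congr_left' ((oP d F).nondegOn_iff_geo W))).symm
  refine Iff.trans (Iff.trans ?_ (forall_omega_iff (isNondeg_quadFormPlus d F) r
    (FAdapt.Fix fun W => finrank F W = m ∧ (oP d F).NondegOn W ∧ (Plus (oP d F) W ↔ False)))) ?_
  · simp only [FAdapt.Fix, e, OrdR.map_le_iff]
  simp only [e] at hrΩ
  have hr2 := (Fact.out : r.Prime).two_le
  have hP := plus_oP (F := F) d
  have hε : Plus (oP d F) ⊤ ↔ True := iff_of_true hP trivial
  have key : ∀ W, (oP d F).NondegOn W → finrank F W = m → Plus (oP d F) ((oP d F).perp W) →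
      Plus (oP d F) W := fun W a1 a2 a3 =>
    ((plus_perp hS a1 (hn ▸ even_two_mul d) (a2 ▸ hme)).1 a3).1 hP
  by_cases h2 : r = 2
  · subst h2
    by_cases hp2 : p = 2
    · subst hp2
      rw [forall_two_iff hS]
      refine iff_of_false (fun H => ?_) (by simp)
      rw [Plus, finrank_top] at hP
      obtain ⟨f, a1, a2, a3, -, a4⟩ := two_counter_om hS (by omega) (k := d / 2) (by omega) (by omega)
      obtain ⟨W, ⟨b1, b2, b4⟩, b3⟩ := H f a1 a2 a3
      obtain ⟨e, y, e', c1, c2, c3, c4⟩ := a4 W b2 b3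
      rw [Nat.even_iff] at hme
      by_cases h : e = 0
      exacts [b4.1 (c3 h), b4.1 (key W b2 b1 (c4 (by omega)))]
    rw [even_two_iff hq (Ne.symm hp2) hS hn (by omega) (by omega) hme (by omega) hε]
    have h3 := odd_card hq (Ne.symm hp2)
    simp only [Nat.even_iff, Nat.odd_iff, true_iff, false_iff, lt_irrefl, false_and, and_false,
      or_false, true_and, ne_eq, hp2, not_false_iff] at hme ⊢
    omega
  have hr3 : 2 < r := by omega
  rw [forall_om_iff hS (by omega) h2]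
  by_cases hrp : r = p
  · subst hrp
    refine iff_of_false (fun H => ?_) (by simp [h2])
    obtain ⟨f, b1, b2, b3, b4⟩ := exists_small (Ne.symm h2) hS (a := 2 * (d % 2)) (b := d / 2) (c := 0)
      (by omega) (Or.inr hP) (by omega)
    obtain ⟨W, ⟨c1, c2, c4⟩, c3⟩ := H f b1 b2 b3
    obtain ⟨a', d1, c', d2, k, d3, d4, d5⟩ := b4 W c2 c3
    rw [Nat.even_iff] at hme
    by_cases h : a' = 0
    exacts [c4.1 (d4 h (by omega)), c4.1 (key W c2 c1 (d5 (by omega) (by omega)))]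
  obtain ⟨hΩ, H⟩ := orth_even_iff hq hrp h2 hi hc hS hn hme (by omega) (by omega)
    (Or.inr (even_two_mul d)) False hε hrΩ
  rw [H]
  have c0 := (blk_id (P := FP.orth F) hq hrp h2 (fun _ => rfl) hi hc).pos hq hrp
  have c1 := nf_facts c0 (even_c hc) (show m < 2 * d by omega)
  have c2 := nf_even c0 hΩ
  have c3 := div_eq_add (n := 2 * d) (m := m) c0
  simp only [Nat.even_iff, Nat.odd_iff, true_iff, false_iff, h2, false_or, false_and,
    hr3, true_and, ne_eq, hrp, not_false_iff, iff_false, not_true] at c1 c2 hme hc ⊢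
  clear * - c1 c2 c3 hme hc hm hmd
  obtain ⟨a1, a2, a3, a4, a5, a6, a7, a8, a9⟩ := c1
  split_ifs at hc with h3
  · subst hc
    simp only [h3, zero_ne_one, false_and, false_or, true_and] at c2 ⊢
    generalize (2 * d + m - 2 * (2 * d % c)) / c = T at *
    generalize (2 * d) / c = N, (2 * d) % c = ρ, m / c = M, m % c = μ at *
    rw [show (μ = ρ ∧ T % 2 = 1) ↔ (μ = ρ ∧ (N + M) % 2 = 1) from
      and_congr_right fun h => by rw [c3 h]]
    clear c3
    obtain hN | hN := Nat.mod_two_eq_zero_or_one N <;>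
      obtain hM | hM := Nat.mod_two_eq_zero_or_one M <;>
      simp only [Nat.add_mod N M, hN, hM, Nat.reduceAdd, Nat.reduceMod, zero_ne_one, one_ne_zero,
        not_true, not_false_iff, and_true, and_false, or_false, false_or, true_or, or_true,
        implies_true, imp_false, true_imp_iff] at c2 ⊢ <;>
      rcases a8 with a8 | a8 | a8 <;> constructor <;> intro h <;> omega
  · simp only [Nat.mod_two_ne_zero.1 h3, one_ne_zero, false_and, or_false, true_and, true_or,
      and_true, and_false, false_or, not_true, implies_true, not_false_iff,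
      true_imp_iff] at c2 ⊢
    generalize (2 * d) / c = N, (2 * d) % c = ρ, m / c = M, m % c = μ at *
    rcases a8 with a8 | a8 | a8 <;> constructor <;> intro h <;> omega

end Cfsg.Agent.S5988
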