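import Cfsg.Statements.S5989
import Cfsg.Agent.H9.FUnipO
import Cfsg.Agent.H9.FOArith2

set_option autoImplicit false
set_option linter.unusedVariables false
open scoped MatrixGroups
open Cfsg

namespace Cfsg.Agent.S5989

open Module Polynomial Cfsg.Agent.H9 Cfsg.Agent.Form Cfsg.Agent.Form.PQ Cfsg.Agent.H9.FIdx
  Cfsg.Agent.H9.FCount Cfsg.Agent.H9.FClass Cfsg.Agent.H9.FOrd Cfsg.Agent.H9.Types
  Cfsg.Agent.H9.FInv Cfsg.Agent.H9.FSS Cfsg.Agent.H9.FModel Cfsg.Agent.H9.FNum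
  Cfsg.Agent.H9.FAdapt Cfsg.Agent.H9.FSemi Cfsg.Agent.H9.FInvol Cfsg.Agent.H9.FTrP
  Cfsg.Agent.H9.FSpin Cfsg.Agent.H9.FOArith Cfsg.Agent.H9.FOrth
  Cfsg.Agent.H9.FUnip

/-- Elements of prime order of PΩ⁺_n(q), q odd, with no fixed nondegenerate `m`-space of odd dimension. Here `T = PΩ⁺_n(F)`, `n = 2d ≥ 8`, realised through `Ω⁺_n(q)`, the commutator subgroup of the isometry group of `Q = Σ xᵢyᵢ` over the field `F` with `q` elements; an element of `T` of prime order `r` is an element `x` of `Ω⁺_n(q)` with `x^r` scalar and `x` not scalar; `q` and `m` are odd, `1 ≤ m < n/2`. The nondegenerate `m`-spaces (subspaces on which the polar form is nondegenerate) fall into two isometry classes, each an orbit of `T`, and the two actions are equivalent; fix one such space `W₀` and let Ω be the set of nondegenerate `m`-spaces isometric to `W₀` (some linear isomorphism preserves `Q`). Let `r` be a prime dividing the size of Ω; for `r ≠ p`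 let `i` be the multiplicative order of `q` modulo `r`, `c = i` for `i` even and `c = 2i` for `i` odd, and write `k = n mod c`, `ℓ = m mod i`, `ℓ' = m mod c`, `n' = ⌊n/i⌋`, `m' = ⌊m/i⌋`, `t = (r−1)/i`. Then every element of `T` of order `r` fixes a member of Ω if and only if one of: (i) `r = 2`, `n ≡ 2 (mod 4)` and `q ≢ 1 (mod 8)`; (ii) `r ≠ p` odd, `i` odd, `c ≤ m` and `k > ℓ' > 0`; (iii) `r ≠ p` odd, `i` even, and either `k = 0` and `n/i` odd, or `i ≤ m` and `k > ℓ' > 0`. (For `r = p` there is always an element of order `p` fixing no member of Ω.) -/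
theorem result {F : Type*} [Field F] [Fintype F] {p : ℕ} [Fact p.Prime] [CharP F p] {q : ℕ} (hq : Fintype.card F = q)
    (hodd : Odd q) (d m : ℕ) (hd : 4 ≤ d) (hm : Odd m) (hmd : m < d)
    (W₀ : Submodule F (Fin d ⊕ Fin d → F)) (hW₀ : Module.finrank F ↥W₀ = m ∧ Cfsg.Geo.IsNondegenerateOn (QuadraticMap.polar (Cfsg.quadFormPlus d F)) W₀)
    (r : ℕ) [Fact r.Prime]
    (hrΩ : r ∣ Nat.card {W : Submodule F (Fin d ⊕ Fin d → F) // Module.finrank F ↥W = m ∧ Cfsg.Geo.IsNondegenerateOn (QuadraticMap.polar (Cfsg.quadFormPlus d F)) W ∧ Cfsg.Geo.AreIsometricFor (Cfsg.quadFormPlus d F) W W₀})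
    (i c : ℕ) (hi : i = orderOf (q : ZMod r)) (hc : c = if Even i then i else 2 * i) :
    (∀ x : GL (Fin d ⊕ Fin d) F, x ∈ Cfsg.Geo.omegaGL (Cfsg.quadFormPlus d F) →
      (∃ z : F, ((x ^ r : GL (Fin d ⊕ Fin d) F) : Matrix (Fin d ⊕ Fin d) (Fin d ⊕ Fin d) F) = z • (1 : Matrix (Fin d ⊕ Fin d) (Fin d ⊕ Fin d) F)) →
      (∀ z : F, (x : Matrix (Fin d ⊕ Fin d) (Fin d ⊕ Fin d) F) ≠ z • (1 : Matrix (Fin d ⊕ Fin d) (Fin d ⊕ Fin d) F)) →
      ∃ W : Submodule F (Fin d ⊕ Fin d → F), (Module.finrank F ↥W = m ∧ Cfsg.Geo.IsNondegenerateOn (QuadraticMap.polar (Cfsg.quadFormPlus d F)) W ∧ Cfsg.Geo.AreIsometricFor (Cfsg.quadFormPlus d F) W W₀) ∧ W.map (Matrix.toLin' (x : Matrix (Fin d ⊕ Fin d) (Fin d ⊕ Fin d) F)) ≤ W) ↔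
    ((r = 2 ∧ Odd d ∧ q % 8 ≠ 1) ∨
     (r ≠ p ∧ 2 < r ∧ Odd i ∧ c ≤ m ∧ 0 < m % c ∧ m % c < (2 * d) % c) ∨
     (r ≠ p ∧ 2 < r ∧ Even i ∧ (((2 * d) % c = 0 ∧ Odd ((2 * d) / i)) ∨ (i ≤ m ∧ 0 < m % c ∧ m % c < (2 * d) % c)))) := by
  have hp2 := two_ne_p hq hodd
  have hS : (oP d F).Nondeg := quadPQ_nondeg _
  have hn := finrank_sum (F := F) d
  have : Nontrivial (Fin d ⊕ Fin d → F) := nontrivial_of_finrank_pos (R := F) (by omega)
  have hW := ((oP d F).nondegOn_iff_geo W₀).2 hW₀.2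
  have e : ∀ W : Submodule F (Fin d ⊕ Fin d → F), (finrank F W = m ∧
      Geo.IsNondegenerateOn (QuadraticMap.polar (quadFormPlus d F)) W ∧
        Geo.AreIsometricFor (quadFormPlus d F) W W₀) ↔ Isometric (oP d F) W₀ W := fun W =>
    ⟨fun h => Iso.symm ((isometric_iff_geo _ W W₀).2 h.2.2), fun h =>
      ⟨(isometric_data hW h).1.trans hW₀.1, ((oP d F).nondegOn_iff_geo W).1 (isometric_data hW h).2.1,
        (isometric_iff_geo _ W W₀).1 (Iso.symm h)⟩⟩
  refine Iff.trans (Iff.trans ?_ (forall_omega_iff (isNondeg_quadFormPlus d F) r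
    (FAdapt.Fix (Isometric (oP d F) W₀)))) ?_
  · simp only [FAdapt.Fix, e, OrdR.map_le_iff]
  simp only [e] at hrΩ
  have hr2 := (Fact.out : r.Prime).two_le
  have hε := plus_oP (F := F) d
  have key : ∀ f : End F (Fin d ⊕ Fin d → F), (oP d F).IsIso (oP d F) f → f ^ 2 = (-1 : F) • 1 →
      ¬ FAdapt.Fix (Isometric (oP d F) W₀) f := fun f a1 a2 ⟨W, a3, a4⟩ =>
    Nat.not_even_iff_odd.2 hm (hW₀.1 ▸ (isometric_data hW a3).1 ▸
      neg_even hq hp2 (fun _ => rfl) a1 a2 (isometric_data hW a3).2.1 a4)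
  by_cases h2 : r = 2
  · subst h2
    refine Iff.trans ?_ (show (Odd d ∧ q % 8 ≠ 1) ↔ _ by simp)
    have h3 := odd_card hq hp2
    rw [Nat.odd_iff]
    constructor
    · intro H
      by_contra h
      obtain ⟨g, d1, d2, d3⟩ := exists_neg_om hq hp2 hS hn (by omega)
        (iff_of_true hε (by omega)) (by omega)
      exact key g d1.isIso d2 (H g d1 ⟨_, d2⟩ d3)
    · rintro h f b1 ⟨z, b2⟩ -
      rcases sq_cases (fun _ => rfl) hS b1.isIso b2 with b3 | b3
      · exact invol_isometric hp2 hS b1.isIso b3 hW (hW₀.1 ▸ hm) (by omega) (by omega)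
      · obtain ⟨c1, c2⟩ := neg_om_data hq hp2 hS hn (by omega) b1 b3
        have := c1.1 hε
        omega
  have hr3 : 2 < r := by omega
  rw [forall_om_iff hS (by omega) h2]
  by_cases hrp : r = p
  · subst hrp
    obtain ⟨f, b1, b2, b3, b4⟩ := odd_counter hp2 hS hn (by omega) hW (hW₀.1 ▸ hm)
    exact iff_of_false (fun H => b4 (H f b1 b2 b3)) (by simp [h2])
  obtain ⟨hΩ, H⟩ := orth_odd_iff hq hp2 hrp h2 hi hc hS hn (even_two_mul d) hW hW₀.1 hm
    (iff_of_true hε trivial) hrΩ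
  rw [H]
  have c0 := (blk_id (P := FP.orth F) hq hrp h2 (fun _ => rfl) hi hc).pos hq hrp
  have c1 := nf_facts c0 (even_c hc) (show m < 2 * d by omega)
  have c2 := nf_odd c0 hΩ
  simp only [Nat.even_iff, Nat.odd_iff, true_iff, h2, false_or, false_and,
    hr3, true_and, ne_eq, hrp, not_false_iff] at c1 c2 hm hc ⊢
  clear * - c1 c2 hc hm hmd
  obtain ⟨a1, a2, a3, a4, a5, a6, a7, a8, a9⟩ := c1
  split_ifs at hc with h3
  · subst hc
    simp only [h3, zero_ne_one, false_and, false_or, true_and] at c2 ⊢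
    generalize (2 * d) / c = N, (2 * d) % c = ρ, m / c = M, m % c = μ at *
    rcases a8 with a8 | a8 | a8 <;> constructor <;> intro h <;> omega
  · simp only [Nat.mod_two_ne_zero.1 h3, one_ne_zero, false_and, or_false, true_and, true_or,
      and_true, implies_true, true_imp_iff] at c2 ⊢
    generalize (2 * d) / c = N, (2 * d) % c = ρ, m / c = M, m % c = μ at *
    rcases a8 with a8 | a8 | a8 <;> constructor <;> intro h <;> omega

end Cfsg.Agent.S5989
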