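import Cfsg.Statements.S5990
import Cfsg.Agent.H9.FEven
import Cfsg.Agent.H9.FTrP

set_option autoImplicit false
set_option linter.unusedVariables false
open scoped MatrixGroups
open Cfsg

namespace Cfsg.Agent.S5990

open Module Polynomial Cfsg.Agent.H9 Cfsg.Agent.Form Cfsg.Agent.Form.PQ Cfsg.Agent.H9.FIdx
  Cfsg.Agent.H9.FCount Cfsg.Agent.H9.FClass Cfsg.Agent.H9.FOrd Cfsg.Agent.H9.Types
  Cfsg.Agent.H9.FInv Cfsg.Agent.H9.FSS Cfsg.Agent.H9.FModel Cfsg.Agent.H9.FNum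
  Cfsg.Agent.H9.FAdapt Cfsg.Agent.H9.FSemi Cfsg.Agent.H9.FInvol Cfsg.Agent.H9.FTrP
  Cfsg.Agent.H9.FSpin Cfsg.Agent.H9.FOArith Cfsg.Agent.H9.FOrth
  Cfsg.Agent.H9.FUnip

/-- Elements of prime order of PΩ⁻_n(q) with no fixed elliptic `m`-space. Here `T = PΩ⁻_n(F)`, `n = 2d ≥ 8`, realised through `Ω⁻_n(q)`, the commutator subgroup of the isometry group of `Q = Σ_{i<d−1} xᵢyᵢ + z₁² + a z₁z₂ + b z₂²` with `z₁² + a z₁z₂ + b z₂²` anisotropic, over the field `F` with `q` elements; an element of `T` of prime order `r` is an element `x` of `Ω⁻_n(q)` with `x^r` scalar and `x` not scalar; a nondegenerate `m`-space (even `m`) is a subspace on which the polar form of `Q` is nondegenerate; it is hyperbolic if it contains an `m/2`-dimensional subspace on which `Q` vanishes, elliptic otherwise. Let `m` be even with `2 ≤ m ≤ n − 2` (no restriction `m < n/2`: fixing an elliptic `m`-space is the same as fixing its hyperbolic orthogonal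 complement) and let `r` be a prime dividing the number of elliptic `m`-spaces, with `r = 2` or `r ≠ p`; for `r ≠ p` let `i` be the multiplicative order of `q` modulo `r`, `c = i` for `i` even and `c = 2i` for `i` odd, and write `k = n mod c`, `ℓ = m mod i`, `ℓ' = m mod c`, `n' = ⌊n/i⌋`, `m' = ⌊m/i⌋`, `t = (r−1)/i`. Then every element of `T` of order `r` fixes some elliptic `m`-space if and only if one of: (i) `r = p = 2` and (`n ≡ 0 (mod 4)` or `m ≡ 2 (mod 4)`); (ii) `r = 2 ≠ p` and (`n ≡ 0 (mod 4)`, or `q ≢ 7 (mod 8)`, or `m ≡ 2 (mod 4)`); (iii) `r ≠ p` odd, `i` odd, and `k = 0` or (`c ≤ m` and `k ≥ ℓ' > 0`); (iv) `r ≠ p` odd, `i` even, and either `k = 0` and (`n/i` even, or `ℓ' = 0` and `m/i` odd), or `k > 0`, `i ≤ m` and (`k > ℓ' > 0`, or `ℓ' = 0` and `m/i` odd, or `k = ℓ'` and `(n + m − 2k)/i` even). (Odd `r = p` is not covered by this statement.) -/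
theorem result {F : Type*} [Field F] [Fintype F] {p : ℕ} [Fact p.Prime] [CharP F p] {q : ℕ} (hq : Fintype.card F = q)
    (d m : ℕ) (hd : 4 ≤ d) (hm : 2 ≤ m) (hme : Even m) (hmn : m + 2 ≤ 2 * d) (a b : F) (hab : ∀ x y : F, x ^ 2 + a * x * y + b * y ^ 2 = 0 → x = 0 ∧ y = 0)
    (r : ℕ) [Fact r.Prime] (hr : r = 2 ∨ r ≠ p)
    (hrΩ : r ∣ Nat.card {W : Submodule F ((Fin (d - 1) ⊕ Fin (d - 1)) ⊕ Fin 2 → F) // Module.finrank F ↥W = m ∧ Cfsg.Geo.IsNondegenerateOn (QuadraticMap.polar (Cfsg.quadFormMinus (d - 1) F a b)) W ∧ ¬ Cfsg.Geo.IsPlusTypeOn (Cfsg.quadFormMinus (d - 1) F a b) W})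
    (i c : ℕ) (hi : i = orderOf (q : ZMod r)) (hc : c = if Even i then i else 2 * i) :
    (∀ x : GL ((Fin (d - 1) ⊕ Fin (d - 1)) ⊕ Fin 2) F, x ∈ Cfsg.Geo.omegaGL (Cfsg.quadFormMinus (d - 1) F a b) →
      (∃ z : F, ((x ^ r : GL ((Fin (d - 1) ⊕ Fin (d - 1)) ⊕ Fin 2) F) : Matrix ((Fin (d - 1) ⊕ Fin (d - 1)) ⊕ Fin 2) ((Fin (d - 1) ⊕ Fin (d - 1)) ⊕ Fin 2) F) = z • (1 : Matrix ((Fin (d - 1) ⊕ Fin (d - 1)) ⊕ Fin 2) ((Fin (d - 1) ⊕ Fin (d - 1)) ⊕ Fin 2) F)) →
      (∀ z : F, (x : Matrix ((Fin (d - 1) ⊕ Fin (d - 1)) ⊕ Fin 2) ((Fin (d - 1) ⊕ Fin (d - 1)) ⊕ Fin 2) F) ≠ z • (1 : Matrix ((Fin (d - 1) ⊕ Fin (d - 1)) ⊕ Fin 2) ((Fin (d - 1) ⊕ Fin (d - 1)) ⊕ Fin 2) F)) →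
      ∃ W : Submodule F ((Fin (d - 1) ⊕ Fin (d - 1)) ⊕ Fin 2 → F), (Module.finrank F ↥W = m ∧ Cfsg.Geo.IsNondegenerateOn (QuadraticMap.polar (Cfsg.quadFormMinus (d - 1) F a b)) W ∧ ¬ Cfsg.Geo.IsPlusTypeOn (Cfsg.quadFormMinus (d - 1) F a b) W) ∧ W.map (Matrix.toLin' (x : Matrix ((Fin (d - 1) ⊕ Fin (d - 1)) ⊕ Fin 2) ((Fin (d - 1) ⊕ Fin (d - 1)) ⊕ Fin 2) F)) ≤ W) ↔
    ((r = 2 ∧ p = 2 ∧ (Even d ∨ m % 4 = 2)) ∨
     (r = 2 ∧ p ≠ 2 ∧ (Even d ∨ q % 8 ≠ 7 ∨ m % 4 = 2)) ∨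
     (r ≠ p ∧ 2 < r ∧ Odd i ∧ ((2 * d) % c = 0 ∨ (c ≤ m ∧ 0 < m % c ∧ m % c ≤ (2 * d) % c))) ∨
     (r ≠ p ∧ 2 < r ∧ Even i ∧
       (((2 * d) % c = 0 ∧ (Even ((2 * d) / i) ∨ (m % c = 0 ∧ Odd (m / i)))) ∨
        (0 < (2 * d) % c ∧ i ≤ m ∧ ((0 < m % c ∧ m % c < (2 * d) % c) ∨ (m % c = 0 ∧ Odd (m / i)) ∨
                                    (m % c = (2 * d) % c ∧ Even ((2 * d + m - 2 * ((2 * d) % c)) / i))))))) := by
  have hS : (oM (d - 1) hab).Nondeg := quadPQ_nondeg _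
  have hn := finrank_minus (F := F) (d := d) (by omega)
  have : Nontrivial ((Fin (d - 1) ⊕ Fin (d - 1)) ⊕ Fin 2 → F) :=
    nontrivial_of_finrank_pos (R := F) (by omega)
  have e : ∀ W : Submodule F ((Fin (d - 1) ⊕ Fin (d - 1)) ⊕ Fin 2 → F),
      (Geo.IsNondegenerateOn (QuadraticMap.polar (quadFormMinus (d - 1) F a b)) W ∧
        ¬ Geo.IsPlusTypeOn (quadFormMinus (d - 1) F a b) W) ↔
          (oM (d - 1) hab).NondegOn W ∧ (Plus (oM (d - 1) hab) W ↔ False) :=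
    fun W => ((and_congr_right fun h => (iff_false _).to_iff.trans (plus_iff_geo _ h).not).trans
      (and_congr_left' ((oM (d - 1) hab).nondegOn_iff_geo W))).symm
  refine Iff.trans (Iff.trans ?_ (forall_omega_iff (isNondeg_quadFormMinus (d - 1) F hab) r
    (FAdapt.Fix fun W => finrank F W = m ∧ (oM (d - 1) hab).NondegOn W ∧
      (Plus (oM (d - 1) hab) W ↔ False)))) ?_
  · simp only [FAdapt.Fix, e, OrdR.map_le_iff]
  simp only [e] at hrΩ
  have hr2 := (Fact.out : r.Prime).two_le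
  have hε : Plus (oM (d - 1) hab) ⊤ ↔ False := iff_of_false (not_plus_oM _ hab) not_false
  by_cases h2 : r = 2
  · subst h2
    by_cases hp2 : p = 2
    · subst hp2
      rw [forall_two_iff hS]
      refine Iff.trans ?_ (show (d % 2 = 0 ∨ m % 4 = 2) ↔ _ by simp [Nat.even_iff])
      have h3 := Nat.even_iff.1 hme
      constructor
      · intro H
        by_contra h
        have hw := widx_oM (d - 1) hab
        obtain ⟨f, a1, a2, a3, -, a4⟩ := two_counter_om hS (by omega) (k := d / 2) (by omega)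
          (by omega)
        obtain ⟨W, ⟨b1, b2, b4⟩, b3⟩ := H f a1 a2 a3
        obtain ⟨e, y, e', c1, c2, c3, c4⟩ := a4 W b2 b3
        exact b4.1 (c3 (by omega))
      · intro h f a1 a2 _
        refine two_fix hS (by omega) a1 a2 hn (by omega) hme (by omega) hε fun c y b1 b2 =>
          ⟨min y ((m - 1) / 4), min_le_left _ _, Or.inr ?_⟩
        simp only [imp_false, iff_self, and_true] at b2 ⊢
        omega
    rw [even_two_iff hq (Ne.symm hp2) hS hn (by omega) (by omega) hme (by omega) hε]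
    have h3 := odd_card hq (Ne.symm hp2)
    simp only [Nat.even_iff, Nat.odd_iff, true_iff, false_iff, lt_irrefl, false_and, and_false,
      or_false, true_and, ne_eq, hp2, not_false_iff, false_or] at hme ⊢
    omega
  have hr3 : 2 < r := by omega
  have hrp := hr.resolve_left h2
  rw [forall_om_iff hS (by omega) h2]
  obtain ⟨hΩ, H⟩ := orth_even_iff hq hrp h2 hi hc hS hn hme (by omega) (by omega)
    (Or.inr (even_two_mul d)) False hε hrΩ
  rw [H]
  have c0 := (blk_id (P := FP.orth F) hq hrp h2 (fun _ => rfl) hi hc).pos hq hrp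
  have c1 := nf_facts c0 (even_c hc) (show m < 2 * d by omega)
  have c2 := nf_even c0 hΩ
  have c3 := div_eq_add (n := 2 * d) (m := m) c0
  simp only [Nat.even_iff, Nat.odd_iff, true_iff, false_iff, iff_self, h2, false_or, false_and,
    hr3, true_and, ne_eq, hrp, not_false_iff, iff_false, not_true] at c1 c2 hme hc ⊢
  clear * - c1 c2 c3 hme hc hm hmn
  obtain ⟨a1, a2, a3, a4, a5, a6, a7, a8, a9⟩ := c1
  split_ifs at hc with h3
  · subst hc
    simp only [h3, zero_ne_one, false_and, false_or, true_and] at c2 ⊢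
    generalize (2 * d + m - 2 * (2 * d % c)) / c = T at *
    generalize (2 * d) / c = N, (2 * d) % c = ρ, m / c = M, m % c = μ at *
    rw [show (μ = ρ ∧ T % 2 = 0) ↔ (μ = ρ ∧ (N + M) % 2 = 0) from
      and_congr_right fun h => by rw [c3 h]]
    clear c3
    obtain hN | hN := Nat.mod_two_eq_zero_or_one N <;>
      obtain hM | hM := Nat.mod_two_eq_zero_or_one M <;>
      simp only [Nat.add_mod N M, hN, hM, Nat.reduceAdd, Nat.reduceMod, zero_ne_one, one_ne_zero,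
        not_true, not_false_iff, and_true, and_false, or_false, false_or, true_or, or_true,
        implies_true, imp_false, true_imp_iff] at c2 ⊢ <;>
      rcases a8 with a8 | a8 | a8 <;> constructor <;> intro h <;> omega
  · simp only [Nat.mod_two_ne_zero.1 h3, one_ne_zero, false_and, or_false, true_and, true_or,
      or_true, and_true, and_false, false_or, not_true, implies_true, imp_false, not_false_iff,
      true_imp_iff] at c2 ⊢
    generalize (2 * d) / c = N, (2 * d) % c = ρ, m / c = M, m % c = μ at *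
    rcases a8 with a8 | a8 | a8 <;> constructor <;> intro h <;> omega

end Cfsg.Agent.S5990
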