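import Cfsg.Statements.S5992
import Cfsg.Agent.H9.FOrth
import Cfsg.Agent.H9.FOArith2

set_option autoImplicit false
set_option linter.unusedVariables false
open scoped MatrixGroups
open Cfsg

namespace Cfsg.Agent.S5992

open Module Polynomial Cfsg.Agent.H9 Cfsg.Agent.Form Cfsg.Agent.Form.PQ Cfsg.Agent.H9.FIdx
  Cfsg.Agent.H9.FCount Cfsg.Agent.H9.FClass Cfsg.Agent.H9.FOrd Cfsg.Agent.H9.Types
  Cfsg.Agent.H9.FInv Cfsg.Agent.H9.FSS Cfsg.Agent.H9.FModel Cfsg.Agent.H9.FNum
  Cfsg.Agent.H9.FAdapt Cfsg.Agent.H9.FSemi Cfsg.Agent.H9.FInvol Cfsg.Agent.H9.FTrP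
  Cfsg.Agent.H9.FSpin Cfsg.Agent.H9.FOArith Cfsg.Agent.H9.FOrth

/-- Elements of prime order r ≠ p of Ω_n(q), nq odd, with no fixed hyperbolic `m`-space. Here `T = Ω_n(F)`, `n = 2d+1 ≥ 7`, `q` odd, realised as the commutator subgroup of the isometry group of `Q = x₀² + Σ xᵢyᵢ` over the field `F` with `q` elements (trivial centre, so its elements of prime order `r` are used directly); a nondegenerate `m`-space (even `m`) is a subspace on which the polar form of `Q` is nondegenerate; it is hyperbolic if it contains an `m/2`-dimensional subspace on which `Q` vanishes, elliptic otherwise. Let `m` be even with `2 ≤ m ≤ n − 1` (no restriction `m < n/2`) and let `r ≠ p` be a prime dividing the number of hyperbolic `m`-spaces; for `r ≠ p` let `i` be the multiplicative order of `q` modulo `r`, `c = i` for `i` even and `c = 2i` for `i` odd, and write `k = n mod c`, `ℓ' = m mod c`. Then every element of `T` of order `r` fixes some hyperbolic `m`-space if and only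 if `r = 2`, or `r` is odd and one of: (i) `i` odd, `c ≤ m` and either `k > ℓ' > 0` or `ℓ' = 0`; (ii) `i` even, `i ≤ m`, `k > ℓ'`, and `m/i` even whenever `ℓ' = 0`. (`r = p` is not covered by this statement.) -/
theorem result {F : Type*} [Field F] [Fintype F] {p : ℕ} [Fact p.Prime] [CharP F p] {q : ℕ} (hq : Fintype.card F = q) (hqodd : Odd q)
    (d m : ℕ) (hd : 3 ≤ d) (hm : 2 ≤ m) (hme : Even m) (hmn : m ≤ 2 * d)
    (r : ℕ) [Fact r.Prime] (hrp : r ≠ p)
    (hrΩ : r ∣ Nat.card {W : Submodule F (Unit ⊕ (Fin d ⊕ Fin d) → F) // Module.finrank F ↥W = m ∧ Cfsg.Geo.IsNondegenerateOn (QuadraticMap.polar (Cfsg.quadFormOdd d F)) W ∧ Cfsg.Geo.IsPlusTypeOn (Cfsg.quadFormOdd d F) W})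
    (i c : ℕ) (hi : i = orderOf (q : ZMod r)) (hc : c = if Even i then i else 2 * i) :
    (∀ x : GL (Unit ⊕ (Fin d ⊕ Fin d)) F, x ∈ Cfsg.Geo.omegaGL (Cfsg.quadFormOdd d F) → orderOf x = r →
      ∃ W : Submodule F (Unit ⊕ (Fin d ⊕ Fin d) → F), (Module.finrank F ↥W = m ∧ Cfsg.Geo.IsNondegenerateOn (QuadraticMap.polar (Cfsg.quadFormOdd d F)) W ∧ Cfsg.Geo.IsPlusTypeOn (Cfsg.quadFormOdd d F) W) ∧ W.map (Matrix.toLin' (x : Matrix (Unit ⊕ (Fin d ⊕ Fin d)) (Unit ⊕ (Fin d ⊕ Fin d)) F)) ≤ W) ↔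
    (r = 2 ∨
     (2 < r ∧ Odd i ∧ c ≤ m ∧ (m % c = 0 ∨ (0 < m % c ∧ m % c < (2 * d + 1) % c))) ∨
     (2 < r ∧ Even i ∧ i ≤ m ∧ m % c < (2 * d + 1) % c ∧ (0 < m % c ∨ Even (m / i)))) := by
  have hp2 := two_ne_p hq hqodd
  have t : (2 : F) ≠ 0 := two_ne_zero' hp2
  have hS : (oO d t).Nondeg := quadPQ_nondeg _
  have hn := finrank_odd (F := F) d
  have e : ∀ W : Submodule F (Unit ⊕ (Fin d ⊕ Fin d) → F),
      (Geo.IsNondegenerateOn (QuadraticMap.polar (quadFormOdd d F)) W ∧
        Geo.IsPlusTypeOn (quadFormOdd d F) W) ↔ (oO d t).NondegOn W ∧ (Plus (oO d t) W ↔ True) :=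
    fun W => ((and_congr_right fun h => (iff_true _).to_iff.trans (plus_iff_geo _ h)).trans
      (and_congr_left' ((oO d t).nondegOn_iff_geo W))).symm
  refine Iff.trans (Iff.trans ?_ (forall_omega_orderOf_iff (isNondeg_quadFormOdd d F t) r
    (FAdapt.Fix fun W => finrank F W = m ∧ (oO d t).NondegOn W ∧ (Plus (oO d t) W ↔ True)))) ?_
  · simp only [FAdapt.Fix, e, OrdR.map_le_iff]
  simp only [e] at hrΩ
  have hr2 := (Fact.out : r.Prime).two_le
  by_cases h2 : r = 2
  · subst h2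
    exact iff_of_true (fun f a b _ => invol_type hp2 hS a.isIso b (by omega) hme (by omega) _)
      (Or.inl rfl)
  have hr3 : 2 < r := by omega
  have hε : Plus (oO d t) ⊤ ↔ False := iff_of_false (by rw [Plus, finrank_top]; omega) not_false
  obtain ⟨hΩ, H⟩ := orth_even_iff hq hrp h2 hi hc hS hn hme (by omega) (by omega) (Or.inl t)
    True hε hrΩ
  rw [forall_om_iff' hS (by omega) h2, H]
  have c0 := (blk_id (P := FP.orth F) hq hrp h2 (fun _ => rfl) hi hc).pos hq hrp
  have c1 := nf_facts c0 (even_c hc) (show m < 2 * d + 1 by omega)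
  have c2 := nf_even c0 hΩ
  simp only [Nat.even_iff, Nat.odd_iff, true_iff, false_iff, iff_true, h2, false_or,
    hr3, true_and] at c1 c2 hme hc ⊢
  clear * - c1 c2 hme hc hm
  obtain ⟨a1, a2, a3, a4, a5, a6, a7, a8, a9⟩ := c1
  split_ifs at hc with h3
  · subst hc
    simp only [h3, zero_ne_one, false_and, false_or, true_and] at c2 ⊢
    generalize (2 * d + 1) / c = N, (2 * d + 1) % c = ρ, m / c = M, m % c = μ at *
    rcases a8 with a8 | a8 | a8 <;> constructor <;> intro h <;> omega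
  · simp only [Nat.mod_two_ne_zero.1 h3, one_ne_zero, false_and, or_false, true_and, true_or,
      or_true, and_true, and_false, false_or, not_true, not_false_iff, implies_true, imp_false] at c2 ⊢
    generalize (2 * d + 1) / c = N, (2 * d + 1) % c = ρ, m / c = M, m % c = μ at *
    rcases a8 with a8 | a8 | a8 <;> constructor <;> intro h <;> omega

end Cfsg.Agent.S5992
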