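import Cfsg.Statements.S5994
import Cfsg.Agent.H9.FUnipO

set_option autoImplicit false
set_option linter.unusedVariables false
open scoped MatrixGroups
open Cfsg

namespace Cfsg.Agent.S5994

open Module Polynomial Cfsg.Agent.H9 Cfsg.Agent.Form Cfsg.Agent.Form.PQ Cfsg.Agent.H9.FIdx
  Cfsg.Agent.H9.FCount Cfsg.Agent.H9.FClass Cfsg.Agent.H9.FOrd Cfsg.Agent.H9.Types
  Cfsg.Agent.H9.FInv Cfsg.Agent.H9.FSS Cfsg.Agent.H9.FModel Cfsg.Agent.H9.FNum
  Cfsg.Agent.H9.FAdapt Cfsg.Agent.H9.FSemi Cfsg.Agent.H9.FInvol Cfsg.Agent.H9.FTrP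
  Cfsg.Agent.H9.FSpin Cfsg.Agent.H9.FOArith Cfsg.Agent.H9.FOrth
  Cfsg.Agent.H9.FUnip

/-- A necessary condition for every element of order p of PΩ⁻_n(q), q odd, to fix an elliptic `m`-space. Here `T = PΩ⁻_n(F)`, `n = 2d ≥ 8`, realised through `Ω⁻_n(q)`, the commutator subgroup of the isometry group of `Q = Σ_{i<d−1} xᵢyᵢ + z₁² + a z₁z₂ + b z₂²` with `z₁² + a z₁z₂ + b z₂²` anisotropic, over the field `F` with `q` elements; an element of `T` of prime order `r` is an element `x` of `Ω⁻_n(q)` with `x^r` scalar and `x` not scalar; `q` is odd; a nondegenerate `m`-space (even `m`) is a subspace on which the polar form of `Q` is nondegenerate; it is hyperbolic if it contains an `m/2`-dimensional subspace on which `Q` vanishes, elliptic otherwise. Let `m` be even with `2 ≤ m ≤ n − 2` and suppose `p` divides the number of elliptic `m`-spaces. If every element of `T` of order `p` fixes some elliptic `m`-space, then `n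 ≡ m (mod 4)` and every partition of `n` into parts of size at most `p` in which every even part has even multiplicity contains (as a sub-multiset) a partition of `m` in which every even part has even multiplicity. -/
theorem result {F : Type*} [Field F] [Fintype F] {p : ℕ} [Fact p.Prime] [CharP F p] {q : ℕ} (hq : Fintype.card F = q) (hqodd : Odd q)
    (d m : ℕ) (hd : 4 ≤ d) (hm : 2 ≤ m) (hme : Even m) (hmn : m + 2 ≤ 2 * d) (a b : F) (hab : ∀ x y : F, x ^ 2 + a * x * y + b * y ^ 2 = 0 → x = 0 ∧ y = 0)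
    (hpΩ : p ∣ Nat.card {W : Submodule F ((Fin (d - 1) ⊕ Fin (d - 1)) ⊕ Fin 2 → F) // Module.finrank F ↥W = m ∧ Cfsg.Geo.IsNondegenerateOn (QuadraticMap.polar (Cfsg.quadFormMinus (d - 1) F a b)) W ∧ ¬ Cfsg.Geo.IsPlusTypeOn (Cfsg.quadFormMinus (d - 1) F a b) W}) :
    (∀ x : GL ((Fin (d - 1) ⊕ Fin (d - 1)) ⊕ Fin 2) F, x ∈ Cfsg.Geo.omegaGL (Cfsg.quadFormMinus (d - 1) F a b) →
      (∃ z : F, ((x ^ p : GL ((Fin (d - 1) ⊕ Fin (d - 1)) ⊕ Fin 2) F) : Matrix ((Fin (d - 1) ⊕ Fin (d - 1)) ⊕ Fin 2) ((Fin (d - 1) ⊕ Fin (d - 1)) ⊕ Fin 2) F) = z • (1 : Matrix ((Fin (d - 1) ⊕ Fin (d - 1)) ⊕ Fin 2) ((Fin (d - 1) ⊕ Fin (d - 1)) ⊕ Fin 2) F)) →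
      (∀ z : F, (x : Matrix ((Fin (d - 1) ⊕ Fin (d - 1)) ⊕ Fin 2) ((Fin (d - 1) ⊕ Fin (d - 1)) ⊕ Fin 2) F) ≠ z • (1 : Matrix ((Fin (d - 1) ⊕ Fin (d - 1)) ⊕ Fin 2) ((Fin (d - 1) ⊕ Fin (d - 1)) ⊕ Fin 2) F)) →
      ∃ W : Submodule F ((Fin (d - 1) ⊕ Fin (d - 1)) ⊕ Fin 2 → F), (Module.finrank F ↥W = m ∧ Cfsg.Geo.IsNondegenerateOn (QuadraticMap.polar (Cfsg.quadFormMinus (d - 1) F a b)) W ∧ ¬ Cfsg.Geo.IsPlusTypeOn (Cfsg.quadFormMinus (d - 1) F a b) W) ∧ W.map (Matrix.toLin' (x : Matrix ((Fin (d - 1) ⊕ Fin (d - 1)) ⊕ Fin 2) ((Fin (d - 1) ⊕ Fin (d - 1)) ⊕ Fin 2) F)) ≤ W) →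
    ((2 * d) % 4 = m % 4 ∧ (∀ μ : Multiset ℕ, (∀ e ∈ μ, 0 < e ∧ e ≤ p) → (∀ e : ℕ, Even e → Even (μ.count e)) → μ.sum = 2 * d →
        ∃ ν : Multiset ℕ, ν ≤ μ ∧ ν.sum = m ∧ ∀ e : ℕ, Even e → Even (ν.count e))) := by
  have hp2 := two_ne_p hq hqodd
  have t : (2 : F) ≠ 0 := two_ne_zero' hp2
  have hS : (oM (d - 1) hab).Nondeg := quadPQ_nondeg _
  have hn := finrank_minus (F := F) (d := d) (by omega)
  have : Nontrivial ((Fin (d - 1) ⊕ Fin (d - 1)) ⊕ Fin 2 → F) :=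
    nontrivial_of_finrank_pos (R := F) (by omega)
  intro H
  replace H := (forall_om_iff hS (by omega) hp2.symm _).1 ((forall_omega_iff
    (isNondeg_quadFormMinus (d - 1) F hab) p (FAdapt.Fix fun W => (finrank F W = m ∧
      (oM (d - 1) hab).NondegOn W) ∧ ¬ Plus (oM (d - 1) hab) W)).1
    fun x b1 b2 b3 => let ⟨W, c1, c2⟩ := H x b1 b2 b3
      have c3 := ((oM (d - 1) hab).nondegOn_iff_geo W).2 c1.2.1
      ⟨W, ⟨⟨c1.1, c3⟩, mt (plus_iff_geo _ c3).1 c1.2.2⟩, OrdR.map_le_iff.1 c2⟩)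
  have h4 : 2 * d % 4 = m % 4 := by
    obtain ⟨f, b1, b2, b3, b4⟩ := exists_small hp2 hS (a := 1 + d % 2) (b := (d - 1) / 2)
      (c := 1 - d % 2) (by omega) (Or.inl (by omega)) (by omega)
    obtain ⟨W, ⟨⟨c1, c2⟩, c4⟩, c3⟩ := H f b1 b2 b3
    obtain ⟨a', d1, c', d2, k, d3, d4, -⟩ := b4 W c2 c3
    have d5 : ¬ (a' = 0 ∧ c' = 0) := fun h => c4 (d4 h.1 h.2)
    rw [Nat.even_iff] at hme
    obtain rfl | rfl | rfl : a' = 0 ∨ a' = 1 ∨ a' = 2 := by omega
    all_goals obtain rfl | rfl : c' = 0 ∨ c' = 1 := by omega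
    all_goals omega
  have key : ∀ μ : Multiset ℕ, (∀ e ∈ μ, 0 < e ∧ e ≤ p) → (∀ e : ℕ, Even e → Even (μ.count e)) →
      μ.sum = 2 * d → (∃ e ∈ μ, Odd e) →
      ∃ ν ≤ μ, ν.sum = m ∧ ∀ e : ℕ, Even e → Even (ν.count e) := fun μ a1 a2 a3 a4 => by
    obtain ⟨f, b1, b2⟩ := exists_unip_orth hp2 hS (fun e he => (a1 e he).1) a2 (a3.trans hn.symm)
      (Or.inl a4)
    exact exists_le_of_fix hS (fun _ _ => t) (sk_orth t) (fun _ h => h.1) H (by omega)
      (fun _ => hme) (fun e he => (a1 e he).2) b1 b2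
  refine ⟨h4, fun μ a1 a2 a3 => ?_⟩
  by_cases h : ∃ e ∈ μ, Odd e
  · exact key μ a1 a2 a3 h
  push Not at h
  simp only [Nat.not_odd_iff_even] at h
  obtain ⟨e, he⟩ := μ.empty_or_exists_mem.resolve_left (by rintro rfl; simp at a3; omega)
  obtain ⟨k, rfl⟩ : ∃ k, e = 2 * k + 2 := ⟨e / 2 - 1, by
    have := Nat.even_iff.1 (h e he); have := (a1 e he).1; omega⟩
  obtain ⟨μ, rfl⟩ := exists_add_of_le (Multiset.le_count_iff_replicate_le.1
    (show 2 ≤ μ.count (2 * k + 2) by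
      have := Nat.even_iff.1 (a2 _ (h _ he)); have := Multiset.count_pos.2 he; omega))
  have h1 : ∀ e ∈ μ, Even e := fun e he => h e (Multiset.mem_add.2 (Or.inr he))
  have h2 : ∀ e, Even e → ((2 * k + 3) ::ₘ (2 * k + 1) ::ₘ μ).count e = μ.count e := fun e he => by
    rw [Nat.even_iff] at he
    rw [Multiset.count_cons_of_ne (by omega), Multiset.count_cons_of_ne (by omega)]
  have h3 : ∀ (ν : Multiset ℕ) e, Even ((Multiset.replicate 2 (2 * k + 2) + ν).count e) ↔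
      Even (ν.count e) := fun ν e => by
    rw [Multiset.count_add, Multiset.count_replicate, Nat.even_add]
    split_ifs <;> simp
  obtain ⟨ν, b1, b2, b3⟩ := key ((2 * k + 3) ::ₘ (2 * k + 1) ::ₘ μ) (fun e he' => by
    have := (a1 _ he).2
    have := Nat.odd_iff.1 ((Fact.out : p.Prime).odd_of_ne_two hp2.symm)
    simp only [Multiset.mem_cons] at he'
    rcases he' with rfl | rfl | he'
    exacts [by omega, by omega, a1 e (Multiset.mem_add.2 (Or.inr he'))])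
    (fun e he => h2 e he ▸ (h3 μ e).1 (a2 e he)) (by simp at a3 ⊢; omega)
    ⟨_, Multiset.mem_cons_self _ _, ⟨k + 1, by ring⟩⟩
  have b4 := Multiset.filter_add_not Even ν
  have b5 : ν.filter Even ≤ μ := by
    have := Multiset.filter_le_filter Even b1
    rwa [Multiset.filter_cons_of_neg _ (by simp [Nat.even_iff]),
      Multiset.filter_cons_of_neg _ (by simp), Multiset.filter_eq_self.2 h1] at this
  have b6 : ν.filter (fun e => ¬ Even e) ≤ {2 * k + 3, 2 * k + 1} := by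
    have := Multiset.filter_le_filter (fun e => ¬ Even e) b1
    rwa [Multiset.filter_cons_of_pos _ (by simp [Nat.even_iff]),
      Multiset.filter_cons_of_pos _ (by simp),
      (Multiset.filter_eq_nil (s := μ)).2 (by simpa using h1)] at this
  have b7 : Even (ν.filter Even).sum := (Multiset.dvd_sum fun e he =>
    (Multiset.of_mem_filter he).two_dvd) |> even_iff_two_dvd.2
  have b8 : ∀ e, Even e → Even ((ν.filter Even).count e) := fun e he => by
    rw [Multiset.count_filter_of_pos he]; exact b3 e he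
  rw [← b4, Multiset.sum_add] at b2
  rw [Nat.even_iff] at b7 hme
  have b9 := Multiset.mem_powerset.2 b6
  simp only [Multiset.insert_eq_cons, Multiset.powerset_cons, Multiset.powerset_zero,
    ← Multiset.cons_zero, Multiset.map_add, Multiset.map_cons, Multiset.map_zero, Multiset.mem_add,
    Multiset.mem_cons, Multiset.notMem_zero, or_false] at b9
  rcases b9 with (b9 | b9) | b9 | b9 <;> simp only [b9, Multiset.sum_cons, Multiset.sum_zero] at b2
  · exact ⟨_, b5.trans (Multiset.le_add_left _ _), b2, b8⟩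
  · omega
  · omega
  · exact ⟨_, add_le_add_right b5 _, by simp; omega, fun e he => (h3 _ e).2 (b8 e he)⟩

end Cfsg.Agent.S5994
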