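import Cfsg.Statements.S5995
import Cfsg.Agent.H9.FUnipO

set_option autoImplicit false
set_option linter.unusedVariables false
open scoped MatrixGroups
open Cfsg

namespace Cfsg.Agent.S5995

open Module Polynomial Cfsg.Agent.H9 Cfsg.Agent.Form Cfsg.Agent.Form.PQ Cfsg.Agent.H9.FIdx
  Cfsg.Agent.H9.FCount Cfsg.Agent.H9.FClass Cfsg.Agent.H9.FOrd Cfsg.Agent.H9.Types
  Cfsg.Agent.H9.FInv Cfsg.Agent.H9.FSS Cfsg.Agent.H9.FModel Cfsg.Agent.H9.FNum
  Cfsg.Agent.H9.FAdapt Cfsg.Agent.H9.FSemi Cfsg.Agent.H9.FInvol Cfsg.Agent.H9.FTrP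
  Cfsg.Agent.H9.FSpin Cfsg.Agent.H9.FOArith Cfsg.Agent.H9.FOrth
  Cfsg.Agent.H9.FUnip

/-- A necessary condition for every element of order p of Ω_n(q), nq odd, to fix a hyperbolic `m`-space. Here `T = Ω_n(F)`, `n = 2d+1 ≥ 7`, `q` odd, realised as the commutator subgroup of the isometry group of `Q = x₀² + Σ xᵢyᵢ` over the field `F` with `q` elements (trivial centre, so its elements of prime order `r` are used directly); a nondegenerate `m`-space (even `m`) is a subspace on which the polar form of `Q` is nondegenerate; it is hyperbolic if it contains an `m/2`-dimensional subspace on which `Q` vanishes, elliptic otherwise. Let `m` be even with `2 ≤ m ≤ n − 1` and suppose `p` divides the number of hyperbolic `m`-spaces. If every element of `T` of order `p` fixes some hyperbolic `m`-space, then `m ≡ 0 (mod 4)` and every partition of `n` into parts of size at most `p` in which every even part has even multiplicity contains (as a sub-multiset)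 a partition of `m` in which every even part has even multiplicity. -/
theorem result {F : Type*} [Field F] [Fintype F] {p : ℕ} [Fact p.Prime] [CharP F p] {q : ℕ} (hq : Fintype.card F = q) (hqodd : Odd q)
    (d m : ℕ) (hd : 3 ≤ d) (hm : 2 ≤ m) (hme : Even m) (hmn : m ≤ 2 * d)
    (hpΩ : p ∣ Nat.card {W : Submodule F (Unit ⊕ (Fin d ⊕ Fin d) → F) // Module.finrank F ↥W = m ∧ Cfsg.Geo.IsNondegenerateOn (QuadraticMap.polar (Cfsg.quadFormOdd d F)) W ∧ Cfsg.Geo.IsPlusTypeOn (Cfsg.quadFormOdd d F) W}) :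
    (∀ x : GL (Unit ⊕ (Fin d ⊕ Fin d)) F, x ∈ Cfsg.Geo.omegaGL (Cfsg.quadFormOdd d F) → orderOf x = p →
      ∃ W : Submodule F (Unit ⊕ (Fin d ⊕ Fin d) → F), (Module.finrank F ↥W = m ∧ Cfsg.Geo.IsNondegenerateOn (QuadraticMap.polar (Cfsg.quadFormOdd d F)) W ∧ Cfsg.Geo.IsPlusTypeOn (Cfsg.quadFormOdd d F) W) ∧ W.map (Matrix.toLin' (x : Matrix (Unit ⊕ (Fin d ⊕ Fin d)) (Unit ⊕ (Fin d ⊕ Fin d)) F)) ≤ W) →
    (m % 4 = 0 ∧ (∀ μ : Multiset ℕ, (∀ e ∈ μ, 0 < e ∧ e ≤ p) → (∀ e : ℕ, Even e → Even (μ.count e)) → μ.sum = 2 * d + 1 →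
        ∃ ν : Multiset ℕ, ν ≤ μ ∧ ν.sum = m ∧ ∀ e : ℕ, Even e → Even (ν.count e))) := by
  have hp2 := two_ne_p hq hqodd
  have t : (2 : F) ≠ 0 := two_ne_zero' hp2
  have hS : (oO d t).Nondeg := quadPQ_nondeg _
  have hn := finrank_odd (F := F) d
  intro H
  replace H := (forall_om_iff' hS (by omega) hp2.symm _).1 ((forall_omega_orderOf_iff
    (isNondeg_quadFormOdd d F t) p (FAdapt.Fix fun W => finrank F W = m ∧ (oO d t).NondegOn W)).1
    fun x b1 b2 => let ⟨W, c1, c2⟩ := H x b1 b2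
      ⟨W, ⟨c1.1, ((oO d t).nondegOn_iff_geo W).2 c1.2.1⟩, OrdR.map_le_iff.1 c2⟩)
  refine ⟨?_, fun μ a1 a2 a3 => ?_⟩
  · obtain ⟨f, b1, b2, b3, b4⟩ := exists_small hp2 hS (a := 1 - d % 2) (b := d / 2) (c := d % 2)
      (by omega) (Or.inl (by omega)) (by omega)
    obtain ⟨W, ⟨c1, c2⟩, c3⟩ := H f b1 b2 b3
    obtain ⟨a', d1, c', d2, k, d3, -⟩ := b4 W c2 c3
    rw [Nat.even_iff] at hme
    obtain rfl | rfl : a' = 0 ∨ a' = 1 := by omega
    all_goals obtain rfl | rfl : c' = 0 ∨ c' = 1 := by omega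
    all_goals omega
  obtain ⟨f, b1, b2⟩ := exists_unip_odd hp2 hS (by rw [hn]; simp)
    (real_orth_jordan hp2 (fun e he => (a1 e he).1) a2) (by rw [jordan_natDegree, a3, hn])
  exact exists_le_of_fix hS (fun _ _ => t) (sk_orth t) (fun _ h => h) H (by omega) (fun _ => hme)
    (fun e he => (a1 e he).2) b1 (jt_top b2 fun e he => (a1 e he).1)

end Cfsg.Agent.S5995
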