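import Cfsg.Statements.S5997
import Cfsg.Agent.H2.ElB

set_option autoImplicit false
open scoped MatrixGroups
open Cfsg

namespace Cfsg.Agent.S5997

open Cfsg.Agent.H2.El Cfsg.Agent.Asch Polynomial QuaternionGroup
open scoped commutatorElement

section
variable {F : Type*} [Field F]

theorem ch (x : Matrix (Fin 2) (Fin 2) F) : x * x = x.trace • x - x.det • 1 := by
  ext i j; fin_cases i <;> fin_cases j <;> simp [Matrix.mul_apply, Matrix.trace_fin_two, Matrix.det_fin_two] <;> ring

theorem indep {x : GL (Fin 2) F} (hx : x ∉ Geo.scalars (Fin 2) F) {a b : F} (h : a • x.val = b • 1) : a = 0 ∧ b = 0 := by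
  have : a = 0 := by
    by_contra e
    exact hx ((mem_scalars_iff x).2 ⟨a⁻¹ * b, by rw [← smul_smul, ← h, smul_smul, inv_mul_cancel₀ e, one_smul]⟩)
  exact ⟨this, by simpa [this] using h.symm⟩

theorem data {x : GL (Fin 2) F} (hx : x ∉ Geo.scalars (Fin 2) F) {a b : F} (h : x.val * x.val = a • x.val - b • 1) :
    x.val.trace = a ∧ x.val.det = b := by
  have := indep hx (a := x.val.trace - a) (b := x.val.det - b) (by
    rw [ch] at h; linear_combination (norm := module) h)
  exact ⟨sub_eq_zero.1 this.1, sub_eq_zero.1 this.2⟩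

theorem conj [Finite F] {x y : GL (Fin 2) F} (hx : x ∉ Geo.scalars (Fin 2) F) (hy : y ∉ Geo.scalars (Fin 2) F) {a : F}
    (h1 : x.val * x.val = a • x.val - (1 : F) • 1) (h2 : y.val * y.val = a • y.val - (1 : F) • 1) {m : ℕ} (hm : (m : F) ≠ 0)
    (h3 : x ^ m = 1) (h4 : y ^ m = 1) : ∃ g ∈ Geo.specialLinear (Fin 2) F, g⁻¹ * x * g = y :=
  conj_sl (P := X ^ m - 1) (X_pow_sub_one_separable_iff.2 hm).squarefree
    (by simp [← Units.val_pow_eq_pow_val, h3]) (by simp [← Units.val_pow_eq_pow_val, h4])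
    (by rw [Matrix.charpoly_fin_two, Matrix.charpoly_fin_two, (data hx h1).1, (data hx h1).2, (data hy h2).1,
      (data hy h2).2])

end

/-- Elements of prime order of PSL_2(p) and the normalizer of a quaternion subgroup. Here `T = PSL_2(F)` for the field `F` with `p` elements, `p ≥ 5` prime; `R` is a subgroup of GL_2(F) isomorphic to the quaternion group of order 8 (an absolutely irreducible 2-group of symplectic type), and `H` is the subgroup of matrices of determinant 1 normalizing `R` — a subgroup of type 2^{1+2}.O₂⁻(2), isomorphic modulo scalars to A₄ or S₄ (maximality is not assumed). Ω is the set of cosets of `H` in `T`, so an element of `T` of prime order `r` (a matrix `x` of determinant 1 with `x^r` scalar, `x` not scalar) fixes a point of Ω exactly when some conjugate of `x` by a matrix of determinant 1 normalizes `R`. Let `r` be a prime dividing the index of `H`. Then every element of `T` of order `r` fixes a point of Ω if and only if `r = 2` or `r = 3`. -/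
theorem result {F : Type*} [Field F] [Fintype F] {p : ℕ} [Fact p.Prime] [CharP F p] (hF : Fintype.card F = p) (hp : 5 ≤ p)
    (R : Subgroup (GL (Fin 2) F)) (hR : Nonempty (↥R ≃* QuaternionGroup 2))
    (r : ℕ) [Fact r.Prime]
    (hΩ : r ∣ (Cfsg.Geo.subgroupNormalizer R).relIndex (Cfsg.Geo.specialLinear (Fin 2) F)) :
    (∀ x ∈ Cfsg.Geo.specialLinear (Fin 2) F, (∃ z : F, ((x ^ r : GL (Fin 2) F) : Matrix (Fin 2) (Fin 2) F) = z • (1 : Matrix (Fin 2) (Fin 2) F)) →
      (∀ z : F, (x : Matrix (Fin 2) (Fin 2) F) ≠ z • (1 : Matrix (Fin 2) (Fin 2) F)) →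
      ∃ g ∈ Cfsg.Geo.specialLinear (Fin 2) F, g⁻¹ * x * g ∈ Cfsg.Geo.subgroupNormalizer R) ↔ (r = 2 ∨ r = 3) := by
  have hr : r.Prime := Fact.out
  have hc : ∀ k : ℕ, 0 < k → k < 5 → (k : F) ≠ 0 := fun k k0 k5 e =>
    absurd (Nat.le_of_dvd k0 ((CharP.cast_eq_zero_iff F p k).1 e)) (by omega)
  have h2 : (2 : F) ≠ 0 := by exact_mod_cast hc 2 (by omega) (by omega)
  obtain ⟨e⟩ := hR
  let f : QuaternionGroup 2 →* GL (Fin 2) F := R.subtype.comp e.symm.toMonoidHom
  have f1 : Function.Injective f := Subtype.val_injective.comp e.symm.injective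
  have f2 : ∀ q, f q ∈ R := fun q => (e.symm q).2
  have f3 : ∀ x ∈ R, ∃ q, x = f q := fun x hx => ⟨e ⟨x, hx⟩, by simp [f]⟩
  have z1 : (f (a 2)).val = -1 := by
    have e1 : (f (a 2)).val * (f (a 2)).val = 1 := by
      rw [← Units.val_mul, ← map_mul, show (a 2 * a 2 : QuaternionGroup 2) = 1 by decide, map_one, Units.val_one]
    by_cases h : f (a 2) ∈ Geo.scalars (Fin 2) F
    · obtain ⟨c, hc⟩ := (mem_scalars_iff _).1 h
      rw [hc, Matrix.smul_mul, one_mul, smul_smul] at e1
      rcases mul_self_eq_one_iff.1 (show c * c = 1 by simpa using congrFun (congrFun e1 0) 0) with rfl | rfl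
      · exact absurd (f1 (Units.ext (hc.trans (by simp))) : a 2 = 1) (by decide)
      · simpa using hc
    · have := (data h (a := 0) (b := -1) (by simpa using e1)).2
      rw [show (a 2 : QuaternionGroup 2) = ⁅(a 1 : QuaternionGroup 2), xa 0⁆ by decide, map_commutatorElement] at this
      have e2 : (⁅f (a 1), f (xa 0)⁆).val.det = 1 :=
        congrArg Units.val (show Matrix.GeneralLinearGroup.det ⁅f (a 1), f (xa 0)⁆ = 1 by
          simp [commutatorElement_eq_one_iff_mul_comm, mul_comm])
      exact absurd (by linear_combination e2 - this) h2.symm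
  have z2 : f (a 2) ∈ Geo.scalars (Fin 2) F := (mem_scalars_iff _).2 ⟨-1, by simp [z1]⟩
  set I := (f (a 1)).val with hI
  set J := (f (xa 0)).val with hJ
  have rel : ∀ q q' q'', q * q' = q'' → (f q).val * (f q').val = (f q'').val := fun q q' q'' h => by
    rw [← Units.val_mul, ← map_mul, h]
  have II : I * I = -1 := (rel _ _ _ (by decide)).trans z1
  have JJ : J * J = -1 := (rel _ _ _ (by decide)).trans z1
  have JI : J * I = -(I * J) := by
    rw [rel _ _ _ rfl, rel _ _ _ rfl, ← neg_one_mul, ← z1, rel _ _ _ rfl]; congr 2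
  have II' : ∀ X, I * (I * X) = -X := fun X => by rw [← mul_assoc, II, neg_one_mul]
  have JJ' : ∀ X, J * (J * X) = -X := fun X => by rw [← mul_assoc, JJ, neg_one_mul]
  have JI' : ∀ X, J * (I * X) = -(I * (J * X)) := fun X => by rw [← mul_assoc, JI, neg_mul, mul_assoc]
  have tr0 : ∀ X Y Z : Matrix (Fin 2) (Fin 2) F, Y * Z = 1 → Y * X * Z = -X → X.trace = 0 := fun X Y Z h1 h3 => by
    have := congrArg Matrix.trace h3
    rw [Matrix.trace_mul_cycle, mul_eq_one_comm.1 h1, one_mul, Matrix.trace_neg] at this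
    exact (mul_eq_zero.1 (show 2 * X.trace = 0 by linear_combination this)).resolve_left h2
  have tI : I.trace = 0 := tr0 I J (-J) (by simp [JJ]) (by simp [JI, mul_assoc, JJ])
  have tJ : J.trace = 0 := tr0 J I (-I) (by simp [II]) (by simp [JI, mul_assoc, II'])
  have tK : (I * J).trace = 0 := tr0 _ J (-J) (by simp [JJ]) (by simp [JI', mul_assoc, JJ])
  have hf : Full (Geo.matrixSet R) := by
    have : LinearIndependent F ![1, I, J, I * J] := Fintype.linearIndependent_iff.2 fun c h i => by
      have := congrArg (fun X => (![1, I, J, I * J] i * X).trace) h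
      fin_cases i <;>
        simpa [Fin.sum_univ_four, mul_add, mul_assoc, II, JJ, JI, II', JJ', JI', tI, tJ, tK, h2] using this
    refine top_unique ((this.span_eq_top_of_card_eq_finrank (by simp [Module.finrank_matrix])).ge.trans
      (Submodule.span_mono ?_))
    rintro _ ⟨i, rfl⟩
    fin_cases i
    exacts [⟨1, R.one_mem, rfl⟩, ⟨_, f2 _, rfl⟩, ⟨_, f2 _, rfl⟩, ⟨_, R.mul_mem (f2 _) (f2 _), rfl⟩]
  have nI : f (a 1) ∉ Geo.scalars (Fin 2) F := fun h => absurd (f1 ((map_mul ..).trans ((scalar_comm h (f (xa 0))).trans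
    (map_mul ..).symm))) (by decide)
  have hz : ∀ q : QuaternionGroup 2, q = 1 ∨ q = a 2 → f q ∈ Geo.scalars (Fin 2) F := by
    rintro _ (rfl | rfl)
    exacts [map_one f ▸ one_mem _, z2]
  have hn : NCore R 2 := ⟨Nat.prime_two, fun h => nI (h (f2 _)), fun x hx y hy => by
    obtain ⟨x, rfl⟩ := f3 x hx
    obtain ⟨y, rfl⟩ := f3 y hy
    rw [← map_commutatorElement]
    exact hz _ (by clear hx hy; revert x y; decide), fun x hx => by
    obtain ⟨x, rfl⟩ := f3 x hx
    rw [← map_pow]
    exact hz _ (by clear hx; revert x; decide)⟩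
  rw [elu_iff]
  refine ⟨fun h => ?_, ?_⟩
  · by_contra h'
    push Not at h'
    refine not_elu_big hn hf le_rfl hr hΩ (by simpa using hr.odd_of_ne_two h'.1) h'.1 (fun k k1 k2 k3 => ?_) h
    rw [Fintype.card_fin] at k1 k2 k3
    interval_cases k
    · simp at k1
    · exact absurd ((Nat.prime_dvd_prime_iff_eq hr Nat.prime_three).1
        ((Nat.modEq_iff_dvd' (by omega)).1 k3.symm)) h'.2
    · rfl
    · omega
  rintro (rfl | rfl) x hx h1 h3
  · obtain ⟨z, h1⟩ := (mem_scalars_iff _).1 h1
    rw [sq, Units.val_mul] at h1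
    have e1 := (data h3 (a := 0) (b := -z) (by simpa using h1)).2
    rw [det_of_sl hx] at e1
    obtain rfl : z = -1 := by rw [e1, neg_neg]
    obtain ⟨g, hg, e⟩ := conj h3 nI (a := 0) (by simpa using h1) (by simpa using II) (m := 4) (hc 4 (by omega) (by omega))
      (Units.ext (by simp [pow_succ, h1, mul_assoc])) (by rw [← map_pow, show (a 1 : QuaternionGroup 2) ^ 4 = 1 by decide, map_one])
    exact ⟨g, hg, e ▸ Subgroup.le_normalizer (f2 _)⟩
  · obtain ⟨z, h1⟩ := (mem_scalars_iff _).1 h1
    have e1 := ch x.val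
    rw [det_of_sl hx] at e1
    set t := x.val.trace
    have e2 := (indep h3 (a := t * t - 1) (b := z + t) (by
      rw [pow_three, Units.val_mul, Units.val_mul, e1, mul_sub, Matrix.mul_smul, e1] at h1
      linear_combination (norm := skip) h1
      simp only [Matrix.mul_smul, mul_one]; module)).1
    have t0 : t ≠ 0 := by rintro e; simp [e] at e2
    let c : Matrix (Fin 2) (Fin 2) F := (2 : F)⁻¹ • (I + J + I * J - 1)
    have c1 : c * c = (-1 : F) • c - (1 : F) • 1 := by
      simp only [c, Matrix.smul_mul, Matrix.mul_smul, mul_add, add_mul, mul_sub, sub_mul, mul_assoc, II, JJ, JI, II',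
        JJ', JI', mul_neg, mul_one, one_mul, neg_neg]
      match_scalars <;> field_simp <;> ring
    let y : GL (Fin 2) F := ⟨c, -c - 1, by rw [mul_sub, mul_neg, c1, mul_one]; module,
      by rw [sub_mul, neg_mul, c1, one_mul]; module⟩
    have c2 : c * I = I * J * c := by
      simp only [c, Matrix.smul_mul, Matrix.mul_smul, mul_add, add_mul, mul_sub, sub_mul, mul_assoc, II, JJ, JI, II',
        JJ', JI', mul_neg, mul_one, one_mul, neg_neg]
      module
    have c3 : c * J = I * c := by
      simp only [c, Matrix.smul_mul, Matrix.mul_smul, mul_add, add_mul, mul_sub, sub_mul, mul_assoc, II, JJ, JI, II',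
        JJ', JI', mul_neg, mul_one, one_mul, neg_neg]
      module
    have y1 : y * f (a 1) * y⁻¹ = f (a 1) * f (xa 0) := mul_inv_eq_iff_eq_mul.2 (Units.ext c2)
    have y2 : y * f (xa 0) * y⁻¹ = f (a 1) := mul_inv_eq_iff_eq_mul.2 (Units.ext c3)
    have cube : ∀ u : GL (Fin 2) F, u.val * u.val = (-1 : F) • u.val - (1 : F) • 1 → u ^ 3 = 1 := fun u h =>
      Units.ext (by
        rw [pow_three, Units.val_mul, Units.val_mul, h, mul_sub, Matrix.mul_smul, h]
        simp only [Matrix.mul_smul, mul_one, Units.val_one]; module)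
    have e3 : (sc (Fin 2) (Units.mk0 (-t) (neg_ne_zero.2 t0)) * x).val * (sc (Fin 2) (Units.mk0 (-t) (neg_ne_zero.2 t0)) * x).val =
        (-1 : F) • (sc (Fin 2) (Units.mk0 (-t) (neg_ne_zero.2 t0)) * x).val - (1 : F) • 1 := by
      simp only [Units.val_mul, coe_sc, Matrix.smul_mul, Matrix.mul_smul, one_mul, e1, Units.val_mk0]
      match_scalars
      · linear_combination t * e2
      · linear_combination -e2
    obtain ⟨g, hg, e⟩ := conj (y := y) (fun h => h3 ((Subgroup.mul_mem_cancel_left _ (sc_mem _)).1 h)) (fun h => by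
      rw [scalar_comm h, mul_inv_cancel_right] at y2
      exact absurd (f1 y2) (by decide)) e3 c1 (hc 3 (by omega) (by omega)) (cube _ e3) (cube y c1)
    refine ⟨g, hg, of_sc (e.symm ▸ (?_ : y ∈ Geo.subgroupNormalizer R))⟩
    refine norm_of_gen (S := {f (a 1), f (xa 0)}) (le_antisymm (fun x hx => ?_) ?_) ?_
    · obtain ⟨q, rfl⟩ := f3 x hx
      obtain ⟨i, j, rfl⟩ : ∃ (i : Fin 4) (j : Fin 2), q = a 1 ^ i.val * xa 0 ^ j.val := by
        clear hx; revert q; decide
      rw [map_mul, map_pow, map_pow]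
      exact mul_mem (pow_mem (Subgroup.subset_closure (by simp)) _) (pow_mem (Subgroup.subset_closure (by simp)) _)
    · rw [Subgroup.closure_le]
      rintro _ (rfl | rfl) <;> exact f2 _
    · rintro _ (rfl | rfl)
      exacts [y1 ▸ R.mul_mem (f2 _) (f2 _), y2 ▸ f2 _]

end Cfsg.Agent.S5997
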