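import Cfsg.Statements.S5999
import Cfsg.Agent.H2.ElC
import Cfsg.Agent.H9.FAdapt

set_option autoImplicit false
open scoped MatrixGroups
open Cfsg

namespace Cfsg.Agent.S5999

open Cfsg.Agent.H2.El Cfsg.Agent.Asch Cfsg.Agent.Form Cfsg.Agent.H9.FAdapt

/-- Elements of prime order of PSU_3(p), p ≡ 2 (mod 3), and the normalizer of an extraspecial subgroup of order 27. Here `T = PSU_3(p)` for a prime `p ≥ 5` with `p ≡ 2 (mod 3)`, realised through `SU_3(p)`, the matrices of determinant 1 over the field `F` with `p²` elements preserving the hermitian form `Σ uᵢvᵢ^p`; `R` is a non-abelian subgroup of order 27 and exponent 3 of the full unitary group of that form (an extraspecial group 3^{1+2}, acting absolutely irreducibly), and `H` is the subgroup of `SU_3(p)` normalizing `R` — a subgroup of type 3^{1+2}.Sp₂(3) (maximality is not assumed). Ω is the set of cosets of `H`, so an element of `T` of prime order `r` (`x ∈ SU_3(p)` with `x^r` scalar, `x` not scalar) fixes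 a point of Ω exactly when some `SU_3(p)`-conjugate of `x` normalizes `R`. Let `r` be a prime dividing the index of `H`. Then every element of `T` of order `r` fixes a point of Ω if and only if `r = 2`, or `r = 3` and `p ≡ 8 (mod 9)`. -/
theorem result {F : Type*} [Field F] [Fintype F] {p : ℕ} [Fact p.Prime] [CharP F p] (hF : Fintype.card F = p ^ 2) (hp : 5 ≤ p) (hp3 : p % 3 = 2)
    (R : Subgroup (GL (Fin 3) F)) (hRU : R ≤ Cfsg.GU 3 F p) (hR : Nat.card R = 27) (hRe : Monoid.exponent R = 3) (hRna : ¬ IsMulCommutative R)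
    (r : ℕ) [Fact r.Prime]
    (hΩ : r ∣ (Cfsg.Geo.subgroupNormalizer R).relIndex (Cfsg.GU 3 F p ⊓ Cfsg.Geo.specialLinear (Fin 3) F)) :
    (∀ x ∈ Cfsg.GU 3 F p ⊓ Cfsg.Geo.specialLinear (Fin 3) F, (∃ z : F, ((x ^ r : GL (Fin 3) F) : Matrix (Fin 3) (Fin 3) F) = z • (1 : Matrix (Fin 3) (Fin 3) F)) →
      (∀ z : F, (x : Matrix (Fin 3) (Fin 3) F) ≠ z • (1 : Matrix (Fin 3) (Fin 3) F)) →
      ∃ g ∈ Cfsg.GU 3 F p ⊓ Cfsg.Geo.specialLinear (Fin 3) F, g⁻¹ * x * g ∈ Cfsg.Geo.subgroupNormalizer R) ↔ (r = 2 ∨ (r = 3 ∧ p % 9 = 8)) := by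
  have hp' : p.Prime := Fact.out
  have h2 : (2 : F) ≠ 0 := fun e => by
    have := (Nat.prime_dvd_prime_iff_eq hp' Nat.prime_two).1 ((CharP.cast_eq_zero_iff F p 2).1 (by exact_mod_cast e))
    omega
  have hS := uS_nondeg hF 3
  rw [elu_iff, main3 (G := GU 3 F p) hR hRe hRna (by rw [hF, Nat.pow_mod, hp3]) h2 (fun x hx y hy s h1 h3 e =>
    conj_su (unit_ne (isUnitaryForm_hermForm hF 3)) hS hp' (by omega) hx hy h1 h3 e) (fun hf y hy h1 => ?_) Fact.out hΩ, hF]
  · have : p % 9 = 2 ∨ p % 9 = 5 ∨ p % 9 = 8 := by omega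
    rcases this with e | e | e <;> simp [Nat.pow_mod, e]
  obtain ⟨c, hc⟩ := sim_of_norm hS hRU hf hy
  have e1 : c ^ 3 = 1 := by simpa [det_adj hS, h1] using (congrArg Matrix.det hc).symm
  have e2 := congrArg (adj (uS hF 3)) hc
  rw [adj_mul hS, adj_adj hS, hc, adj_smul hS, adj_one hS] at e2
  have e3 : c = c ^ p := by simpa using congrFun (congrFun e2 0) 0
  rw [show p = 3 * (p / 3) + 2 by omega, pow_add, pow_mul, e1, one_pow] at e3
  obtain rfl : c = 1 := by linear_combination (-c * c) * e3 - (c - 1) * e1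
  exact iso_of_adj hS (mul_eq_one_comm.1 (by simpa using hc))

end Cfsg.Agent.S5999
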