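import Cfsg.Statements.S6000
import Cfsg.Agent.H2.ElE

set_option autoImplicit false
open scoped MatrixGroups
open Cfsg

namespace Cfsg.Agent.S6000

open Cfsg.Agent.H2.El Cfsg.Agent.Asch Polynomial

/-- Elements of prime order of PSL_4(p), p ≡ 1 (mod 4), and the normalizer of a 2-group of symplectic type of order 2⁶. Here `T = PSL_4(F)` for the field `F` with `p` elements, `p` a prime with `p ≡ 1 (mod 4)`; `R` is an absolutely irreducible subgroup of GL_4(F) of order 2⁶ that is a 2-group of symplectic type of exponent 4 with centre of order 4 (the central product of the scalars of order 4 with an extraspecial group 2^{1+4}), and `H` is the subgroup of matrices of determinant 1 normalizing `R` — a subgroup of type 2⁴.Sp₄(2) (maximality is not assumed). Ω is the set of cosets of `H` in `T`, so an element of `T` of prime order `r` (a matrix `x` of determinant 1 with `x^r` scalar, `x` not scalar) fixes a point of Ω exactly when some conjugate of `x` by a matrix of determinant 1 normalizes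 `R`. Let `r` be a prime dividing the index of `H`. Then every element of `T` of order `r` fixes a point of Ω if and only if `r = 2`, or `r = 3` and `p ≡ 2 (mod 3)`, or `r = 5` and `p ≡ ±2 (mod 5)` (`p` has multiplicative order 4 modulo 5). -/
theorem result {F : Type*} [Field F] [Fintype F] {p : ℕ} [Fact p.Prime] [CharP F p] (hF : Fintype.card F = p) (hp4 : p % 4 = 1)
    (R : Subgroup (GL (Fin 4) F)) (hR : Cfsg.Geo.IsLinearSymplecticTypeData 2 R) (hR6 : Nat.card R = 2 ^ 6)
    (r : ℕ) [Fact r.Prime]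
    (hΩ : r ∣ (Cfsg.Geo.subgroupNormalizer R).relIndex (Cfsg.Geo.specialLinear (Fin 4) F)) :
    (∀ x ∈ Cfsg.Geo.specialLinear (Fin 4) F, (∃ z : F, ((x ^ r : GL (Fin 4) F) : Matrix (Fin 4) (Fin 4) F) = z • (1 : Matrix (Fin 4) (Fin 4) F)) →
      (∀ z : F, (x : Matrix (Fin 4) (Fin 4) F) ≠ z • (1 : Matrix (Fin 4) (Fin 4) F)) →
      ∃ g ∈ Cfsg.Geo.specialLinear (Fin 4) F, g⁻¹ * x * g ∈ Cfsg.Geo.subgroupNormalizer R) ↔ (r = 2 ∨ (r = 3 ∧ p % 3 = 2) ∨ (r = 5 ∧ orderOf (p : ZMod 5) = 4)) := by
  have hp : p.Prime := Fact.out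
  have hr : r.Prime := Fact.out
  have hc : ∀ q : ℕ, q.Prime → q ≠ p → (q : F) ≠ 0 := fun q hq h e =>
    h ((Nat.prime_dvd_prime_iff_eq hp hq).1 ((CharP.cast_eq_zero_iff F p q).1 e)).symm
  have h2 : (2 : F) ≠ 0 := by exact_mod_cast hc 2 Nat.prime_two (by omega)
  have h3 : (3 : F) ≠ 0 := by exact_mod_cast hc 3 Nat.prime_three (by omega)
  obtain ⟨a, b, c, d, h, z, hz, i, hi, hz'⟩ := exists_cl_cx (by simp) hR.symplecticType hR.absIrred h2 (by
    obtain ⟨_, _, -, -, h | h | h⟩ := hR.field
    · exact absurd h.1 (by decide)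
    · exact h.2.2.1
    · simp at h)
  rw [elu_iff, ← top_inf_eq (Geo.specialLinear (Fin 4) F)]
  rw [← top_inf_eq (Geo.specialLinear (Fin 4) F)] at hΩ
  refine ⟨fun he => ?_, ?_⟩
  · by_contra h'
    push Not at h'
    by_cases r3 : r = 3
    · subst r3
      have := hp.two_le
      have : p % 3 ≠ 0 := fun e => by
        have := (Nat.prime_dvd_prime_iff_eq Nat.prime_three hp).1 (Nat.dvd_of_mod_eq_zero e)
        omega
      obtain ⟨ω, hω⟩ := exists_root (F := F) (m := 3) (by have := h'.2.1 rfl; omega)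
      exact not_elu_three (G := ⊤) h.nc h.full hω (fun _ _ => trivial) he
    by_cases r5 : r = 5
    · subst r5
      obtain ⟨τ, hτ, -⟩ := exists_tau F (p := p) (by omega) (h'.2.2 rfl)
      exact not_elu_five h.card h.nc h.full inf_le_right hτ (tv_top _).inf he
    exact not_elu_seven h.card h.nc h.full inf_le_right hr h'.1 r3 r5 hΩ he
  rintro (rfl | ⟨rfl, e⟩ | ⟨rfl, e⟩)
  · exact h.elu_two (.inl rfl) hz hi hz' (fun x _ y _ t t0 h1 h3 e => by
      simpa using conj_sl (P := X ^ 2 - C (t * t)) (separable_X_pow_sub_C _ (by exact_mod_cast h2)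
        (mul_ne_zero t0 t0)).squarefree (by simp [h1, Algebra.algebraMap_eq_smul_one, smul_smul])
        (by simp [h3, Algebra.algebraMap_eq_smul_one, smul_smul]) e) fun _ _ _ _ _ => trivial
  · refine h.elu_three (.inl rfl) h3 hz hi hz' (fun x _ y _ h1 h4 e => by
      simpa using conj_sl (P := X ^ 3 - 1) (X_pow_sub_one_separable_iff.2 (by exact_mod_cast h3)).squarefree
        (by simp [← Units.val_pow_eq_pow_val, h1]) (by simp [← Units.val_pow_eq_pow_val, h4]) e) fun _ _ ω hω _ _ => ?_
    have e1 := FiniteField.pow_card ω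
    have e2 : ω ^ 3 = 1 := by linear_combination (ω - 1) * hω
    rw [hF, show p = 3 * (p / 3) + 2 by omega, pow_add, pow_mul, e2, one_pow] at e1
    exact h3 (by linear_combination (2 * ω + 1) * e1 + (3 - 2 * ω) * hω)
  · have h5 : 5 ≠ p := by rintro rfl; simp [show (5 : ZMod 5) = 0 from rfl] at e
    have := Fact.mk Nat.prime_five
    exact h.elu_five (.inl rfl) (by exact_mod_cast hc 5 Nat.prime_five h5) fun x _ h1 h4 =>
      fpf_of_dvd h5 h.card h1 h4 fun _ => e.symm.dvd.trans (H9.FSS.dvd_finrank_of_le_Dx hF h5 (H9.FSS.inv_Dx 5) le_rfl)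

end Cfsg.Agent.S6000
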