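import Cfsg.Statements.S6001
import Cfsg.Agent.H2.ElE
import Cfsg.Agent.Asch.Bilin

set_option autoImplicit false
open scoped MatrixGroups
open Cfsg

namespace Cfsg.Agent.S6001

open Cfsg.Agent.H2.El Cfsg.Agent.Asch Cfsg.Agent.Form Cfsg.Agent.H9.FAdapt Polynomial

/-- Elements of prime order of PSU_4(p), p ≡ 3 (mod 4), and the normalizer of a 2-group of symplectic type of order 2⁶. Here `T = PSU_4(p)` for a prime `p ≡ 3 (mod 4)`, realised through `SU_4(p)`, the matrices of determinant 1 over the field `F` with `p²` elements preserving the hermitian form `f = Σ uᵢvᵢ^p`; `R` is an absolutely irreducible subgroup of the full unitary group of `f` of order 2⁶ that is a 2-group of symplectic type of exponent 4 with centre of order 4, and `H` is the subgroup of `SU_4(p)` normalizing `R` — a subgroup of type 2⁴.Sp₄(2) (maximality is not assumed). Ω is the set of cosets of `H`, so an element of `T` of prime order `r` (`x ∈ SU_4(p)` with `x^r` scalar,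 `x` not scalar) fixes a point of Ω exactly when some `SU_4(p)`-conjugate of `x` normalizes `R`. Let `r` be a prime dividing the index of `H`. Then every element of `T` of order `r` fixes a point of Ω if and only if `r = 2`, or `r = 3` and `p ≡ 1 (mod 3)`, or `r = 5` and `p ≡ ±2 (mod 5)` (`p` has multiplicative order 4 modulo 5). -/
theorem result {F : Type*} [Field F] [Fintype F] {p : ℕ} [Fact p.Prime] [CharP F p] (hF : Fintype.card F = p ^ 2) (hp4 : p % 4 = 3)
    (R : Subgroup (GL (Fin 4) F)) (hRs : Cfsg.Geo.IsSymplecticTypeGroup 2 R) (hRi : Cfsg.Geo.ActsAbsolutelyIrreducibly (Cfsg.Geo.matrixSet R))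
    (hRU : R ≤ Cfsg.GU 4 F p) (hR6 : Nat.card R = 2 ^ 6) (hRZ : Nat.card (Subgroup.center R) = 4)
    (r : ℕ) [Fact r.Prime]
    (hΩ : r ∣ (Cfsg.Geo.subgroupNormalizer R).relIndex (Cfsg.GU 4 F p ⊓ Cfsg.Geo.specialLinear (Fin 4) F)) :
    (∀ x ∈ Cfsg.GU 4 F p ⊓ Cfsg.Geo.specialLinear (Fin 4) F, (∃ z : F, ((x ^ r : GL (Fin 4) F) : Matrix (Fin 4) (Fin 4) F) = z • (1 : Matrix (Fin 4) (Fin 4) F)) →
      (∀ z : F, (x : Matrix (Fin 4) (Fin 4) F) ≠ z • (1 : Matrix (Fin 4) (Fin 4) F)) →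
      ∃ g ∈ Cfsg.GU 4 F p ⊓ Cfsg.Geo.specialLinear (Fin 4) F, g⁻¹ * x * g ∈ Cfsg.Geo.subgroupNormalizer R) ↔ (r = 2 ∨ (r = 3 ∧ p % 3 = 1) ∨ (r = 5 ∧ orderOf (p : ZMod 5) = 4)) := by
  have h5 : ∀ a : ZMod 5, (a ^ 4 = 1 ∧ ∀ m < 4, 0 < m → a ^ m ≠ 1) → a ^ 2 = -1 ∧ a ≠ 1 ∧ a ≠ -1 := by decide
  have hp : p.Prime := Fact.out
  have hr : r.Prime := Fact.out
  have hc : ∀ q : ℕ, q.Prime → q ≠ p → (q : F) ≠ 0 := fun q hq h e =>
    h ((Nat.prime_dvd_prime_iff_eq hp hq).1 ((CharP.cast_eq_zero_iff F p q).1 e)).symm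
  have h2 : (2 : F) ≠ 0 := by exact_mod_cast hc 2 Nat.prime_two (by omega)
  obtain ⟨a, b, c, d, h, z, hz, i, hi, hz'⟩ := exists_cl_cx (by simp) hRs hRi h2 hRZ
  have hS := uS_nondeg hF 4
  have hne := unit_ne (isUnitaryForm_hermForm hF 4)
  have hG : GOK (GU 4 F p) R := .inr ⟨_, _, hS, rfl, hRU⟩
  have tv : ∀ κ : F, κ ^ p = κ → TV (GU 4 F p ⊓ Geo.specialLinear (Fin 4) F) κ := fun κ hκ => by
    obtain ⟨u, -, u0, hu⟩ := (H6.SU.trP hne).exists_sing_of_two_le (uS hF 4) ⊤ (by simp)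
    obtain ⟨l, l0, hl⟩ := H6.SU.exists_tr_zero hne (unit_invol (isUnitaryForm_hermForm hF 4))
    exact (tv_form hS hu u0 l0 (by simpa using hl) hκ).inf
  have cp : ∀ m (w α : F), IsPrimitiveRoot w m → 0 < m → α ≠ 0 → ∀ x ∈ GU 4 F p, ∀ y ∈ GU 4 F p, x.val ^ m = α ^ m • 1 →
      y.val ^ m = α ^ m • 1 → x.val.charpoly = y.val.charpoly →
      ∃ g ∈ GU 4 F p ⊓ Geo.specialLinear (Fin 4) F, g⁻¹ * x * g = y := fun m w α hw hm h0 x hx y hy h1 h3 e =>
    let ⟨_, _, hs⟩ := split_pow (ι := Fin 4) hw hm rfl (pow_ne_zero m h0)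
    conj_su hne hS hp (by omega) hx hy (hs _ h1) (hs _ h3) e
  have root : p % 3 ≠ 0 → ∃ ω : F, IsPrimitiveRoot ω 3 := fun e => exists_root (by
    have : p ^ 2 % 3 = 1 := by
      have : p % 3 = 1 ∨ p % 3 = 2 := by omega
      rcases this with e | e <;> rw [Nat.pow_mod, e]
    omega)
  rw [elu_iff]
  refine ⟨fun he => ?_, ?_⟩
  · by_contra h'
    push Not at h'
    by_cases r3 : r = 3
    · subst r3
      by_cases e : p % 3 = 0
      · exact not_elu_char h.card h.nc h.full inf_le_right hr (by omega) ((CharP.cast_eq_zero_iff F p 3).2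
          ((Nat.prime_dvd_prime_iff_eq Nat.prime_three hp).1 (Nat.dvd_of_mod_eq_zero e)).symm.dvd)
          (tv 0 (zero_pow hp.ne_zero)) he
      obtain ⟨ω, hω⟩ := root e
      refine not_elu_three (G := GU 4 F p) h.nc h.full hω (fun x hx u v => ?_) he
      have e1 : ω * ω ^ p = 1 := by
        have := h'.2.1 rfl
        rw [← pow_succ', hω.pow_eq_one_iff_dvd]; omega
      simp only [hermForm, Units.coeHom_apply, hx, Matrix.mulVec_diagonal, Fin.sum_univ_four, mul_pow]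
      simp
      linear_combination (u 0 * v 0 ^ p + u 1 * v 1 ^ p + u 2 * v 2 ^ p) * e1
    by_cases r5 : r = 5
    · subst r5
      obtain ⟨τ, hτ, e⟩ := exists_tau F (p := p) (by omega) (h'.2.2 rfl)
      exact not_elu_five h.card h.nc h.full inf_le_right hτ (tv _ (by
        rw [sub_pow_char, e, ← one_add_one_eq_two, add_pow_char, one_pow])) he
    exact not_elu_seven h.card h.nc h.full inf_le_right hr h'.1 r3 r5 hΩ he
  rintro (rfl | ⟨rfl, e⟩ | ⟨rfl, e⟩)
  · refine h.elu_two hG hz hi hz' (fun x hx y hy t t0 h1 h3 => cp 2 _ t (prim_two h2) two_pos t0 x hx y hy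
      (sq t ▸ h1) (sq t ▸ h3)) fun x hx t h1 h3 => (sc_mem_IsoB hS).2 ?_
    have e := trace_inv hS hx
    rw [Units.inv_eq_of_mul_eq_one_right (a := ((t * t : F)⁻¹ • x.val)) (by simp [← sq, h1, smul_smul]),
      Matrix.trace_smul, h3, map_mul, map_ofNat] at e
    refine mul_left_cancel₀ h2 ?_
    rw [mul_left_comm, ← e]
    simp
    field_simp
  · obtain ⟨w, hw⟩ := root (by omega)
    have h3 : (3 : F) ≠ 0 := by exact_mod_cast hc 3 Nat.prime_three (by omega)
    refine h.elu_three hG h3 hz hi hz' (fun x hx y hy h1 h4 => cp 3 _ 1 hw three_pos one_ne_zero x hx y hy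
      (by simp [← Units.val_pow_eq_pow_val, h1]) (by simp [← Units.val_pow_eq_pow_val, h4])) fun x hx ω hω e1 e2 => ?_
    have e3 : ω ^ 3 = 1 := by linear_combination (ω - 1) * hω
    have e4 : ω ^ p = ω := by rw [show p = 3 * (p / 3) + 1 by omega, pow_add, pow_mul, e3, one_pow, one_mul, pow_one]
    rw [trace_inv hS hx, e1, map_add, map_mul, map_ofNat, map_one] at e2
    change 1 + 3 * ω ^ p = _ at e2
    have e5 : ω * ω = ω := mul_left_cancel₀ h3 (by linear_combination 3 * e4 - e2)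
    exact h3 (by linear_combination (2 * ω + 1) * e5 + (3 - 2 * ω) * hω)
  · obtain ⟨e1, e2, e3⟩ := h5 _ ((orderOf_eq_iff (by omega)).1 e)
    have := Fact.mk (show 2 < 5 by omega)
    refine h.elu_five hG (by exact_mod_cast hc 5 Nat.prime_five (by omega)) fun x hx h1 h4 =>
      fpf_of_dvd (p := p) (by omega) h.card h1 h4 fun h6 => ?_
    have iso : (uS hF 4).IsIso (uS hF 4) (Matrix.toLinAlgEquiv' x.val) := (isIso_uS_iff hF 4 _).2 hx.1
    simpa [e1, ringChar.eq (ZMod 5) 5] using (H9.FSS.nsd_struct hF (r := 5) (p := p) (by omega) (e := 1) (fun a => by simp) (fun j hj => by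
      rw [← ZMod.natCast_eq_zero_iff] at hj
      push_cast at hj
      rcases neg_one_pow_eq_or (ZMod 5) j with e | e <;> rw [e1, e, pow_one] at hj
      exacts [e3 (by linear_combination hj), e2 (by linear_combination hj)]) hS iso h6
      (H9.FSS.nondegOn_Dx (p := p) (by omega) hS iso h6) (H9.FSS.inv_Dx 5) le_rfl).1

end Cfsg.Agent.S6001
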