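import Cfsg.Statements.S6002
import Cfsg.Agent.H2.ElE
import Cfsg.Agent.Asch.Bilin
import Cfsg.Agent.H7.Sp2
import Cfsg.Agent.H9.Cj

set_option autoImplicit false
open scoped MatrixGroups
open Cfsg

namespace Cfsg.Agent.S6002

open Cfsg.Agent.H2.El Cfsg.Agent.Asch Cfsg.Agent.Form Cfsg.Agent.H4.E Cfsg.Agent.H9.FSS Cfsg.Agent.H9.FInvol
open Polynomial Module
open scoped Matrix commutatorElement

section
variable {ι : Type} [Fintype ι] [DecidableEq ι] {F : Type*} [Field F] [Finite F] {S : PQ (FP.symp F) (ι → F)}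

theorem five (hι : Fintype.card ι = 4) (hS : S.Nondeg) (h2 : (2 : F) ≠ 0) {R : Subgroup (GL ι F)}
    (hRs : Geo.IsSymplecticTypeGroup 2 R) (hRi : Geo.ActsAbsolutelyIrreducibly (Geo.matrixSet R)) (hRf : R ≤ IsoB S)
    (hR5 : Nat.card R = 2 ^ 5) (hRm : Geo.IsOfMinusType 2 R) : ∃ w : Fin 5 → GL ι F, (∀ k, w k ∈ R) ∧
      (∀ k, (w k).val * (w k).val = 1) ∧ (∀ i j, i ≠ j → (w i).val * (w j).val = -((w j).val * (w i).val)) ∧
      ∀ a ∈ R, a * a = 1 → a ∈ Geo.scalars ι F ∨ ∃ k, ∃ c : F, a.val = c • (w k).val := by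
  have iso : ∀ r, H4.E.Iso (sB S) (rep R r) := fun r x y => by simpa [rep_val] using hRf r.2 x y
  obtain ⟨W, _, _, _, D, π, h, hW, hη, -⟩ := geo_real hRs hRi h2 (by omega) (B := sB S) hS iso
  rw [hι] at hW
  have hq := qadd_of (B := sB S) hS hη
  have sq : ∀ r : R, rep R r * rep R r = sg F (D.q (π r).toAdd) • 1 := fun r => by
    obtain ⟨c, -, e⟩ := h.hπ r
    have := sq_one_of D (B := sB S) hS (g := 1) one_ne_zero (by simp) (iso r) (hη _) (by simpa using e)
    simp [e, D.sq, smul_smul, this, ← mul_assoc]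
  rcases H8.C6.hyp_or_five D.toSp hW hq with ⟨x, y, qx, x0, qy, y0, xy, e, hz⟩ | ⟨w, hw⟩
  · let A := (D.pp x y).toAddSubgroup
    have hA : ∀ u ∈ A, D.q u = 0 := fun u hu => by
      rcases hz u ((D.symm ..).trans hu.1) ((D.symm ..).trans hu.2) with rfl | rfl | rfl | rfl <;>
        simp [D.q0, qx, qy, hq, e]
    have := hRm (A.toSubgroup.comap π) ⟨⟨fun a b => Subtype.ext (rep_inj ?_)⟩⟩ fun r hr => rep_inj ?_
    · have e1 := (A.toSubgroup.comap π).card_mul_index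
      have e2 := A.toSubgroup.card_mul_index
      rw [Subgroup.index_comap_of_surjective _ h.surj, hR5] at e1
      rw [show Nat.card (Multiplicative W) = 16 from hW, show Nat.card A.toSubgroup = Nat.card A from rfl] at e2
      have e3 := Nat.card_le_card_of_injective (β := A) ![0, ⟨x, D.alt x, e⟩, ⟨y, (D.symm ..).trans e, D.alt y⟩]
        fun i j h => by
          fin_cases i <;> fin_cases j <;> simp [Subtype.ext_iff, x0, y0, xy, x0.symm, y0.symm, xy.symm] at h ⊢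
      have e4 := Nat.eq_of_mul_eq_mul_right (m := A.toSubgroup.index) (Nat.pos_of_ne_zero (by rintro e; simp [e] at e2))
        (show Nat.card (A.toSubgroup.comap π) * _ = 2 * Nat.card A * _ by rw [e1, mul_assoc, e2]; rfl)
      rw [show Nat.card A = 3 by simp at e3; omega] at e2
      omega
    · obtain ⟨c, -, e⟩ := h.hπ a
      obtain ⟨d, -, e'⟩ := h.hπ b
      have := hq (π a).toAdd (π b).toAdd
      rw [hA _ (A.add_mem a.2 b.2), hA _ a.2, hA _ b.2, zero_add, zero_add] at this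
      simp [e, e', D.comm0 this.symm, smul_comm c]
    · simp [sq, hA _ hr]
  choose r hr using h.hη
  simp only [rep_val] at hr sq
  refine ⟨fun k => r (w k), fun k => (r _).2, fun k => Matrix.toLinAlgEquiv'.injective (by
    rw [map_mul, ← hr, D.sq0 (hw.Q k), map_one]), fun i j e => Matrix.toLinAlgEquiv'.injective (by
    rw [map_neg, map_mul, map_mul, ← hr, ← hr, D.comm1 (hw.f i j e)]), fun a ha e => ?_⟩
  obtain ⟨c, -, hc⟩ := h.hπ ⟨a, ha⟩
  have := sq ⟨a, ha⟩
  rw [← map_mul, ← Units.val_mul, e, Units.val_one, map_one] at this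
  rcases hw.zero hq _ (sg_inj h2 (D.smul_inj (this.symm.trans (by simp)))) with e | ⟨k, e⟩ <;> rw [e, rep_val] at hc
  · exact .inl ((mem_scalars_iff _).2 ⟨c, Matrix.toLinAlgEquiv'.injective (by simp [hc, D.η0])⟩)
  · exact .inr ⟨k, c, Matrix.toLinAlgEquiv'.injective (by simp [hc, hr])⟩

theorem conj_invol (hι : Fintype.card ι = 4) (hS : S.Nondeg) {p : ℕ} [Fact p.Prime] [CharP F p] (hp : 2 ≠ p) {x y : GL ι F}
    (hx : x ∈ IsoB S) (hy : y ∈ IsoB S) (h1 : x.val ^ 2 = (1 : F) • 1) (h2 : y.val ^ 2 = (1 : F) • 1)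
    (h3 : x ∉ Geo.scalars ι F) (h4 : y ∉ Geo.scalars ι F) : ∃ g ∈ IsoB S, g⁻¹ * x * g = y := by
  have key : ∀ x ∈ IsoB S, x.val ^ 2 = (1 : F) • 1 → x ∉ Geo.scalars ι F → (Matrix.toLinAlgEquiv' x.val) ^ 2 = 1 ∧
      S.IsIso S (Matrix.toLinAlgEquiv' x.val) ∧ finrank F (Dx 2 (Matrix.toLinAlgEquiv' x.val)) = 2 := fun x hx h1 h3 => by
    have e : (Matrix.toLinAlgEquiv' x.val) ^ 2 = 1 := by rw [← map_pow, h1]; simp
    have n : ∀ c : F, Matrix.toLinAlgEquiv' x.val ≠ c • 1 := fun c e =>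
      h3 ((mem_scalars_iff _).2 ⟨c, Matrix.toLinAlgEquiv'.injective (by simp [e])⟩)
    have iso : S.IsIso S (Matrix.toLinAlgEquiv' x.val) := ⟨hx, fun _ => trivial⟩
    have a1 := H9.FClass.even_finrank_symp (nondegOn_Dx hp hS iso e)
    have a2 := Submodule.finrank_eq_zero.not.2 (Dx_ne_bot hp e (by simpa using n 1))
    have a3 := Submodule.finrank_eq_zero.not.2 (Cx_ne_bot_of_invol hp e (n _))
    have a4 := finrank_cd_top hp e
    rw [finrank_fintype_fun_eq_card] at a4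
    exact ⟨e, iso, by omega⟩
  obtain ⟨a1, a2, a3⟩ := key x hx h1 h3
  obtain ⟨b1, b2, b3⟩ := key y hy h2 h4
  obtain ⟨g, hg, e⟩ := H7.exists_map_eq_symp hS (nondegOn_Dx hp hS b2 b1) (nondegOn_Dx hp hS a2 a1) (b3.trans a3.symm)
  obtain ⟨g, rfl⟩ := glEquiv.surjective g
  refine ⟨g, hg.1, ?_⟩
  rw [mul_assoc, inv_mul_eq_iff_eq_mul]
  refine Units.ext (mat_ext fun v => ?_)
  obtain ⟨s, hs, t, ht, rfl⟩ := Submodule.mem_sup.1 ((cd_sup_top hp b1).ge (Submodule.mem_top : v ∈ _))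
  have c1 : g.val *ᵥ t ∈ Dx 2 (Matrix.toLinAlgEquiv' x.val) := e ▸ Submodule.mem_map_of_mem ht
  have c2 : g.val *ᵥ s ∈ Cx (Matrix.toLinAlgEquiv' x.val) := by
    rw [← perp_Dx hp hS a2 a1, ← e]
    rintro _ ⟨u, hu, rfl⟩
    rw [← perp_Dx hp hS b2 b1] at hs
    exact (hg.1 _ _).trans (hs u hu)
  simp only [mem_Dx_two, mem_Cx, Matrix.toLinAlgEquiv'_apply] at c1 c2 hs ht
  simp only [Units.val_mul, ← Matrix.mulVec_mulVec, Matrix.mulVec_add, c1, c2, hs, ht, Matrix.mulVec_neg]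

end

/-- Elements of prime order of PSp_4(p), p odd, and the normalizer of an extraspecial 2-group of order 2⁵ of minus type. Here `T = PSp_4(F)` for the field `F` with `p` elements, `p` an odd prime, realised through the matrices preserving the standard alternating form `f`; `R` is an absolutely irreducible subgroup of `T` (it preserves `f`) that is a 2-group of symplectic type of exponent 4, order 2⁵ and centre of order 2, of minus type (no elementary abelian subgroup of order 2³), and `H` is the subgroup of `T` normalizing `R` — a subgroup of type 2^{1+4}.O₄⁻(2) (maximality is not assumed). Ω is the set of cosets of `H` in `T`, so an element of `T` of prime order `r` (`x ∈ T` with `x^r` scalar, `x` not scalar) fixes a point of Ω exactly when some `T`-conjugate of `x` normalizes `R`. Let `r` be a prime dividing the index of `H`. Then every element of `T` of order `r` fixes a point of Ω if and only if `r = 2`, or `r = 5`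 and `p` has multiplicative order 4 modulo 5. -/
theorem result {F : Type*} [Field F] [Fintype F] {p : ℕ} [Fact p.Prime] [CharP F p] (hF : Fintype.card F = p) (hodd : Odd p)
    (R : Subgroup (GL (Fin 2 ⊕ Fin 2) F)) (hRs : Cfsg.Geo.IsSymplecticTypeGroup 2 R) (hRi : Cfsg.Geo.ActsAbsolutelyIrreducibly (Cfsg.Geo.matrixSet R))
    (hRf : R ≤ Cfsg.spGL 2 F) (hR5 : Nat.card R = 2 ^ 5) (hRZ : Nat.card (Subgroup.center R) = 2) (hRm : Cfsg.Geo.IsOfMinusType 2 R)
    (r : ℕ) [Fact r.Prime]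
    (hΩ : r ∣ (Cfsg.Geo.subgroupNormalizer R).relIndex (Cfsg.spGL 2 F)) :
    (∀ x ∈ Cfsg.spGL 2 F, (∃ z : F, ((x ^ r : GL (Fin 2 ⊕ Fin 2) F) : Matrix (Fin 2 ⊕ Fin 2) (Fin 2 ⊕ Fin 2) F) = z • (1 : Matrix (Fin 2 ⊕ Fin 2) (Fin 2 ⊕ Fin 2) F)) →
      (∀ z : F, (x : Matrix (Fin 2 ⊕ Fin 2) (Fin 2 ⊕ Fin 2) F) ≠ z • (1 : Matrix (Fin 2 ⊕ Fin 2) (Fin 2 ⊕ Fin 2) F)) →
      ∃ g ∈ Cfsg.spGL 2 F, g⁻¹ * x * g ∈ Cfsg.Geo.subgroupNormalizer R) ↔ (r = 2 ∨ (r = 5 ∧ orderOf (p : ZMod 5) = 4)) := by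
  have hp : p.Prime := Fact.out
  have hr : r.Prime := Fact.out
  have p2 : 2 ≠ p := by rintro rfl; exact absurd hodd (by decide)
  have hc : ∀ q : ℕ, q.Prime → q ≠ p → (q : F) ≠ 0 := fun q hq h e =>
    h ((Nat.prime_dvd_prime_iff_eq hp hq).1 ((CharP.cast_eq_zero_iff F p q).1 e)).symm
  have h2 : (2 : F) ≠ 0 := by exact_mod_cast hc 2 Nat.prime_two p2
  have hS := H7.spS_nondeg (F := F) 2
  have hι : Fintype.card (Fin 2 ⊕ Fin 2) = 4 := by simp
  obtain ⟨w, w1, w2, w3, w4⟩ := five hι hS h2 hRs hRi hRf hR5 hRm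
  have nw : ∀ k, w k ∉ Geo.scalars _ F := fun k => nsc_anti h2 (w3 (k + 1) k (by simp))
  have hf := full_iff_absIrr.2 hRi
  have s1 : ∀ i, i ≠ 4 → (w i * w 4).val * (w i * w 4).val = -1 := fun i hi => by
    simp [mul_assoc, ra (w3 4 i hi.symm), r1 (w2 i), w2]
  have s2 : ∀ i j, i ≠ 4 → j ≠ 4 → i ≠ j → (w i * w 4).val * (w j * w 4).val = -((w j * w 4).val * (w i * w 4).val) :=
    fun i j hi hj h => by simp [mul_assoc, ra (w3 4 i hi.symm), ra (w3 4 j hj.symm), w2, w3 i j h]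
  have m : ∀ i, w i * w 4 ∈ R := fun i => R.mul_mem (w1 i) (w1 4)
  have h : CL R (w 0 * w 4) (w 1 * w 4) (w 2 * w 4) (w 3 * w 4) := by
    refine ⟨hι, h2, ncore_of_symp hRs hf fun e => nw 0 (e (w1 0)), hf, m _, m _, m _, m _, s1 _ ?_, s1 _ ?_, s1 _ ?_,
      s1 _ ?_, s2 _ _ ?_ ?_ ?_, s2 _ _ ?_ ?_ ?_, s2 _ _ ?_ ?_ ?_, s2 _ _ ?_ ?_ ?_, s2 _ _ ?_ ?_ ?_, s2 _ _ ?_ ?_ ?_⟩ <;>
      decide
  have hG : GOK (spGL 2 F) R := .inr ⟨_, _, hS, rfl, hRf⟩
  have sl : spGL 2 F ≤ Geo.specialLinear _ F := fun g hg => (H9.Cj.mem_sl_iff g).2 ((H7.mem_spGL_iff' 2 g).1 hg).2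
  have tv : ∀ κ : F, TV (spGL 2 F) κ := fun κ =>
    tv_form hS (PQ.symp_sing _ (Pi.single (.inl 0) 1)) (by simp) one_ne_zero (by simp) rfl
  rw [elu_iff]
  refine ⟨fun he => ?_, ?_⟩
  · by_contra h'
    push Not at h'
    by_cases r3 : r = 3
    · subst r3
      by_cases h3 : ((3 : ℕ) : F) = 0
      · exact not_elu_char hι h.nc hf sl hr (by omega) h3 (tv 0) he
      obtain ⟨y, y1, y2, k, k1, k2, k3, k4, k5, -⟩ := nec_tv hι h.nc hf sl hr (by omega) (κ := -3)
        (by simpa using h3) (tv _) ⟨1, by norm_num; ring⟩ he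
      have : k = 1 ∨ k = 4 := by
        unfold Nat.ModEq at k3
        interval_cases k <;> omega
      rcases this with rfl | rfl
      swap
      · exact h3 (by push_cast at k4 ⊢; linear_combination k4)
      choose π c hπ using fun k => (w4 _ ((y1 _).1 (w1 k)) (by
        rw [conj_mul, show w k * w k = 1 from Units.ext (w2 k)]; simp)).resolve_left fun e =>
          nw k (conj_sc.1 (by rwa [inv_inv] : y⁻¹⁻¹ * w k * y⁻¹ ∈ _))
      replace hπ : ∀ k, y.val * (w k).val = c k • ((w (π k)).val * y.val) := fun k => by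
        rw [← smul_mul_assoc, ← hπ]; simp
      obtain ⟨k, hk⟩ := (by decide +kernel : ∀ π : Fin 5 → Fin 5, (∀ k, π (π (π k)) = k) → ∃ k, π k = k) π fun k => by
        by_contra e
        have : (y ^ 3).val * (w k).val = (c (π (π k)) * c (π k) * c k) • ((w (π (π (π k)))).val * (y ^ 3).val) := by
          simp only [pow_three, Units.val_mul, mul_assoc, hπ, mul_smul_comm, fun k X => (mul_assoc y.val (w k).val X).symm,
            smul_mul_assoc, smul_smul]
          congr 1; ring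
        simp only [y2, Units.val_one, one_mul, mul_one] at this
        have e1 := w3 _ _ e
        rw [this, mul_smul_comm, smul_mul_assoc, eq_neg_iff_add_eq_zero, ← two_smul F, smul_eq_zero, ← mul_smul_comm,
          ← this] at e1
        exact e1.elim h2 (w _ * w k).ne_zero
      exact nw k (k5 rfl _ (w1 k) ((mem_scalars_iff _).2 ⟨c k, by
        simp [commutatorElement_def, hπ, hk, -Matrix.coe_units_inv]⟩))
    by_cases r5 : r = 5
    · subst r5
      obtain ⟨τ, hτ, -⟩ := exists_tau F p2.symm (h'.2 rfl)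
      exact not_elu_five hι h.nc hf sl hτ (tv _) he
    exact not_elu_seven hι h.nc hf sl hr h'.1 r3 r5 hΩ he
  rintro (rfl | ⟨rfl, e⟩)
  · intro x hx h1 n
    obtain ⟨s, h1⟩ := mem_scalars_iff'.1 h1
    have e := (sc_mem_IsoB hS).1 (h1 ▸ Subgroup.pow_mem _ hx 2)
    replace h1 : x.val ^ 2 = (s : F) • 1 := by simpa using congrArg Units.val h1
    rcases mul_self_eq_one_iff.1 e with e | e <;> rw [e] at h1
    · have m := R.mul_mem h.ma (R.mul_mem h.mb h.mc)
      obtain ⟨g, hg, e⟩ := conj_invol hι hS p2 hx (hRf m) h1 h.sq_one.1 n h.sq_one.2.2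
      exact ⟨g, hg, e ▸ Subgroup.le_normalizer m⟩
    obtain ⟨k, hk⟩ := conj_gl (x := x) (y := w 0 * w 4) (P := X ^ 2 - C (-1)) (separable_X_pow_sub_C _ (by exact_mod_cast h2)
      (by simp)).squarefree (by simp [h1]) (by simpa [add_eq_zero_iff_eq_neg] using h.sq_neg.1) (by
        rcases sq_data hι h2 h1 (by simp) (fun e => n ((mem_scalars_iff _).2 e)) with e | ⟨t, -, -, e, -⟩
        · exact e.2.2.trans h.sq_neg.2.symm
        · exact (h2 (by rw [det_of_sl (sl hx)] at e; linear_combination e)).elim)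
    obtain ⟨g, hg, e⟩ := wall hS hp p2.symm hx (hk ▸ hRf h.ma) (θ := x.val) (d := -1) (by simp) (sq x.val ▸ h1)
      ((adj_iso hS hx).trans (Units.inv_eq_of_mul_eq_one_right (by simp [← sq, h1]))) fun _ h => h
    exact ⟨g, hg, e ▸ hk ▸ Subgroup.le_normalizer h.ma⟩
  · have h5 : 5 ≠ p := by rintro rfl; simp [show (5 : ZMod 5) = 0 from rfl] at e
    rw [← inf_eq_left.2 sl]
    exact h.elu_five hG (by exact_mod_cast hc 5 Nat.prime_five h5) fun x _ h1 h4 =>
      fpf_of_dvd h5 h.card h1 h4 fun _ => e.symm.dvd.trans (dvd_finrank_of_le_Dx hF h5 (inv_Dx 5) le_rfl)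

end Cfsg.Agent.S6002
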